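import Mathlib
import Cfsg.Prelude.Def_LieExceptional

set_option autoImplicit false

namespace Cfsg.Agent.Lib.Helper1

/-- A (B,N)-pair without the requirement that `B` and `N` generate the group. -/
structure PreBN (G : Type*) [Group G] where
  B : Subgroup G
  N : Subgroup G
  S : Set G
  conj_mem : ∀ n ∈ N, ∀ t ∈ B ⊓ N, n * t * n⁻¹ ∈ B
  subset : S ⊆ (N : Set G)
  sq_mem : ∀ s ∈ S, s * s ∈ B
  inj : ∀ s ∈ S, ∀ s' ∈ S, s⁻¹ * s' ∈ B → s = s'
  closure_sup : Subgroup.closure S ⊔ (B ⊓ N) = N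
  mul_mem_union : ∀ s ∈ S, ∀ n ∈ N, ∀ b ∈ B,
    s * b * n ∈ DoubleCoset.doubleCoset (s * n) (B : Set G) B ∪ DoubleCoset.doubleCoset n (B : Set G) B
  conj_ne : ∀ s ∈ S, (fun b : G => s * b * s) '' (B : Set G) ≠ (B : Set G)

namespace PreBN

variable {G : Type*} [Group G] (P : PreBN G)

/-- `y ∈ B x B`. -/
def DC (x y : G) : Prop := ∃ b ∈ P.B, ∃ c ∈ P.B, y = b * x * c

theorem mem_doubleCoset_iff (x y : G) :
    y ∈ DoubleCoset.doubleCoset x (P.B : Set G) P.B ↔ P.DC x y := by
  rw [DoubleCoset.mem_doubleCoset]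
  rfl

variable {P}

theorem DC.refl (x : G) : P.DC x x := ⟨1, P.B.one_mem, 1, P.B.one_mem, by simp⟩

theorem DC.symm {x y : G} (h : P.DC x y) : P.DC y x := by
  obtain ⟨b, hb, c, hc, rfl⟩ := h
  exact ⟨b⁻¹, P.B.inv_mem hb, c⁻¹, P.B.inv_mem hc, by group⟩

theorem DC.trans {x y z : G} (h : P.DC x y) (h' : P.DC y z) : P.DC x z := by
  obtain ⟨b, hb, c, hc, rfl⟩ := h
  obtain ⟨b', hb', c', hc', rfl⟩ := h'
  exact ⟨b' * b, P.B.mul_mem hb' hb, c * c', P.B.mul_mem hc hc', by group⟩

theorem DC.inv {x y : G} (h : P.DC x y) : P.DC x⁻¹ y⁻¹ := by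
  obtain ⟨b, hb, c, hc, rfl⟩ := h
  exact ⟨c⁻¹, P.B.inv_mem hc, b⁻¹, P.B.inv_mem hb, by group⟩

theorem DC.mul_left {x y b : G} (h : P.DC x y) (hb : b ∈ P.B) : P.DC x (b * y) := by
  obtain ⟨b', hb', c, hc, rfl⟩ := h
  exact ⟨b * b', P.B.mul_mem hb hb', c, hc, by group⟩

theorem DC.mul_right {x y b : G} (h : P.DC x y) (hb : b ∈ P.B) : P.DC x (y * b) := by
  obtain ⟨b', hb', c, hc, rfl⟩ := h
  exact ⟨b', hb', c * b, P.B.mul_mem hc hb, by group⟩

theorem DC.of_mul_left {x y b : G} (h : P.DC x (b * y)) (hb : b ∈ P.B) : P.DC x y := by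
  have := h.mul_left (P.B.inv_mem hb)
  simpa using this

theorem DC.of_mul_right {x y b : G} (h : P.DC x (y * b)) (hb : b ∈ P.B) : P.DC x y := by
  have := h.mul_right (P.B.inv_mem hb)
  simpa using this

theorem DC.of_mem {x : G} (hx : x ∈ P.B) : P.DC 1 x := ⟨x, hx, 1, P.B.one_mem, by simp⟩

theorem DC.mem {x y : G} (h : P.DC x y) (hx : x ∈ P.B) : y ∈ P.B := by
  obtain ⟨b, hb, c, hc, rfl⟩ := h
  exact P.B.mul_mem (P.B.mul_mem hb hx) hc

variable (P)

/-- `n` and `n'` agree modulo `B`. -/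
def Eqv (n n' : G) : Prop := n⁻¹ * n' ∈ P.B

variable {P}

theorem Eqv.refl (n : G) : P.Eqv n n := by
  unfold Eqv
  simp [P.B.one_mem]

theorem Eqv.symm {n n' : G} (h : P.Eqv n n') : P.Eqv n' n := by
  unfold Eqv at *
  have := P.B.inv_mem h
  simpa using this

theorem Eqv.trans {n n' n'' : G} (h : P.Eqv n n') (h' : P.Eqv n' n'') : P.Eqv n n'' := by
  unfold Eqv at *
  have := P.B.mul_mem h h'
  simpa [mul_assoc] using this

theorem Eqv.mul_left {n n' : G} (h : P.Eqv n n') (m : G) : P.Eqv (m * n) (m * n') := by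
  unfold Eqv at *
  simpa [mul_assoc] using h

theorem Eqv.dc {n n' : G} (h : P.Eqv n n') : P.DC n n' :=
  ⟨1, P.B.one_mem, n⁻¹ * n', h, by group⟩

theorem Eqv.mul_B {n b : G} (hb : b ∈ P.B) : P.Eqv n (n * b) := by
  unfold Eqv
  simpa using hb

theorem T_conj {n t : G} (hn : n ∈ P.N) (ht : t ∈ P.B) (ht' : t ∈ P.N) :
    n * t * n⁻¹ ∈ P.B := P.conj_mem n hn t ⟨ht, ht'⟩

theorem T_conj' {n t : G} (hn : n ∈ P.N) (ht : t ∈ P.B) (ht' : t ∈ P.N) :
    n⁻¹ * t * n ∈ P.B := by
  have := P.conj_mem n⁻¹ (P.N.inv_mem hn) t ⟨ht, ht'⟩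
  simpa using this

theorem Eqv.mul_right {n n' m : G} (h : P.Eqv n n') (hn : n ∈ P.N) (hn' : n' ∈ P.N)
    (hm : m ∈ P.N) : P.Eqv (n * m) (n' * m) := by
  unfold Eqv at *
  have h1 : (n * m)⁻¹ * (n' * m) = m⁻¹ * (n⁻¹ * n') * m := by group
  rw [h1]
  exact T_conj' hm h (P.N.mul_mem (P.N.inv_mem hn) hn')

theorem Eqv.inv {n n' : G} (h : P.Eqv n n') (hn : n ∈ P.N) (hn' : n' ∈ P.N) :
    P.Eqv n⁻¹ n'⁻¹ := by
  have h2 := h.symm
  unfold Eqv at *
  have h1 : n⁻¹⁻¹ * n'⁻¹ = n * (n'⁻¹ * n) * n⁻¹ := by group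
  rw [h1]
  exact T_conj hn h2 (P.N.mul_mem (P.N.inv_mem hn') hn)

theorem S_mem_N {s : G} (hs : s ∈ P.S) : s ∈ P.N := P.subset hs

/-- `s * s * n ≡ n`. -/
theorem Eqv.ssn {s n : G} (hs : s ∈ P.S) (hn : n ∈ P.N) : P.Eqv (s * (s * n)) n := by
  unfold Eqv
  have h1 : (s * (s * n))⁻¹ * n = n⁻¹ * (s * s)⁻¹ * n := by group
  rw [h1]
  exact T_conj' hn (P.B.inv_mem (P.sq_mem s hs))
    (P.N.inv_mem (P.N.mul_mem (S_mem_N hs) (S_mem_N hs)))

/-- `n * s * s ≡ n`. -/
theorem Eqv.nss {s : G} (n : G) (hs : s ∈ P.S) : P.Eqv (n * s * s) n := by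
  unfold Eqv
  have h1 : (n * s * s)⁻¹ * n = (s * s)⁻¹ := by group
  rw [h1]
  exact P.B.inv_mem (P.sq_mem s hs)

theorem axL {s n b : G} (hs : s ∈ P.S) (hn : n ∈ P.N) (hb : b ∈ P.B) :
    P.DC (s * n) (s * b * n) ∨ P.DC n (s * b * n) := by
  have := P.mul_mem_union s hs n hn b hb
  rcases this with h | h
  · left; exact (P.mem_doubleCoset_iff _ _).1 h
  · right; exact (P.mem_doubleCoset_iff _ _).1 h

theorem axR {s n b : G} (hs : s ∈ P.S) (hn : n ∈ P.N) (hb : b ∈ P.B) :
    P.DC (n * s) (n * b * s) ∨ P.DC n (n * b * s) := by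
  have hu : s * s ∈ P.B := P.sq_mem s hs
  have e1 : n * b * s = (s * b⁻¹ * n⁻¹)⁻¹ * (s * s) := by group
  rcases axL hs (P.N.inv_mem hn) (P.B.inv_mem hb) with h | h
  · left
    have h2 := (h.inv).mul_right hu
    rw [← e1] at h2
    have h3 : P.DC (n * s) (s * n⁻¹)⁻¹ := by
      refine ⟨1, P.B.one_mem, (s * s)⁻¹, P.B.inv_mem hu, by group⟩
    exact h3.trans h2
  · right
    have h2 := (h.inv).mul_right hu
    rw [← e1] at h2
    simpa using h2

theorem exists_conj_not_mem {s : G} (hs : s ∈ P.S) : ∃ b ∈ P.B, s * b * s ∉ P.B := by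
  by_contra hcon
  push Not at hcon
  apply P.conj_ne s hs
  have hu : s * s ∈ P.B := P.sq_mem s hs
  apply Set.Subset.antisymm
  · rintro x ⟨b, hb, rfl⟩
    exact hcon b hb
  · intro b hb
    refine ⟨(s * s)⁻¹ * (s * b * s) * (s * s)⁻¹, ?_, by group⟩
    exact P.B.mul_mem (P.B.mul_mem (P.B.inv_mem hu) (hcon b hb)) (P.B.inv_mem hu)

theorem S_not_mem_B {s : G} (hs : s ∈ P.S) : s ∉ P.B := by
  intro h
  obtain ⟨b, hb, hb'⟩ := exists_conj_not_mem hs
  exact hb' (P.B.mul_mem (P.B.mul_mem h hb) h)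

theorem axS {s : G} (hs : s ∈ P.S) : ∃ b ∈ P.B, P.DC s (s * b * s) := by
  obtain ⟨b, hb, hb'⟩ := exists_conj_not_mem hs
  refine ⟨b, hb, ?_⟩
  rcases axL hs (S_mem_N hs) hb with h | h
  · exfalso
    apply hb'
    obtain ⟨b1, hb1, c1, hc1, e⟩ := h
    rw [e]
    exact P.B.mul_mem (P.B.mul_mem hb1 (P.sq_mem s hs)) hc1
  · exact h


variable (P)

/-- a word in the distinguished generators -/
def IsWord (L : List G) : Prop := ∀ s ∈ L, s ∈ P.S

variable {P}

theorem IsWord.prod_mem {L : List G} (h : P.IsWord L) : L.prod ∈ P.N :=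
  Subgroup.list_prod_mem _ (fun s hs => P.subset (h s hs))

theorem IsWord.cons {s : G} {L : List G} (hs : s ∈ P.S) (h : P.IsWord L) : P.IsWord (s :: L) := by
  intro x hx
  rcases List.mem_cons.1 hx with rfl | hx
  · exact hs
  · exact h x hx

theorem IsWord.append {L L' : List G} (h : P.IsWord L) (h' : P.IsWord L') :
    P.IsWord (L ++ L') := by
  intro x hx
  rcases List.mem_append.1 hx with hx | hx
  · exact h x hx
  · exact h' x hx

theorem IsWord.singleton {s : G} (hs : s ∈ P.S) : P.IsWord [s] := by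
  intro x hx
  rw [List.mem_singleton] at hx
  rw [hx]; exact hs

theorem IsWord.nil : P.IsWord [] := by
  intro x hx
  simp at hx

theorem IsWord.reverse {L : List G} (h : P.IsWord L) : P.IsWord L.reverse := by
  intro x hx
  exact h x (List.mem_reverse.1 hx)

theorem word_reverse : ∀ {L : List G}, P.IsWord L → P.Eqv L.reverse.prod L.prod⁻¹ := by
  intro L
  induction L with
  | nil => intro _; simp [Eqv.refl]
  | cons a L ih =>
    intro hL
    have ha : a ∈ P.S := hL a (by simp)
    have hL' : P.IsWord L := fun x hx => hL x (by simp [hx])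
    rw [List.reverse_cons, List.prod_append, List.prod_singleton, List.prod_cons, mul_inv_rev]
    have h1 : P.Eqv (L.reverse.prod * a) (L.prod⁻¹ * a) :=
      (ih hL').mul_right hL'.reverse.prod_mem (P.N.inv_mem hL'.prod_mem) (S_mem_N ha)
    have h2 : P.Eqv (L.prod⁻¹ * a) (L.prod⁻¹ * a⁻¹) := by
      unfold Eqv
      have : (L.prod⁻¹ * a)⁻¹ * (L.prod⁻¹ * a⁻¹) = (a * a)⁻¹ := by group
      rw [this]
      exact P.B.inv_mem (P.sq_mem a ha)
    exact h1.trans h2

theorem exists_word {n : G} (hn : n ∈ P.N) : ∃ L, P.IsWord L ∧ P.Eqv L.prod n := by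
  let X : Subgroup G :=
    { carrier := {n | n ∈ P.N ∧ ∃ L, P.IsWord L ∧ P.Eqv L.prod n}
      one_mem' := ⟨P.N.one_mem, [], IsWord.nil, by simp [Eqv.refl]⟩
      mul_mem' := by
        rintro a b ⟨ha, L, hL, hLa⟩ ⟨hb, L', hL', hLb⟩
        refine ⟨P.N.mul_mem ha hb, L ++ L', hL.append hL', ?_⟩
        rw [List.prod_append]
        exact (hLa.mul_right hL.prod_mem ha hL'.prod_mem).trans (hLb.mul_left a)
      inv_mem' := by
        rintro a ⟨ha, L, hL, hLa⟩
        refine ⟨P.N.inv_mem ha, L.reverse, hL.reverse, ?_⟩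
        exact (word_reverse hL).trans (hLa.inv hL.prod_mem ha) }
  have h1 : Subgroup.closure P.S ⊔ (P.B ⊓ P.N) ≤ X := by
    apply sup_le
    · rw [Subgroup.closure_le]
      intro s hs
      exact ⟨S_mem_N hs, [s], IsWord.singleton hs, by simp [Eqv.refl]⟩
    · intro t ht
      refine ⟨ht.2, [], IsWord.nil, ?_⟩
      unfold Eqv
      simpa using ht.1
  rw [P.closure_sup] at h1
  exact (h1 hn).2

variable (P)

/-- the length of an element of `N` with respect to the distinguished generators -/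
noncomputable def len (n : G) : ℕ :=
  sInf {k | ∃ L : List G, P.IsWord L ∧ L.length = k ∧ P.Eqv L.prod n}

variable {P}

theorem exists_reduced {n : G} (hn : n ∈ P.N) :
    ∃ L, P.IsWord L ∧ L.length = P.len n ∧ P.Eqv L.prod n := by
  have hne : {k | ∃ L : List G, P.IsWord L ∧ L.length = k ∧ P.Eqv L.prod n}.Nonempty := by
    obtain ⟨L, hL, hLn⟩ := exists_word hn
    exact ⟨L.length, L, hL, rfl, hLn⟩
  exact Nat.sInf_mem hne

theorem len_le {n : G} {L : List G} (hL : P.IsWord L) (h : P.Eqv L.prod n) :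
    P.len n ≤ L.length :=
  Nat.sInf_le ⟨L, hL, rfl, h⟩

theorem len_congr {n n' : G} (h : P.Eqv n n') : P.len n = P.len n' := by
  unfold len
  congr 1
  ext k
  constructor
  · rintro ⟨L, hL, hk, he⟩
    exact ⟨L, hL, hk, he.trans h⟩
  · rintro ⟨L, hL, hk, he⟩
    exact ⟨L, hL, hk, he.trans h.symm⟩

theorem len_mul_left_le {s n : G} (hs : s ∈ P.S) (hn : n ∈ P.N) :
    P.len (s * n) ≤ P.len n + 1 := by
  obtain ⟨L, hL, hLl, hLn⟩ := exists_reduced hn
  have h := len_le (IsWord.cons hs hL)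
    (show P.Eqv (s :: L).prod (s * n) by rw [List.prod_cons]; exact hLn.mul_left s)
  rw [List.length_cons, hLl] at h
  exact h

theorem len_le_mul_left {s n : G} (hs : s ∈ P.S) (hn : n ∈ P.N) :
    P.len n ≤ P.len (s * n) + 1 := by
  have h := len_mul_left_le hs (P.N.mul_mem (S_mem_N hs) hn)
  rw [len_congr (Eqv.ssn hs hn)] at h
  exact h

theorem len_mul_right_le {s n : G} (hs : s ∈ P.S) (hn : n ∈ P.N) :
    P.len (n * s) ≤ P.len n + 1 := by
  obtain ⟨L, hL, hLl, hLn⟩ := exists_reduced hn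
  have h := len_le (hL.append (IsWord.singleton hs))
    (show P.Eqv (L ++ [s]).prod (n * s) by
      rw [List.prod_append, List.prod_singleton]
      exact hLn.mul_right hL.prod_mem hn (S_mem_N hs))
  rw [List.length_append, List.length_singleton, hLl] at h
  exact h

theorem len_le_mul_right {s n : G} (hs : s ∈ P.S) (hn : n ∈ P.N) :
    P.len n ≤ P.len (n * s) + 1 := by
  have h := len_mul_right_le hs (P.N.mul_mem hn (S_mem_N hs))
  rw [len_congr (Eqv.nss n hs)] at h
  exact h

theorem len_eq_zero {n : G} (hn : n ∈ P.N) : P.len n = 0 ↔ n ∈ P.B := by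
  constructor
  · intro h
    obtain ⟨L, hL, hLl, hLn⟩ := exists_reduced hn
    rw [h, List.length_eq_zero_iff] at hLl
    subst hLl
    unfold Eqv at hLn
    simpa using hLn
  · intro h
    have h1 := len_le (n := n) IsWord.nil (by unfold Eqv; simpa using h)
    simpa using h1

theorem bruhat_aux : ∀ q : ℕ, ∀ n n' : G, n ∈ P.N → n' ∈ P.N → P.len n = q → q ≤ P.len n' →
    P.DC n n' → P.Eqv n n' := by
  intro q
  induction q with
  | zero =>
    intro n n' hn hn' hq _ hdc
    have hnB := (len_eq_zero hn).1 hq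
    exact P.B.mul_mem (P.B.inv_mem hnB) (hdc.mem hnB)
  | succ q ih =>
    intro n n' hn hn' hq hq' hdc
    obtain ⟨L, hL, hLl, hLn⟩ := exists_reduced hn
    rw [hq] at hLl
    match L, hL, hLl, hLn with
    | [], _, hLl, _ => simp at hLl
    | s :: L, hL, hLl, hLn =>
      have hs : s ∈ P.S := hL s (by simp)
      have hL' : P.IsWord L := fun x hx => hL x (by simp [hx])
      have hmN : L.prod ∈ P.N := hL'.prod_mem
      rw [List.prod_cons] at hLn
      have hlm : P.len L.prod = q := by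
        apply le_antisymm
        · have h1 := len_le hL' (Eqv.refl L.prod)
          rw [List.length_cons] at hLl
          omega
        · have h1 := len_mul_left_le hs hmN
          rw [len_congr hLn, hq] at h1
          omega
      have h1 : P.DC (s * L.prod) n' := hLn.dc.trans hdc
      obtain ⟨b, hb, c, hc, e⟩ := h1
      have e2 : L.prod = s * ((s * s)⁻¹ * b⁻¹) * n' * c⁻¹ := by rw [e]; group
      have hu := P.B.inv_mem (P.sq_mem s hs)
      rcases axL hs hn' (P.B.mul_mem hu (P.B.inv_mem hb)) with h | h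
      · have h2 : P.DC (s * n') L.prod := by
          rw [e2]; exact h.mul_right (P.B.inv_mem hc)
        have hsn' : s * n' ∈ P.N := P.N.mul_mem (S_mem_N hs) hn'
        have h3 := ih L.prod (s * n') hmN hsn' hlm
          (by have := len_le_mul_left hs hn'; omega) h2.symm
        exact hLn.symm.trans ((h3.mul_left s).trans (Eqv.ssn hs hn'))
      · have h2 : P.DC n' L.prod := by
          rw [e2]; exact h.mul_right (P.B.inv_mem hc)
        have h3 := ih L.prod n' hmN hn' hlm (by omega) h2.symm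
        have := len_congr h3
        omega

/-- Bruhat uniqueness. -/
theorem bruhat {n n' : G} (hn : n ∈ P.N) (hn' : n' ∈ P.N) (h : P.DC n n') : P.Eqv n n' := by
  rcases le_total (P.len n) (P.len n') with hle | hle
  · exact bruhat_aux (P.len n) n n' hn hn' rfl hle h
  · exact (bruhat_aux (P.len n') n' n hn' hn rfl hle h.symm).symm

theorem F2L_aux : ∀ q : ℕ, ∀ n s : G, n ∈ P.N → s ∈ P.S → P.len n = q → q ≤ P.len (s * n) →
    ∀ b ∈ P.B, P.DC (s * n) (s * b * n) := by
  intro q
  induction q with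
  | zero =>
    intro n s hn hs hq _ b hb
    have hnB := (len_eq_zero hn).1 hq
    exact ⟨1, P.B.one_mem, n⁻¹ * b * n,
      P.B.mul_mem (P.B.mul_mem (P.B.inv_mem hnB) hb) hnB, by group⟩
  | succ q ih =>
    intro n s hn hs hq hq' b hb
    obtain ⟨L, hL, hLl, hLn⟩ := exists_reduced hn
    rw [hq] at hLl
    rcases List.eq_nil_or_concat L with rfl | ⟨L', a, rfl⟩
    · simp at hLl
    · rw [List.concat_eq_append] at hL hLl hLn
      have ha : a ∈ P.S := hL a (by simp)
      have hL' : P.IsWord L' := fun x hx => hL x (by simp [hx])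
      rw [List.prod_append, List.prod_singleton] at hLn
      have hmN : L'.prod ∈ P.N := hL'.prod_mem
      have hlm : P.len L'.prod = q := by
        apply le_antisymm
        · have h1 := len_le hL' (Eqv.refl L'.prod)
          rw [List.length_append, List.length_singleton] at hLl
          omega
        · have h1 := len_mul_right_le ha hmN
          rw [len_congr hLn, hq] at h1
          omega
      have hsmN : s * L'.prod ∈ P.N := P.N.mul_mem (S_mem_N hs) hmN
      have hE : P.Eqv (s * L'.prod * a) (s * n) := by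
        have := hLn.mul_left s
        simpa [mul_assoc] using this
      have hle : q ≤ P.len (s * L'.prod) := by
        by_contra hcon
        push Not at hcon
        have h1 := len_mul_right_le ha hsmN
        rw [len_congr hE] at h1
        omega
      obtain ⟨b1, hb1, b2, hb2, e⟩ := ih L'.prod s hmN hs hlm hle b hb
      have htB : (L'.prod * a)⁻¹ * n ∈ P.B := hLn
      have e1 : s * b * n = b1 * (s * L'.prod * b2 * a) * ((L'.prod * a)⁻¹ * n) := by
        calc s * b * n = (s * b * L'.prod) * a * ((L'.prod * a)⁻¹ * n) := by group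
          _ = b1 * (s * L'.prod * b2 * a) * ((L'.prod * a)⁻¹ * n) := by rw [e]; group
      rcases axR ha hsmN hb2 with h | h
      · have h2 : P.DC (s * L'.prod * a) (s * b * n) := by
          rw [e1]; exact (h.mul_left hb1).mul_right htB
        exact hE.symm.dc.trans h2
      · have h2 : P.DC (s * L'.prod) (s * b * n) := by
          rw [e1]; exact (h.mul_left hb1).mul_right htB
        rcases axL hs hn hb with h3 | h3
        · exact h3
        · exfalso
          have h4 : P.DC (s * L'.prod) n := h2.trans h3.symm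
          have h5 := bruhat hsmN hn h4
          have h6 : P.Eqv (s * n) L'.prod := ((h5.mul_left s).symm).trans (Eqv.ssn hs hmN)
          have := len_congr h6
          omega

theorem F2L {n s : G} (hn : n ∈ P.N) (hs : s ∈ P.S) (h : P.len n ≤ P.len (s * n))
    {b : G} (hb : b ∈ P.B) : P.DC (s * n) (s * b * n) :=
  F2L_aux (P.len n) n s hn hs rfl h b hb

theorem F3L {n s : G} (hn : n ∈ P.N) (hs : s ∈ P.S) (h : P.len (s * n) < P.len n) :
    ∃ b ∈ P.B, P.DC n (s * b * n) := by
  have hsn : s * n ∈ P.N := P.N.mul_mem (S_mem_N hs) hn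
  have h1 : P.len (s * n) ≤ P.len (s * (s * n)) := by
    rw [len_congr (Eqv.ssn hs hn)]; omega
  obtain ⟨b0, hb0, b1, hb1, b2, hb2, e⟩ := axS hs
  have h2 := F2L hsn hs h1 hb0
  have h3 : P.DC n (s * b0 * (s * n)) := ((Eqv.ssn hs hn).symm.dc).trans h2
  refine ⟨b2, hb2, ?_⟩
  have e2 : s * b0 * (s * n) = b1 * (s * b2 * n) := by
    rw [← mul_assoc, e]; group
  rw [e2] at h3
  exact h3.of_mul_left hb1

variable (P)

/-- the subgroup generated by `B` and `n B n⁻¹` -/
def M (n : G) : Subgroup G := P.B ⊔ P.B.map (MulAut.conj n).toMonoidHom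

variable {P}

theorem conj_mem_M {n b : G} (hb : b ∈ P.B) : n * b * n⁻¹ ∈ P.M n := by
  apply Subgroup.mem_sup_right
  exact ⟨b, hb, by simp⟩

theorem B_le_M (n : G) : P.B ≤ P.M n := le_sup_left

theorem letters_mem_M : ∀ (L : List G) (n : G), n ∈ P.N → P.IsWord L → L.length = P.len n →
    P.Eqv L.prod n → ∀ a ∈ L, a ∈ P.M n := by
  intro L
  induction L with
  | nil => intro n _ _ _ _ a ha; simp at ha
  | cons s L ih =>
    intro n hn hL hLl hLn
    have hs : s ∈ P.S := hL s (by simp)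
    have hL' : P.IsWord L := fun x hx => hL x (by simp [hx])
    have hmN : L.prod ∈ P.N := hL'.prod_mem
    rw [List.prod_cons] at hLn
    rw [List.length_cons] at hLl
    have hlm : P.len L.prod + 1 = P.len n := by
      apply le_antisymm
      · have h1 := len_le hL' (Eqv.refl L.prod)
        omega
      · have h1 := len_mul_left_le hs hmN
        rw [len_congr hLn] at h1
        omega
    have hlt : P.len (s * n) < P.len n := by
      have h1 : P.Eqv (s * n) L.prod := ((hLn.mul_left s).symm).trans (Eqv.ssn hs hmN)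
      rw [len_congr h1]; omega
    obtain ⟨b, hb, b1, hb1, b2, hb2, e⟩ := F3L hn hs hlt
    have hsM : s ∈ P.M n := by
      have h1 : s = b1 * (n * b2 * n⁻¹) * b⁻¹ := by
        calc s = (s * b * n) * n⁻¹ * b⁻¹ := by group
          _ = b1 * (n * b2 * n⁻¹) * b⁻¹ := by rw [e]; group
      rw [h1]
      exact (P.M n).mul_mem ((P.M n).mul_mem (B_le_M n hb1) (conj_mem_M hb2))
        (B_le_M n (P.B.inv_mem hb))
    have hMle : P.M L.prod ≤ P.M n := by
      apply sup_le le_sup_left
      rintro x ⟨c, hc, rfl⟩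
      have ht : (s * L.prod)⁻¹ * n ∈ P.B := hLn
      have h1 : (MulAut.conj L.prod).toMonoidHom c =
          s⁻¹ * (n * (((s * L.prod)⁻¹ * n)⁻¹ * c * ((s * L.prod)⁻¹ * n)) * n⁻¹) * s := by
        simp only [MulEquiv.coe_toMonoidHom, MulAut.conj_apply]; group
      rw [h1]
      exact (P.M n).mul_mem ((P.M n).mul_mem ((P.M n).inv_mem hsM)
        (conj_mem_M (P.B.mul_mem (P.B.mul_mem (P.B.inv_mem ht) hc) ht))) hsM
    intro a ha
    rcases List.mem_cons.1 ha with rfl | ha
    · exact hsM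
    · exact hMle (ih L.prod hmN hL' (by omega) (Eqv.refl _) a ha)

theorem mem_M {n : G} (hn : n ∈ P.N) : n ∈ P.M n := by
  obtain ⟨L, hL, hLl, hLn⟩ := exists_reduced hn
  have h1 : L.prod ∈ P.M n := Subgroup.list_prod_mem _ (letters_mem_M L n hn hL hLl hLn)
  have h2 : n = L.prod * (L.prod⁻¹ * n) := by group
  have h3 := (P.M n).mul_mem h1 (B_le_M n hLn)
  rw [← h2] at h3
  exact h3

theorem M_eq {n : G} (hn : n ∈ P.N) : P.B ⊔ Subgroup.closure {n} = P.M n := by
  apply le_antisymm
  · apply sup_le le_sup_left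
    rw [Subgroup.closure_le]
    intro x hx
    rw [Set.mem_singleton_iff] at hx
    rw [hx]
    exact mem_M hn
  · apply sup_le le_sup_left
    rintro x ⟨c, hc, rfl⟩
    have hn' : n ∈ P.B ⊔ Subgroup.closure {n} :=
      Subgroup.mem_sup_right (Subgroup.subset_closure rfl)
    simp only [MulEquiv.coe_toMonoidHom, MulAut.conj_apply]
    exact mul_mem (mul_mem hn' (Subgroup.mem_sup_left hc)) (inv_mem hn')

theorem letters_mem {L : List G} {n : G} (hn : n ∈ P.N) (hL : P.IsWord L)
    (hLl : L.length = P.len n) (hLn : P.Eqv L.prod n) :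
    ∀ a ∈ L, a ∈ P.B ⊔ Subgroup.closure {n} := by
  rw [M_eq hn]
  exact letters_mem_M L n hn hL hLl hLn


variable (P)

/-- the standard parabolic subgroup attached to `J` -/
def par (J : Set G) : Subgroup G := P.B ⊔ Subgroup.closure J

variable {P}

theorem closure_le_N {J : Set G} (hJ : J ⊆ P.S) : Subgroup.closure J ≤ P.N := by
  rw [Subgroup.closure_le]
  exact fun x hx => P.subset (hJ hx)

theorem B_le_par (J : Set G) : P.B ≤ P.par J := le_sup_left

theorem closure_le_par (J : Set G) : Subgroup.closure J ≤ P.par J := le_sup_right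

theorem mem_par_of_mem {J : Set G} {s : G} (hs : s ∈ J) : s ∈ P.par J :=
  closure_le_par J (Subgroup.subset_closure hs)

theorem par_mono {J K : Set G} (h : J ⊆ K) : P.par J ≤ P.par K :=
  sup_le_sup_left (Subgroup.closure_mono h) _

theorem mem_par_iff {J : Set G} (hJ : J ⊆ P.S) (g : G) :
    g ∈ P.par J ↔ ∃ n ∈ Subgroup.closure J, P.DC n g := by
  constructor
  · intro hg
    let X : Set G := {x | ∃ n ∈ Subgroup.closure J, P.DC n x}
    have hB : ∀ b ∈ P.B, ∀ x ∈ X, b * x ∈ X := by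
      rintro b hb x ⟨n, hn, hx⟩
      exact ⟨n, hn, hx.mul_left hb⟩
    have hS : ∀ s ∈ J, ∀ x ∈ X, s * x ∈ X := by
      rintro s hs x ⟨n, hn, b, hb, c, hc, rfl⟩
      have e : s * (b * n * c) = (s * b * n) * c := by group
      rw [e]
      rcases axL (hJ hs) (closure_le_N hJ hn) hb with h | h
      · exact ⟨s * n, (Subgroup.closure J).mul_mem (Subgroup.subset_closure hs) hn,
          h.mul_right hc⟩
      · exact ⟨n, hn, h.mul_right hc⟩
    let H : Subgroup G :=
      { carrier := {h | ∀ x ∈ X, h * x ∈ X ∧ h⁻¹ * x ∈ X}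
        mul_mem' := by
          intro a b ha hb x hx
          refine ⟨?_, ?_⟩
          · rw [mul_assoc]
            exact (ha _ (hb x hx).1).1
          · rw [mul_inv_rev, mul_assoc]
            exact (hb _ (ha x hx).2).2
        one_mem' := by
          intro x hx
          simpa using hx
        inv_mem' := by
          intro a ha x hx
          refine ⟨(ha x hx).2, ?_⟩
          rw [inv_inv]
          exact (ha x hx).1 }
    have hBH : P.B ≤ H := fun b hb x hx => ⟨hB b hb x hx, hB b⁻¹ (P.B.inv_mem hb) x hx⟩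
    have hJH : J ⊆ (H : Set G) := by
      intro s hs x hx
      refine ⟨hS s hs x hx, ?_⟩
      have h1 : s⁻¹ * x = s * ((s * s)⁻¹ * x) := by group
      rw [h1]
      exact hS s hs _ (hB _ (P.B.inv_mem (P.sq_mem s (hJ hs))) x hx)
    have hle : P.par J ≤ H := sup_le hBH ((Subgroup.closure_le _).2 hJH)
    have h1 : (1 : G) ∈ X := ⟨1, one_mem _, DC.refl 1⟩
    have h2 := (hle hg 1 h1).1
    rw [mul_one] at h2
    exact h2
  · rintro ⟨n, hn, b, hb, c, hc, rfl⟩
    exact mul_mem (mul_mem (B_le_par J hb) (closure_le_par J hn)) (B_le_par J hc)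

theorem par_S : P.par P.S = P.B ⊔ P.N := by
  unfold par
  apply le_antisymm
  · exact sup_le le_sup_left ((closure_le_N subset_rfl).trans le_sup_right)
  · apply sup_le le_sup_left
    have h : Subgroup.closure P.S ⊔ (P.B ⊓ P.N) ≤ P.B ⊔ Subgroup.closure P.S :=
      sup_le le_sup_right (inf_le_left.trans le_sup_left)
    rw [P.closure_sup] at h
    exact h

theorem exists_dc_of_top (h : P.B ⊔ P.N = ⊤) (g : G) : ∃ n ∈ P.N, P.DC n g := by
  have hg : g ∈ P.par P.S := by rw [par_S, h]; trivial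
  obtain ⟨n, hn, hd⟩ := (mem_par_iff subset_rfl g).1 hg
  exact ⟨n, closure_le_N subset_rfl hn, hd⟩

theorem word_subset_mem_par {J : Set G} {L : List G} {n : G} (hL : ∀ a ∈ L, a ∈ J)
    (hLn : P.Eqv L.prod n) : n ∈ P.par J := by
  have h1 : L.prod ∈ Subgroup.closure J :=
    Subgroup.list_prod_mem _ (fun a ha => Subgroup.subset_closure (hL a ha))
  have h2 : n = L.prod * (L.prod⁻¹ * n) := by group
  rw [h2]
  exact mul_mem (closure_le_par J h1) (B_le_par J hLn)

/-- every subgroup containing `B` is parabolic -/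
theorem exists_par_eq (htop : P.B ⊔ P.N = ⊤) (M : Subgroup G) (hM : P.B ≤ M) :
    ∃ J ⊆ P.S, M = P.par J := by
  refine ⟨{s | s ∈ P.S ∧ s ∈ M}, fun s hs => hs.1, ?_⟩
  apply le_antisymm
  · intro g hg
    obtain ⟨n, hn, b, hb, c, hc, rfl⟩ := exists_dc_of_top htop g
    have hnM : n ∈ M := by
      have h1 : n = b⁻¹ * (b * n * c) * c⁻¹ := by group
      rw [h1]
      exact mul_mem (mul_mem (inv_mem (hM hb)) hg) (inv_mem (hM hc))
    obtain ⟨L, hL, hLl, hLn⟩ := exists_reduced hn
    have hle : P.B ⊔ Subgroup.closure {n} ≤ M :=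
      sup_le hM ((Subgroup.closure_le _).2 (by
        intro x hx
        rw [Set.mem_singleton_iff] at hx
        rw [hx]; exact hnM))
    have h1 : n ∈ P.par {s | s ∈ P.S ∧ s ∈ M} :=
      word_subset_mem_par (fun a ha => ⟨hL a ha, hle (letters_mem hn hL hLl hLn a ha)⟩) hLn
    exact mul_mem (mul_mem (B_le_par _ hb) h1) (B_le_par _ hc)
  · exact sup_le hM ((Subgroup.closure_le _).2 (fun s hs => hs.2))

/-- the (B,N)-pair structure on a standard parabolic subgroup -/
def restrict (P : PreBN G) (K : Set G) (hK : K ⊆ P.S) : PreBN G where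
  B := P.B
  N := Subgroup.closure K ⊔ (P.B ⊓ P.N)
  S := K
  conj_mem := by
    intro n hn t ht
    have hle : Subgroup.closure K ⊔ (P.B ⊓ P.N) ≤ P.N := sup_le (closure_le_N hK) inf_le_right
    exact P.conj_mem n (hle hn) t ⟨ht.1, hle ht.2⟩
  subset := fun s hs => Subgroup.mem_sup_left (Subgroup.subset_closure hs)
  sq_mem := fun s hs => P.sq_mem s (hK hs)
  inj := fun s hs s' hs' h => P.inj s (hK hs) s' (hK hs') h
  closure_sup := by
    apply le_antisymm
    · exact sup_le le_sup_left inf_le_right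
    · apply sup_le le_sup_left
      exact le_sup_of_le_right (le_inf inf_le_left le_sup_right)
  mul_mem_union := by
    intro s hs n hn b hb
    have hle : Subgroup.closure K ⊔ (P.B ⊓ P.N) ≤ P.N := sup_le (closure_le_N hK) inf_le_right
    exact P.mul_mem_union s (hK hs) n (hle hn) b hb
  conj_ne := fun s hs => P.conj_ne s (hK hs)

theorem closure_singleton_cases {s : G} (hs : s ∈ P.S) {k : G}
    (hk : k ∈ Subgroup.closure {s}) : k ∈ P.B ∨ P.Eqv s k := by
  rw [Subgroup.mem_closure_singleton] at hk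
  obtain ⟨i, rfl⟩ := hk
  rcases Int.even_or_odd' i with ⟨j, rfl | rfl⟩
  · left
    rw [zpow_mul, zpow_two]
    exact P.B.zpow_mem (P.sq_mem s hs) j
  · right
    unfold Eqv
    rw [add_comm, zpow_add, zpow_one, zpow_mul, zpow_two, inv_mul_cancel_left]
    exact P.B.zpow_mem (P.sq_mem s hs) j

theorem par_singleton_mem {s : G} (hs : s ∈ P.S) {g : G} (hg : g ∈ P.par {s}) :
    g ∈ P.B ∨ P.DC s g := by
  obtain ⟨k, hk, hd⟩ := (mem_par_iff (Set.singleton_subset_iff.2 hs) g).1 hg
  rcases closure_singleton_cases hs hk with h | h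
  · left
    exact hd.mem h
  · right
    exact h.dc.trans hd

/-- a distinguished generator lying in a standard parabolic subgroup is one of its generators -/
theorem S_inter_par {K : Set G} (hK : K ⊆ P.S) {s : G} (hs : s ∈ P.S) (hsK : s ∈ P.par K) :
    s ∈ K := by
  obtain ⟨n, hn, hd⟩ := (mem_par_iff hK s).1 hsK
  have hnN := closure_le_N hK hn
  have he : P.Eqv n s := bruhat hnN (S_mem_N hs) hd
  have hn' : n ∈ (P.restrict K hK).N := Subgroup.mem_sup_left hn
  obtain ⟨L, hL, hLl, hLn⟩ := exists_reduced (P := P.restrict K hK) hn'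
  match L, hL, hLl, hLn with
  | [], _, _, hLn =>
    exfalso
    have hnB : n ∈ P.B := by
      have h1 : (1 : G)⁻¹ * n ∈ P.B := by
        rw [List.prod_nil] at hLn
        exact hLn
      simpa using h1
    have h2 := P.B.mul_mem hnB he
    rw [mul_inv_cancel_left] at h2
    exact S_not_mem_B hs h2
  | a :: L, hL, hLl, hLn =>
    have haK : a ∈ K := hL a (by simp)
    have ha : a ∈ P.B ⊔ Subgroup.closure {n} :=
      letters_mem (P := P.restrict K hK) hn' hL hLl hLn a (by simp)
    have hle : P.B ⊔ Subgroup.closure {n} ≤ P.par {s} := by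
      apply sup_le le_sup_left
      rw [Subgroup.closure_le]
      intro x hx
      rw [Set.mem_singleton_iff] at hx
      subst hx
      have h1 : x = s * (s⁻¹ * x) := by group
      rw [h1]
      exact mul_mem (mem_par_of_mem rfl) (B_le_par _ he.symm)
    rcases par_singleton_mem hs (hle ha) with h | h
    · exact absurd h (S_not_mem_B (hK haK))
    · have h1 := bruhat (S_mem_N hs) (S_mem_N (hK haK)) h
      rw [P.inj s hs a (hK haK) h1]
      exact haK

theorem par_le_iff {J K : Set G} (hJ : J ⊆ P.S) (hK : K ⊆ P.S) :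
    P.par J ≤ P.par K ↔ J ⊆ K :=
  ⟨fun h s hs => S_inter_par hK (hJ hs) (h (mem_par_of_mem hs)), par_mono⟩

theorem par_inj {J K : Set G} (hJ : J ⊆ P.S) (hK : K ⊆ P.S) (h : P.par J = P.par K) :
    J = K :=
  Set.Subset.antisymm ((par_le_iff hJ hK).1 h.le) ((par_le_iff hK hJ).1 h.ge)

theorem par_inf {J K : Set G} (hJ : J ⊆ P.S) (hK : K ⊆ P.S) :
    P.par J ⊓ P.par K = P.par (J ∩ K) := by
  apply le_antisymm
  · rintro g ⟨hgJ, hgK⟩
    obtain ⟨n, hn, b, hb, c, hc, rfl⟩ := (mem_par_iff hJ g).1 hgJ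
    have hnN := closure_le_N hJ hn
    have hnJ : n ∈ P.par J := closure_le_par J hn
    have hnK : n ∈ P.par K := by
      have h1 : n = b⁻¹ * (b * n * c) * c⁻¹ := by group
      rw [h1]
      exact mul_mem (mul_mem (inv_mem (B_le_par K hb)) hgK) (inv_mem (B_le_par K hc))
    obtain ⟨L, hL, hLl, hLn⟩ := exists_reduced hnN
    have hle : P.B ⊔ Subgroup.closure {n} ≤ P.par J ⊓ P.par K :=
      sup_le (le_inf le_sup_left le_sup_left) ((Subgroup.closure_le _).2 (by
        intro x hx
        rw [Set.mem_singleton_iff] at hx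
        rw [hx]; exact ⟨hnJ, hnK⟩))
    have h1 : n ∈ P.par (J ∩ K) := word_subset_mem_par (fun a ha => by
      have h2 := hle (letters_mem hnN hL hLl hLn a ha)
      exact ⟨S_inter_par hJ (hL a ha) h2.1, S_inter_par hK (hL a ha) h2.2⟩) hLn
    exact mul_mem (mul_mem (B_le_par _ hb) h1) (B_le_par _ hc)
  · exact le_inf (par_mono Set.inter_subset_left) (par_mono Set.inter_subset_right)

/-- a subgroup containing `B` and `g B g⁻¹` contains `g` -/
theorem mem_of_conj_le (htop : P.B ⊔ P.N = ⊤) {g : G} (M : Subgroup G) (hBM : P.B ≤ M)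
    (h : ∀ b ∈ P.B, g * b * g⁻¹ ∈ M) : g ∈ M := by
  obtain ⟨n, hn, b, hb, c, hc, rfl⟩ := exists_dc_of_top htop g
  have hle : P.M n ≤ M := by
    apply sup_le hBM
    rintro x ⟨d, hd, rfl⟩
    have h1 : (MulAut.conj n).toMonoidHom d =
        b⁻¹ * ((b * n * c) * (c⁻¹ * d * c) * (b * n * c)⁻¹) * b := by
      simp only [MulEquiv.coe_toMonoidHom, MulAut.conj_apply]; group
    rw [h1]
    exact mul_mem (mul_mem (inv_mem (hBM hb))
      (h _ (P.B.mul_mem (P.B.mul_mem (P.B.inv_mem hc) hd) hc))) (hBM hb)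
  exact mul_mem (mul_mem (hBM hb) (hle (mem_M hn))) (hBM hc)

end PreBN

/-- a (B,N)-pair as a `PreBN` -/
def ofBN {G : Type*} [Group G] (P : Cfsg.BNPair G) : PreBN G where
  B := P.B
  N := P.N
  S := P.S
  conj_mem := P.conj_mem
  subset := P.subset
  sq_mem := P.sq_mem
  inj := P.inj
  closure_sup := P.closure_sup
  mul_mem_union := P.mul_mem_union
  conj_ne := P.conj_ne

theorem ofBN_par {G : Type*} [Group G] (P : Cfsg.BNPair G) (J : Set G) :
    (ofBN P).par J = P.parabolic J := rfl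

end Cfsg.Agent.Lib.Helper1
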