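import Mathlib
import Cfsg.Prelude.Def_SolvableStructure
import Cfsg.Agent.Lib.Helper1.SS

set_option autoImplicit false

namespace Cfsg.Agent.Lib.Helper1

universe u

theorem split_divisor (g a d : ℕ) (hg : g ≠ 0) (ha : a ≠ 0) (hd : d ∣ g * a)
    (hexp : ∀ p : ℕ, p.Prime → p ∣ g → a.factorization p + 1 = g.factorization p) :
    ∃ m n e : ℕ, g = m * n ∧ m.Coprime n ∧ d = m * e ∧ e ∣ a := by
  classical
  have hd0 : d ≠ 0 := ne_zero_of_dvd_ne_zero (mul_ne_zero hg ha) hd
  have hfprime : ∀ (Q : ℕ → Prop) [DecidablePred Q], ∀ p ∈ (g.factorization.filter Q).support,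
      p.Prime := by
    intro Q _ p hp
    rw [Finsupp.support_filter, Finset.mem_filter] at hp
    exact Nat.prime_of_mem_primeFactors (by simpa using hp.1)
  obtain ⟨f, hf⟩ : ∃ f : ℕ →₀ ℕ, f = g.factorization.filter
      (fun p => g.factorization p ≤ d.factorization p) := ⟨_, rfl⟩
  obtain ⟨f', hf'⟩ : ∃ f' : ℕ →₀ ℕ, f' = g.factorization.filter
      (fun p => ¬ g.factorization p ≤ d.factorization p) := ⟨_, rfl⟩
  have hfp : ∀ p ∈ f.support, p.Prime := by rw [hf]; exact hfprime _
  have hfp' : ∀ p ∈ f'.support, p.Prime := by rw [hf']; exact hfprime _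
  have hmf : (f.prod (· ^ ·)).factorization = f := Nat.prod_pow_factorization_eq_self hfp
  have hnf : (f'.prod (· ^ ·)).factorization = f' := Nat.prod_pow_factorization_eq_self hfp'
  have hm0 : f.prod (· ^ ·) ≠ 0 := by
    rw [Finsupp.prod_ne_zero_iff]
    intro p hp
    exact pow_ne_zero _ (hfp p hp).ne_zero
  have hn0 : f'.prod (· ^ ·) ≠ 0 := by
    rw [Finsupp.prod_ne_zero_iff]
    intro p hp
    exact pow_ne_zero _ (hfp' p hp).ne_zero
  have hfa : ∀ p, f p = if g.factorization p ≤ d.factorization p then g.factorization p else 0 := by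
    intro p
    rw [hf, Finsupp.filter_apply]
  have hfa' : ∀ p, f' p = if ¬ g.factorization p ≤ d.factorization p then g.factorization p
      else 0 := by
    intro p
    rw [hf', Finsupp.filter_apply]
  have hgmn : g = f.prod (· ^ ·) * f'.prod (· ^ ·) := by
    apply Nat.eq_of_factorization_eq hg (mul_ne_zero hm0 hn0)
    intro p
    rw [Nat.factorization_mul hm0 hn0, hmf, hnf, Finsupp.add_apply, hfa, hfa']
    by_cases hP : g.factorization p ≤ d.factorization p
    · rw [if_pos hP, if_neg (not_not.2 hP), add_zero]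
    · rw [if_neg hP, if_pos hP, zero_add]
  have hcop : (f.prod (· ^ ·)).Coprime (f'.prod (· ^ ·)) := by
    apply Nat.coprime_of_dvd
    intro p hp hpm hpn
    have h1 : 1 ≤ (f.prod (· ^ ·)).factorization p := (hp.dvd_iff_one_le_factorization hm0).1 hpm
    have h2 : 1 ≤ (f'.prod (· ^ ·)).factorization p :=
      (hp.dvd_iff_one_le_factorization hn0).1 hpn
    rw [hmf, hfa] at h1
    rw [hnf, hfa'] at h2
    by_cases hP : g.factorization p ≤ d.factorization p
    · rw [if_neg (not_not.2 hP)] at h2
      omega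
    · rw [if_neg hP] at h1
      omega
  have hmd : f.prod (· ^ ·) ∣ d := by
    rw [← Nat.factorization_le_iff_dvd hm0 hd0, hmf]
    intro p
    rw [hfa]
    by_cases hP : g.factorization p ≤ d.factorization p
    · rw [if_pos hP]; exact hP
    · rw [if_neg hP]; exact Nat.zero_le _
  refine ⟨f.prod (· ^ ·), f'.prod (· ^ ·), d / f.prod (· ^ ·), hgmn, hcop,
    (Nat.mul_div_cancel' hmd).symm, ?_⟩
  have he0 : d / f.prod (· ^ ·) ≠ 0 :=
    (Nat.div_pos (Nat.le_of_dvd (Nat.pos_of_ne_zero hd0) hmd) (Nat.pos_of_ne_zero hm0)).ne'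
  rw [← Nat.factorization_le_iff_dvd he0 ha, Nat.factorization_div hmd, hmf]
  intro p
  have hdga : d.factorization p ≤ g.factorization p + a.factorization p := by
    have h3 := (Nat.factorization_le_iff_dvd hd0 (mul_ne_zero hg ha)).2 hd p
    rwa [Nat.factorization_mul hg ha, Finsupp.add_apply] at h3
  rw [Finsupp.tsub_apply, hfa]
  by_cases hP : g.factorization p ≤ d.factorization p
  · rw [if_pos hP]
    omega
  · rw [if_neg hP]
    have hlt : d.factorization p < g.factorization p := not_le.1 hP
    have hpp : p.Prime := by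
      by_contra hnp
      rw [Nat.factorization_eq_zero_of_not_prime g hnp] at hlt
      omega
    have hpg : p ∣ g := (hpp.dvd_iff_one_le_factorization hg).2 (by omega)
    have h4 := hexp p hpp hpg
    omega

/-- finite abelian groups are supersolvable -/
theorem ss_of_comm : ∀ n : ℕ, ∀ (A : Type u) [CommGroup A] [Finite A], Nat.card A = n →
    Cfsg.IsSupersolvable A := by
  intro n
  induction n using Nat.strong_induction_on with
  | _ n ih =>
    intro A _ _ hn
    by_cases hnt : Nontrivial A
    · haveI := hnt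
      obtain ⟨g, hg⟩ := exists_ne (1 : A)
      haveI : (Subgroup.zpowers g).Normal := inferInstance
      apply ss_of_cyclic_normal (Subgroup.zpowers g)
      apply ih _ _ (A ⧸ Subgroup.zpowers g) rfl
      have h1 := card_quotient_mul (Subgroup.zpowers g)
      have h2 : 1 < Nat.card (Subgroup.zpowers g) := by
        rw [Nat.card_zpowers]
        have h3 : orderOf g ≠ 1 := fun h => hg (orderOf_eq_one_iff.1 h)
        have h4 : 0 < orderOf g := orderOf_pos g
        omega
      have h5 : 0 < Nat.card (A ⧸ Subgroup.zpowers g) := Nat.card_pos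
      rw [← hn, ← h1]
      nlinarith
    · rw [not_nontrivial_iff_subsingleton] at hnt
      haveI := hnt
      exact ss_of_subsingleton

end Cfsg.Agent.Lib.Helper1
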