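import Mathlib

/-!
Counting subsets by intersection size, and sizes of invariant sets made of classes (helper1).
-/

namespace Cfsg.Agent.Lib.Helper1

/-- The number of `k`-subsets meeting `T` in exactly `j` points. -/
theorem ncard_inter_card {α : Type*} [Fintype α] [DecidableEq α] (T : Finset α) (k j : ℕ)
    (hj : j ≤ k) :
    {U : Finset α | U.card = k ∧ (T ∩ U).card = j}.ncard
      = T.card.choose j * (Fintype.card α - T.card).choose (k - j) := by
  classical
  set P := (Finset.powersetCard j T) ×ˢ (Finset.powersetCard (k - j) Tᶜ) with hP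
  have hfact : ∀ A B : Finset α, A ⊆ T → B ⊆ Tᶜ → T ∩ (A ∪ B) = A ∧ (A ∪ B) \ T = B := by
    intro A B hAT hBT
    constructor
    · ext x
      simp only [Finset.mem_inter, Finset.mem_union]
      constructor
      · rintro ⟨hxT, hxA | hxB⟩
        · exact hxA
        · exact absurd hxT (Finset.mem_compl.1 (hBT hxB))
      · intro hxA
        exact ⟨hAT hxA, Or.inl hxA⟩
    · ext x
      simp only [Finset.mem_sdiff, Finset.mem_union]
      constructor
      · rintro ⟨hxA | hxB, hxT⟩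
        · exact absurd (hAT hxA) hxT
        · exact hxB
      · intro hxB
        exact ⟨Or.inr hxB, Finset.mem_compl.1 (hBT hxB)⟩
  have hset : {U : Finset α | U.card = k ∧ (T ∩ U).card = j}
      = ↑(P.image (fun ab : Finset α × Finset α => ab.1 ∪ ab.2)) := by
    ext U
    simp only [Set.mem_setOf_eq, Finset.coe_image, Set.mem_image, Finset.mem_coe, hP,
      Finset.mem_product, Finset.mem_powersetCard, Prod.exists]
    constructor
    · rintro ⟨hk, hj'⟩
      refine ⟨T ∩ U, U \ T, ⟨⟨Finset.inter_subset_left, hj'⟩,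
        ⟨fun x hx => Finset.mem_compl.2 (Finset.mem_sdiff.1 hx).2, ?_⟩⟩, ?_⟩
      · have h1 := Finset.card_sdiff_add_card_inter U T
        rw [Finset.inter_comm] at h1
        omega
      · ext x
        simp only [Finset.mem_union, Finset.mem_inter, Finset.mem_sdiff]
        tauto
    · rintro ⟨A, B, ⟨⟨hAT, hAj⟩, ⟨hBT, hBk⟩⟩, rfl⟩
      have hdisj : Disjoint A B := Finset.disjoint_left.2
        (fun x hxA hxB => (Finset.mem_compl.1 (hBT hxB)) (hAT hxA))
      refine ⟨by rw [Finset.card_union_of_disjoint hdisj, hAj, hBk]; omega, ?_⟩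
      rw [(hfact A B hAT hBT).1, hAj]
  have hinj : Set.InjOn (fun ab : Finset α × Finset α => ab.1 ∪ ab.2) (P : Set _) := by
    rintro ⟨A, B⟩ hAB ⟨A', B'⟩ hAB' h
    simp only [hP, Finset.coe_product, Set.mem_prod, Finset.mem_coe,
      Finset.mem_powersetCard] at hAB hAB'
    simp only at h
    obtain ⟨⟨hAT, -⟩, ⟨hBT, -⟩⟩ := hAB
    obtain ⟨⟨hAT', -⟩, ⟨hBT', -⟩⟩ := hAB'
    have h1 := hfact A B hAT hBT
    have h2 := hfact A' B' hAT' hBT'
    rw [h] at h1
    rw [Prod.mk.injEq]
    exact ⟨h1.1.symm.trans h2.1, h1.2.symm.trans h2.2⟩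
  rw [hset, Set.ncard_coe_finset, Finset.card_image_of_injOn hinj, hP, Finset.card_product,
    Finset.card_powersetCard, Finset.card_powersetCard, Finset.card_compl]

open Classical in
/-- The size of a set that is a union of classes. -/
theorem invariant_ncard {α : Type*} [Finite α] (Ω B : Set α) (c : α → ℕ) (k : ℕ)
    (hBΩ : B ⊆ Ω) (hc : ∀ y ∈ Ω, c y < k)
    (hdich : ∀ j, (∃ y ∈ B, c y = j) → {y | y ∈ Ω ∧ c y = j} ⊆ B) :
    B.ncard = ∑ j ∈ Finset.range k,
      if (∃ y ∈ B, c y = j) then {y | y ∈ Ω ∧ c y = j}.ncard else 0 := by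
  classical
  have : Fintype α := Fintype.ofFinite α
  set Bf : Finset α := Finset.univ.filter (fun y => y ∈ B) with hBf
  have hBfB : B = ↑Bf := by
    ext y; simp [hBf]
  have hcardB : B.ncard = Bf.card := by rw [hBfB, Set.ncard_coe_finset]
  have hfib := Finset.card_eq_sum_card_fiberwise (s := Bf) (t := Finset.range k) (f := c) (by
    intro y hy
    have hyB : y ∈ B := by
      have := Finset.mem_coe.2 hy
      rwa [← hBfB] at this
    exact Finset.mem_range.2 (hc y (hBΩ hyB)))
  rw [hcardB, hfib]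
  apply Finset.sum_congr rfl
  intro j _
  split_ifs with hex
  · rw [← Set.ncard_coe_finset]
    congr 1
    ext y
    simp only [Finset.coe_filter, Set.mem_setOf_eq, hBf, Finset.mem_filter, Finset.mem_univ,
      true_and]
    constructor
    · rintro ⟨hyB, hyj⟩
      exact ⟨hBΩ hyB, hyj⟩
    · intro hy
      exact ⟨hdich j hex hy, hy.2⟩
  · rw [Finset.card_eq_zero]
    ext y
    simp only [Finset.mem_filter, hBf, Finset.mem_univ, true_and, Finset.notMem_empty,
      iff_false]
    rintro ⟨hyB, hyj⟩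
    exact hex ⟨y, hyB, hyj⟩

theorem invariant_eq_of_all {α : Type*} (Ω B : Set α) (c : α → ℕ) (k : ℕ)
    (hBΩ : B ⊆ Ω) (hc : ∀ y ∈ Ω, c y < k)
    (hdich : ∀ j, (∃ y ∈ B, c y = j) → {y | y ∈ Ω ∧ c y = j} ⊆ B)
    (hall : ∀ j < k, ∃ y ∈ B, c y = j) : B = Ω :=
  Set.Subset.antisymm hBΩ (fun y hy => hdich (c y) (hall _ (hc y hy)) ⟨hy, rfl⟩)

theorem invariant_eq_singleton {α : Type*} (Ω B : Set α) (c : α → ℕ) (x : α)
    (hBΩ : B ⊆ Ω) (hxB : x ∈ B) (hc0 : ∀ y ∈ Ω, c y = 0 → y = x)
    (hnone : ∀ j, 1 ≤ j → ¬ ∃ y ∈ B, c y = j) : B = {x} := by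
  ext y
  rw [Set.mem_singleton_iff]
  constructor
  · intro hy
    apply hc0 y (hBΩ hy)
    by_contra h0
    exact hnone (c y) (Nat.one_le_iff_ne_zero.2 h0) ⟨y, hy, rfl⟩
  · rintro rfl
    exact hxB

end Cfsg.Agent.Lib.Helper1
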