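import Mathlib

/-!
A criterion for a point stabiliser to be a maximal subgroup, via invariant subsets (helper1).
-/

namespace Cfsg.Agent.Lib.Helper1

/-- A point stabiliser is a maximal subgroup as soon as every invariant subset of the orbit
that contains the point, is not reduced to it, and has size dividing the orbit size, is the
whole orbit. -/
theorem isCoatom_stabilizer_of_invariant {G : Type*} [Group G] {α : Type*} [MulAction G α]
    (x : α) (hne : ∃ g : G, g • x ≠ x)
    (hB : ∀ B : Set α, x ∈ B → B ⊆ MulAction.orbit G x → B ≠ {x} →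
      (∀ h ∈ MulAction.stabilizer G x, ∀ y ∈ B, h • y ∈ B) →
      B.ncard ∣ (MulAction.orbit G x).ncard → B = MulAction.orbit G x) :
    IsCoatom (MulAction.stabilizer G x) := by
  constructor
  · intro htop
    obtain ⟨g, hg⟩ := hne
    have : g ∈ MulAction.stabilizer G x := by rw [htop]; exact Subgroup.mem_top g
    exact hg this
  · intro K hK
    have hle : MulAction.stabilizer G x ≤ K := le_of_lt hK
    obtain ⟨k, hkK, hkH⟩ := SetLike.exists_of_lt hK
    have hBK : MulAction.orbit ↥K x = MulAction.orbit G x := by
      apply hB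
      · exact MulAction.mem_orbit_self x
      · rintro y ⟨⟨k', hk'⟩, rfl⟩
        exact ⟨k', rfl⟩
      · intro h
        have h1 : k • x ∈ MulAction.orbit ↥K x := ⟨⟨k, hkK⟩, rfl⟩
        rw [h, Set.mem_singleton_iff] at h1
        exact hkH h1
      · rintro h hh y ⟨⟨k', hk'⟩, rfl⟩
        exact ⟨⟨h * k', K.mul_mem (hle hh) hk'⟩, (mul_smul h k' x)⟩
      · have h1 := MulAction.index_stabilizer (G := ↥K) (x := x)
        have h2 := MulAction.index_stabilizer (G := G) (x := x)
        have h3 : MulAction.stabilizer ↥K x = (MulAction.stabilizer G x).subgroupOf K := by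
          ext ⟨k', hk'⟩
          rw [MulAction.mem_stabilizer_iff, Subgroup.mem_subgroupOf, MulAction.mem_stabilizer_iff]
          rfl
        have h4 := Subgroup.relIndex_mul_index hle
        rw [Subgroup.relIndex, ← h3, h1, h2] at h4
        exact Dvd.intro _ h4
    rw [eq_top_iff]
    intro g _
    have h1 : g • x ∈ MulAction.orbit ↥K x := by
      rw [hBK]; exact ⟨g, rfl⟩
    obtain ⟨⟨k', hk'⟩, hk'x⟩ := h1
    have h2 : k'⁻¹ * g ∈ MulAction.stabilizer G x := by
      rw [MulAction.mem_stabilizer_iff, mul_smul]
      have : k' • x = g • x := hk'x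
      rw [← this, inv_smul_smul]
    have h3 := K.mul_mem hk' (hle h2)
    rwa [mul_inv_cancel_left] at h3

end Cfsg.Agent.Lib.Helper1
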