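import Mathlib
import Cfsg.Agent.Lib.Helper1.Maximal

/-!
A point stabiliser is maximal when the sizes of its orbits admit no proper block size (helper1).
-/

namespace Cfsg.Agent.Lib.Helper1

open MulAction in
/-- If the orbit of `x` splits under the stabiliser of `x` as `{x}` and finitely many orbits of
pairwise distinct sizes (none of size one), and no proper partial sum `1 + ∑` of these sizes
divides the total, then the stabiliser of `x` is a maximal subgroup. -/
theorem isCoatom_of_orbits {G : Type*} [Group G] {α : Type*} [MulAction G α] [Finite α] {n : ℕ}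
    (x : α) (X : Fin n → α) (sz : Fin n → ℕ) (i₀ : Fin n)
    (hsz : ∀ i, (orbit ↥(stabilizer G x) (X i)).ncard = sz i)
    (hcov : ∀ y, y ∈ orbit G x ↔ y = x ∨ ∃ i, y ∈ orbit ↥(stabilizer G x) (X i))
    (hne1 : ∀ i, sz i ≠ 1) (hinj : Function.Injective sz)
    (harith : ∀ I : Finset (Fin n), (1 + ∑ i ∈ I, sz i) ∣ (1 + ∑ i, sz i) →
      I = ∅ ∨ I = Finset.univ) :
    IsCoatom (stabilizer G x) := by
  classical
  set H := stabilizer G x with hH
  set O : Fin n → Set α := fun i => orbit ↥H (X i) with hO
  have horbx : orbit ↥H x = {x} := by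
    ext y
    rw [Set.mem_singleton_iff]
    constructor
    · rintro ⟨⟨h, hh⟩, rfl⟩
      exact hh
    · rintro rfl
      exact mem_orbit_self _
  have hxO : ∀ i, x ∉ O i := by
    intro i hx
    have h1 : orbit ↥H x = orbit ↥H (X i) := orbit_eq_iff.2 hx
    have h2 := hsz i
    rw [← h1, horbx, Set.ncard_singleton] at h2
    exact hne1 i h2.symm
  have hdisj : ∀ i j, i ≠ j → Disjoint (O i) (O j) := by
    intro i j hij
    rw [Set.disjoint_left]
    intro y hyi hyj
    have h1 : orbit ↥H y = orbit ↥H (X i) := orbit_eq_iff.2 hyi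
    have h2 : orbit ↥H y = orbit ↥H (X j) := orbit_eq_iff.2 hyj
    have h3 := hsz i
    rw [← h1, h2, hsz j] at h3
    exact hij (hinj h3.symm)
  have hcard : ∀ I : Finset (Fin n), ({x} ∪ ⋃ i ∈ I, O i).ncard = 1 + ∑ i ∈ I, sz i := by
    intro I
    induction I using Finset.induction_on with
    | empty => simp
    | insert a I ha ih =>
      have e : ({x} ∪ ⋃ i ∈ insert a I, O i) = O a ∪ ({x} ∪ ⋃ i ∈ I, O i) := by
        ext y
        simp only [Set.mem_union, Set.mem_singleton_iff, Set.mem_iUnion, Finset.mem_insert,
          exists_prop]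
        constructor
        · rintro (h | ⟨i, (rfl | hi), hy⟩)
          · exact Or.inr (Or.inl h)
          · exact Or.inl hy
          · exact Or.inr (Or.inr ⟨i, hi, hy⟩)
        · rintro (h | h | ⟨i, hi, hy⟩)
          · exact Or.inr ⟨a, Or.inl rfl, h⟩
          · exact Or.inl h
          · exact Or.inr ⟨i, Or.inr hi, hy⟩
      have hd : Disjoint (O a) ({x} ∪ ⋃ i ∈ I, O i) := by
        rw [Set.disjoint_left]
        intro y hya hy
        simp only [Set.mem_union, Set.mem_singleton_iff, Set.mem_iUnion, exists_prop] at hy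
        rcases hy with rfl | ⟨i, hi, hyi⟩
        · exact hxO a hya
        · have hne : a ≠ i := fun h => ha (h ▸ hi)
          exact Set.disjoint_left.1 (hdisj a i hne) hya hyi
      rw [e, Set.ncard_union_eq hd (Set.toFinite _) (Set.toFinite _), ih,
        Finset.sum_insert ha, hsz a]
      omega
  have htot : orbit G x = {x} ∪ ⋃ i ∈ (Finset.univ : Finset (Fin n)), O i := by
    ext y
    rw [hcov y]
    simp only [Set.mem_union, Set.mem_singleton_iff, Set.mem_iUnion, Finset.mem_univ,
      exists_prop, true_and, hO]
  have hXi : X i₀ ∈ orbit G x := (hcov _).2 (Or.inr ⟨i₀, mem_orbit_self _⟩)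
  have hXne : X i₀ ≠ x := by
    intro h
    apply hxO i₀
    rw [← h]
    exact mem_orbit_self _
  apply isCoatom_stabilizer_of_invariant x
  · obtain ⟨g, hg⟩ := hXi
    exact ⟨g, fun h => hXne (hg.symm.trans h)⟩
  · intro B hxB hBsub hBne hBinv hBdvd
    set I : Finset (Fin n) := Finset.univ.filter (fun i => O i ⊆ B) with hI
    have hBeq : B = {x} ∪ ⋃ i ∈ I, O i := by
      ext y
      simp only [Set.mem_union, Set.mem_singleton_iff, Set.mem_iUnion, exists_prop, hI,
        Finset.mem_filter, Finset.mem_univ, true_and]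
      constructor
      · intro hy
        rcases (hcov y).1 (hBsub hy) with h | ⟨i, hi⟩
        · exact Or.inl h
        · refine Or.inr ⟨i, ?_, hi⟩
          intro z hz
          have h1 : orbit ↥H y = orbit ↥H (X i) := orbit_eq_iff.2 hi
          rw [hO] at hz
          simp only at hz
          rw [← h1] at hz
          obtain ⟨⟨h, hh⟩, rfl⟩ := hz
          exact hBinv h hh y hy
      · rintro (rfl | ⟨i, hi, hy⟩)
        · exact hxB
        · exact hi hy
    have hBcard : B.ncard = 1 + ∑ i ∈ I, sz i := by
      rw [hBeq]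
      exact hcard I
    have htotcard : (orbit G x).ncard = 1 + ∑ i, sz i := by
      rw [htot]
      exact hcard Finset.univ
    rw [hBcard, htotcard] at hBdvd
    rcases harith I hBdvd with h | h
    · exfalso
      apply hBne
      rw [hBeq, h]
      simp
    · rw [hBeq, h, htot]

open MulAction in
/-- The orbit of a point under its own stabiliser. -/
theorem orbit_stabilizer_self {G : Type*} [Group G] {α : Type*} [MulAction G α] (x : α) :
    orbit ↥(stabilizer G x) x = {x} := by
  ext y
  rw [Set.mem_singleton_iff]
  constructor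
  · rintro ⟨⟨h, hh⟩, rfl⟩
    exact hh
  · rintro rfl
    exact mem_orbit_self _

open MulAction in
/-- An orbit of the stabiliser of `x` that contains `x` is `{x}`. -/
theorem orbit_stabilizer_eq_singleton {G : Type*} [Group G] {α : Type*} [MulAction G α]
    (x X : α) (h : x ∈ orbit ↥(stabilizer G x) X) : orbit ↥(stabilizer G x) X = {x} := by
  rw [← orbit_stabilizer_self (G := G) x]
  exact (orbit_eq_iff.2 h).symm

end Cfsg.Agent.Lib.Helper1
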