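import Mathlib

/-!
Conjugation action of a p-subgroup on a normalized subgroup: fixed point congruence; elements
of prime power order outside a subgroup (helper1).
-/

namespace Cfsg.Agent.Lib.Helper1

theorem card_modEq_card_inf_centralizer {G : Type*} [Group G] [Finite G] {r : ℕ} [Fact r.Prime]
    (Q H : Subgroup G) (hH : IsPGroup r H) (hHQ : H ≤ Subgroup.normalizer (Q : Set G)) :
    Nat.card Q ≡ Nat.card ↥(Q ⊓ Subgroup.centralizer (H : Set G)) [MOD r] := by
  let _ : MulAction H Q :=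
    { smul := fun x q => ⟨(x : G) * q * (x : G)⁻¹,
        (Subgroup.mem_normalizer_iff.1 (hHQ x.2) q).1 q.2⟩
      one_smul := fun q => by
        apply Subtype.ext
        show ((1 : H) : G) * q * ((1 : H) : G)⁻¹ = q
        simp
      mul_smul := fun x y q => by
        apply Subtype.ext
        show ((x * y : H) : G) * q * ((x * y : H) : G)⁻¹
          = (x : G) * ((y : G) * q * (y : G)⁻¹) * (x : G)⁻¹
        simp [mul_assoc] }
  have hsm : ∀ (x : H) (q : Q), ((x • q : Q) : G) = (x : G) * q * (x : G)⁻¹ := fun x q => rfl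
  have h1 := hH.card_modEq_card_fixedPoints Q
  have h2 : Nat.card (MulAction.fixedPoints H Q)
      = Nat.card ↥(Q ⊓ Subgroup.centralizer (H : Set G)) := by
    refine Nat.card_congr (Equiv.ofBijective (fun q : MulAction.fixedPoints H Q =>
      (⟨((q : Q) : G), ?_⟩ : ↥(Q ⊓ Subgroup.centralizer (H : Set G)))) ⟨?_, ?_⟩)
    · refine Subgroup.mem_inf.2 ⟨(q : Q).2, ?_⟩
      rw [Subgroup.mem_centralizer_iff]
      intro x hx
      have := q.2 ⟨x, hx⟩
      have h3 := congrArg (Subtype.val) this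
      rw [hsm] at h3
      calc x * ((q : Q) : G) = (x * ((q : Q) : G) * x⁻¹) * x := by group
        _ = ((q : Q) : G) * x := by rw [h3]
    · intro q q' h
      apply Subtype.ext; apply Subtype.ext
      exact congrArg (fun z : ↥(Q ⊓ Subgroup.centralizer (H : Set G)) => (z : G)) h
    · intro y
      obtain ⟨hyQ, hyC⟩ := Subgroup.mem_inf.1 y.2
      refine ⟨⟨⟨y, hyQ⟩, ?_⟩, Subtype.ext rfl⟩
      intro x
      apply Subtype.ext
      rw [hsm]
      rw [Subgroup.mem_centralizer_iff] at hyC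
      have := hyC x x.2
      show (x : G) * y * (x : G)⁻¹ = y
      rw [this]; group
  rw [← h2]; exact h1

theorem exists_prime_pow_order_not_mem {G : Type*} [Group G] (C : Subgroup G) :
    ∀ (n : ℕ) (h : G), orderOf h = n → 0 < n → h ∉ C →
      ∃ h' ∈ Subgroup.zpowers h, h' ∉ C ∧ ∃ r k : ℕ, r.Prime ∧ orderOf h' = r ^ k := by
  intro n
  induction n using Nat.strong_induction_on with
  | _ n ih =>
  intro h hn hpos hC
  have hn1 : n ≠ 1 := by
    intro h1; rw [h1, orderOf_eq_one_iff] at hn; exact hC (hn ▸ C.one_mem)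
  obtain ⟨r, hr⟩ : ∃ r, r = n.minFac := ⟨_, rfl⟩
  have hrp : r.Prime := hr ▸ Nat.minFac_prime hn1
  have hn0 : n ≠ 0 := hpos.ne'
  obtain ⟨m₁, hm₁⟩ : ∃ m₁, m₁ = ordProj[r] n := ⟨_, rfl⟩
  obtain ⟨m₂, hm₂⟩ : ∃ m₂, m₂ = ordCompl[r] n := ⟨_, rfl⟩
  have hmul : m₁ * m₂ = n := by rw [hm₁, hm₂]; exact Nat.ordProj_mul_ordCompl_eq_self n r
  by_cases h2 : m₂ = 1
  · refine ⟨h, Subgroup.mem_zpowers h, hC, r, n.factorization r, hrp, ?_⟩
    calc orderOf h = n := hn
      _ = m₁ := by rw [← hmul, h2, mul_one]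
      _ = r ^ n.factorization r := hm₁
  · have hcop : Nat.Coprime m₁ m₂ := by
      rw [hm₁, hm₂]; exact (Nat.coprime_ordCompl hrp hn0).pow_left _
    have hm₁pos : 0 < m₁ :=
      Nat.pos_of_ne_zero (fun h0 => by rw [h0, zero_mul] at hmul; exact hn0 hmul.symm)
    have hm₂pos : 0 < m₂ :=
      Nat.pos_of_ne_zero (fun h0 => by rw [h0, mul_zero] at hmul; exact hn0 hmul.symm)
    have hm₁1 : 1 < m₁ := by
      rw [hm₁]
      have : 0 < n.factorization r :=
        hrp.factorization_pos_of_dvd hn0 (hr ▸ Nat.minFac_dvd n)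
      exact Nat.one_lt_pow this.ne' hrp.one_lt
    have hm₂1 : 1 < m₂ := by omega
    have hlt₁ : m₁ < n := by nlinarith
    have hlt₂ : m₂ < n := by nlinarith
    have ho₁ : orderOf (h ^ m₁) = m₂ := by
      rw [orderOf_pow_of_dvd hm₁pos.ne' (hn ▸ Dvd.intro _ hmul), hn, ← hmul]
      exact Nat.mul_div_cancel_left _ hm₁pos
    have ho₂ : orderOf (h ^ m₂) = m₁ := by
      rw [orderOf_pow_of_dvd hm₂pos.ne' (hn ▸ Dvd.intro_left _ hmul), hn, ← hmul]
      exact Nat.mul_div_cancel _ hm₂pos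
    have hsub : ∀ j : ℕ, Subgroup.zpowers (h ^ j) ≤ Subgroup.zpowers h := fun j => by
      rw [Subgroup.zpowers_le]; exact Subgroup.npow_mem_zpowers h j
    by_cases hc₁ : h ^ m₁ ∈ C
    · by_cases hc₂ : h ^ m₂ ∈ C
      · exfalso; apply hC
        have hb : IsCoprime (m₁ : ℤ) (m₂ : ℤ) := Nat.isCoprime_iff_coprime.2 hcop
        obtain ⟨u, v, huv⟩ := hb
        have : h = (h ^ m₁) ^ u * (h ^ m₂) ^ v := by
          rw [← zpow_natCast, ← zpow_natCast, ← zpow_mul, ← zpow_mul, ← zpow_add,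
            mul_comm (m₁ : ℤ) u, mul_comm (m₂ : ℤ) v, huv, zpow_one]
        rw [this]; exact C.mul_mem (C.zpow_mem hc₁ u) (C.zpow_mem hc₂ v)
      · obtain ⟨h', hh', hh'C, r', k', hr', hk'⟩ := ih m₁ hlt₁ (h ^ m₂) ho₂ hm₁pos hc₂
        exact ⟨h', hsub m₂ hh', hh'C, r', k', hr', hk'⟩
    · obtain ⟨h', hh', hh'C, r', k', hr', hk'⟩ := ih m₂ hlt₂ (h ^ m₁) ho₁ hm₂pos hc₁
      exact ⟨h', hsub m₁ hh', hh'C, r', k', hr', hk'⟩

end Cfsg.Agent.Lib.Helper1
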