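import Mathlib
import Cfsg.Prelude.Def_Sporadic_a

/-!
Conjugation identifies the stabiliser of a translated object with the stabiliser of the
object (helper1).
-/

set_option autoImplicit false

open scoped Pointwise

namespace Cfsg.Agent.Lib.Helper1

open Cfsg

/-- Conjugation by `g` identifies the stabiliser (in the code's group) of `g • s0` with the
stabiliser of `s0`. -/
def conjStab {B : Type*} [MulAction (Equiv.Perm GolayPt) B] {g : Equiv.Perm GolayPt}
    (hg : g ∈ M24) (s0 : B) :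
    ↥(MulAction.stabilizer ↥M24 (g • s0)) ≃*
      ↥(M24 ⊓ MulAction.stabilizer (Equiv.Perm GolayPt) s0) where
  toFun x := ⟨g⁻¹ * (x.1.1 : Equiv.Perm GolayPt) * g, by
    have e1 : (x.1.1 : Equiv.Perm GolayPt) • g • s0 = g • s0 := x.2
    refine ⟨M24.mul_mem (M24.mul_mem (M24.inv_mem hg) x.1.2) hg, ?_⟩
    show (g⁻¹ * (x.1.1 : Equiv.Perm GolayPt) * g) • s0 = s0
    rw [mul_smul, mul_smul, e1, inv_smul_smul]⟩
  invFun k := ⟨⟨g * k.1 * g⁻¹, M24.mul_mem (M24.mul_mem hg k.2.1) (M24.inv_mem hg)⟩, by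
    have e1 : k.1 • s0 = s0 := k.2.2
    show (g * k.1 * g⁻¹) • g • s0 = g • s0
    rw [mul_smul, mul_smul, inv_smul_smul, e1]⟩
  left_inv x := by
    apply Subtype.ext
    apply Subtype.ext
    show g * (g⁻¹ * (x.1.1 : Equiv.Perm GolayPt) * g) * g⁻¹ = x.1.1
    group
  right_inv k := by
    apply Subtype.ext
    show g⁻¹ * (g * k.1 * g⁻¹) * g = k.1
    group
  map_mul' x y := by
    apply Subtype.ext
    show g⁻¹ * ((x.1.1 : Equiv.Perm GolayPt) * y.1.1) * g
      = g⁻¹ * x.1.1 * g * (g⁻¹ * y.1.1 * g)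
    group

theorem conjStab_coe {B : Type*} [MulAction (Equiv.Perm GolayPt) B] {g : Equiv.Perm GolayPt}
    (hg : g ∈ M24) (s0 : B) (x : ↥(MulAction.stabilizer ↥M24 (g • s0))) :
    ((conjStab hg s0 x : ↥(M24 ⊓ MulAction.stabilizer (Equiv.Perm GolayPt) s0)) :
      Equiv.Perm GolayPt) = g⁻¹ * (x.1.1 : Equiv.Perm GolayPt) * g := rfl

theorem conjStab_symm_coe {B : Type*} [MulAction (Equiv.Perm GolayPt) B]
    {g : Equiv.Perm GolayPt} (hg : g ∈ M24) (s0 : B)
    (k : ↥(M24 ⊓ MulAction.stabilizer (Equiv.Perm GolayPt) s0)) :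
    ((((conjStab hg s0).symm k : ↥(MulAction.stabilizer ↥M24 (g • s0))) : ↥M24) :
      Equiv.Perm GolayPt) = g * k.1 * g⁻¹ := rfl

end Cfsg.Agent.Lib.Helper1
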