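import Mathlib
import Cfsg.Prelude.Def_Sporadic_a

/-!
The length-24 code built from squares modulo 23 (helper1): self-orthogonality, a criterion for a
permutation to lie in its group, and explicit generators of the group.
-/

namespace Cfsg.Agent.Lib.Helper1

open Cfsg
open scoped Pointwise

set_option maxRecDepth 100000 in
theorem qr_dot : ∀ t t' : ZMod 23, ∑ i : GolayPt, qrWord t i * qrWord t' i = 0 := by
  decide +kernel

set_option maxRecDepth 100000 in
theorem qr_dot_one : ∀ t : ZMod 23, ∑ i : GolayPt, qrWord t i = 0 := by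
  decide +kernel

theorem one_dot_one : ∑ _i : GolayPt, (1 : ZMod 2) = 0 := by
  decide +kernel

/-- The code is self-orthogonal. -/
theorem golay_dot (v w : GolayPt → ZMod 2) (hv : v ∈ golayCode) (hw : w ∈ golayCode) :
    ∑ i, v i * w i = 0 := by
  unfold golayCode at hv hw
  induction hv using Submodule.span_induction with
  | mem x hx =>
    induction hw using Submodule.span_induction with
    | mem y hy =>
      rcases hx with ⟨t, rfl⟩ | hx1
      · rcases hy with ⟨t', rfl⟩ | hy1
        · exact qr_dot t t'
        · rw [Set.mem_singleton_iff] at hy1; subst hy1; simpa using qr_dot_one t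
      · rw [Set.mem_singleton_iff] at hx1; subst hx1
        rcases hy with ⟨t', rfl⟩ | hy1
        · simpa using qr_dot_one t'
        · rw [Set.mem_singleton_iff] at hy1; subst hy1; simpa using one_dot_one
    | zero => simp
    | add y z _ _ hy hz =>
      simp only [Pi.add_apply, mul_add, Finset.sum_add_distrib, hy, hz, add_zero]
    | smul a y _ hy =>
      simp only [Pi.smul_apply, smul_eq_mul, mul_left_comm, ← Finset.mul_sum, hy, mul_zero]
  | zero => simp
  | add x y _ _ hx hy =>
    simp only [Pi.add_apply, add_mul, Finset.sum_add_distrib, hx, hy, add_zero]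
  | smul a x _ hx =>
    simp only [Pi.smul_apply, smul_eq_mul, mul_assoc, ← Finset.mul_sum, hx, mul_zero]

theorem mem_golay_of_comb (M : ZMod 23 → Bool) (e : Bool) (w : GolayPt → ZMod 2)
    (h : ∀ p, w p = (∑ t' : ZMod 23, if M t' then qrWord t' p else 0) + (if e then 1 else 0)) :
    w ∈ golayCode := by
  have hw : w = (∑ t' : ZMod 23, if M t' then qrWord t' else 0) + (if e then 1 else 0) := by
    funext p
    rw [h p]
    simp only [Pi.add_apply, Finset.sum_apply, ite_apply, Pi.zero_apply, Pi.one_apply]
  rw [hw]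
  apply Submodule.add_mem
  · apply Submodule.sum_mem
    intro t' _
    by_cases hM : M t' = true
    · rw [if_pos hM]; exact Submodule.subset_span (Or.inl (Set.mem_range_self t'))
    · rw [if_neg hM]; exact Submodule.zero_mem _
  · by_cases he : e = true
    · rw [if_pos he]; exact Submodule.subset_span (Or.inr (Set.mem_singleton _))
    · rw [if_neg he]; exact Submodule.zero_mem _

theorem support₂_comp (w : GolayPt → ZMod 2) (σ : Equiv.Perm GolayPt) :
    σ⁻¹ • support₂ w = support₂ (fun p => w (σ p)) := by
  ext i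
  rw [Finset.mem_inv_smul_finset_iff]
  simp [support₂, Equiv.Perm.smul_def]

/-- Precomposition with a permutation preserving the generators' span preserves the code. -/
theorem comp_mem_golay (σ : Equiv.Perm GolayPt)
    (h : ∀ t, (fun p => qrWord t (σ p)) ∈ golayCode) (w : GolayPt → ZMod 2)
    (hw : w ∈ golayCode) : (fun p => w (σ p)) ∈ golayCode := by
  unfold golayCode at hw
  induction hw using Submodule.span_induction with
  | mem x hx =>
    rcases hx with ⟨t, rfl⟩ | hx1
    · exact h t
    · rw [Set.mem_singleton_iff] at hx1; subst hx1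
      exact Submodule.subset_span (Or.inr rfl)
  | zero => exact Submodule.zero_mem _
  | add x y _ _ hx hy => exact Submodule.add_mem _ hx hy
  | smul a x _ hx => exact Submodule.smul_mem _ a hx

theorem supports_golay_finite : (supports (golayCode : Set (GolayPt → ZMod 2))).Finite :=
  Set.toFinite _

/-- A permutation whose precomposition maps the generators into the code lies in the code's
group. -/
theorem mem_M24_of_forall (σ : Equiv.Perm GolayPt)
    (h : ∀ t, (fun p => qrWord t (σ p)) ∈ golayCode) : σ ∈ M24 := by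
  have h1 : σ⁻¹ ∈ M24 := by
    unfold M24 setSystemAut
    rw [MulAction.mem_stabilizer_set' supports_golay_finite]
    rintro b ⟨w, hw, rfl⟩
    rw [support₂_comp]
    exact ⟨_, comp_mem_golay σ h w hw, rfl⟩
  have h2 := M24.inv_mem h1
  rwa [inv_inv] at h2

/-- Members of the code's group preserve the code under precomposition, as supports. -/
theorem M24_smul_mem (σ : Equiv.Perm GolayPt) (hσ : σ ∈ M24) (b : Finset GolayPt)
    (hb : b ∈ supports (golayCode : Set (GolayPt → ZMod 2))) :
    σ • b ∈ supports (golayCode : Set (GolayPt → ZMod 2)) := by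
  have h1 : σ • supports (golayCode : Set (GolayPt → ZMod 2))
      = supports (golayCode : Set (GolayPt → ZMod 2)) := hσ
  rw [← h1]
  exact Set.smul_mem_smul_set hb

def projTbl : List (List ℕ × Bool) :=
  [([0], true),
   ([4, 5, 6, 8, 10], false),
   ([1, 5, 6, 7, 9], false),
   ([0, 2, 3, 4, 5, 7, 8, 10], false),
   ([0, 1, 2, 4, 5, 8, 9], false),
   ([0, 9], true),
   ([1, 3, 4, 5, 9, 10], false),
   ([1, 2, 3, 5, 6, 8], true),
   ([2, 4, 7, 9, 10], false),
   ([0, 5], false),
   ([1, 3, 4, 7, 8], true),
   ([0, 2], true),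
   ([3, 6, 7, 8, 9, 10], false),
   ([0, 7], false),
   ([0, 2, 3, 5, 6, 9, 10], true),
   ([0, 3], true),
   ([0, 10], false),
   ([0, 4], true),
   ([0, 1, 2, 3, 4, 6, 7, 9], false),
   ([0, 6], true),
   ([0, 8], true),
   ([0, 1, 2, 6, 7, 8, 10], true),
   ([0, 1], true)]

def cubeTbl : List (List ℕ × Bool) :=
  [([0], false),
   ([0, 3, 4, 7, 8], false),
   ([0, 1, 4, 7, 8], false),
   ([1, 2, 6, 7, 10], false),
   ([2, 3], false),
   ([2, 3, 8, 10], false),
   ([0, 1, 2, 3, 5, 6], false),
   ([1, 2, 4, 8, 10], false),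
   ([2, 9], false),
   ([4, 6], false),
   ([1, 3, 4, 9, 10], false),
   ([0, 2, 3, 4, 5, 7, 8], false),
   ([0, 2, 3, 5, 6, 8], false),
   ([1, 3, 5, 7, 8, 9], false),
   ([0, 3, 5, 6, 7, 8], false),
   ([0, 2, 3, 4, 6, 8], false),
   ([6, 9], false),
   ([1, 2, 3, 4, 6, 8, 9, 10], false),
   ([2, 3, 4, 5, 6, 9, 10], false),
   ([2, 4, 9, 10], false),
   ([1, 6, 7, 9], false),
   ([4, 5, 6, 7, 8, 10], false),
   ([4, 5, 6, 8], false)]

set_option maxRecDepth 100000 in
theorem projInv_rows : ∀ t : ZMod 23, ∀ p : GolayPt, qrWord t (projInv p)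
    = (∑ t' : ZMod 23, if (projTbl.getD t.val ([], false)).1.contains t'.val
        then qrWord t' p else 0) + (if (projTbl.getD t.val ([], false)).2 then 1 else 0) := by
  decide +kernel

set_option maxRecDepth 100000 in
theorem cubeTwist_rows : ∀ t : ZMod 23, ∀ p : GolayPt, qrWord t (cubeTwistFun p)
    = (∑ t' : ZMod 23, if (cubeTbl.getD t.val ([], false)).1.contains t'.val
        then qrWord t' p else 0) + (if (cubeTbl.getD t.val ([], false)).2 then 1 else 0) := by
  decide +kernel

set_option maxRecDepth 100000 in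
theorem translate_rows : ∀ t : ZMod 23, ∀ p : GolayPt,
    qrWord t (Equiv.optionCongr (Equiv.addRight (1 : ZMod 23)) p) = qrWord (t - 1) p := by
  decide +kernel

end Cfsg.Agent.Lib.Helper1
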