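import Mathlib
import Cfsg.Prelude.Def_Sporadic_a
import Cfsg.Agent.Lib.Helper1.Golay

/-!
Enumeration of the length-24 code built from squares modulo 23 by bit-encoded words (helper1).
-/

namespace Cfsg.Agent.Lib.Helper1

open Cfsg

/-- Index of a point: residues `0..22`, the extra point `23`. -/
def gIdx : GolayPt → ℕ
  | none => 23
  | some x => x.val

/-- Decode a natural number into a word. -/
def gDec (n : ℕ) : GolayPt → ZMod 2 := fun p => if n.testBit (gIdx p) then 1 else 0

theorem gDec_zero : gDec 0 = 0 := by
  funext p; simp [gDec]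

theorem gDec_xor (m n : ℕ) : gDec (m ^^^ n) = gDec m + gDec n := by
  funext p
  simp only [gDec, Pi.add_apply, Nat.testBit_xor]
  cases m.testBit (gIdx p) <;> cases n.testBit (gIdx p) <;> decide

/-- All XOR-combinations of a list of numbers. -/
def allWords : List ℕ → List ℕ
  | [] => [0]
  | b :: bs => allWords bs ++ (allWords bs).map (fun n => b ^^^ n)

theorem allWords_xor_closed (l : List ℕ) :
    ∀ m ∈ allWords l, ∀ n ∈ allWords l, m ^^^ n ∈ allWords l := by
  induction l with
  | nil =>
    intro m hm n hn
    simp only [allWords, List.mem_singleton] at hm hn ⊢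
    rw [hm, hn]; rfl
  | cons b bs ih =>
    intro m hm n hn
    simp only [allWords, List.mem_append, List.mem_map] at hm hn ⊢
    rcases hm with hm | ⟨m', hm', rfl⟩ <;> rcases hn with hn | ⟨n', hn', rfl⟩
    · exact Or.inl (ih m hm n hn)
    · refine Or.inr ⟨m ^^^ n', ih m hm n' hn', ?_⟩
      rw [← Nat.xor_assoc, Nat.xor_comm b m, Nat.xor_assoc]
    · refine Or.inr ⟨m' ^^^ n, ih m' hm' n hn, ?_⟩
      rw [Nat.xor_assoc]
    · refine Or.inl ?_
      have h1 : (b ^^^ m') ^^^ (b ^^^ n') = m' ^^^ n' := by
        rw [Nat.xor_comm b m', Nat.xor_assoc, ← Nat.xor_assoc b b n', Nat.xor_self, Nat.zero_xor]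
      rw [h1]; exact ih m' hm' n' hn'

theorem zero_mem_allWords (l : List ℕ) : 0 ∈ allWords l := by
  induction l with
  | nil => simp [allWords]
  | cons b bs ih => simp only [allWords, List.mem_append]; exact Or.inl ih

theorem gDec_mem_of_allWords (l : List ℕ) (hl : ∀ b ∈ l, gDec b ∈ golayCode) :
    ∀ n ∈ allWords l, gDec n ∈ golayCode := by
  induction l with
  | nil =>
    intro n hn
    simp only [allWords, List.mem_singleton] at hn
    rw [hn, gDec_zero]; exact Submodule.zero_mem _
  | cons b bs ih =>
    intro n hn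
    simp only [allWords, List.mem_append, List.mem_map] at hn
    have ih' := ih (fun c hc => hl c (List.mem_cons_of_mem _ hc))
    rcases hn with hn | ⟨n', hn', rfl⟩
    · exact ih' n hn
    · rw [gDec_xor]; exact Submodule.add_mem _ (hl b List.mem_cons_self) (ih' n' hn')

/-- Independence test: no vector lies in the XOR-span of the later ones. -/
def indepL : List ℕ → Bool
  | [] => true
  | b :: bs => !(allWords bs).contains b && indepL bs

theorem allWords_nodup (l : List ℕ) (h : indepL l = true) : (allWords l).Nodup := by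
  induction l with
  | nil => simp [allWords]
  | cons b bs ih =>
    simp only [indepL, Bool.and_eq_true, Bool.not_eq_true'] at h
    obtain ⟨hb, hbs⟩ := h
    have hb' : b ∉ allWords bs := by
      intro hmem
      have : (allWords bs).contains b = true := by simpa using hmem
      rw [hb] at this; exact Bool.false_ne_true this
    have hA := ih hbs
    simp only [allWords]
    rw [List.nodup_append']
    refine ⟨hA, hA.map Nat.xor_right_injective, ?_⟩
    rw [List.disjoint_left]
    intro m hm hm'
    obtain ⟨n', hn', rfl⟩ := List.mem_map.1 hm'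
    apply hb'
    have h1 := allWords_xor_closed bs _ hm n' hn'
    have h2 : (b ^^^ n') ^^^ n' = b := by
      rw [Nat.xor_assoc, Nat.xor_self, Nat.xor_zero]
    rw [h2] at h1; exact h1

/-- Number of set bits among the lowest `k`. -/
def pcI : ℕ → ℕ → ℕ
  | 0, _ => 0
  | k + 1, n => (n >>> k) % 2 + pcI k n

theorem pcI_eq (k n : ℕ) : pcI k n = ∑ i ∈ Finset.range k, if n.testBit i then 1 else 0 := by
  induction k with
  | zero => rfl
  | succ k ih =>
    rw [pcI, Finset.sum_range_succ, ih, add_comm]
    congr 1
    rw [Nat.testBit_eq_decide_div_mod_eq, Nat.shiftRight_eq_div_pow]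
    rcases Nat.mod_two_eq_zero_or_one (n / 2 ^ k) with h | h <;> simp [h]

theorem gIdx_image : Finset.univ.image gIdx = Finset.range 24 := by decide +kernel

theorem gIdx_injective : ∀ a b : GolayPt, gIdx a = gIdx b → a = b := by decide +kernel

theorem card_support_gDec (n : ℕ) : (support₂ (gDec n)).card = pcI 24 n := by
  rw [pcI_eq, ← gIdx_image, Finset.sum_image (fun a _ b _ h => gIdx_injective a b h)]
  rw [support₂, Finset.card_filter]
  refine Finset.sum_congr rfl (fun p _ => ?_)
  simp only [gDec]
  by_cases hb : n.testBit (gIdx p) = true <;> simp [hb]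

theorem hammingNorm_gDec (n : ℕ) : hammingNorm (gDec n) = pcI 24 n := by
  rw [← card_support_gDec]; rfl

theorem gDec_injOn {m n : ℕ} (hm : m < 2 ^ 24) (hn : n < 2 ^ 24) (h : gDec m = gDec n) :
    m = n := by
  apply Nat.eq_of_testBit_eq
  intro i
  by_cases hi : i < 24
  · have h0 : i ∈ Finset.univ.image gIdx := by rw [gIdx_image]; exact Finset.mem_range.2 hi
    obtain ⟨p, -, rfl⟩ := Finset.mem_image.1 h0
    have h1 := congrFun h p
    simp only [gDec] at h1
    cases hm' : m.testBit (gIdx p) <;> cases hn' : n.testBit (gIdx p) <;> simp_all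
  · have h24 : 2 ^ 24 ≤ 2 ^ i := Nat.pow_le_pow_right (by norm_num) (by omega)
    rw [Nat.testBit_lt_two_pow (lt_of_lt_of_le hm h24),
      Nat.testBit_lt_two_pow (lt_of_lt_of_le hn h24)]

theorem support₂_injective (v w : GolayPt → ZMod 2) (h : support₂ v = support₂ w) : v = w := by
  funext p
  have h1 : p ∈ support₂ v ↔ p ∈ support₂ w := by rw [h]
  simp only [support₂, Finset.mem_filter, Finset.mem_univ, true_and] at h1
  have key : ∀ a b : ZMod 2, (a ≠ 0 ↔ b ≠ 0) → a = b := by decide
  exact key _ _ h1

/-- A basis of the code, bit-encoded. -/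
def gbasis : List ℕ := [8391797, 4196943, 2101096, 1050548, 525274, 262637, 133817, 69395, 36294, 18147, 10558, 5279]

/-- The generators `qrWord t`, bit-encoded. -/
def qrTbl : List ℕ := [340831, 681662, 1363324, 2726648, 5453296, 2517985, 5035970, 1683333, 3366666, 6733332, 5078057, 1767507, 3535014, 7070028, 5751449, 3114291, 6228582, 4068557, 8137114, 7885621, 7382635, 6376663, 4364719]

/-- Coefficients expressing the basis in the generators. -/
def basisCoef : List (List ℕ × Bool) :=
  [([1, 2, 4, 7, 9, 10], true),
   ([0, 2, 3, 4, 6, 7, 8, 10], false),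
   ([1, 6, 9], false),
   ([0, 5, 8], false),
   ([0, 5, 6, 7, 8, 10], false),
   ([0, 7, 8, 9, 10], false),
   ([2, 3, 5, 6, 8, 9], false),
   ([0, 1, 3, 5, 6, 10], false),
   ([0, 3, 4, 7, 9], false),
   ([0, 2, 3, 4, 5, 10], false),
   ([1, 4, 5, 7, 9], false),
   ([0, 3, 4, 6, 8], false)]

set_option maxRecDepth 100000 in
theorem basis_rows : ∀ j : Fin 12, ∀ p : GolayPt, gDec (gbasis.getD j.val 0) p
    = (∑ t' : ZMod 23, if (basisCoef.getD j.val ([], false)).1.contains t'.val
        then qrWord t' p else 0) + (if (basisCoef.getD j.val ([], false)).2 then 1 else 0) := by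
  decide +kernel

theorem gbasis_mem : ∀ b ∈ gbasis, gDec b ∈ golayCode := by
  intro b hb
  obtain ⟨j, hj, rfl⟩ := List.getElem_of_mem hb
  have hj' : j < 12 := hj
  have h1 := basis_rows ⟨j, hj'⟩
  rw [show gbasis.getD (⟨j, hj'⟩ : Fin 12).val 0 = gbasis[j] from List.getD_eq_getElem _ _ hj] at h1
  exact mem_golay_of_comb _ _ _ h1

set_option maxRecDepth 100000 in
theorem qr_rows : ∀ t : ZMod 23, ∀ p : GolayPt, qrWord t p = gDec (qrTbl.getD t.val 0) p := by
  decide +kernel

set_option maxRecDepth 100000 in
theorem qr_mem : ∀ t : ZMod 23, (allWords gbasis).contains (qrTbl.getD t.val 0) = true := by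
  decide +kernel

set_option maxRecDepth 100000 in
theorem one_row : ∀ p : GolayPt, (1 : GolayPt → ZMod 2) p = gDec 16777215 p := by
  decide +kernel

set_option maxRecDepth 100000 in
theorem one_mem : (allWords gbasis).contains 16777215 = true := by
  decide +kernel

/-- The code is the set of decoded XOR-combinations of the basis. -/
theorem mem_golay_iff (w : GolayPt → ZMod 2) :
    w ∈ golayCode ↔ ∃ n ∈ allWords gbasis, w = gDec n := by
  constructor
  · intro hw
    unfold golayCode at hw
    induction hw using Submodule.span_induction with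
    | mem x hx =>
      rcases hx with ⟨t, rfl⟩ | hx1
      · exact ⟨_, by simpa using qr_mem t, funext (qr_rows t)⟩
      · rw [Set.mem_singleton_iff] at hx1; subst hx1
        exact ⟨_, by simpa using one_mem, funext one_row⟩
    | zero => exact ⟨0, zero_mem_allWords _, gDec_zero.symm⟩
    | add x y _ _ hx hy =>
      obtain ⟨m, hm, rfl⟩ := hx
      obtain ⟨n, hn, rfl⟩ := hy
      exact ⟨m ^^^ n, allWords_xor_closed _ m hm n hn, (gDec_xor m n).symm⟩
    | smul a x _ hx =>
      obtain ⟨m, hm, rfl⟩ := hx
      have ha : ∀ a : ZMod 2, a = 0 ∨ a = 1 := by decide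
      rcases ha a with rfl | rfl
      · exact ⟨0, zero_mem_allWords _, by rw [zero_smul, gDec_zero]⟩
      · exact ⟨m, hm, by rw [one_smul]⟩
  · rintro ⟨n, hn, rfl⟩
    exact gDec_mem_of_allWords gbasis gbasis_mem n hn

set_option maxRecDepth 100000 in
theorem all_lt : (allWords gbasis).all (fun n => decide (n < 16777216)) = true := by
  decide +kernel

set_option maxRecDepth 100000 in
theorem gbasis_indep : indepL gbasis = true := by
  decide +kernel

set_option maxRecDepth 100000 in
theorem weights_ok :
    (allWords gbasis).all (fun n => [0, 8, 12, 16, 24].contains (pcI 24 n)) = true := by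
  decide +kernel

set_option maxRecDepth 100000 in
theorem count8 : ((allWords gbasis).filter (fun n => pcI 24 n == 8)).length = 759 := by
  decide +kernel

set_option maxRecDepth 100000 in
theorem count12 : ((allWords gbasis).filter (fun n => pcI 24 n == 12)).length = 2576 := by
  decide +kernel

set_option maxRecDepth 100000 in
theorem length_allWords : (allWords gbasis).length = 4096 := by
  decide +kernel

theorem allWords_lt {n : ℕ} (hn : n ∈ allWords gbasis) : n < 2 ^ 24 := by
  have h1 := List.all_eq_true.1 all_lt n hn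
  simpa using h1

theorem allWords_gbasis_nodup : (allWords gbasis).Nodup := allWords_nodup _ gbasis_indep

/-- Injectivity of `n ↦ support₂ (gDec n)` on the enumerated words. -/
theorem support_gDec_injOn {m n : ℕ} (hm : m ∈ allWords gbasis) (hn : n ∈ allWords gbasis)
    (h : support₂ (gDec m) = support₂ (gDec n)) : m = n :=
  gDec_injOn (allWords_lt hm) (allWords_lt hn) (support₂_injective _ _ h)

/-- The number of supports of a given weight. -/
theorem ncard_wordsOfWeight (k : ℕ) :
    (wordsOfWeight (golayCode : Set (GolayPt → ZMod 2)) k).ncard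
      = ((allWords gbasis).filter (fun n => pcI 24 n == k)).length := by
  have hset : wordsOfWeight (golayCode : Set (GolayPt → ZMod 2)) k
      = (fun n => support₂ (gDec n)) ''
        (↑((allWords gbasis).filter (fun n => pcI 24 n == k)).toFinset : Set ℕ) := by
    ext b
    constructor
    · rintro ⟨⟨w, hw, rfl⟩, hcard⟩
      obtain ⟨n, hn, rfl⟩ := (mem_golay_iff w).1 hw
      refine ⟨n, ?_, rfl⟩
      rw [card_support_gDec] at hcard
      simp only [Finset.mem_coe, List.mem_toFinset, List.mem_filter]
      exact ⟨hn, by simpa using hcard⟩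
    · rintro ⟨n, hn, rfl⟩
      simp only [Finset.mem_coe, List.mem_toFinset, List.mem_filter] at hn
      refine ⟨⟨gDec n, (mem_golay_iff _).2 ⟨n, hn.1, rfl⟩, rfl⟩, ?_⟩
      rw [card_support_gDec]; simpa using hn.2
  have hinj : Set.InjOn (fun n => support₂ (gDec n))
      (↑((allWords gbasis).filter (fun n => pcI 24 n == k)).toFinset : Set ℕ) := by
    intro m hm n hn h
    simp only [Finset.mem_coe, List.mem_toFinset, List.mem_filter] at hm hn
    exact support_gDec_injOn hm.1 hn.1 h
  rw [hset, hinj.ncard_image, Set.ncard_coe_finset,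
    List.toFinset_card_of_nodup (allWords_gbasis_nodup.filter _)]

end Cfsg.Agent.Lib.Helper1
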