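import Mathlib
import Cfsg.Prelude.Def_Sporadic_a
import Cfsg.Agent.Lib.Helper1.GolayEnum
import Cfsg.Agent.S0359
import Cfsg.Agent.S0363

/-!
The rank-24 lattice built from the length-24 code: `leechSet` is an additive subgroup (helper1).
-/

namespace Cfsg.Agent.Lib.Helper1

open Cfsg

/-- The family of supports of codewords. -/
abbrev gSupp : Set (Finset GolayPt) := supports (golayCode : Set (GolayPt → ZMod 2))

theorem gSupp_symmDiff {b c : Finset GolayPt} (hb : b ∈ gSupp) (hc : c ∈ gSupp) :
    symmDiff b c ∈ gSupp := by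
  obtain ⟨v, hv, rfl⟩ := hb
  obtain ⟨w, hw, rfl⟩ := hc
  exact ⟨v + w, Submodule.add_mem _ hv hw, Cfsg.Agent.S0363.support_add v w⟩

theorem gSupp_empty : (∅ : Finset GolayPt) ∈ gSupp := by
  refine ⟨0, Submodule.zero_mem _, ?_⟩
  simp [support₂]

theorem gSupp_univ : (Finset.univ : Finset GolayPt) ∈ gSupp := by
  refine ⟨1, Submodule.subset_span (Or.inr rfl), ?_⟩
  simp [support₂]

theorem gSupp_card {b : Finset GolayPt} (hb : b ∈ gSupp) :
    b.card = 0 ∨ b.card = 8 ∨ b.card = 12 ∨ b.card = 16 ∨ b.card = 24 := by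
  obtain ⟨v, hv, rfl⟩ := hb
  exact Cfsg.Agent.S0359.result v hv

theorem gSupp_card4 {b : Finset GolayPt} (hb : b ∈ gSupp) : 4 ∣ b.card := by
  rcases gSupp_card hb with h | h | h | h | h <;> rw [h] <;> norm_num

theorem gSupp_inter_even {b c : Finset GolayPt} (hb : b ∈ gSupp) (hc : c ∈ gSupp) :
    2 ∣ (b ∩ c).card := by
  have h1 := gSupp_card4 hb
  have h2 := gSupp_card4 hc
  have h3 := gSupp_card4 (gSupp_symmDiff hb hc)
  have e1 := Finset.card_sdiff_add_card_inter b c
  have e2 := Finset.card_sdiff_add_card_inter c b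
  rw [Finset.inter_comm c b] at e2
  have e3 : (symmDiff b c).card = (b \ c).card + (c \ b).card := by
    rw [symmDiff_def]
    exact Finset.card_union_of_disjoint disjoint_sdiff_sdiff
  omega

theorem leechSet_zero : (0 : GolayPt → ℤ) ∈ leechSet := by
  refine ⟨0, fun i => Int.ModEq.refl _, by simp, ?_⟩
  intro k
  by_cases hk : (0 : ℤ) ≡ k [ZMOD 4]
  · have : (Finset.univ.filter fun i : GolayPt => (0 : GolayPt → ℤ) i ≡ k [ZMOD 4]) = Finset.univ := by
      ext i; simp [hk]
    rw [this]; exact gSupp_univ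
  · have : (Finset.univ.filter fun i : GolayPt => (0 : GolayPt → ℤ) i ≡ k [ZMOD 4]) = ∅ := by
      ext i; simp [hk]
    rw [this]; exact gSupp_empty

theorem leechSet_neg {x : GolayPt → ℤ} (hx : x ∈ leechSet) : -x ∈ leechSet := by
  obtain ⟨m, h1, h2, h3⟩ := hx
  refine ⟨-m, fun i => (h1 i).neg, ?_, ?_⟩
  · have : ∑ i, (-x) i = -∑ i, x i := by simp
    rw [this]
    have := h2.neg
    rw [mul_neg]
    exact this
  · intro k
    have : (Finset.univ.filter fun i : GolayPt => (-x) i ≡ k [ZMOD 4])
        = (Finset.univ.filter fun i : GolayPt => x i ≡ -k [ZMOD 4]) := by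
      ext i
      simp only [Finset.mem_filter, Finset.mem_univ, true_and, Pi.neg_apply]
      unfold Int.ModEq
      omega
    rw [this]
    exact h3 (-k)

theorem leechSet_add {x y : GolayPt → ℤ} (hx : x ∈ leechSet) (hy : y ∈ leechSet) :
    x + y ∈ leechSet := by
  classical
  obtain ⟨m, h1, h2, h3⟩ := hx
  obtain ⟨m', h1', h2', h3'⟩ := hy
  refine ⟨m + m', fun i => (h1 i).add (h1' i), ?_, ?_⟩
  · have : ∑ i, (x + y) i = ∑ i, x i + ∑ i, y i := by
      simp [Finset.sum_add_distrib]
    rw [this, mul_add]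
    exact h2.add h2'
  · intro k
    by_cases hk : k ≡ m + m' [ZMOD 2]
    · have : (Finset.univ.filter fun i : GolayPt => (x + y) i ≡ k [ZMOD 4])
          = symmDiff (Finset.univ.filter fun i : GolayPt => x i ≡ m [ZMOD 4])
              (Finset.univ.filter fun i : GolayPt => y i ≡ k - m + 2 [ZMOD 4]) := by
        ext i
        simp only [Finset.mem_symmDiff, Finset.mem_filter, Finset.mem_univ, true_and, Pi.add_apply]
        have a1 := h1 i
        have a2 := h1' i
        unfold Int.ModEq at *
        omega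
      rw [this]
      exact gSupp_symmDiff (h3 m) (h3' (k - m + 2))
    · have : (Finset.univ.filter fun i : GolayPt => (x + y) i ≡ k [ZMOD 4]) = ∅ := by
        ext i
        simp only [Finset.mem_filter, Finset.mem_univ, true_and, Pi.add_apply, Finset.notMem_empty,
          iff_false]
        have a1 := h1 i
        have a2 := h1' i
        unfold Int.ModEq at *
        omega
      rw [this]; exact gSupp_empty

/-- `leechSet` as an additive subgroup. -/
def leechSub : AddSubgroup (GolayPt → ℤ) where
  carrier := leechSet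
  add_mem' := leechSet_add
  zero_mem' := leechSet_zero
  neg_mem' := leechSet_neg

theorem leechLattice_eq : leechLattice = leechSub := by
  apply le_antisymm
  · unfold leechLattice
    rw [AddSubgroup.closure_le]
    exact fun x hx => hx
  · intro x hx
    exact AddSubgroup.subset_closure hx

theorem mem_leechLattice_iff (x : GolayPt → ℤ) : x ∈ leechLattice ↔ x ∈ leechSet := by
  rw [leechLattice_eq]; rfl

end Cfsg.Agent.Lib.Helper1
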