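import Mathlib
import Cfsg.Prelude.Def_Sporadic_a
import Cfsg.Agent.Lib.Helper1.GolayEnum
import Cfsg.Agent.S0370
import Cfsg.Agent.S0372
import Cfsg.Agent.S0373

/-!
Words in three generators of the group of the length-24 code, evaluated on point indices (helper1).
-/

namespace Cfsg.Agent.Lib.Helper1

open Cfsg

/-- Point of index `i` (inverse of `gIdx`). -/
def pt (i : ℕ) : GolayPt := if i < 23 then some ((i : ℕ) : ZMod 23) else none

theorem gIdx_pt' : ∀ i : Fin 24, gIdx (pt i.val) = i.val := by decide +kernel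

theorem gIdx_pt {i : ℕ} (hi : i < 24) : gIdx (pt i) = i := gIdx_pt' ⟨i, hi⟩

theorem pt_gIdx : ∀ p : GolayPt, pt (gIdx p) = p := by decide +kernel

theorem gIdx_lt : ∀ p : GolayPt, gIdx p < 24 := by decide +kernel

theorem pt_inj {i j : ℕ} (hi : i < 24) (hj : j < 24) (h : pt i = pt j) : i = j := by
  have := congrArg gIdx h
  rwa [gIdx_pt hi, gIdx_pt hj] at this

def tA : List ℕ := [1, 2, 3, 4, 5, 6, 7, 8, 9, 10, 11, 12, 13, 14, 15, 16, 17, 18, 19, 20, 21, 22, 0, 23]
def tAi : List ℕ := [22, 0, 1, 2, 3, 4, 5, 6, 7, 8, 9, 10, 11, 12, 13, 14, 15, 16, 17, 18, 19, 20, 21, 23]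
def tB : List ℕ := [23, 22, 11, 15, 17, 9, 19, 13, 20, 5, 16, 2, 21, 7, 18, 3, 10, 4, 14, 6, 8, 12, 1, 0]
def tC : List ℕ := [0, 18, 6, 3, 2, 21, 1, 5, 16, 12, 7, 19, 8, 9, 17, 15, 13, 11, 4, 22, 10, 20, 14, 23]
def tCi : List ℕ := [0, 6, 4, 3, 18, 7, 2, 10, 12, 13, 20, 17, 9, 16, 22, 15, 8, 14, 1, 11, 21, 5, 19, 23]

/-- Table of a letter. -/
def ltbl : ℕ → List ℕ
  | 0 => tA
  | 1 => tAi
  | 2 => tB
  | 3 => tC
  | _ => tCi

/-- The translation `x ↦ x + 1`. -/
abbrev gA : Equiv.Perm GolayPt := Equiv.optionCongr (Equiv.addRight (1 : ZMod 23))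

/-- The five letters: translation, its inverse, the projective involution, the cube twist,
its inverse. -/
noncomputable def letter : ℕ → Equiv.Perm GolayPt
  | 0 => gA
  | 1 => gA⁻¹
  | 2 => projInv
  | 3 => cubeTwist
  | _ => cubeTwist⁻¹

theorem gA_tbl : ∀ i : Fin 24, gA (pt i.val) = pt (tA.getD i.val 0) := by decide +kernel

theorem gAi_tbl : ∀ i : Fin 24, gA (pt (tAi.getD i.val 0)) = pt i.val := by decide +kernel

theorem gB_tbl : ∀ i : Fin 24, projInvFun (pt i.val) = pt (tB.getD i.val 0) := by decide +kernel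

theorem gC_tbl : ∀ i : Fin 24, cubeTwistFun (pt i.val) = pt (tC.getD i.val 0) := by decide +kernel

theorem gCi_tbl : ∀ i : Fin 24, cubeTwistFun (pt (tCi.getD i.val 0)) = pt i.val := by
  decide +kernel

theorem ltbl_lt' : ∀ l : Fin 5, ∀ i : Fin 24, (ltbl l.val).getD i.val 0 < 24 := by decide +kernel

theorem ltbl_lt (l i : ℕ) (hi : i < 24) : (ltbl l).getD i 0 < 24 := by
  by_cases hl : l < 5
  · exact ltbl_lt' ⟨l, hl⟩ ⟨i, hi⟩
  · have : ltbl l = ltbl 4 := by
      obtain ⟨k, rfl⟩ : ∃ k, l = k + 5 := ⟨l - 5, by omega⟩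
      rfl
    rw [this]
    exact ltbl_lt' ⟨4, by norm_num⟩ ⟨i, hi⟩

theorem letter_apply (l i : ℕ) (hi : i < 24) : letter l (pt i) = pt ((ltbl l).getD i 0) := by
  rcases l with _ | _ | _ | _ | l
  · exact gA_tbl ⟨i, hi⟩
  · show gA⁻¹ (pt i) = pt (tAi.getD i 0)
    rw [Equiv.Perm.inv_eq_iff_eq]
    exact (gAi_tbl ⟨i, hi⟩).symm
  · exact gB_tbl ⟨i, hi⟩
  · exact gC_tbl ⟨i, hi⟩
  · show cubeTwist⁻¹ (pt i) = pt (tCi.getD i 0)
    rw [Equiv.Perm.inv_eq_iff_eq]
    exact (gCi_tbl ⟨i, hi⟩).symm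

theorem letter_mem (l : ℕ) : letter l ∈ M24 := by
  rcases l with _ | _ | _ | _ | l
  · exact Cfsg.Agent.S0370.result
  · exact M24.inv_mem Cfsg.Agent.S0370.result
  · exact Cfsg.Agent.S0372.result
  · exact Cfsg.Agent.S0373.result
  · exact M24.inv_mem Cfsg.Agent.S0373.result

/-- The subgroup generated by the three named permutations. -/
abbrev K3 : Subgroup (Equiv.Perm GolayPt) :=
  Subgroup.closure {Equiv.optionCongr (Equiv.addRight (1 : ZMod 23)), Cfsg.projInv, Cfsg.cubeTwist}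

theorem letter_mem_K3 (l : ℕ) : letter l ∈ K3 := by
  have hA : gA ∈ K3 := Subgroup.subset_closure (Set.mem_insert _ _)
  have hB : projInv ∈ K3 :=
    Subgroup.subset_closure (Set.mem_insert_of_mem _ (Set.mem_insert _ _))
  have hC : cubeTwist ∈ K3 :=
    Subgroup.subset_closure (Set.mem_insert_of_mem _ (Set.mem_insert_of_mem _ rfl))
  rcases l with _ | _ | _ | _ | l
  · exact hA
  · exact K3.inv_mem hA
  · exact hB
  · exact hC
  · exact K3.inv_mem hC

/-- The permutation of a word (head applied last). -/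
noncomputable def wordPerm : List ℕ → Equiv.Perm GolayPt
  | [] => 1
  | l :: w => letter l * wordPerm w

/-- The action of a word on point indices. -/
def wordIdx : List ℕ → ℕ → ℕ
  | [], i => i
  | l :: w, i => (ltbl l).getD (wordIdx w i) 0

theorem wordIdx_lt (w : List ℕ) (i : ℕ) (hi : i < 24) : wordIdx w i < 24 := by
  induction w with
  | nil => exact hi
  | cons l w ih => exact ltbl_lt l _ ih

theorem wordPerm_apply (w : List ℕ) (i : ℕ) (hi : i < 24) :
    wordPerm w (pt i) = pt (wordIdx w i) := by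
  induction w with
  | nil => rfl
  | cons l w ih =>
    show letter l (wordPerm w (pt i)) = pt ((ltbl l).getD (wordIdx w i) 0)
    rw [ih]
    exact letter_apply l _ (wordIdx_lt w i hi)

theorem wordPerm_mem (w : List ℕ) : wordPerm w ∈ M24 := by
  induction w with
  | nil => exact M24.one_mem
  | cons l w ih => exact M24.mul_mem (letter_mem l) ih

theorem wordPerm_mem_K3 (w : List ℕ) : wordPerm w ∈ K3 := by
  induction w with
  | nil => exact K3.one_mem
  | cons l w ih => exact K3.mul_mem (letter_mem_K3 l) ih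

theorem perm_ext_idx (σ τ : Equiv.Perm GolayPt) (h : ∀ i < 24, σ (pt i) = τ (pt i)) : σ = τ := by
  ext p
  have := h (gIdx p) (gIdx_lt p)
  rw [pt_gIdx] at this
  rw [this]

theorem mem_support_gDec (n : ℕ) (p : GolayPt) :
    p ∈ support₂ (gDec n) ↔ n.testBit (gIdx p) = true := by
  unfold support₂ gDec
  simp only [Finset.mem_filter, Finset.mem_univ, true_and]
  by_cases h : n.testBit (gIdx p) = true
  · simp [h]
  · simp [h]

open scoped Pointwise in
theorem smul_support_eq (σ : Equiv.Perm GolayPt) (m n : ℕ)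
    (h : ∀ i < 24, n.testBit (gIdx (σ (pt i))) = m.testBit i) :
    σ • support₂ (gDec m) = support₂ (gDec n) := by
  ext p
  rw [← Finset.inv_smul_mem_iff, mem_support_gDec, mem_support_gDec]
  have h1 := h (gIdx (σ⁻¹ • p)) (gIdx_lt _)
  rw [pt_gIdx] at h1
  have h2 : σ (σ⁻¹ • p) = p := by simp
  rw [h2] at h1
  rw [h1]

open scoped Pointwise in
theorem word_smul_support (w : List ℕ) (m n : ℕ)
    (h : (List.range 24).all (fun i => n.testBit (wordIdx w i) == m.testBit i) = true) :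
    wordPerm w • support₂ (gDec m) = support₂ (gDec n) := by
  apply smul_support_eq
  intro i hi
  rw [wordPerm_apply w i hi, gIdx_pt (wordIdx_lt w i hi)]
  have := List.all_eq_true.1 h i (List.mem_range.2 hi)
  simpa using this

/-- Bit-level test that a number encodes an octad. -/
def octOK (o : ℕ) : Bool := (allWords gbasis).contains o && pcI 24 o == 8

theorem oct_of_ok {o : ℕ} (h : octOK o = true) : support₂ (gDec o) ∈ octads := by
  unfold octOK at h
  rw [Bool.and_eq_true] at h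
  refine ⟨⟨gDec o, ?_, rfl⟩, ?_⟩
  · exact (mem_golay_iff _).2 ⟨o, by simpa using h.1, rfl⟩
  · rw [card_support_gDec]; simpa using h.2

theorem exists_of_mem_wordsOfWeight {b : Finset GolayPt} {k : ℕ}
    (hb : b ∈ wordsOfWeight (golayCode : Set (GolayPt → ZMod 2)) k) :
    ∃ o ∈ (allWords gbasis).filter (fun n => pcI 24 n == k), b = support₂ (gDec o) := by
  obtain ⟨⟨w, hw, rfl⟩, hc⟩ := hb
  obtain ⟨o, ho, rfl⟩ := (mem_golay_iff w).1 hw
  refine ⟨o, ?_, rfl⟩
  rw [List.mem_filter]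
  refine ⟨ho, ?_⟩
  rw [card_support_gDec] at hc
  simpa using hc

end Cfsg.Agent.Lib.Helper1
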