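import Mathlib
import Cfsg.Prelude.Def_Sporadic_a
import Cfsg.Agent.Lib.Helper1.M24Words

/-!
Five-fold transitivity of the group of the length-24 code, by explicit words (helper1).
-/

namespace Cfsg.Agent.Lib.Helper1

open Cfsg

/-- For `k = 0..4` and each index `i ≥ k`, a word fixing `0..k-1` and sending `i` to `k`. -/
def lvlCert : List (List (List ℕ)) := [
   [[],
    [1],
    [1, 1],
    [1, 1, 1],
    [1, 1, 3],
    [1, 3, 0],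
    [1, 3],
    [1, 3, 1],
    [1, 3, 1, 1],
    [1, 3, 0, 2],
    [1, 1, 2, 0],
    [1, 1, 2],
    [0, 0, 2],
    [0, 4, 0],
    [0, 4],
    [0, 4, 1],
    [1, 4, 0, 0],
    [1, 4, 0],
    [1, 4],
    [0, 3],
    [0, 0, 0],
    [0, 0],
    [0],
    [2]],
   [[],
    [],
    [3, 3],
    [2, 4, 1, 2],
    [4, 4],
    [2, 4, 0, 2, 4],
    [3],
    [2, 4, 0, 2],
    [1, 2, 1, 4],
    [1, 2, 1, 3],
    [2, 4, 1, 1, 2],
    [2, 1, 1, 1, 2],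
    [1, 2, 1],
    [1, 2, 1, 3, 3],
    [2, 3, 0, 2],
    [2, 1, 1, 1, 1, 2],
    [1, 2, 1, 4, 4],
    [2, 0, 3, 0, 2],
    [4],
    [2, 1, 1, 2, 3],
    [2, 0, 3, 3, 1, 2],
    [2, 4, 0, 0, 2],
    [2, 1, 1, 2],
    [0, 2, 0]],
   [[],
    [],
    [],
    [1, 4, 1, 4, 1, 4],
    [1, 1, 4, 0, 4, 4, 0, 4, 1],
    [2, 0, 4, 1, 1, 2],
    [2, 0, 0, 3, 0, 0, 2, 4],
    [2, 4, 1, 4, 0, 2, 3],
    [2, 3, 1, 1, 1, 2],
    [0, 0, 3, 3, 0, 4, 0, 4],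
    [2, 0, 0, 0, 2, 4],
    [2, 3, 1, 3, 1, 2],
    [2, 4, 1, 3, 0, 2, 3],
    [2, 1, 4, 0, 2],
    [2, 4, 4, 1, 1, 2, 4],
    [3, 3, 1, 3, 3, 0, 0],
    [2, 0, 0, 3, 0, 3, 1, 2],
    [0, 2, 3, 3, 0, 2, 1],
    [2, 0, 0, 3, 1, 2],
    [2, 3, 0, 3, 0, 0, 2],
    [2, 1, 3, 0, 2],
    [2, 1, 3, 3, 0, 2],
    [2, 0, 4, 0, 2, 4],
    [0, 0, 2, 0, 4, 4, 1]],
   [[],
    [],
    [],
    [],
    [0, 3, 0, 3, 0, 3],
    [2, 4, 4, 0, 0, 0, 2, 3],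
    [1, 1, 3, 1, 4, 1, 1, 3, 3],
    [2, 3, 1, 1, 3, 1, 4, 4, 1, 2, 4],
    [1, 1, 1, 1, 1, 2, 1, 3, 1, 1, 1],
    [2, 0, 4, 4, 0, 3, 1, 2, 3],
    [2, 1, 3, 1, 4, 1, 1, 1, 1, 2],
    [2, 0, 3, 3, 0, 4, 0, 4, 0, 2],
    [1, 4, 0, 4, 1, 1, 1, 2, 3, 0, 3],
    [2, 4, 0, 4, 1, 3, 3, 1, 2],
    [1, 3, 0, 4, 4, 1, 1, 1, 4],
    [0, 2, 4, 4, 1, 1, 2, 4, 1],
    [2, 1, 4, 0, 3, 0, 3, 0, 0, 2],
    [3, 0, 0, 0, 3, 3, 1, 4, 0],
    [0, 0, 2, 3, 3, 0, 2, 1, 1],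
    [2, 4, 1, 1, 1, 2, 3, 3],
    [3, 1, 2, 4, 1, 3, 0, 2, 3, 0],
    [1, 4, 1, 3, 0, 4, 0, 4, 0, 3],
    [0, 2, 4, 0, 2, 4, 0, 2, 1, 4, 4],
    [0, 0, 0, 2, 0, 4, 4, 1, 1]],
   [[],
    [],
    [],
    [],
    [],
    [2, 3, 1, 1, 4, 1, 1, 3, 1, 3, 1, 2],
    [2, 3, 0, 0, 3, 1, 4, 1, 1, 1, 1, 2, 4],
    [1, 1, 3, 0, 0, 3, 1, 4, 1, 2, 0, 3],
    [2, 4, 4, 0, 4, 0, 3, 1, 3, 1, 1, 2],
    [2, 3, 0, 4, 1, 3, 0, 0, 4, 1, 2],
    [1, 2, 4, 1, 1, 2, 4, 0, 2, 1, 3, 1, 1],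
    [1, 1, 1, 1, 4, 1, 3, 0, 4, 4, 0],
    [1, 4, 4, 1, 4, 0, 0, 0, 3, 0, 4, 4],
    [2, 3, 1, 2, 3, 1, 3, 0, 0, 3, 1, 4, 1],
    [2, 3, 0, 0, 3, 3, 1, 3, 3, 0, 2],
    [2, 0, 3, 1, 1, 4, 0, 3, 1, 2, 4],
    [1, 1, 3, 0, 2, 4, 1, 1, 1, 3, 0, 3],
    [2, 0, 0, 4, 1, 1, 1, 4, 4, 0, 2, 4, 4],
    [0, 3, 1, 1, 1, 1, 2, 4, 0, 3, 1, 1, 2],
    [0, 0, 0, 2, 3, 3, 0, 2, 1, 1, 1],
    [1, 3, 3, 1, 4, 0, 3, 0, 0, 0, 0],
    [0, 2, 3, 0, 0, 2, 4, 4, 0, 3, 0, 3],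
    [2, 1, 4, 4, 0, 4, 4, 1, 1, 2, 4],
    [0, 0, 0, 0, 2, 0, 4, 4, 1, 1, 1]]]

set_option maxRecDepth 100000 in
theorem lvlCert_ok : (List.range 5).all (fun k => (List.range 24).all (fun i =>
    decide (i < k) || (wordIdx ((lvlCert.getD k []).getD i []) i == k
      && (List.range k).all (fun j => wordIdx ((lvlCert.getD k []).getD i []) j == j)))) = true := by
  decide +kernel

theorem level (k : ℕ) (hk : k < 5) (p : GolayPt) (hp : k ≤ gIdx p) :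
    ∃ σ ∈ K3, σ p = pt k ∧ ∀ j < k, σ (pt j) = pt j := by
  have h1 := List.all_eq_true.1 lvlCert_ok k (List.mem_range.2 hk)
  have h2 := List.all_eq_true.1 h1 (gIdx p) (List.mem_range.2 (gIdx_lt p))
  rw [Bool.or_eq_true] at h2
  rcases h2 with h2 | h2
  · have : gIdx p < k := by simpa using h2
    omega
  · rw [Bool.and_eq_true] at h2
    obtain ⟨h3, h4⟩ := h2
    refine ⟨wordPerm ((lvlCert.getD k []).getD (gIdx p) []), wordPerm_mem_K3 _, ?_, ?_⟩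
    · have := wordPerm_apply ((lvlCert.getD k []).getD (gIdx p) []) (gIdx p) (gIdx_lt p)
      rw [pt_gIdx] at this
      rw [this]
      congr 1
      simpa using h3
    · intro j hj
      rw [wordPerm_apply _ j (by omega)]
      congr 1
      have := List.all_eq_true.1 h4 j (List.mem_range.2 hj)
      simpa using this

theorem to_base_aux (x : Fin 5 → GolayPt) (hx : Function.Injective x) :
    ∀ k ≤ 5, ∃ σ ∈ K3, ∀ j : Fin 5, j.val < k → σ (x j) = pt j.val := by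
  intro k
  induction k with
  | zero =>
    intro _
    exact ⟨1, K3.one_mem, fun j hj => absurd hj (Nat.not_lt_zero _)⟩
  | succ k ih =>
    intro hk
    obtain ⟨σ, hσ, hσx⟩ := ih (by omega)
    have hk5 : k < 5 := by omega
    have hp : k ≤ gIdx (σ (x ⟨k, hk5⟩)) := by
      by_contra hlt
      rw [not_le] at hlt
      have h1 := hσx ⟨gIdx (σ (x ⟨k, hk5⟩)), by omega⟩ hlt
      simp only at h1
      rw [pt_gIdx] at h1
      have h2 := hx (σ.injective h1)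
      have h3 := congrArg Fin.val h2
      simp only at h3
      omega
    obtain ⟨τ, hτ, hτp, hτj⟩ := level k hk5 _ hp
    refine ⟨τ * σ, K3.mul_mem hτ hσ, ?_⟩
    intro j hj
    rw [Equiv.Perm.mul_apply]
    by_cases hjk : j.val < k
    · rw [hσx j hjk]
      exact hτj _ hjk
    · have : j = ⟨k, hk5⟩ := by
        apply Fin.ext
        simp only
        omega
      rw [this]
      exact hτp

/-- Every injective 5-tuple can be moved to the base tuple by an element of the group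
generated by the three named permutations. -/
theorem to_base (x : Fin 5 → GolayPt) (hx : Function.Injective x) :
    ∃ σ ∈ K3, ∀ j : Fin 5, σ (x j) = pt j.val := by
  obtain ⟨σ, hσ, h⟩ := to_base_aux x hx 5 le_rfl
  exact ⟨σ, hσ, fun j => h j j.isLt⟩

theorem K3_le_M24 : K3 ≤ M24 := by
  unfold K3
  rw [Subgroup.closure_le]
  intro σ hσ
  rcases hσ with rfl | rfl | rfl
  · exact Cfsg.Agent.S0370.result
  · exact Cfsg.Agent.S0372.result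
  · exact Cfsg.Agent.S0373.result

theorem M24_5trans : MulAction.IsMultiplyPretransitive M24 GolayPt 5 := by
  rw [MulAction.isMultiplyPretransitive_iff]
  intro x y
  obtain ⟨σ, hσ, hσx⟩ := to_base x x.injective
  obtain ⟨τ, hτ, hτy⟩ := to_base y y.injective
  refine ⟨⟨τ⁻¹ * σ, M24.mul_mem (M24.inv_mem (K3_le_M24 hτ)) (K3_le_M24 hσ)⟩, ?_⟩
  refine Function.Embedding.ext (fun j => ?_)
  show (τ⁻¹ * σ) (x j) = y j
  rw [Equiv.Perm.mul_apply, hσx j, ← hτy j]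
  simp

end Cfsg.Agent.Lib.Helper1
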