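import Mathlib
import Cfsg.Prelude.Def_Sporadic_a
import Cfsg.Agent.Lib.Helper1.M24Trans
import Cfsg.Agent.S0363
import Cfsg.Agent.S0369

/-!
The order of the group of the length-24 code: the pointwise stabiliser of five points has
exactly 48 elements, all given by explicit words (helper1).
-/

namespace Cfsg.Agent.Lib.Helper1

open Cfsg

open scoped Pointwise in
theorem M24_smul_octad (σ : Equiv.Perm GolayPt) (hσ : σ ∈ M24) (b : Finset GolayPt)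
    (hb : b ∈ octads) : σ • b ∈ octads := by
  have h2 : σ • octads = octads := Cfsg.Agent.S0369.le1 hσ
  rw [← h2]
  exact Set.smul_mem_smul_set hb

open scoped Pointwise in
/-- An octad with five known fixed points is mapped to itself. -/
theorem oct_fixed (σ : Equiv.Perm GolayPt) (hσ : σ ∈ M24) (known : List ℕ)
    (hk : ∀ i ∈ known, σ (pt i) = pt i) (hlt : ∀ i ∈ known, i < 24) (o : ℕ)
    (ho : octOK o = true)
    (h5 : 5 ≤ ((known.filter (fun i => o.testBit i)).dedup).length) :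
    σ • support₂ (gDec o) = support₂ (gDec o) := by
  have hb := oct_of_ok ho
  have hb' := M24_smul_octad σ hσ _ hb
  apply Cfsg.Agent.S0363.octad_uniq _ _ hb' hb
  have hsub : ((known.filter (fun i => o.testBit i)).toFinset.image pt)
      ⊆ σ • support₂ (gDec o) ∩ support₂ (gDec o) := by
    intro p hp
    rw [Finset.mem_image] at hp
    obtain ⟨i, hi, rfl⟩ := hp
    rw [List.mem_toFinset, List.mem_filter] at hi
    obtain ⟨hik, hio⟩ := hi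
    have hmem : pt i ∈ support₂ (gDec o) := by
      rw [mem_support_gDec, gIdx_pt (hlt i hik)]
      exact hio
    rw [Finset.mem_inter]
    refine ⟨?_, hmem⟩
    have h1 : σ • pt i ∈ σ • support₂ (gDec o) := Finset.smul_mem_smul_finset hmem
    rw [Equiv.Perm.smul_def, hk i hik] at h1
    exact h1
  have hcard : ((known.filter (fun i => o.testBit i)).toFinset.image pt).card
      = ((known.filter (fun i => o.testBit i)).dedup).length := by
    rw [Finset.card_image_of_injOn, List.card_toFinset]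
    intro i hi j hj hij
    simp only [Finset.mem_coe, List.mem_toFinset, List.mem_filter] at hi hj
    exact pt_inj (hlt i hi.1) (hlt j hj.1) hij
  calc 5 ≤ ((known.filter (fun i => o.testBit i)).dedup).length := h5
    _ = ((known.filter (fun i => o.testBit i)).toFinset.image pt).card := hcard.symm
    _ ≤ _ := Finset.card_le_card hsub

/-- Check of one propagation step: the point `q` is cut out, up to known points, by octads
through `q` containing five known points. -/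
def stepOK (known : List ℕ) (q : ℕ) (os : List ℕ) : Bool :=
  decide (q < 24) && known.all (fun i => decide (i < 24)) &&
  os.all (fun o => octOK o && o.testBit q &&
    decide (5 ≤ ((known.filter (fun i => o.testBit i)).dedup).length)) &&
  (List.range 24).all (fun r => r == q || known.contains r || os.any (fun o => !o.testBit r))

open scoped Pointwise in
theorem step (σ : Equiv.Perm GolayPt) (hσ : σ ∈ M24) (known : List ℕ)
    (hk : ∀ i ∈ known, σ (pt i) = pt i) (q : ℕ) (os : List ℕ)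
    (h : stepOK known q os = true) : σ (pt q) = pt q := by
  unfold stepOK at h
  simp only [Bool.and_eq_true, decide_eq_true_eq, List.all_eq_true] at h
  obtain ⟨⟨⟨hq, hlt⟩, hos⟩, hr⟩ := h
  have hr' := hr (gIdx (σ (pt q))) (List.mem_range.2 (gIdx_lt _))
  rw [Bool.or_eq_true, Bool.or_eq_true] at hr'
  rcases hr' with (h1 | h1) | h1
  · have h2 : gIdx (σ (pt q)) = q := by simpa using h1
    have h3 := pt_gIdx (σ (pt q))
    rw [h2] at h3
    exact h3.symm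
  · have hmem : gIdx (σ (pt q)) ∈ known := by simpa using h1
    have h2 := hk _ hmem
    rw [pt_gIdx] at h2
    exact σ.injective h2
  · exfalso
    rw [List.any_eq_true] at h1
    obtain ⟨o, ho, hbit⟩ := h1
    have ho' := hos o ho
    obtain ⟨⟨hoct, hoq⟩, h5⟩ := ho'
    have hfix := oct_fixed σ hσ known hk hlt o hoct h5
    have hmem : pt q ∈ support₂ (gDec o) := by
      rw [mem_support_gDec, gIdx_pt hq]
      exact hoq
    have h3 : σ • pt q ∈ σ • support₂ (gDec o) := Finset.smul_mem_smul_finset hmem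
    rw [hfix, Equiv.Perm.smul_def, mem_support_gDec] at h3
    rw [h3] at hbit
    exact absurd hbit (by decide)

/-- Check of a chain of propagation steps. -/
def propOK : List ℕ → List (ℕ × List ℕ) → Bool
  | _, [] => true
  | known, (q, os) :: rest => stepOK known q os && propOK (q :: known) rest

theorem prop_all (σ : Equiv.Perm GolayPt) (hσ : σ ∈ M24) :
    ∀ (cert : List (ℕ × List ℕ)) (known : List ℕ), (∀ i ∈ known, σ (pt i) = pt i) →
      propOK known cert = true → ∀ e ∈ cert, σ (pt e.1) = pt e.1 := by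
  intro cert
  induction cert with
  | nil => intro known _ _ e he; exact absurd he List.not_mem_nil
  | cons c rest ih =>
    intro known hk hOK e he
    obtain ⟨q, os⟩ := c
    unfold propOK at hOK
    rw [Bool.and_eq_true] at hOK
    have hq := step σ hσ known hk q os hOK.1
    rcases List.mem_cons.1 he with rfl | he'
    · exact hq
    · refine ih (q :: known) ?_ hOK.2 e he'
      intro i hi
      rcases List.mem_cons.1 hi with rfl | hi'
      · exact hq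
      · exact hk i hi'

/-- A member of the group fixing the points of `base` is the identity, given a propagation
certificate covering all points. -/
theorem fix_of_cert (base : List ℕ) (cert : List (ℕ × List ℕ)) (hOK : propOK base cert = true)
    (hcover : (List.range 24).all
      (fun i => base.contains i || (cert.map Prod.fst).contains i) = true)
    (σ : Equiv.Perm GolayPt) (hσ : σ ∈ M24) (h : ∀ i ∈ base, σ (pt i) = pt i) : σ = 1 := by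
  apply perm_ext_idx
  intro i hi
  have h1 := List.all_eq_true.1 hcover i (List.mem_range.2 hi)
  rw [Bool.or_eq_true] at h1
  rw [Equiv.Perm.one_apply]
  rcases h1 with h1 | h1
  · exact h i (by simpa using h1)
  · have h2 : i ∈ cert.map Prod.fst := by simpa using h1
    rw [List.mem_map] at h2
    obtain ⟨e, he, rfl⟩ := h2
    exact prop_all σ hσ cert base h hOK e he

/-- Propagation certificate from the seven points `0,1,2,3,4,7,5`. -/
def prop7 : List (ℕ × List ℕ) := [(6, [262637, 2162811]),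
  (8, [262637, 10558]),
  (9, [525274, 18147]),
  (10, [5279, 18147]),
  (11, [10558, 36294]),
  (12, [5279]),
  (13, [10558]),
  (14, [18147]),
  (15, [36294]),
  (16, [69395]),
  (17, [133817]),
  (18, [262637]),
  (19, [525274]),
  (20, [1050548]),
  (21, [2101096]),
  (22, [4196943]),
  (23, [])]

set_option maxRecDepth 100000 in
theorem prop7_ok : propOK [0, 1, 2, 3, 4, 7, 5] prop7 = true := by decide +kernel

set_option maxRecDepth 100000 in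
theorem prop7_cover : (List.range 24).all
    (fun i => [0, 1, 2, 3, 4, 7, 5].contains i || (prop7.map Prod.fst).contains i) = true := by
  decide +kernel

/-- A member of the group fixing the seven points of indices `0,1,2,3,4,7,5` is trivial. -/
theorem fix7 (σ : Equiv.Perm GolayPt) (hσ : σ ∈ M24)
    (h : ∀ i ∈ [0, 1, 2, 3, 4, 7, 5], σ (pt i) = pt i) : σ = 1 :=
  fix_of_cert _ prop7 prop7_ok prop7_cover σ hσ h

/-- The 48 members of the pointwise stabiliser of the points `0..4`, as words, labelled by the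
images of the points `7` and `5`. -/
def h48 : List (ℕ × ℕ × List ℕ) := [(7, 5, []),
  (7, 6, [3, 0, 2, 1, 3, 3, 1, 4, 4, 0, 2, 4, 1, 3, 0, 4, 0, 4, 2, 1, 4, 0, 0, 0]),
  (7, 8, [4, 4, 0, 4, 4, 0, 2, 1, 3, 1, 4, 0, 3, 3, 0, 3, 0, 4, 2, 1, 1, 1, 1, 4, 1]),
  (7, 9, [1, 4, 4, 1, 4, 4, 0, 2, 1, 4, 1, 4, 1, 4, 0, 3, 0, 0, 0, 3, 3, 2, 1]),
  (7, 11, [0, 4, 1, 1, 2, 3, 3, 1, 1, 3, 1, 4, 0, 3, 0, 3, 3, 0, 0, 3, 0, 0, 3]),
  (7, 13, [0, 2, 4, 0, 4, 1, 2, 0, 0, 0, 4, 0, 3, 3, 0, 3, 3, 1, 3, 2, 0, 0, 3]),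
  (7, 14, [3, 1, 3, 3, 1, 1, 2, 1, 1, 4, 0, 0, 2, 0, 4, 2, 0, 0, 4, 1, 1, 4, 1, 4, 0]),
  (7, 15, [4, 1, 2, 0, 3, 0, 2, 4, 0, 0, 4, 1, 4, 4, 1, 3, 1, 4, 2, 0, 0, 0, 2, 0]),
  (7, 16, [1, 4, 1, 4, 1, 4, 0, 4, 0, 3, 0, 2, 3, 1, 3, 3, 0, 4, 0, 3, 3, 2, 0, 0, 3]),
  (7, 17, [1, 1, 4, 0, 0, 0, 0, 2, 4, 4, 1, 1, 4, 1, 4, 1, 2, 0, 3, 0, 0, 4, 4, 1, 2]),
  (7, 18, [1, 2, 1, 4, 0, 0, 4, 1, 2, 0, 3, 0, 3, 1, 3, 1, 1, 3, 0, 3, 1, 4, 0, 2, 0]),
  (7, 19, [0, 3, 0, 2, 4, 1, 3, 3, 0, 4, 1, 1, 2, 3, 0, 3, 0, 0, 3, 0, 0, 0, 0, 0, 2]),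
  (7, 20, [0, 2, 4, 1, 1, 4, 1, 2, 0, 3, 1, 2, 3, 1, 3, 0, 4, 0, 0, 4, 4, 1, 2, 0, 4]),
  (7, 21, [3, 0, 0, 2, 3, 1, 2, 0, 0, 4, 0, 0, 0, 3, 0, 0, 0, 4, 2, 0, 4, 2, 0, 0, 2]),
  (7, 22, [0, 3, 3, 1, 4, 1, 3, 1, 4, 1, 2, 4, 4, 4, 0, 2, 0, 0, 4, 2, 0, 4, 1, 3]),
  (7, 23, [1, 4, 0, 4, 0, 4, 0, 3, 1, 3, 0, 4, 1, 3, 1, 4, 2, 0, 0, 4, 0, 2, 1, 4]),
  (10, 5, [2, 0, 3, 0, 2, 4, 1, 3, 0, 3, 1, 3, 3, 3, 0, 0, 0, 4, 1, 3, 0, 2, 0, 0]),
  (10, 6, [1, 2, 1, 4, 0, 3, 3, 0, 4, 0, 0, 4, 0, 3, 3, 1, 4, 1, 1, 1, 3, 3, 0, 3]),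
  (10, 8, [3, 0, 4, 1, 3, 1, 4, 1, 4, 4, 0, 4, 0, 0, 4, 1, 4, 2, 0, 3, 1, 3, 0, 3, 1]),
  (10, 9, [3, 3, 0, 3, 3, 1, 2, 3, 0, 2, 1, 1, 2, 3, 3, 0, 0, 3, 0, 4, 1, 3, 1, 4, 2, 0]),
  (10, 11, [3, 3, 0, 4, 0, 2, 3, 3, 0, 0, 0, 4, 1, 4, 0, 2, 1, 4, 2, 1, 1, 4, 0, 3]),
  (10, 13, [2, 1, 3, 3, 0, 3, 1, 4, 1, 2, 3, 1, 1, 3, 1, 4, 1, 1, 3, 1, 4, 1, 4, 2, 0]),
  (10, 14, [2, 4, 1, 4, 4, 0, 2, 4, 4, 0, 2, 4, 4, 0, 2, 1, 4, 2, 0, 0, 0, 4, 0, 0]),
  (10, 15, [1, 4, 4, 1, 1, 1, 4, 0, 3, 0, 3, 0, 3, 1, 4, 0, 0, 3, 2, 0, 4, 2, 1, 3]),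
  (10, 16, [2, 4, 1, 1, 3, 3, 1, 1, 2, 4, 1, 3, 0, 3, 0, 0, 3, 2, 0, 4, 0, 0, 4, 2, 1]),
  (10, 17, [4, 1, 4, 1, 1, 1, 1, 1, 3, 1, 1, 4, 4, 4, 0, 4, 4, 1, 1, 4, 4, 2, 0, 4, 0, 3, 1]),
  (10, 18, [4, 1, 2, 4, 0, 3, 0, 4, 4, 1, 1, 4, 4, 1, 1, 1, 2, 0, 4, 2, 0, 3, 2]),
  (10, 19, [2, 3, 0, 4, 1, 2, 3, 3, 1, 2, 0, 0, 0, 4, 0, 3, 2, 1, 3, 1, 2, 1, 1, 3, 1]),
  (10, 20, [2, 0, 4, 1, 4, 1, 4, 0, 4, 0, 0, 2, 0, 3, 3, 1, 3, 0, 4, 1, 3, 3, 1, 3, 3]),
  (10, 21, [4, 4, 0, 4, 1, 3, 0, 4, 1, 4, 0, 0, 2, 0, 2, 1, 4, 1, 1, 4, 2, 0, 3, 3, 0]),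
  (10, 22, [4, 4, 0, 3, 1, 3, 1, 3, 1, 4, 1, 2, 4, 0, 3, 0, 4, 4, 1, 1, 1, 1, 2, 0]),
  (10, 23, [2, 1, 4, 1, 2, 3, 0, 2, 3, 1, 3, 3, 3, 0, 0, 0, 0, 4, 2, 1, 3, 0, 0, 0]),
  (12, 5, [1, 1, 1, 2, 3, 1, 3, 1, 1, 1, 2, 0, 4, 4, 2, 1, 3, 0, 3, 2, 0, 4, 0, 4, 2]),
  (12, 6, [0, 3, 0, 0, 3, 1, 1, 1, 1, 1, 1, 2, 4, 0, 0, 3, 1, 4, 2, 0, 0, 2]),
  (12, 8, [4, 4, 1, 2, 3, 0, 0, 2, 1, 4, 4, 2, 1, 1, 4, 0, 4, 0, 3, 1, 3, 3, 0, 0]),
  (12, 9, [3, 1, 3, 3, 0, 4, 1, 4, 1, 2, 1, 1, 1, 3, 0, 0, 3, 3, 1, 4, 2]),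
  (12, 11, [3, 0, 2, 4, 0, 2, 1, 1, 1, 3, 0, 3, 3, 0, 3, 2, 0, 4, 2, 0, 3, 0, 4, 4]),
  (12, 13, [3, 0, 3, 3, 1, 1, 1, 2, 3, 0, 3, 2, 0, 0, 3, 0, 0, 4, 0, 3, 0, 0, 4, 2]),
  (12, 14, [3, 1, 1, 2, 0, 0, 2, 1, 3, 1, 2, 3, 3, 1, 4, 0, 3, 0, 2, 1, 1, 1, 4]),
  (12, 15, [0, 3, 1, 2, 4, 1, 4, 0, 3, 1, 4, 1, 2, 1, 1, 2, 1, 1, 3, 1, 1, 2, 0, 4, 2]),
  (12, 16, [0, 4, 1, 1, 1, 4, 0, 3, 3, 1, 1, 2, 3, 0, 0, 0, 4, 0, 0, 3, 1, 1, 2]),
  (12, 17, [2, 1, 3, 3, 0, 3, 1, 4, 1, 1, 3, 1, 1, 4, 1, 1, 3, 3, 0, 0, 4, 1, 2]),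
  (12, 18, [0, 4, 1, 4, 1, 3, 1, 4, 0, 0, 2, 4, 0, 2, 1, 4, 1, 2, 1, 1, 4, 1, 1, 4]),
  (12, 19, [1, 2, 0, 4, 4, 1, 4, 4, 1, 1, 2, 4, 0, 3, 0, 0, 3, 0, 0, 3, 1, 1]),
  (12, 20, [2, 3, 0, 2, 1, 3, 1, 1, 2, 3, 2, 0, 4, 2, 0, 4, 0, 0, 4, 1]),
  (12, 21, [2, 1, 1, 2, 4, 1, 4, 1, 1, 2, 4, 1, 1, 2, 0, 4, 0, 0, 2, 1, 3, 1, 3, 3]),
  (12, 22, [4, 0, 4, 1, 2, 3, 0, 0, 0, 0, 4, 4, 4, 4, 0, 4, 2, 0, 0, 3, 0, 3, 2, 0]),
  (12, 23, [2, 3, 1, 1, 1, 2, 4, 4, 0, 2, 4, 0, 3, 3, 1, 4, 2, 1, 1, 4, 4, 0, 0, 0, 2])]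

/-- The base octad through the points `0..4`. -/
def O5 : ℕ := 5279

set_option maxRecDepth 100000 in
theorem h48_ok : h48.all (fun e => wordIdx e.2.2 7 == e.1 && wordIdx e.2.2 5 == e.2.1
    && (List.range 5).all (fun j => wordIdx e.2.2 j == j)) = true := by decide +kernel

set_option maxRecDepth 100000 in
theorem h48_cover : (List.range 24).all (fun u => (List.range 24).all (fun v =>
    !O5.testBit u || [0, 1, 2, 3, 4].contains u || O5.testBit v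
      || (h48.map (fun e => (e.1, e.2.1))).contains (u, v))) = true := by decide +kernel

set_option maxRecDepth 100000 in
theorem O5_ok : octOK O5 = true := by decide +kernel

set_option maxRecDepth 100000 in
theorem O5_bits : (List.range 5).all (fun j => O5.testBit j) = true ∧ O5.testBit 7 = true
    ∧ O5.testBit 5 = false := by decide +kernel

open scoped Pointwise in
/-- A member of the group fixing the points `0..4` maps the base octad to itself. -/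
theorem fix5_O5 (ρ : Equiv.Perm GolayPt) (hρ : ρ ∈ M24) (h : ∀ j < 5, ρ (pt j) = pt j) :
    ρ • support₂ (gDec O5) = support₂ (gDec O5) := by
  apply oct_fixed ρ hρ [0, 1, 2, 3, 4] _ _ O5 O5_ok (by decide +kernel)
  · intro i hi
    exact h i (by simp at hi; omega)
  · intro i hi
    simp at hi; omega

open scoped Pointwise in
/-- A member of the group fixing the points `0..4` is one of the 48 words. -/
theorem fix5_eq_word (ρ : Equiv.Perm GolayPt) (hρ : ρ ∈ M24) (h : ∀ j < 5, ρ (pt j) = pt j) :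
    ∃ e ∈ h48, ρ = wordPerm e.2.2 ∧ gIdx (ρ (pt 7)) = e.1 ∧ gIdx (ρ (pt 5)) = e.2.1 := by
  have hO := fix5_O5 ρ hρ h
  have hu : O5.testBit (gIdx (ρ (pt 7))) = true := by
    have hmem : pt 7 ∈ support₂ (gDec O5) := by
      rw [mem_support_gDec, gIdx_pt (by norm_num)]
      exact O5_bits.2.1
    have h3 : ρ • pt 7 ∈ ρ • support₂ (gDec O5) := Finset.smul_mem_smul_finset hmem
    rw [hO, Equiv.Perm.smul_def, mem_support_gDec] at h3
    exact h3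
  have hv : O5.testBit (gIdx (ρ (pt 5))) = false := by
    by_contra hne
    have hne' : O5.testBit (gIdx (ρ (pt 5))) = true := by simpa using hne
    have h3 : ρ (pt 5) ∈ ρ • support₂ (gDec O5) := by
      rw [hO, mem_support_gDec]; exact hne'
    have h4 : ρ • pt 5 ∈ ρ • support₂ (gDec O5) := h3
    rw [Finset.smul_mem_smul_finset_iff, mem_support_gDec, gIdx_pt (by norm_num)] at h4
    rw [O5_bits.2.2] at h4
    exact absurd h4 (by decide)
  have hu' : ¬ ([0, 1, 2, 3, 4].contains (gIdx (ρ (pt 7))) = true) := by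
    intro hc
    have hc' : gIdx (ρ (pt 7)) < 5 := by
      simp at hc; omega
    have h1 := h _ hc'
    rw [pt_gIdx] at h1
    have h2 := ρ.injective h1
    have h3 : gIdx (ρ (pt 7)) = 7 := by
      rw [h2]; exact gIdx_pt (by norm_num)
    omega
  have hc := List.all_eq_true.1 (List.all_eq_true.1 h48_cover (gIdx (ρ (pt 7)))
    (List.mem_range.2 (gIdx_lt _))) (gIdx (ρ (pt 5))) (List.mem_range.2 (gIdx_lt _))
  rw [hu, hv] at hc
  simp only [Bool.not_true, Bool.false_or, Bool.or_false] at hc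
  rw [Bool.or_eq_true] at hc
  rcases hc with hc | hc
  · exact absurd hc hu'
  · have hc' : (gIdx (ρ (pt 7)), gIdx (ρ (pt 5))) ∈ h48.map (fun e => (e.1, e.2.1)) := by
      simpa using hc
    rw [List.mem_map] at hc'
    obtain ⟨e, he, hee⟩ := hc'
    have he1 : e.1 = gIdx (ρ (pt 7)) := congrArg Prod.fst hee
    have he2 : e.2.1 = gIdx (ρ (pt 5)) := congrArg Prod.snd hee
    refine ⟨e, he, ?_, he1.symm, he2.symm⟩
    have hw := List.all_eq_true.1 h48_ok e he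
    simp only [Bool.and_eq_true, beq_iff_eq, List.all_eq_true, List.mem_range] at hw
    obtain ⟨⟨hw7, hw5⟩, hwj⟩ := hw
    -- (wordPerm w)⁻¹ * ρ fixes seven points
    have hfix : (wordPerm e.2.2)⁻¹ * ρ = 1 := by
      apply fix7 _ (M24.mul_mem (M24.inv_mem (wordPerm_mem _)) hρ)
      intro i hi
      rw [Equiv.Perm.mul_apply, Equiv.Perm.inv_eq_iff_eq]
      have hi' : i < 5 ∨ i = 7 ∨ i = 5 := by simp at hi; omega
      rcases hi' with hi' | rfl | rfl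
      · rw [h i hi', wordPerm_apply _ i (by omega), hwj i hi']
      · rw [wordPerm_apply _ 7 (by norm_num), hw7, he1, pt_gIdx]
      · rw [wordPerm_apply _ 5 (by norm_num), hw5, he2, pt_gIdx]
    exact (inv_mul_eq_one.1 hfix).symm

end Cfsg.Agent.Lib.Helper1
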