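import Mathlib
import Cfsg.Prelude.Def_Sporadic_a
import Cfsg.Agent.Lib.Helper1.M24Order

/-!
Mask-level tools for counting and orbit certificates in the group of the length-24 code (helper1).
-/

namespace Cfsg.Agent.Lib.Helper1

open Cfsg

open scoped Pointwise

/-- The set of points of a mask. -/
abbrev S (n : ℕ) : Finset GolayPt := support₂ (gDec n)

theorem mem_S (n : ℕ) (p : GolayPt) : p ∈ S n ↔ n.testBit (gIdx p) = true := mem_support_gDec n p

theorem pt_mem_S (n i : ℕ) (hi : i < 24) : pt i ∈ S n ↔ n.testBit i = true := by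
  rw [mem_S, gIdx_pt hi]

theorem S_inter (m n : ℕ) : S m ∩ S n = S (m &&& n) := by
  ext p
  simp only [Finset.mem_inter, mem_S, Nat.testBit_and, Bool.and_eq_true]

theorem S_card (n : ℕ) : (S n).card = pcI 24 n := card_support_gDec n

theorem S_inj {m n : ℕ} (hm : m ∈ allWords gbasis) (hn : n ∈ allWords gbasis) (h : S m = S n) :
    m = n := support_gDec_injOn hm hn h

/-- Counting supports of enumerated words with a bit-level property. -/
theorem ncard_filter (P : ℕ → Bool) :
    {b : Finset GolayPt | ∃ n ∈ allWords gbasis, P n = true ∧ b = S n}.ncard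
      = ((allWords gbasis).filter P).length := by
  have hset : {b : Finset GolayPt | ∃ n ∈ allWords gbasis, P n = true ∧ b = S n}
      = (fun n => S n) '' (↑((allWords gbasis).filter P).toFinset : Set ℕ) := by
    ext b
    constructor
    · rintro ⟨n, hn, hP, rfl⟩
      refine ⟨n, ?_, rfl⟩
      simp only [Finset.mem_coe, List.mem_toFinset, List.mem_filter]
      exact ⟨hn, hP⟩
    · rintro ⟨n, hn, rfl⟩
      simp only [Finset.mem_coe, List.mem_toFinset, List.mem_filter] at hn
      exact ⟨n, hn.1, hn.2, rfl⟩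
  have hinj : Set.InjOn (fun n => S n) (↑((allWords gbasis).filter P).toFinset : Set ℕ) := by
    intro m hm n hn h
    simp only [Finset.mem_coe, List.mem_toFinset, List.mem_filter] at hm hn
    exact S_inj hm.1 hn.1 h
  rw [hset, hinj.ncard_image, Set.ncard_coe_finset,
    List.toFinset_card_of_nodup (allWords_gbasis_nodup.filter _)]

theorem mem_weight_iff (b : Finset GolayPt) (k : ℕ) :
    b ∈ wordsOfWeight (golayCode : Set (GolayPt → ZMod 2)) k
      ↔ ∃ n ∈ allWords gbasis, pcI 24 n = k ∧ b = S n := by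
  constructor
  · intro hb
    obtain ⟨n, hn, rfl⟩ := exists_of_mem_wordsOfWeight hb
    rw [List.mem_filter] at hn
    exact ⟨n, hn.1, by simpa using hn.2, rfl⟩
  · rintro ⟨n, hn, hk, rfl⟩
    refine ⟨⟨gDec n, (mem_golay_iff _).2 ⟨n, hn, rfl⟩, rfl⟩, ?_⟩
    rw [card_support_gDec]; exact hk

theorem mem_octads_iff (b : Finset GolayPt) :
    b ∈ octads ↔ ∃ n ∈ allWords gbasis, pcI 24 n = 8 ∧ b = S n := mem_weight_iff b 8

theorem mem_dodecads_iff (b : Finset GolayPt) :
    b ∈ dodecads ↔ ∃ n ∈ allWords gbasis, pcI 24 n = 12 ∧ b = S n := mem_weight_iff b 12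

theorem smul_mem_weight_iff (g : Equiv.Perm GolayPt) (hg : g ∈ M24) (b : Finset GolayPt) (k : ℕ) :
    g • b ∈ wordsOfWeight (golayCode : Set (GolayPt → ZMod 2)) k
      ↔ b ∈ wordsOfWeight (golayCode : Set (GolayPt → ZMod 2)) k := by
  constructor
  · rintro ⟨h1, h2⟩
    have h3 := M24_smul_mem g⁻¹ (M24.inv_mem hg) _ h1
    rw [inv_smul_smul] at h3
    rw [Finset.card_smul_finset] at h2
    exact ⟨h3, h2⟩
  · rintro ⟨h1, h2⟩
    refine ⟨M24_smul_mem g hg _ h1, ?_⟩
    rw [Finset.card_smul_finset]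
    exact h2

theorem smul_mem_octads_iff (g : Equiv.Perm GolayPt) (hg : g ∈ M24) (b : Finset GolayPt) :
    g • b ∈ octads ↔ b ∈ octads := smul_mem_weight_iff g hg b 8

theorem smul_mem_dodecads_iff (g : Equiv.Perm GolayPt) (hg : g ∈ M24) (b : Finset GolayPt) :
    g • b ∈ dodecads ↔ b ∈ dodecads := smul_mem_weight_iff g hg b 12

/-- Transport of a count along a permutation. -/
theorem ncard_transport (g : Equiv.Perm GolayPt) (A B : Set (Finset GolayPt))
    (h : ∀ b, b ∈ B ↔ g⁻¹ • b ∈ A) : B.ncard = A.ncard := by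
  have : B = g • A := by
    ext b
    rw [h b, Set.mem_smul_set_iff_inv_smul_mem]
  rw [this, Set.ncard_smul_set]

theorem card_smul_inter (g : Equiv.Perm GolayPt) (a b : Finset GolayPt) :
    (g • a ∩ b).card = (a ∩ g⁻¹ • b).card := by
  have : g • a ∩ b = g • (a ∩ g⁻¹ • b) := by
    rw [Finset.smul_finset_inter, smul_inv_smul]
  rw [this, Finset.card_smul_finset]

theorem perm_mem_inv_smul (g : Equiv.Perm GolayPt) (p : GolayPt) (b : Finset GolayPt) :
    p ∈ g⁻¹ • b ↔ g p ∈ b := by
  rw [Finset.mem_inv_smul_finset_iff]; rfl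

/-- The word `w` carries the mask `m` to the mask `n`. -/
def mapsTo (w : List ℕ) (m n : ℕ) : Bool :=
  (List.range 24).all (fun i => n.testBit (wordIdx w i) == m.testBit i)

theorem mapsTo_smul {w : List ℕ} {m n : ℕ} (h : mapsTo w m n = true) :
    wordPerm w • S m = S n := word_smul_support w m n h

/-- Check of an orbit certificate: each word carries the base mask to the listed mask, fixes
the masks of `fixM` and the points of `fixP`. -/
def certOK (fixM fixP : List ℕ) (base : ℕ) (cert : List (ℕ × List ℕ)) : Bool :=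
  cert.all (fun e => mapsTo e.2 base e.1 && fixM.all (fun f => mapsTo e.2 f f)
    && fixP.all (fun i => decide (i < 24) && wordIdx e.2 i == i))

theorem cert_reach {fixM fixP : List ℕ} {base : ℕ} {cert : List (ℕ × List ℕ)}
    (h : certOK fixM fixP base cert = true) {e : ℕ × List ℕ} (he : e ∈ cert) :
    ∃ g ∈ M24, g • S base = S e.1 ∧ (∀ f ∈ fixM, g • S f = S f)
      ∧ (∀ i ∈ fixP, g (pt i) = pt i) := by
  have h1 := List.all_eq_true.1 h e he
  simp only [Bool.and_eq_true, List.all_eq_true, decide_eq_true_eq, beq_iff_eq] at h1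
  obtain ⟨⟨h2, h3⟩, h4⟩ := h1
  refine ⟨wordPerm e.2, wordPerm_mem _, mapsTo_smul h2, fun f hf => mapsTo_smul (h3 f hf), ?_⟩
  intro i hi
  obtain ⟨hi24, hw⟩ := h4 i hi
  rw [wordPerm_apply _ i hi24, hw]

theorem cert_trans {fixM fixP : List ℕ} {base : ℕ} {cert : List (ℕ × List ℕ)}
    (h : certOK fixM fixP base cert = true) {e e' : ℕ × List ℕ} (he : e ∈ cert)
    (he' : e' ∈ cert) :
    ∃ g ∈ M24, g • S e.1 = S e'.1 ∧ (∀ f ∈ fixM, g • S f = S f)
      ∧ (∀ i ∈ fixP, g (pt i) = pt i) := by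
  obtain ⟨g, hg, h1, h2, h3⟩ := cert_reach h he
  obtain ⟨g', hg', h1', h2', h3'⟩ := cert_reach h he'
  refine ⟨g' * g⁻¹, M24.mul_mem hg' (M24.inv_mem hg), ?_, ?_, ?_⟩
  · rw [← h1, mul_smul, inv_smul_smul, h1']
  · intro f hf
    rw [mul_smul]
    have : g⁻¹ • S f = S f := by
      conv_lhs => rw [← h2 f hf]
      rw [inv_smul_smul]
    rw [this, h2' f hf]
  · intro i hi
    rw [Equiv.Perm.mul_apply]
    have : g⁻¹ (pt i) = pt i := by
      rw [Equiv.Perm.inv_eq_iff_eq, h3 i hi]
    rw [this, h3' i hi]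

end Cfsg.Agent.Lib.Helper1
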