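import Mathlib
import Cfsg.Prelude.Def_Sporadic_a
import Cfsg.Agent.Lib.Helper1.M24Cfg
import Cfsg.Agent.S0367

/-!
Reduction of configurations (an octad with marked points) to base configurations, and class
certificates for orbits of stabilisers (helper1).
-/

namespace Cfsg.Agent.Lib.Helper1

open Cfsg

open scoped Pointwise

/-- Check of a point certificate: each word fixes the masks of `fixM` and carries the points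
`src` to the listed points. -/
def pcertOK (fixM : List ℕ) (src : List ℕ) (cert : List (List ℕ × List ℕ)) : Bool :=
  cert.all (fun e => fixM.all (fun f => mapsTo e.2 f f)
    && (src.zip e.1).all (fun st => decide (st.1 < 24) && wordIdx e.2 st.1 == st.2))

theorem pcert_reach {fixM src : List ℕ} {cert : List (List ℕ × List ℕ)}
    (h : pcertOK fixM src cert = true) {e : List ℕ × List ℕ} (he : e ∈ cert) :
    ∃ g ∈ M24, (∀ f ∈ fixM, g • S f = S f) ∧ ∀ st ∈ src.zip e.1, g (pt st.1) = pt st.2 := by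
  have h1 := List.all_eq_true.1 h e he
  simp only [Bool.and_eq_true, List.all_eq_true, decide_eq_true_eq, beq_iff_eq] at h1
  obtain ⟨h2, h3⟩ := h1
  refine ⟨wordPerm e.2, wordPerm_mem _, fun f hf => mapsTo_smul (h2 f hf), ?_⟩
  intro st hst
  obtain ⟨h24, hw⟩ := h3 st hst
  rw [wordPerm_apply _ _ h24, hw]

/-- Words stabilising the base octad and moving the point `0` to each of its points. -/
def certIn1 : List (List ℕ × List ℕ) := [([0], []),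
  ([1], [1, 1, 4, 1, 4, 0, 0]),
  ([2], [0, 0, 4, 2, 1, 3, 2]),
  ([3], [1, 1, 3, 0, 3, 0, 0]),
  ([4], [4, 0, 0, 3, 3]),
  ([7], [4, 4, 1, 1, 3]),
  ([10], [3, 0, 2, 0, 0, 4, 0, 0]),
  ([12], [1, 2, 0, 3, 0, 0, 4])]

/-- Words stabilising the base octad and moving the points `0, 1` to each ordered pair of its
points. -/
def certIn2 : List (List ℕ × List ℕ) := [([0, 1], []),
  ([0, 2], [4, 2, 1, 1, 4, 1, 1, 2]),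
  ([0, 3], [2, 0, 0, 3, 0, 0, 3, 2]),
  ([0, 4], [0, 4, 0, 3, 1, 1, 3, 0]),
  ([0, 7], [3, 1, 4, 1, 1, 1, 1, 1]),
  ([0, 10], [2, 0, 0, 3, 2]),
  ([0, 12], [4, 2, 1, 1, 2]),
  ([1, 0], [4, 0, 4, 1, 3, 2, 1, 4, 0]),
  ([1, 2], [1, 1, 4, 1, 4, 0, 0]),
  ([1, 3], [4, 1, 3, 0, 4, 0, 4, 0, 4]),
  ([1, 4], [4, 0, 4, 0, 3, 3, 1, 1]),
  ([1, 7], [0, 0, 0, 4, 1, 3, 1, 4, 0]),
  ([1, 10], [3, 0, 2, 0, 0, 0, 3, 0, 0]),
  ([1, 12], [3, 0, 3, 0, 4, 0, 3]),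
  ([2, 0], [3, 1, 1, 3, 0, 3, 3, 0, 0]),
  ([2, 1], [2, 0, 0, 4, 2, 1, 1, 3]),
  ([2, 3], [4, 0, 4, 1, 1, 3, 0, 2, 0]),
  ([2, 4], [0, 0, 4, 2, 1, 1, 1, 2]),
  ([2, 7], [1, 4, 1, 3, 1, 3, 2, 0, 0]),
  ([2, 10], [4, 0, 2, 1, 3, 1, 1, 1]),
  ([2, 12], [0, 0, 4, 2, 1, 3, 2]),
  ([3, 0], [1, 1, 3, 0, 3, 0, 0]),
  ([3, 1], [0, 3, 3, 1, 1, 3, 1, 1, 4]),
  ([3, 2], [1, 1, 4, 2, 0, 4, 0, 3, 0]),
  ([3, 4], [3, 1, 1, 4, 1, 2, 0]),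
  ([3, 7], [0, 0, 0, 3, 2, 1, 3, 0, 3, 2]),
  ([3, 10], [4, 4, 0, 0, 0, 4, 4]),
  ([3, 12], [0, 0, 0, 4, 2, 0, 3, 1, 2]),
  ([4, 0], [0, 3, 0, 3, 3, 1, 4, 1, 4]),
  ([4, 1], [4, 0, 0, 3, 2, 1, 1, 2]),
  ([4, 2], [4, 0, 0, 3, 3]),
  ([4, 3], [3, 3, 1, 3, 1, 4, 1, 1]),
  ([4, 7], [4, 2, 0, 4, 2, 1, 3, 1, 3]),
  ([4, 10], [4, 1, 2, 1, 1, 3, 3, 2, 0]),
  ([4, 12], [1, 2, 0, 4, 4, 1, 3, 2, 0]),
  ([7, 0], [3, 1, 1, 3, 3, 1, 3, 2, 0]),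
  ([7, 1], [3, 0, 2, 1, 3, 0, 0, 3]),
  ([7, 2], [4, 2, 0, 3, 2, 1, 1]),
  ([7, 3], [2, 0, 0, 0, 2, 1, 3, 3, 2, 0]),
  ([7, 4], [3, 3, 1, 1, 1, 3, 3]),
  ([7, 10], [0, 0, 0, 4, 0, 2, 1, 3]),
  ([7, 12], [4, 4, 1, 1, 3]),
  ([10, 0], [0, 0, 4, 4, 1, 3, 1, 3]),
  ([10, 1], [4, 1, 3, 3, 1, 3, 0, 4, 1]),
  ([10, 2], [2, 0, 4, 1, 3, 2, 1, 1, 1]),
  ([10, 3], [4, 0, 4, 0, 3, 2, 1, 3, 2]),
  ([10, 4], [0, 4, 0, 4, 4, 1, 4, 4]),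
  ([10, 7], [3, 0, 2, 0, 0, 4, 0, 0]),
  ([10, 12], [0, 3, 2, 1, 1, 4, 2, 1, 1]),
  ([12, 0], [4, 4, 1, 4, 0, 3, 3, 1, 1]),
  ([12, 1], [3, 3, 0, 4, 4, 1, 1, 3, 0]),
  ([12, 2], [1, 4, 4, 2, 0, 3, 1, 1]),
  ([12, 3], [1, 2, 0, 3, 0, 0, 4]),
  ([12, 4], [1, 3, 2, 1, 4, 4, 2, 0]),
  ([12, 7], [2, 0, 4, 1, 1, 2, 1, 1, 3]),
  ([12, 10], [1, 3, 3, 2, 0, 4, 2, 0])]

/-- Words stabilising the base octad and moving the point `5` to each point outside it. -/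
def certOut1 : List (List ℕ × List ℕ) := [([5], []),
  ([6], [0, 0, 4, 2, 1, 3, 2]),
  ([8], [4, 4, 0, 0, 0, 4, 4]),
  ([9], [1, 3, 3, 2, 0, 4, 2, 0]),
  ([11], [1, 1, 4, 1, 4, 0, 0]),
  ([13], [0, 0, 4, 2, 1, 1, 1, 2]),
  ([14], [3, 1, 1, 4, 1, 2, 0]),
  ([15], [2, 0, 4, 1, 1, 3, 3, 2]),
  ([16], [4, 2, 1, 1, 2]),
  ([17], [4, 4, 1, 1, 3]),
  ([18], [2, 0, 0, 3, 2]),
  ([19], [4, 0, 0, 3, 3]),
  ([20], [4, 2, 0, 3, 2, 1, 1]),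
  ([21], [1, 4, 4, 2, 0, 3, 1, 1]),
  ([22], [1, 1, 3, 0, 3, 0, 0]),
  ([23], [3, 0, 3, 3, 2, 1, 1, 4, 0])]

/-- Words stabilising the base octad and moving the points `0, 5` to each pair (point inside,
point outside). -/
def certInOut : List (List ℕ × List ℕ) := [([0, 5], []),
  ([0, 6], [2, 0, 0, 3, 0, 0, 3, 2]),
  ([0, 8], [4, 0, 4, 4, 1, 3, 0, 4]),
  ([0, 9], [0, 0, 0, 3, 3, 1, 3, 0, 0]),
  ([0, 11], [1, 4, 0, 0, 4, 1, 3, 1]),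
  ([0, 13], [1, 3, 2, 1, 3, 0, 3, 1, 1]),
  ([0, 14], [3, 1, 4, 1, 1, 1, 1, 1]),
  ([0, 15], [2, 0, 4, 1, 1, 3, 3, 2]),
  ([0, 16], [4, 2, 1, 1, 2]),
  ([0, 17], [2, 0, 4, 1, 1, 3, 1, 1, 2]),
  ([0, 18], [2, 0, 0, 3, 2]),
  ([0, 19], [4, 4, 2, 0, 0, 3, 1, 2]),
  ([0, 20], [3, 2, 1, 4, 1, 1, 1, 1, 4, 2]),
  ([0, 21], [4, 2, 1, 1, 4, 1, 1, 2]),
  ([0, 22], [3, 1, 2, 0, 3, 0, 0, 0, 0, 0]),
  ([0, 23], [2, 0, 4, 1, 3, 3, 1, 3, 1, 2]),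
  ([1, 5], [1, 1, 1, 3, 0, 2, 1, 4, 1, 1]),
  ([1, 6], [3, 1, 3, 0, 2, 1, 4, 0, 4]),
  ([1, 8], [3, 1, 4, 0, 4, 1, 1, 3, 3, 0]),
  ([1, 9], [4, 4, 2, 0, 3, 2, 1, 1, 1]),
  ([1, 11], [1, 1, 4, 1, 4, 0, 0]),
  ([1, 13], [3, 2, 0, 4, 1, 1, 4, 2, 1]),
  ([1, 14], [4, 0, 4, 1, 3, 2, 1, 4, 0]),
  ([1, 15], [3, 3, 1, 4, 0, 3, 0, 0, 0, 0]),
  ([1, 16], [1, 1, 3, 2, 0, 3, 0, 0, 3, 1, 1]),
  ([1, 17], [0, 0, 0, 4, 1, 3, 1, 4, 0]),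
  ([1, 18], [3, 0, 3, 0, 4, 4, 1, 4, 1]),
  ([1, 19], [3, 0, 3, 0, 4, 0, 3]),
  ([1, 20], [3, 0, 2, 0, 0, 0, 3, 0, 0]),
  ([1, 21], [1, 3, 0, 0, 4, 4, 2, 1, 4]),
  ([1, 22], [3, 3, 1, 4, 1, 4, 0, 0, 4, 4]),
  ([1, 23], [0, 4, 0, 0, 2, 1, 1, 3, 1]),
  ([2, 5], [3, 2, 1, 1, 4, 2, 1, 4, 4, 0]),
  ([2, 6], [0, 0, 4, 2, 1, 3, 2]),
  ([2, 8], [3, 1, 1, 3, 0, 3, 3, 0, 0]),
  ([2, 9], [3, 3, 1, 1, 1, 1, 1, 3]),
  ([2, 11], [3, 0, 0, 3, 0, 4, 1, 3, 3, 0]),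
  ([2, 13], [0, 0, 4, 2, 1, 1, 1, 2]),
  ([2, 14], [2, 0, 0, 0, 3, 2, 1, 1]),
  ([2, 15], [4, 2, 0, 4, 2, 1, 3, 0, 3, 3]),
  ([2, 16], [4, 0, 4, 1, 1, 3, 0, 2, 0]),
  ([2, 17], [2, 0, 0, 4, 2, 1, 1, 3]),
  ([2, 18], [1, 4, 1, 4, 0, 0, 4, 0, 2, 0]),
  ([2, 19], [0, 4, 0, 0, 3, 0, 0, 4, 0]),
  ([2, 20], [0, 4, 1, 3, 3, 1, 3, 0]),
  ([2, 21], [3, 0, 3, 0, 4, 2, 1, 3, 1, 1]),
  ([2, 22], [1, 1, 2, 0, 0, 2, 0, 0, 0]),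
  ([2, 23], [4, 0, 2, 1, 4, 4, 1, 3, 0, 0]),
  ([3, 5], [4, 4, 1, 4, 1, 3, 0, 4, 4, 0]),
  ([3, 6], [0, 0, 0, 3, 2, 1, 3, 1, 2]),
  ([3, 8], [4, 4, 0, 0, 0, 4, 4]),
  ([3, 9], [4, 4, 1, 1, 2, 0, 3, 2, 1, 1]),
  ([3, 11], [1, 1, 4, 2, 0, 4, 0, 3, 0]),
  ([3, 13], [2, 0, 4, 2, 0, 3, 0, 4, 4, 0]),
  ([3, 14], [3, 1, 1, 4, 1, 2, 0]),
  ([3, 15], [0, 3, 3, 1, 1, 3, 1, 1, 4]),
  ([3, 16], [4, 4, 1, 1, 4, 1, 1, 3]),
  ([3, 17], [1, 2, 1, 1, 1, 1, 3, 1, 4, 0]),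
  ([3, 18], [1, 3, 0, 4, 0, 3, 1, 1, 1]),
  ([3, 19], [0, 0, 0, 4, 2, 1, 3, 3, 2]),
  ([3, 20], [1, 2, 0, 4, 0, 0, 4, 4, 2, 0]),
  ([3, 21], [0, 0, 0, 4, 2, 0, 3, 1, 2]),
  ([3, 22], [1, 1, 3, 0, 3, 0, 0]),
  ([3, 23], [2, 0, 3, 3, 2, 0, 4, 1, 2, 0]),
  ([4, 5], [1, 3, 3, 1, 4, 0, 3, 0, 3, 3]),
  ([4, 6], [3, 0, 0, 4, 1, 3, 3, 0, 3, 0]),
  ([4, 8], [4, 0, 0, 2, 0, 0, 3, 1, 2]),
  ([4, 9], [3, 2, 1, 4, 0, 3, 1, 1, 2, 1]),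
  ([4, 11], [4, 1, 1, 4, 0, 2, 1, 4]),
  ([4, 13], [0, 4, 1, 4, 0, 0, 3, 0, 2, 0]),
  ([4, 14], [0, 3, 3, 1, 2, 0, 0, 0, 3, 1]),
  ([4, 15], [1, 3, 0, 4, 2, 1, 3, 0, 2, 0]),
  ([4, 16], [2, 0, 4, 0, 3, 2, 1, 3, 0, 0]),
  ([4, 17], [4, 0, 0, 3, 2, 1, 1, 2]),
  ([4, 18], [3, 3, 0, 4, 2, 0, 0, 0, 2]),
  ([4, 19], [4, 0, 0, 3, 3]),
  ([4, 20], [3, 3, 1, 3, 1, 4, 1, 1]),
  ([4, 21], [4, 1, 2, 1, 1, 3, 3, 2, 0]),
  ([4, 22], [0, 3, 0, 3, 3, 1, 4, 1, 4]),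
  ([4, 23], [2, 1, 1, 4, 1, 2, 0, 4, 1, 2]),
  ([7, 5], [1, 4, 1, 3, 2, 0, 4, 2, 0, 0]),
  ([7, 6], [3, 0, 2, 1, 3, 0, 0, 3]),
  ([7, 8], [1, 4, 2, 1, 3, 2, 0, 0, 4, 4, 0]),
  ([7, 9], [4, 1, 1, 3, 2, 0, 0, 3, 2, 0]),
  ([7, 11], [0, 3, 0, 3, 2, 1, 3, 1, 1]),
  ([7, 13], [0, 3, 0, 3, 0, 4, 1, 1, 3]),
  ([7, 14], [4, 4, 1, 2, 0, 0, 2, 0]),
  ([7, 15], [2, 0, 0, 2, 0, 0, 3, 3]),
  ([7, 16], [0, 0, 0, 4, 0, 2, 1, 3]),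
  ([7, 17], [4, 4, 1, 1, 3]),
  ([7, 18], [4, 4, 0, 0, 3, 0, 3, 0, 4, 1]),
  ([7, 19], [3, 3, 1, 1, 1, 3, 3]),
  ([7, 20], [4, 2, 0, 3, 2, 1, 1]),
  ([7, 21], [3, 0, 3, 3, 0, 4, 0, 3, 2, 0]),
  ([7, 22], [0, 0, 0, 4, 0, 0, 0, 2, 0]),
  ([7, 23], [1, 2, 0, 4, 0, 0, 0, 4, 2, 0]),
  ([10, 5], [0, 0, 3, 0, 2, 1, 4, 0, 0, 0]),
  ([10, 6], [3, 1, 1, 1, 4, 4, 0, 2, 0]),
  ([10, 8], [1, 3, 3, 1, 4, 0, 3, 1, 3]),
  ([10, 9], [0, 3, 1, 3, 3, 0, 0, 3, 3, 1]),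
  ([10, 11], [2, 0, 4, 1, 3, 2, 1, 1, 1]),
  ([10, 13], [4, 1, 3, 3, 1, 3, 0, 4, 1]),
  ([10, 14], [3, 0, 2, 0, 0, 4, 0, 0]),
  ([10, 15], [0, 4, 0, 4, 4, 1, 4, 4]),
  ([10, 16], [2, 0, 3, 3, 2, 0, 0, 0, 4]),
  ([10, 17], [4, 0, 2, 1, 1, 3, 1, 4, 0]),
  ([10, 18], [0, 0, 4, 1, 3, 3, 2, 0]),
  ([10, 19], [1, 4, 0, 0, 3, 3, 1, 4, 4]),
  ([10, 20], [0, 0, 3, 0, 0, 3, 0, 4, 1]),
  ([10, 21], [1, 3, 1, 4, 0, 4, 4, 0, 0, 0]),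
  ([10, 22], [1, 3, 1, 3, 3, 1, 4, 4, 1, 1]),
  ([10, 23], [3, 0, 3, 3, 2, 1, 1, 4, 0]),
  ([12, 5], [1, 1, 3, 2, 1, 4, 2, 0, 3, 0]),
  ([12, 6], [1, 2, 0, 3, 0, 0, 4]),
  ([12, 8], [4, 0, 0, 3, 0, 0, 3, 3]),
  ([12, 9], [1, 3, 3, 2, 0, 4, 2, 0]),
  ([12, 11], [1, 4, 2, 0, 4, 0, 3, 3, 0, 0]),
  ([12, 13], [3, 1, 4, 0, 2, 1, 1, 1, 2, 0]),
  ([12, 14], [1, 2, 1, 1, 1, 3, 1, 1, 1]),
  ([12, 15], [4, 4, 1, 4, 1, 3, 2, 1, 4, 0]),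
  ([12, 16], [3, 3, 0, 4, 4, 1, 1, 3, 0]),
  ([12, 17], [1, 3, 2, 0, 4, 1, 1, 3, 2, 0]),
  ([12, 18], [4, 1, 2, 0, 0, 4, 0, 4, 4, 0]),
  ([12, 19], [1, 4, 4, 0, 4, 1, 1, 1, 1]),
  ([12, 20], [3, 3, 0, 3, 3, 1, 3, 1]),
  ([12, 21], [1, 4, 4, 2, 0, 3, 1, 1]),
  ([12, 22], [4, 4, 1, 4, 0, 3, 3, 1, 1]),
  ([12, 23], [4, 4, 0, 4, 2, 0, 4, 4, 2, 1])]

set_option maxRecDepth 100000 in
theorem certIn1_ok : pcertOK [O5] [0] certIn1 = true := by decide +kernel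

set_option maxRecDepth 100000 in
theorem certIn2_ok : pcertOK [O5] [0, 1] certIn2 = true := by decide +kernel

set_option maxRecDepth 100000 in
theorem certOut1_ok : pcertOK [O5] [5] certOut1 = true := by decide +kernel

set_option maxRecDepth 100000 in
theorem certInOut_ok : pcertOK [O5] [0, 5] certInOut = true := by decide +kernel

set_option maxRecDepth 100000 in
theorem certIn1_cover : (List.range 24).all (fun i => !O5.testBit i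
    || (certIn1.map Prod.fst).contains [i]) = true := by decide +kernel

set_option maxRecDepth 100000 in
theorem certIn2_cover : (List.range 24).all (fun i => (List.range 24).all (fun j =>
    !O5.testBit i || !O5.testBit j || i == j
    || (certIn2.map Prod.fst).contains [i, j])) = true := by decide +kernel

set_option maxRecDepth 100000 in
theorem certOut1_cover : (List.range 24).all (fun i => O5.testBit i
    || (certOut1.map Prod.fst).contains [i]) = true := by decide +kernel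

set_option maxRecDepth 100000 in
theorem certInOut_cover : (List.range 24).all (fun i => (List.range 24).all (fun j =>
    !O5.testBit i || O5.testBit j
    || (certInOut.map Prod.fst).contains [i, j])) = true := by decide +kernel

theorem octad_reach (o : Finset GolayPt) (ho : o ∈ octads) : ∃ g ∈ M24, g • S O5 = o :=
  Cfsg.Agent.S0367.reach o ho

theorem inv_apply_mem (g : Equiv.Perm GolayPt) (m : ℕ) (x : GolayPt) :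
    O5.testBit (gIdx (g⁻¹ x)) = true ↔ x ∈ g • S O5 := by
  rw [← mem_S, ← Finset.inv_smul_mem_iff]
  rfl

/-- An octad with a point on it is an image of the base octad with the point `0`. -/
theorem octad_pt_reach (o : Finset GolayPt) (ho : o ∈ octads) (x : GolayPt) (hx : x ∈ o) :
    ∃ g ∈ M24, g • S O5 = o ∧ g (pt 0) = x := by
  obtain ⟨g₁, hg₁, rfl⟩ := octad_reach o ho
  have hq : O5.testBit (gIdx (g₁⁻¹ x)) = true := (inv_apply_mem g₁ 0 x).2 hx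
  have h1 := List.all_eq_true.1 certIn1_cover (gIdx (g₁⁻¹ x)) (List.mem_range.2 (gIdx_lt _))
  rw [hq] at h1
  simp only [Bool.not_true, Bool.false_or, List.contains_eq_mem, decide_eq_true_eq,
    List.mem_map] at h1
  obtain ⟨e, he, hei⟩ := h1
  obtain ⟨h, hh, hfix, hpts⟩ := pcert_reach certIn1_ok he
  refine ⟨g₁ * h, M24.mul_mem hg₁ hh, ?_, ?_⟩
  · rw [mul_smul, hfix O5 (by simp)]
  · rw [Equiv.Perm.mul_apply]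
    have := hpts (0, gIdx (g₁⁻¹ x)) (by rw [hei]; simp)
    simp only at this
    rw [this, pt_gIdx]
    simp

/-- An octad with two distinct points on it is an image of the base octad with the points
`0, 1`. -/
theorem octad_2pt_reach (o : Finset GolayPt) (ho : o ∈ octads) (p q : GolayPt) (hp : p ∈ o)
    (hq : q ∈ o) (hpq : p ≠ q) :
    ∃ g ∈ M24, g • S O5 = o ∧ g (pt 0) = p ∧ g (pt 1) = q := by
  obtain ⟨g₁, hg₁, rfl⟩ := octad_reach o ho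
  have hp' : O5.testBit (gIdx (g₁⁻¹ p)) = true := (inv_apply_mem g₁ 0 p).2 hp
  have hq' : O5.testBit (gIdx (g₁⁻¹ q)) = true := (inv_apply_mem g₁ 0 q).2 hq
  have hne : gIdx (g₁⁻¹ p) ≠ gIdx (g₁⁻¹ q) := by
    intro h
    have h2 := congrArg pt h
    rw [pt_gIdx, pt_gIdx] at h2
    exact hpq (g₁⁻¹.injective h2)
  have h1 := List.all_eq_true.1 (List.all_eq_true.1 certIn2_cover (gIdx (g₁⁻¹ p))
    (List.mem_range.2 (gIdx_lt _))) (gIdx (g₁⁻¹ q)) (List.mem_range.2 (gIdx_lt _))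
  rw [hp', hq'] at h1
  simp only [Bool.not_true, Bool.false_or, Bool.or_eq_true, beq_iff_eq, List.contains_eq_mem,
    decide_eq_true_eq, List.mem_map] at h1
  rcases h1 with h1 | h1
  · exact absurd h1 hne
  obtain ⟨e, he, hei⟩ := h1
  obtain ⟨h, hh, hfix, hpts⟩ := pcert_reach certIn2_ok he
  refine ⟨g₁ * h, M24.mul_mem hg₁ hh, ?_, ?_, ?_⟩
  · rw [mul_smul, hfix O5 (by simp)]
  · rw [Equiv.Perm.mul_apply]
    have := hpts (0, gIdx (g₁⁻¹ p)) (by rw [hei]; simp)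
    simp only at this
    rw [this, pt_gIdx]
    simp
  · rw [Equiv.Perm.mul_apply]
    have := hpts (1, gIdx (g₁⁻¹ q)) (by rw [hei]; simp)
    simp only at this
    rw [this, pt_gIdx]
    simp

/-- An octad with a point off it is an image of the base octad with the point `5`. -/
theorem octad_npt_reach (o : Finset GolayPt) (ho : o ∈ octads) (x : GolayPt) (hx : x ∉ o) :
    ∃ g ∈ M24, g • S O5 = o ∧ g (pt 5) = x := by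
  obtain ⟨g₁, hg₁, rfl⟩ := octad_reach o ho
  have hq : O5.testBit (gIdx (g₁⁻¹ x)) = false := by
    by_contra hne
    exact hx ((inv_apply_mem g₁ 0 x).1 (by simpa using hne))
  have h1 := List.all_eq_true.1 certOut1_cover (gIdx (g₁⁻¹ x)) (List.mem_range.2 (gIdx_lt _))
  rw [hq] at h1
  simp only [Bool.false_or, List.contains_eq_mem, decide_eq_true_eq, List.mem_map] at h1
  obtain ⟨e, he, hei⟩ := h1
  obtain ⟨h, hh, hfix, hpts⟩ := pcert_reach certOut1_ok he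
  refine ⟨g₁ * h, M24.mul_mem hg₁ hh, ?_, ?_⟩
  · rw [mul_smul, hfix O5 (by simp)]
  · rw [Equiv.Perm.mul_apply]
    have := hpts (5, gIdx (g₁⁻¹ x)) (by rw [hei]; simp)
    simp only at this
    rw [this, pt_gIdx]
    simp

/-- An octad with a point on it and a point off it is an image of the base octad with the
points `0` and `5`. -/
theorem octad_pt_npt_reach (o : Finset GolayPt) (ho : o ∈ octads) (p q : GolayPt) (hp : p ∈ o)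
    (hq : q ∉ o) : ∃ g ∈ M24, g • S O5 = o ∧ g (pt 0) = p ∧ g (pt 5) = q := by
  obtain ⟨g₁, hg₁, rfl⟩ := octad_reach o ho
  have hp' : O5.testBit (gIdx (g₁⁻¹ p)) = true := (inv_apply_mem g₁ 0 p).2 hp
  have hq' : O5.testBit (gIdx (g₁⁻¹ q)) = false := by
    by_contra hne
    exact hq ((inv_apply_mem g₁ 0 q).1 (by simpa using hne))
  have h1 := List.all_eq_true.1 (List.all_eq_true.1 certInOut_cover (gIdx (g₁⁻¹ p))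
    (List.mem_range.2 (gIdx_lt _))) (gIdx (g₁⁻¹ q)) (List.mem_range.2 (gIdx_lt _))
  rw [hp', hq'] at h1
  simp only [Bool.not_true, Bool.false_or, List.contains_eq_mem, decide_eq_true_eq,
    List.mem_map] at h1
  obtain ⟨e, he, hei⟩ := h1
  obtain ⟨h, hh, hfix, hpts⟩ := pcert_reach certInOut_ok he
  refine ⟨g₁ * h, M24.mul_mem hg₁ hh, ?_, ?_, ?_⟩
  · rw [mul_smul, hfix O5 (by simp)]
  · rw [Equiv.Perm.mul_apply]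
    have := hpts (0, gIdx (g₁⁻¹ p)) (by rw [hei]; simp)
    simp only at this
    rw [this, pt_gIdx]
    simp
  · rw [Equiv.Perm.mul_apply]
    have := hpts (5, gIdx (g₁⁻¹ q)) (by rw [hei]; simp)
    simp only at this
    rw [this, pt_gIdx]
    simp

/-- Class certificates: transitivity inside classes of enumerated words with equal invariant. -/
theorem classes_trans (P : ℕ → Bool) (inv : ℕ → ℕ) (fixM fixP : List ℕ)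
    (cls : List (ℕ × ℕ × List (ℕ × List ℕ)))
    (hOK : cls.all (fun c => certOK fixM fixP c.2.1 c.2.2) = true)
    (hkeys : (cls.map (fun c => c.1)).Nodup)
    (hcover : ((allWords gbasis).filter P).all (fun n => cls.any (fun c => c.1 == inv n
      && (c.2.2.map Prod.fst).contains n)) = true)
    (n n' : ℕ) (hn : n ∈ allWords gbasis) (hP : P n = true) (hn' : n' ∈ allWords gbasis)
    (hP' : P n' = true) (hinv : inv n = inv n') :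
    ∃ g ∈ M24, g • S n = S n' ∧ (∀ f ∈ fixM, g • S f = S f) ∧ (∀ i ∈ fixP, g (pt i) = pt i) := by
  have h1 := List.all_eq_true.1 hcover n (List.mem_filter.2 ⟨hn, hP⟩)
  have h1' := List.all_eq_true.1 hcover n' (List.mem_filter.2 ⟨hn', hP'⟩)
  rw [List.any_eq_true] at h1 h1'
  obtain ⟨c, hc, hcn⟩ := h1
  obtain ⟨c', hc', hcn'⟩ := h1'
  simp only [Bool.and_eq_true, beq_iff_eq, List.contains_eq_mem, decide_eq_true_eq,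
    List.mem_map] at hcn hcn'
  obtain ⟨hk, e, he, rfl⟩ := hcn
  obtain ⟨hk', e', he', rfl⟩ := hcn'
  have hcc : c = c' := by
    apply List.inj_on_of_nodup_map hkeys hc hc'
    show c.1 = c'.1
    rw [hk, hk', hinv]
  subst hcc
  exact cert_trans (List.all_eq_true.1 hOK c hc) he he'

end Cfsg.Agent.Lib.Helper1
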