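import Mathlib
import Cfsg.Prelude.Def_Sporadic_a
import Cfsg.Agent.Lib.Helper1.M24Trans

/-!
Consequences of five-fold transitivity for small sets of points (helper1).
-/

namespace Cfsg.Agent.Lib.Helper1

open Cfsg

open scoped Pointwise

theorem card_golayPt : Nat.card GolayPt = 24 := by
  rw [Nat.card_eq_fintype_card]; decide

/-- An injection defined on at most five points extends to a member of the group. -/
theorem M24_extend (A : Finset GolayPt) (hA : A.card ≤ 5) (φ : GolayPt → GolayPt)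
    (hφ : Set.InjOn φ (A : Set GolayPt)) : ∃ g ∈ M24, ∀ a ∈ A, g a = φ a := by
  classical
  have h5 : MulAction.IsMultiplyPretransitive ↥M24 GolayPt 5 := M24_5trans
  have hk : MulAction.IsMultiplyPretransitive ↥M24 GolayPt A.card :=
    MulAction.isMultiplyPretransitive_of_le (n := 5) hA (by rw [card_golayPt]; norm_num)
  let e : ↥A ≃ Fin A.card := A.equivFin
  let x : Fin A.card ↪ GolayPt := e.symm.toEmbedding.trans (Function.Embedding.subtype _)
  have hxA : ∀ i, x i ∈ A := fun i => (e.symm i).2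
  let y : Fin A.card ↪ GolayPt := ⟨fun i => φ (x i), by
    intro i j hij
    exact x.injective (hφ (hxA i) (hxA j) hij)⟩
  obtain ⟨g, hg⟩ := MulAction.exists_smul_eq (↥M24) x y
  refine ⟨g.1, g.2, ?_⟩
  intro a ha
  have h1 : (g • x) (e ⟨a, ha⟩) = y (e ⟨a, ha⟩) := by rw [hg]
  have h2 : x (e ⟨a, ha⟩) = a := by
    show ((e.symm (e ⟨a, ha⟩) : ↥A) : GolayPt) = a
    rw [Equiv.symm_apply_apply]
  have h3 : (g • x) (e ⟨a, ha⟩) = g.1 (x (e ⟨a, ha⟩)) := rfl
  have h4 : y (e ⟨a, ha⟩) = φ (x (e ⟨a, ha⟩)) := rfl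
  rw [h3, h4, h2] at h1
  exact h1

/-- The stabiliser of a set `s` is transitive on the sets `t` of a given size meeting `s` in a
given number of points, as long as `s ∪ t` has at most five points. -/
theorem two_set_transitive (s t t' : Finset GolayPt) (hu : (s ∪ t).card ≤ 5)
    (ht : t.card = t'.card) (hst : (s ∩ t).card = (s ∩ t').card) :
    ∃ g ∈ M24, g • s = s ∧ g • t = t' := by
  classical
  have c2 : (s \ t).card = (s \ t').card := by
    have e1 := Finset.card_sdiff_add_card_inter s t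
    have e2 := Finset.card_sdiff_add_card_inter s t'
    omega
  have c3 : (t \ s).card = (t' \ s).card := by
    have e1 := Finset.card_sdiff_add_card_inter t s
    have e2 := Finset.card_sdiff_add_card_inter t' s
    rw [Finset.inter_comm] at e1 e2
    omega
  let e1 : ↥(s ∩ t) ≃ ↥(s ∩ t') :=
    Fintype.equivOfCardEq (by rw [Fintype.card_coe, Fintype.card_coe]; exact hst)
  let e2 : ↥(s \ t) ≃ ↥(s \ t') :=
    Fintype.equivOfCardEq (by rw [Fintype.card_coe, Fintype.card_coe]; exact c2)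
  let e3 : ↥(t \ s) ≃ ↥(t' \ s) :=
    Fintype.equivOfCardEq (by rw [Fintype.card_coe, Fintype.card_coe]; exact c3)
  let φ : GolayPt → GolayPt := fun x =>
    if h1 : x ∈ s ∩ t then (e1 ⟨x, h1⟩ : GolayPt)
    else if h2 : x ∈ s \ t then (e2 ⟨x, h2⟩ : GolayPt)
    else if h3 : x ∈ t \ s then (e3 ⟨x, h3⟩ : GolayPt) else x
  have φ1 : ∀ x (h : x ∈ s ∩ t), φ x = (e1 ⟨x, h⟩ : GolayPt) := by
    intro x h
    simp only [φ, dif_pos h]
  have φ2 : ∀ x (h : x ∈ s \ t), φ x = (e2 ⟨x, h⟩ : GolayPt) := by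
    intro x h
    have hn : x ∉ s ∩ t := by
      rw [Finset.mem_sdiff] at h
      rw [Finset.mem_inter]; tauto
    simp only [φ, dif_neg hn, dif_pos h]
  have φ3 : ∀ x (h : x ∈ t \ s), φ x = (e3 ⟨x, h⟩ : GolayPt) := by
    intro x h
    have hn : x ∉ s ∩ t := by
      rw [Finset.mem_sdiff] at h
      rw [Finset.mem_inter]; tauto
    have hn2 : x ∉ s \ t := by
      rw [Finset.mem_sdiff] at h ⊢; tauto
    simp only [φ, dif_neg hn, dif_neg hn2, dif_pos h]
  have key : ∀ x ∈ s ∪ t, (x ∈ s ∩ t ∧ φ x ∈ s ∩ t') ∨ (x ∈ s \ t ∧ φ x ∈ s \ t')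
      ∨ (x ∈ t \ s ∧ φ x ∈ t' \ s) := by
    intro x hx
    by_cases h1 : x ∈ s ∩ t
    · left; exact ⟨h1, by rw [φ1 x h1]; exact (e1 ⟨x, h1⟩).2⟩
    · by_cases h2 : x ∈ s \ t
      · right; left; exact ⟨h2, by rw [φ2 x h2]; exact (e2 ⟨x, h2⟩).2⟩
      · have h3 : x ∈ t \ s := by
          simp only [Finset.mem_union, Finset.mem_inter, Finset.mem_sdiff] at hx h1 h2 ⊢
          tauto
        right; right; exact ⟨h3, by rw [φ3 x h3]; exact (e3 ⟨x, h3⟩).2⟩
  have hinj : Set.InjOn φ ((s ∪ t : Finset GolayPt) : Set GolayPt) := by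
    intro x hx y hy hxy
    rcases key x hx with ⟨a1, b1⟩ | ⟨a1, b1⟩ | ⟨a1, b1⟩ <;>
      rcases key y hy with ⟨a2, b2⟩ | ⟨a2, b2⟩ | ⟨a2, b2⟩
    · rw [φ1 x a1, φ1 y a2] at hxy
      have := e1.injective (Subtype.ext hxy)
      exact congrArg Subtype.val this
    · rw [hxy] at b1
      simp only [Finset.mem_inter, Finset.mem_sdiff] at b1 b2; tauto
    · rw [hxy] at b1
      simp only [Finset.mem_inter, Finset.mem_sdiff] at b1 b2; tauto
    · rw [hxy] at b1
      simp only [Finset.mem_inter, Finset.mem_sdiff] at b1 b2; tauto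
    · rw [φ2 x a1, φ2 y a2] at hxy
      have := e2.injective (Subtype.ext hxy)
      exact congrArg Subtype.val this
    · rw [hxy] at b1
      simp only [Finset.mem_inter, Finset.mem_sdiff] at b1 b2; tauto
    · rw [hxy] at b1
      simp only [Finset.mem_inter, Finset.mem_sdiff] at b1 b2; tauto
    · rw [hxy] at b1
      simp only [Finset.mem_inter, Finset.mem_sdiff] at b1 b2; tauto
    · rw [φ3 x a1, φ3 y a2] at hxy
      have := e3.injective (Subtype.ext hxy)
      exact congrArg Subtype.val this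
  obtain ⟨g, hg, hgφ⟩ := M24_extend (s ∪ t) hu φ hinj
  refine ⟨g, hg, ?_, ?_⟩
  · apply Finset.eq_of_subset_of_card_le
    · intro y hy
      obtain ⟨x, hx, rfl⟩ := Finset.mem_smul_finset.1 hy
      have hx' : x ∈ s ∪ t := Finset.mem_union_left _ hx
      show g x ∈ s
      rw [hgφ x hx']
      rcases key x hx' with ⟨a1, b1⟩ | ⟨a1, b1⟩ | ⟨a1, b1⟩
      · exact (Finset.mem_inter.1 b1).1
      · exact (Finset.mem_sdiff.1 b1).1
      · exact absurd hx (Finset.mem_sdiff.1 a1).2
    · rw [Finset.card_smul_finset]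
  · apply Finset.eq_of_subset_of_card_le
    · intro y hy
      obtain ⟨x, hx, rfl⟩ := Finset.mem_smul_finset.1 hy
      have hx' : x ∈ s ∪ t := Finset.mem_union_right _ hx
      show g x ∈ t'
      rw [hgφ x hx']
      rcases key x hx' with ⟨a1, b1⟩ | ⟨a1, b1⟩ | ⟨a1, b1⟩
      · exact (Finset.mem_inter.1 b1).2
      · exact absurd hx (Finset.mem_sdiff.1 a1).2
      · exact (Finset.mem_sdiff.1 b1).1
    · rw [Finset.card_smul_finset, ht]

end Cfsg.Agent.Lib.Helper1
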