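import Mathlib
import Cfsg.Prelude.Def_Sporadic_a

/-!
Counting in Steiner systems (helper1): number of blocks through a set, intersection sums.
-/

namespace Cfsg.Agent.Lib.Helper1

theorem card_filter_superset {α : Type*} [DecidableEq α] (c s : Finset α) (hsc : s ⊆ c) (t : ℕ)
    (hst : s.card ≤ t) :
    ((Finset.powersetCard t c).filter (fun T => s ⊆ T)).card
      = Nat.choose (c.card - s.card) (t - s.card) := by
  have e : Nat.choose (c.card - s.card) (t - s.card)
      = (Finset.powersetCard (t - s.card) (c \ s)).card := by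
    rw [Finset.card_powersetCard, Finset.card_sdiff_of_subset hsc]
  rw [e]
  refine Finset.card_nbij' (fun T => T \ s) (fun U => U ∪ s) ?_ ?_ ?_ ?_
  · intro T hT
    obtain ⟨hT1, hsT⟩ := Finset.mem_filter.1 (Finset.mem_coe.1 hT)
    obtain ⟨hTc, hTt⟩ := Finset.mem_powersetCard.1 hT1
    apply Finset.mem_coe.2
    rw [Finset.mem_powersetCard]
    exact ⟨Finset.sdiff_subset_sdiff hTc (Finset.Subset.refl s),
      by rw [Finset.card_sdiff_of_subset hsT, hTt]⟩
  · intro U hU
    obtain ⟨hUc, hUt⟩ := Finset.mem_powersetCard.1 (Finset.mem_coe.1 hU)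
    have hdisj : Disjoint U s := Finset.disjoint_of_subset_left hUc Finset.sdiff_disjoint
    apply Finset.mem_coe.2
    rw [Finset.mem_filter, Finset.mem_powersetCard]
    refine ⟨⟨Finset.union_subset (hUc.trans Finset.sdiff_subset) hsc, ?_⟩,
      Finset.subset_union_right⟩
    rw [Finset.card_union_of_disjoint hdisj, hUt]; omega
  · intro T hT
    obtain ⟨hT1, hsT⟩ := Finset.mem_filter.1 (Finset.mem_coe.1 hT)
    exact Finset.sdiff_union_of_subset hsT
  · intro U hU
    obtain ⟨hUc, hUt⟩ := Finset.mem_powersetCard.1 (Finset.mem_coe.1 hU)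
    have hdisj : Disjoint U s := Finset.disjoint_of_subset_left hUc Finset.sdiff_disjoint
    exact Finset.union_sdiff_cancel_right hdisj

/-- Number of blocks of a Steiner system containing a given set of size at most `t`. -/
theorem steiner_count_super {α : Type*} [Fintype α] [DecidableEq α] {t k : ℕ}
    {B : Set (Finset α)} (hB : Cfsg.IsSteinerSystem t k B) (Bf : Finset (Finset α))
    (hBf : ∀ c, c ∈ Bf ↔ c ∈ B) (s : Finset α) (hst : s.card ≤ t) :
    (Bf.filter (fun c => s ⊆ c)).card * Nat.choose (k - s.card) (t - s.card)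
      = Nat.choose (Fintype.card α - s.card) (t - s.card) := by
  have h1 := card_filter_superset (Finset.univ : Finset α) s (Finset.subset_univ s) t hst
  rw [Finset.card_univ] at h1
  rw [← h1]
  have h2 : (Finset.powersetCard t (Finset.univ : Finset α)).filter (fun T => s ⊆ T)
      = (Bf.filter (fun c => s ⊆ c)).biUnion
          (fun c => (Finset.powersetCard t c).filter (fun T => s ⊆ T)) := by
    ext T
    simp only [Finset.mem_filter, Finset.mem_powersetCard, Finset.mem_biUnion,
      Finset.subset_univ, true_and]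
    constructor
    · rintro ⟨hTt, hsT⟩
      obtain ⟨c, ⟨hcB, hTc⟩, -⟩ := hB.2 T hTt
      exact ⟨c, ⟨(hBf c).2 hcB, hsT.trans hTc⟩, ⟨hTc, hTt⟩, hsT⟩
    · rintro ⟨c, -, ⟨-, hTt⟩, hsT⟩
      exact ⟨hTt, hsT⟩
  have h3 : ∀ c ∈ Bf.filter (fun c => s ⊆ c),
      ((Finset.powersetCard t c).filter (fun T => s ⊆ T)).card
        = Nat.choose (k - s.card) (t - s.card) := by
    intro c hc
    obtain ⟨hcB, hsc⟩ := Finset.mem_filter.1 hc
    rw [card_filter_superset c s hsc t hst, hB.1 c ((hBf c).1 hcB)]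
  rw [h2, Finset.card_biUnion, Finset.sum_congr rfl h3, Finset.sum_const, smul_eq_mul]
  intro c hc c' hc' hne
  rw [Function.onFun, Finset.disjoint_left]
  intro T hT hT'
  obtain ⟨hT1, -⟩ := Finset.mem_filter.1 hT
  obtain ⟨hT1', -⟩ := Finset.mem_filter.1 hT'
  obtain ⟨hTc, hTt⟩ := Finset.mem_powersetCard.1 hT1
  obtain ⟨hTc', -⟩ := Finset.mem_powersetCard.1 hT1'
  obtain ⟨u, -, huniq⟩ := hB.2 T hTt
  have e1 := huniq c ⟨(hBf c).1 (Finset.mem_filter.1 (Finset.mem_coe.1 hc)).1, hTc⟩
  have e2 := huniq c' ⟨(hBf c').1 (Finset.mem_filter.1 (Finset.mem_coe.1 hc')).1, hTc'⟩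
  exact hne (e1.trans e2.symm)

/-- Intersection sums: `∑_c C(|b ∩ c|, i) · C(k-i, t-i) = C(|b|, i) · C(v-i, t-i)`. -/
theorem steiner_inter_sum {α : Type*} [Fintype α] [DecidableEq α] {t k : ℕ}
    {B : Set (Finset α)} (hB : Cfsg.IsSteinerSystem t k B) (Bf : Finset (Finset α))
    (hBf : ∀ c, c ∈ Bf ↔ c ∈ B) (b : Finset α) (i : ℕ) (hi : i ≤ t) :
    (∑ c ∈ Bf, Nat.choose (b ∩ c).card i) * Nat.choose (k - i) (t - i)
      = Nat.choose b.card i * Nat.choose (Fintype.card α - i) (t - i) := by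
  have h1 : ∀ c ∈ Bf, Nat.choose (b ∩ c).card i
      = ∑ s ∈ Finset.powersetCard i b, if s ⊆ c then 1 else 0 := by
    intro c _
    rw [← Finset.card_powersetCard, ← Finset.card_filter]
    congr 1
    ext s
    simp only [Finset.mem_powersetCard, Finset.mem_filter, Finset.subset_inter_iff]
    tauto
  rw [Finset.sum_congr rfl h1, Finset.sum_comm, Finset.sum_mul]
  have h2 : ∀ s ∈ Finset.powersetCard i b,
      (∑ c ∈ Bf, if s ⊆ c then 1 else 0) * Nat.choose (k - i) (t - i)
        = Nat.choose (Fintype.card α - i) (t - i) := by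
    intro s hs
    obtain ⟨-, hsi⟩ := Finset.mem_powersetCard.1 hs
    rw [← Finset.card_filter]
    have h3 := steiner_count_super hB Bf hBf s (by omega)
    rw [hsi] at h3
    exact h3
  rw [Finset.sum_congr rfl h2, Finset.sum_const, Finset.card_powersetCard, smul_eq_mul]

/-- The same with the block `b` itself split off. -/
theorem steiner_inter_sum_erase {α : Type*} [Fintype α] [DecidableEq α] {t k : ℕ}
    {B : Set (Finset α)} (hB : Cfsg.IsSteinerSystem t k B) (Bf : Finset (Finset α))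
    (hBf : ∀ c, c ∈ Bf ↔ c ∈ B) (b : Finset α) (hb : b ∈ B) (i : ℕ) (hi : i ≤ t) :
    (Nat.choose k i + ∑ c ∈ Bf.erase b, Nat.choose (b ∩ c).card i) * Nat.choose (k - i) (t - i)
      = Nat.choose k i * Nat.choose (Fintype.card α - i) (t - i) := by
  have h1 := steiner_inter_sum hB Bf hBf b i hi
  rw [← Finset.add_sum_erase Bf _ ((hBf b).2 hb), Finset.inter_self, hB.1 b hb] at h1
  exact h1

/-- Distinct blocks meet in fewer than `t` points. -/
theorem steiner_inter_lt {α : Type*} [DecidableEq α] {t k : ℕ} {B : Set (Finset α)}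
    (hB : Cfsg.IsSteinerSystem t k B) {b c : Finset α} (hb : b ∈ B) (hc : c ∈ B) (hbc : b ≠ c) :
    (b ∩ c).card < t := by
  by_contra h
  rw [not_lt] at h
  obtain ⟨s, hs, hst⟩ := Finset.exists_subset_card_eq h
  obtain ⟨u, -, huniq⟩ := hB.2 s hst
  have h1 := huniq b ⟨hb, hs.trans Finset.inter_subset_left⟩
  have h2 := huniq c ⟨hc, hs.trans Finset.inter_subset_right⟩
  exact hbc (h1.trans h2.symm)

/-- A finset version of the block set. -/
theorem exists_blockFinset {α : Type*} [Fintype α] [DecidableEq α] (B : Set (Finset α)) :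
    ∃ Bf : Finset (Finset α), (∀ c, c ∈ Bf ↔ c ∈ B) ∧ B.ncard = Bf.card := by
  classical
  refine ⟨Finset.univ.filter (fun c => c ∈ B), fun c => by simp, ?_⟩
  rw [← Set.ncard_coe_finset]
  congr 1
  ext c
  simp

end Cfsg.Agent.Lib.Helper1
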