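import Mathlib
import Cfsg.Prelude.Def_Sporadic_a
import Cfsg.Agent.Lib.Helper1.M24Sets
import Cfsg.Agent.Lib.Helper1.M24Base
import Cfsg.Agent.Lib.Helper1.Steiner
import Cfsg.Agent.S0363

/-!
The pointwise stabiliser of five points, and counting subsets lying in a common octad (helper1).
-/

namespace Cfsg.Agent.Lib.Helper1

open Cfsg

open scoped Pointwise

theorem perm_inv_of_apply (c : Equiv.Perm GolayPt) (z w : GolayPt) (h : c z = w) : c⁻¹ w = z := by
  rw [Equiv.Perm.inv_eq_iff_eq]; exact h.symm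

/-- The pointwise stabiliser of five points is transitive on the remaining points of their octad
and, independently, on the points outside it. -/
theorem fix5_trans (x : Fin 5 → GolayPt) (hx : Function.Injective x) (o : Finset GolayPt)
    (ho : o ∈ octads) (hxo : ∀ i, x i ∈ o) (a a' b b' : GolayPt) (ha : a ∈ o) (ha' : a' ∈ o)
    (hax : ∀ i, a ≠ x i) (ha'x : ∀ i, a' ≠ x i) (hb : b ∉ o) (hb' : b' ∉ o) :
    ∃ g ∈ M24, (∀ i, g (x i) = x i) ∧ g a = a' ∧ g b = b' := by
  obtain ⟨σ, hσK, hσ⟩ := to_base x hx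
  have hσM : σ ∈ M24 := K3_le_M24 hσK
  have hso : σ • o = S O5 := by
    apply Cfsg.Agent.S0363.octad_uniq _ _ ((smul_mem_octads_iff σ hσM o).2 ho) (oct_of_ok O5_ok)
    have hsub : (Finset.univ.image (fun j : Fin 5 => pt j.val)) ⊆ σ • o ∩ S O5 := by
      intro p hp
      obtain ⟨j, -, rfl⟩ := Finset.mem_image.1 hp
      refine Finset.mem_inter.2 ⟨?_, ?_⟩
      · rw [← hσ j]
        exact Finset.smul_mem_smul_finset (hxo j)
      · rw [pt_mem_S _ _ (by omega)]
        exact List.all_eq_true.1 O5_bits.1 j.val (List.mem_range.2 j.isLt)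
    have hc : (Finset.univ.image (fun j : Fin 5 => pt j.val)).card = 5 := by
      rw [Finset.card_image_of_injective _
        (fun i j h => Fin.ext (pt_inj (by omega) (by omega) h))]
      simp
    calc 5 = (Finset.univ.image (fun j : Fin 5 => pt j.val)).card := hc.symm
      _ ≤ _ := Finset.card_le_card hsub
  have key : ∀ a b : GolayPt, a ∈ o → (∀ i, a ≠ x i) → b ∉ o →
      ∃ w ∈ M24, (∀ j < 5, w (pt j) = pt j) ∧ w (pt 7) = σ a ∧ w (pt 5) = σ b := by
    intro a b ha hax hb
    have hu : O5.testBit (gIdx (σ a)) = true := by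
      rw [← mem_S, ← hso]
      exact Finset.smul_mem_smul_finset ha
    have hu' : [0, 1, 2, 3, 4].contains (gIdx (σ a)) = false := by
      by_contra hc
      have hc' : gIdx (σ a) < 5 := by
        simp at hc; omega
      have h1 := hσ ⟨gIdx (σ a), hc'⟩
      simp only at h1
      rw [pt_gIdx] at h1
      exact hax _ (σ.injective h1).symm
    have hv : O5.testBit (gIdx (σ b)) = false := by
      by_contra hc
      have hc' : O5.testBit (gIdx (σ b)) = true := by simpa using hc
      rw [← mem_S, ← hso] at hc'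
      exact hb ((Finset.smul_mem_smul_finset_iff σ).1 hc')
    have hc := List.all_eq_true.1 (List.all_eq_true.1 h48_cover (gIdx (σ a))
      (List.mem_range.2 (gIdx_lt _))) (gIdx (σ b)) (List.mem_range.2 (gIdx_lt _))
    rw [hu, hu', hv] at hc
    simp only [Bool.not_true, Bool.false_or, List.contains_eq_mem, decide_eq_true_eq,
      List.mem_map] at hc
    obtain ⟨e, he, hee⟩ := hc
    have hw := List.all_eq_true.1 h48_ok e he
    simp only [Bool.and_eq_true, beq_iff_eq, List.all_eq_true, List.mem_range] at hw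
    obtain ⟨⟨hw7, hw5⟩, hwj⟩ := hw
    rw [Prod.mk.injEq] at hee
    refine ⟨wordPerm e.2.2, wordPerm_mem _, ?_, ?_, ?_⟩
    · intro j hj
      rw [wordPerm_apply _ _ (by omega), hwj j hj]
    · rw [wordPerm_apply _ _ (by norm_num), hw7, hee.1, pt_gIdx]
    · rw [wordPerm_apply _ _ (by norm_num), hw5, hee.2, pt_gIdx]
  obtain ⟨w, hw, hwj, hw7, hw5⟩ := key a b ha hax hb
  obtain ⟨w', hw', hwj', hw7', hw5'⟩ := key a' b' ha' ha'x hb'
  refine ⟨σ⁻¹ * w' * w⁻¹ * σ, M24.mul_mem (M24.mul_mem (M24.mul_mem (M24.inv_mem hσM) hw')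
    (M24.inv_mem hw)) hσM, ?_, ?_, ?_⟩
  · intro i
    simp only [Equiv.Perm.mul_apply]
    rw [hσ i, perm_inv_of_apply w _ _ (hwj i.val i.isLt), hwj' i.val i.isLt]
    exact perm_inv_of_apply σ _ _ (hσ i)
  · simp only [Equiv.Perm.mul_apply]
    rw [perm_inv_of_apply w _ _ hw7, hw7']
    simp
  · simp only [Equiv.Perm.mul_apply]
    rw [perm_inv_of_apply w _ _ hw5, hw5']
    simp

/-- Number of `j`-subsets disjoint from `X`. -/
theorem ncard_disjoint (X : Finset GolayPt) (j : ℕ) :
    {U : Finset GolayPt | U.card = j ∧ Disjoint X U}.ncard = Nat.choose (24 - X.card) j := by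
  classical
  have hset : {U : Finset GolayPt | U.card = j ∧ Disjoint X U}
      = ↑(Finset.powersetCard j Xᶜ) := by
    ext U
    simp only [Set.mem_setOf_eq, Finset.mem_coe, Finset.mem_powersetCard]
    constructor
    · rintro ⟨h1, h2⟩
      exact ⟨fun x hxU => Finset.mem_compl.2 (fun hxX => Finset.disjoint_left.1 h2 hxX hxU), h1⟩
    · rintro ⟨h1, h2⟩
      exact ⟨h2, Finset.disjoint_left.2 (fun x hxX hxU => (Finset.mem_compl.1 (h1 hxU)) hxX)⟩
  rw [hset, Set.ncard_coe_finset, Finset.card_powersetCard, Finset.card_compl]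
  have : Fintype.card GolayPt = 24 := by decide
  rw [this]

/-- Number of `j`-subsets `U` disjoint from `X` with `X ∪ U` inside an octad, when
`X ∪ U` has at least five points. -/
theorem count_in_octad (X : Finset GolayPt) (j : ℕ) (h5 : 5 ≤ X.card + j)
    (Bf : Finset (Finset GolayPt)) (hBf : ∀ c, c ∈ Bf ↔ c ∈ octads) :
    {U : Finset GolayPt | U.card = j ∧ Disjoint X U ∧ ∃ o ∈ octads, X ∪ U ⊆ o}.ncard
      = (Bf.filter (fun o => X ⊆ o)).card * Nat.choose (8 - X.card) j := by
  classical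
  set F := Finset.powersetCard j Xᶜ with hF
  have hFmem : ∀ U, U ∈ F ↔ U.card = j ∧ Disjoint X U := by
    intro U
    rw [hF, Finset.mem_powersetCard]
    constructor
    · rintro ⟨h1, h2⟩
      exact ⟨h2, Finset.disjoint_left.2 (fun x hxX hxU => (Finset.mem_compl.1 (h1 hxU)) hxX)⟩
    · rintro ⟨h1, h2⟩
      exact ⟨fun x hxU => Finset.mem_compl.2 (fun hxX => Finset.disjoint_left.1 h2 hxX hxU), h1⟩
  set Bx := Bf.filter (fun o => X ⊆ o) with hBx
  have hdc := Finset.sum_card_bipartiteAbove_eq_sum_card_bipartiteBelow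
    (s := F) (t := Bx) (r := fun (U o : Finset GolayPt) => U ⊆ o)
  have hR : ∀ o ∈ Bx, (F.bipartiteBelow (fun (U o : Finset GolayPt) => U ⊆ o) o).card
      = Nat.choose (8 - X.card) j := by
    intro o ho
    obtain ⟨hoB, hXo⟩ := Finset.mem_filter.1 ho
    have ho8 : o.card = 8 := ((hBf o).1 hoB).2
    have h1 : F.bipartiteBelow (fun (U o : Finset GolayPt) => U ⊆ o) o
        = Finset.powersetCard j (o \ X) := by
      ext U
      rw [Finset.mem_bipartiteBelow, hFmem, Finset.mem_powersetCard]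
      constructor
      · rintro ⟨⟨h1, h2⟩, h3⟩
        exact ⟨fun x hx => Finset.mem_sdiff.2
          ⟨h3 hx, fun hxX => Finset.disjoint_left.1 h2 hxX hx⟩, h1⟩
      · rintro ⟨h1, h2⟩
        exact ⟨⟨h2, Finset.disjoint_left.2
          (fun x hxX hxU => (Finset.mem_sdiff.1 (h1 hxU)).2 hxX)⟩,
          fun x hx => (Finset.mem_sdiff.1 (h1 hx)).1⟩
    rw [h1, Finset.card_powersetCard, Finset.card_sdiff_of_subset hXo, ho8]
  have hL : ∀ U ∈ F, (Bx.bipartiteAbove (fun (U o : Finset GolayPt) => U ⊆ o) U).card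
      = if (∃ o ∈ octads, X ∪ U ⊆ o) then 1 else 0 := by
    intro U hU
    obtain ⟨hUj, hdisj⟩ := (hFmem U).1 hU
    have hcard : 5 ≤ (X ∪ U).card := by
      rw [Finset.card_union_of_disjoint hdisj, hUj]
      exact h5
    split_ifs with hex
    · obtain ⟨o, ho, hsub⟩ := hex
      rw [Finset.card_eq_one]
      refine ⟨o, ?_⟩
      ext o'
      rw [Finset.mem_bipartiteAbove, Finset.mem_singleton, hBx, Finset.mem_filter]
      constructor
      · rintro ⟨⟨ho'B, hXo'⟩, hUo'⟩
        apply Cfsg.Agent.S0363.octad_uniq _ _ ((hBf _).1 ho'B) ho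
        calc 5 ≤ (X ∪ U).card := hcard
          _ ≤ _ := Finset.card_le_card
            (Finset.subset_inter (Finset.union_subset hXo' hUo') hsub)
      · rintro rfl
        exact ⟨⟨(hBf _).2 ho, Finset.union_subset_left hsub⟩, Finset.union_subset_right hsub⟩
    · rw [Finset.card_eq_zero]
      ext o'
      rw [Finset.mem_bipartiteAbove, hBx, Finset.mem_filter]
      simp only [Finset.notMem_empty, iff_false]
      rintro ⟨⟨ho'B, hXo'⟩, hUo'⟩
      exact hex ⟨o', (hBf _).1 ho'B, Finset.union_subset hXo' hUo'⟩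
  rw [Finset.sum_congr rfl hR, Finset.sum_const, smul_eq_mul, Finset.sum_congr rfl hL,
    Finset.sum_boole] at hdc
  rw [← hdc, ← Set.ncard_coe_finset]
  simp only [Nat.cast_id]
  congr 1
  ext U
  simp only [Set.mem_setOf_eq, Finset.coe_filter, hFmem, and_assoc]

/-- The number of octads through a set of at most five points. -/
theorem octads_through (X : Finset GolayPt) (hX : X.card ≤ 5)
    (Bf : Finset (Finset GolayPt)) (hBf : ∀ c, c ∈ Bf ↔ c ∈ octads) :
    (Bf.filter (fun o => X ⊆ o)).card * Nat.choose (8 - X.card) (5 - X.card)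
      = Nat.choose (24 - X.card) (5 - X.card) := by
  classical
  have h := steiner_count_super Cfsg.Agent.S0363.result Bf hBf X hX
  have h24 : Fintype.card GolayPt = 24 := by decide
  rw [h24] at h
  exact h

/-- Five-fold transitivity, for tuples given as functions. -/
theorem M24_trans5 (x y : Fin 5 → GolayPt) (hx : Function.Injective x)
    (hy : Function.Injective y) : ∃ g ∈ M24, ∀ i, g (x i) = y i := by
  obtain ⟨σ, hσK, hσ⟩ := to_base x hx
  obtain ⟨τ, hτK, hτ⟩ := to_base y hy
  refine ⟨τ⁻¹ * σ, M24.mul_mem (M24.inv_mem (K3_le_M24 hτK)) (K3_le_M24 hσK), fun i => ?_⟩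
  rw [Equiv.Perm.mul_apply, hσ i]
  exact perm_inv_of_apply τ _ _ (hτ i)

/-- The octad through five points. -/
theorem octad_through5 (x : Fin 5 → GolayPt) (hx : Function.Injective x) :
    ∃ o ∈ octads, ∀ i, x i ∈ o := by
  classical
  have hc : (Finset.univ.image x).card = 5 := by
    rw [Finset.card_image_of_injective _ hx]
    simp
  obtain ⟨o, ⟨ho, hsub⟩, -⟩ := Cfsg.Agent.S0363.result.2 _ hc
  exact ⟨o, ho, fun i => hsub (Finset.mem_image_of_mem x (Finset.mem_univ i))⟩

theorem fix5_trans_in (x : Fin 5 → GolayPt) (hx : Function.Injective x) (o : Finset GolayPt)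
    (ho : o ∈ octads) (hxo : ∀ i, x i ∈ o) (a a' : GolayPt) (ha : a ∈ o) (ha' : a' ∈ o)
    (hax : ∀ i, a ≠ x i) (ha'x : ∀ i, a' ≠ x i) :
    ∃ g ∈ M24, (∀ i, g (x i) = x i) ∧ g a = a' := by
  classical
  have hb : ∃ b, b ∉ o := by
    by_contra hcon
    push Not at hcon
    have h1 : o = Finset.univ := Finset.eq_univ_iff_forall.2 hcon
    have h2 : o.card = 8 := ho.2
    rw [h1, Finset.card_univ] at h2
    have h24 : Fintype.card GolayPt = 24 := by decide
    omega
  obtain ⟨b, hb⟩ := hb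
  obtain ⟨g, hg, h1, h2, -⟩ := fix5_trans x hx o ho hxo a a' b b ha ha' hax ha'x hb hb
  exact ⟨g, hg, h1, h2⟩

theorem fix5_trans_out (x : Fin 5 → GolayPt) (hx : Function.Injective x) (o : Finset GolayPt)
    (ho : o ∈ octads) (hxo : ∀ i, x i ∈ o) (b b' : GolayPt) (hb : b ∉ o) (hb' : b' ∉ o) :
    ∃ g ∈ M24, (∀ i, g (x i) = x i) ∧ g b = b' := by
  classical
  have hc : (Finset.univ.image x).card = 5 := by
    rw [Finset.card_image_of_injective _ hx]
    simp
  have h8 : o.card = 8 := ho.2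
  obtain ⟨a, ha, hax⟩ := Finset.exists_mem_notMem_of_card_lt_card
    (s := Finset.univ.image x) (t := o) (by omega)
  have hax' : ∀ i, a ≠ x i := by
    intro i h
    exact hax (h ▸ Finset.mem_image_of_mem x (Finset.mem_univ i))
  obtain ⟨g, hg, h1, -, h3⟩ := fix5_trans x hx o ho hxo a a b b' ha ha hax' hax' hb hb'
  exact ⟨g, hg, h1, h3⟩

/-- The group has exactly two orbits on injective sextuples: those inside an octad and the
others. -/
theorem M24_trans6 (x y : Fin 6 → GolayPt) (hx : Function.Injective x)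
    (hy : Function.Injective y)
    (h : (∃ o ∈ octads, ∀ i, x i ∈ o) ↔ (∃ o ∈ octads, ∀ i, y i ∈ o)) :
    ∃ g ∈ M24, ∀ i, g (x i) = y i := by
  classical
  have hx5 : Function.Injective (fun i : Fin 5 => x i.castSucc) :=
    fun i j hij => Fin.castSucc_injective _ (hx hij)
  have hy5 : Function.Injective (fun i : Fin 5 => y i.castSucc) :=
    fun i j hij => Fin.castSucc_injective _ (hy hij)
  obtain ⟨g₀, hg₀, hg₀x⟩ := M24_trans5 _ _ hx5 hy5
  obtain ⟨o, ho, hyo⟩ := octad_through5 _ hy5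
  have hlast : ∀ i : Fin 6, i = Fin.last 5 ∨ ∃ j : Fin 5, i = j.castSucc := by
    intro i
    rcases Fin.eq_castSucc_or_eq_last i with ⟨j, rfl⟩ | rfl
    · exact Or.inr ⟨j, rfl⟩
    · exact Or.inl rfl
  have huniq : ∀ o' ∈ octads, (∀ i : Fin 5, y i.castSucc ∈ o') → o' = o := by
    intro o' ho' hyo'
    apply Cfsg.Agent.S0363.octad_uniq _ _ ho' ho
    have hsub : (Finset.univ.image (fun i : Fin 5 => y i.castSucc)) ⊆ o' ∩ o := by
      intro p hp
      obtain ⟨j, -, rfl⟩ := Finset.mem_image.1 hp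
      exact Finset.mem_inter.2 ⟨hyo' j, hyo j⟩
    have hc : (Finset.univ.image (fun i : Fin 5 => y i.castSucc)).card = 5 := by
      rw [Finset.card_image_of_injective _ hy5]
      simp
    calc 5 = _ := hc.symm
      _ ≤ _ := Finset.card_le_card hsub
  have hyiff : (∃ o ∈ octads, ∀ i, y i ∈ o) ↔ y (Fin.last 5) ∈ o := by
    constructor
    · rintro ⟨o', ho', hall⟩
      rw [← huniq o' ho' (fun i => hall _)]
      exact hall _
    · intro hl
      refine ⟨o, ho, fun i => ?_⟩
      rcases hlast i with rfl | ⟨j, rfl⟩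
      · exact hl
      · exact hyo j
  have hxiff : (∃ o ∈ octads, ∀ i, x i ∈ o) ↔ g₀ (x (Fin.last 5)) ∈ o := by
    constructor
    · rintro ⟨o', ho', hall⟩
      have h1 : g₀ • o' = o := by
        apply huniq _ ((smul_mem_octads_iff g₀ hg₀ o').2 ho')
        intro i
        rw [← hg₀x i]
        exact Finset.smul_mem_smul_finset (hall _)
      rw [← h1]
      exact Finset.smul_mem_smul_finset (hall _)
    · intro hl
      refine ⟨g₀⁻¹ • o, (smul_mem_octads_iff g₀⁻¹ (M24.inv_mem hg₀) o).2 ho, fun i => ?_⟩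
      rw [perm_mem_inv_smul]
      rcases hlast i with rfl | ⟨j, rfl⟩
      · exact hl
      · rw [hg₀x j]
        exact hyo j
  have hne1 : ∀ i : Fin 5, g₀ (x (Fin.last 5)) ≠ y i.castSucc := by
    intro i hi
    rw [← hg₀x i] at hi
    have h1 := hx (g₀.injective hi)
    exact absurd h1 (Fin.castSucc_lt_last i).ne'
  have hne2 : ∀ i : Fin 5, y (Fin.last 5) ≠ y i.castSucc := by
    intro i hi
    exact absurd (hy hi) (Fin.castSucc_lt_last i).ne'
  have hk : ∃ k ∈ M24, (∀ i : Fin 5, k (y i.castSucc) = y i.castSucc)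
      ∧ k (g₀ (x (Fin.last 5))) = y (Fin.last 5) := by
    by_cases hin : y (Fin.last 5) ∈ o
    · have hin' : g₀ (x (Fin.last 5)) ∈ o := hxiff.1 (h.2 (hyiff.2 hin))
      exact fix5_trans_in _ hy5 o ho hyo _ _ hin' hin hne1 hne2
    · have hin' : g₀ (x (Fin.last 5)) ∉ o := fun hc => hin (hyiff.1 (h.1 (hxiff.2 hc)))
      exact fix5_trans_out _ hy5 o ho hyo _ _ hin' hin
  obtain ⟨k, hk, hky, hkl⟩ := hk
  refine ⟨k * g₀, M24.mul_mem hk hg₀, fun i => ?_⟩
  rw [Equiv.Perm.mul_apply]
  rcases hlast i with rfl | ⟨j, rfl⟩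
  · exact hkl
  · rw [hg₀x j]
    exact hky j

theorem inj_of_nodup6 {α : Type*} (a b c d e f : α) (h : [a, b, c, d, e, f].Nodup) :
    Function.Injective ![a, b, c, d, e, f] := by
  rw [← List.nodup_ofFn]
  exact h

theorem inj_of_nodup5 {α : Type*} (a b c d e : α) (h : [a, b, c, d, e].Nodup) :
    Function.Injective ![a, b, c, d, e] := by
  rw [← List.nodup_ofFn]
  exact h

end Cfsg.Agent.Lib.Helper1
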