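import Mathlib
import Cfsg.Prelude.Def_SporadicCombinatorics
import Cfsg.Agent.Lib.Helper1.M24Fix5
import Cfsg.Agent.Lib.Helper1.Leech

/-!
Sextets: the sextet determined by a 4-set of points (helper1).
-/

namespace Cfsg.Agent.Lib.Helper1

open Cfsg

/-- The symmetric difference of two octads meeting in four points is an octad. -/
theorem symmDiff_octad {a b : Finset GolayPt} (ha : a ∈ octads) (hb : b ∈ octads)
    (h : (a ∩ b).card = 4) : symmDiff a b ∈ octads := by
  classical
  refine ⟨gSupp_symmDiff ha.1 hb.1, ?_⟩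
  have h1 : symmDiff a b = (a \ b) ∪ (b \ a) := rfl
  have h2 := Finset.card_sdiff_add_card_inter a b
  have h3 := Finset.card_sdiff_add_card_inter b a
  rw [Finset.inter_comm b a] at h3
  have ha8 : a.card = 8 := ha.2
  have hb8 : b.card = 8 := hb.2
  rw [h1, Finset.card_union_of_disjoint disjoint_sdiff_sdiff]
  omega

open Classical in
/-- The octads through a set of points. -/
noncomputable def octThrough (t : Finset GolayPt) : Finset (Finset GolayPt) :=
  Finset.univ.filter (fun o => o ∈ octads ∧ t ⊆ o)

theorem mem_octThrough (t o : Finset GolayPt) : o ∈ octThrough t ↔ o ∈ octads ∧ t ⊆ o := by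
  simp [octThrough]

theorem card_octThrough (t : Finset GolayPt) (ht : t.card = 4) : (octThrough t).card = 5 := by
  classical
  have h := octads_through t (by omega) (Finset.univ.filter (fun o => o ∈ octads))
    (by intro c; simp)
  rw [ht] at h
  have c2 : Nat.choose (8 - 4) (5 - 4) = 4 := by decide
  have c3 : Nat.choose (24 - 4) (5 - 4) = 20 := by decide
  rw [c2, c3] at h
  have e : octThrough t
      = (Finset.univ.filter (fun o => o ∈ octads)).filter (fun o => t ⊆ o) := by
    ext o
    simp [octThrough]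
  rw [e]
  omega

theorem inter_octThrough (t : Finset GolayPt) (ht : t.card = 4) {o1 o2 : Finset GolayPt}
    (h1 : o1 ∈ octThrough t) (h2 : o2 ∈ octThrough t) (hne : o1 ≠ o2) : o1 ∩ o2 = t := by
  classical
  rw [mem_octThrough] at h1 h2
  have hsub : t ⊆ o1 ∩ o2 := Finset.subset_inter h1.2 h2.2
  have hlt := steiner_inter_lt Cfsg.Agent.S0363.result h1.1 h2.1 hne
  exact (Finset.eq_of_subset_of_card_le hsub (by omega)).symm

open Classical in
/-- The sextet determined by the 4-set `t`. -/
noncomputable def sxt (t : Finset GolayPt) : Finset (Finset GolayPt) :=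
  insert t ((octThrough t).image (fun o => o \ t))

theorem mem_sxt (t u : Finset GolayPt) :
    u ∈ sxt t ↔ u = t ∨ ∃ o ∈ octThrough t, o \ t = u := by
  classical
  rw [sxt, Finset.mem_insert, Finset.mem_image]

theorem self_mem_sxt (t : Finset GolayPt) : t ∈ sxt t := (mem_sxt t t).2 (Or.inl rfl)

theorem sdiff_inj (t : Finset GolayPt) {o1 o2 : Finset GolayPt} (h1 : t ⊆ o1) (h2 : t ⊆ o2)
    (h : o1 \ t = o2 \ t) : o1 = o2 := by
  classical
  rw [← Finset.sdiff_union_of_subset h1, ← Finset.sdiff_union_of_subset h2, h]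

theorem sxt_mem (t : Finset GolayPt) (ht : t.card = 4) : sxt t ∈ sextets := by
  classical
  have hnot : t ∉ (octThrough t).image (fun o => o \ t) := by
    intro h
    obtain ⟨o, ho, hot⟩ := Finset.mem_image.1 h
    have hsub : t ⊆ o \ t := by rw [hot]
    have hempty : t = ∅ := by
      apply Finset.eq_empty_of_forall_notMem
      intro x hx
      exact (Finset.mem_sdiff.1 (hsub hx)).2 hx
    rw [hempty] at ht
    simp at ht
  refine ⟨?_, ?_, ?_⟩
  · rw [sxt, Finset.card_insert_of_notMem hnot, Finset.card_image_of_injOn,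
      card_octThrough t ht]
    intro o1 h1 o2 h2 h
    exact sdiff_inj t ((mem_octThrough t o1).1 h1).2 ((mem_octThrough t o2).1 h2).2 h
  · intro u hu
    rcases (mem_sxt t u).1 hu with hu | ⟨o, ho, hu⟩
    · rw [hu]; exact ht
    · rw [mem_octThrough] at ho
      rw [← hu, Finset.card_sdiff_of_subset ho.2, ho.1.2, ht]
  · intro u hu v hv huv
    rcases (mem_sxt t u).1 hu with hu | ⟨o1, ho1, hu⟩ <;>
      rcases (mem_sxt t v).1 hv with hv | ⟨o2, ho2, hv⟩
    · exact absurd (hu.trans hv.symm) huv
    · rw [mem_octThrough] at ho2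
      rw [hu, ← hv, Finset.union_sdiff_of_subset ho2.2]
      exact ho2.1
    · rw [mem_octThrough] at ho1
      rw [hv, ← hu, Finset.sdiff_union_of_subset ho1.2]
      exact ho1.1
    · have hne : o1 ≠ o2 := fun h => huv (by rw [← hu, ← hv, h])
      have hint := inter_octThrough t ht ho1 ho2 hne
      have hsd : o1 \ t ∪ o2 \ t = symmDiff o1 o2 := by
        rw [← hint]
        ext x
        simp only [Finset.mem_union, Finset.mem_sdiff, Finset.mem_inter, Finset.mem_symmDiff]
        tauto
      rw [← hu, ← hv, hsd]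
      exact symmDiff_octad ((mem_octThrough t o1).1 ho1).1 ((mem_octThrough t o2).1 ho2).1
        (by rw [hint, ht])

theorem sextet_eq_sxt (S : Finset (Finset GolayPt)) (hS : S ∈ sextets) (t : Finset GolayPt)
    (ht : t ∈ S) : S = sxt t := by
  classical
  obtain ⟨h6, h4, hu⟩ := hS
  have ht4 := h4 t ht
  apply Finset.eq_of_subset_of_card_le
  · intro u huS
    by_cases hut : u = t
    · rw [hut]; exact self_mem_sxt t
    · have ho := hu t ht u huS (Ne.symm hut)
      have hdisj : Disjoint t u := by
        rw [← Finset.card_union_eq_card_add_card, ho.2, ht4, h4 u huS]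
      exact (mem_sxt t u).2 (Or.inr ⟨t ∪ u, (mem_octThrough t _).2 ⟨ho, Finset.subset_union_left⟩,
        Finset.union_sdiff_cancel_left hdisj⟩)
  · rw [(sxt_mem t ht4).1, h6]

theorem sextet_unique (t : Finset GolayPt) (ht : t.card = 4) :
    ∃! S : Finset (Finset GolayPt), S ∈ sextets ∧ t ∈ S :=
  ⟨sxt t, ⟨sxt_mem t ht, self_mem_sxt t⟩, fun S' h => sextet_eq_sxt S' h.1 t h.2⟩

theorem sextets_ncard : sextets.ncard = 1771 := by
  classical
  obtain ⟨Sx, hSx, hcard⟩ := exists_blockFinset sextets
  have hdc := Finset.sum_card_bipartiteAbove_eq_sum_card_bipartiteBelow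
    (s := Finset.powersetCard 4 (Finset.univ : Finset GolayPt)) (t := Sx)
    (r := fun (t : Finset GolayPt) (S : Finset (Finset GolayPt)) => t ∈ S)
  have hL : ∀ t ∈ Finset.powersetCard 4 (Finset.univ : Finset GolayPt),
      (Sx.bipartiteAbove (fun (t : Finset GolayPt) (S : Finset (Finset GolayPt)) => t ∈ S)
        t).card = 1 := by
    intro t ht
    have ht4 : t.card = 4 := (Finset.mem_powersetCard.1 ht).2
    rw [Finset.card_eq_one]
    refine ⟨sxt t, ?_⟩
    ext S
    rw [Finset.mem_bipartiteAbove, Finset.mem_singleton, hSx]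
    constructor
    · rintro ⟨hS, htS⟩
      exact sextet_eq_sxt S hS t htS
    · rintro rfl
      exact ⟨sxt_mem t ht4, self_mem_sxt t⟩
  have hR : ∀ S ∈ Sx, ((Finset.powersetCard 4 (Finset.univ : Finset GolayPt)).bipartiteBelow
      (fun (t : Finset GolayPt) (S : Finset (Finset GolayPt)) => t ∈ S) S).card = 6 := by
    intro S hS
    have hS' := (hSx S).1 hS
    have h1 : (Finset.powersetCard 4 (Finset.univ : Finset GolayPt)).bipartiteBelow
        (fun (t : Finset GolayPt) (S : Finset (Finset GolayPt)) => t ∈ S) S = S := by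
      ext t
      rw [Finset.mem_bipartiteBelow, Finset.mem_powersetCard]
      constructor
      · rintro ⟨-, h⟩
        exact h
      · intro h
        exact ⟨⟨Finset.subset_univ _, hS'.2.1 t h⟩, h⟩
    rw [h1]
    exact hS'.1
  rw [Finset.sum_congr rfl hL, Finset.sum_congr rfl hR, Finset.sum_const, Finset.sum_const,
    smul_eq_mul, smul_eq_mul, Finset.card_powersetCard, Finset.card_univ] at hdc
  have c : Nat.choose (Fintype.card GolayPt) 4 = 10626 := by decide +kernel
  rw [hcard]
  omega

end Cfsg.Agent.Lib.Helper1
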