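import Mathlib
import Cfsg.Prelude.Def_SporadicCombinatorics
import Cfsg.Agent.Lib.Helper1.Sextets

/-!
Cosets of the length-24 code: covering radius 4 and coset leaders (helper1).
-/

namespace Cfsg.Agent.Lib.Helper1

open Cfsg

theorem sub_eq_add₂ (v w : GolayPt → ZMod 2) : v - w = v + w := by
  funext x
  simp only [Pi.sub_apply, Pi.add_apply]
  exact CharTwo.sub_eq_add _ _

/-- Every word is within distance 4 of the code. -/
theorem golay_cover (w : GolayPt → ZMod 2) :
    ∃ v : GolayPt → ZMod 2, hammingNorm v ≤ 4 ∧ w - v ∈ golayCode := by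
  classical
  induction' hn : (support₂ w).card using Nat.strong_induction_on with n ih generalizing w
  by_cases h4 : (support₂ w).card ≤ 4
  · exact ⟨w, h4, by rw [sub_self]; exact Submodule.zero_mem _⟩
  · obtain ⟨s, hs, hs5⟩ := Finset.exists_subset_card_eq (s := support₂ w) (n := 5) (by omega)
    obtain ⟨o, ⟨ho, hso⟩, -⟩ := Cfsg.Agent.S0363.result.2 s hs5
    obtain ⟨⟨c, hc, hco⟩, ho8⟩ := ho
    have hsupp : support₂ (w + c) = symmDiff (support₂ w) o := by
      rw [Cfsg.Agent.S0363.support_add, hco]
    have hcard : (support₂ (w + c)).card < n := by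
      rw [hsupp]
      have h1 : symmDiff (support₂ w) o = (support₂ w \ o) ∪ (o \ support₂ w) := rfl
      have h2 := Finset.card_sdiff_add_card_inter (support₂ w) o
      have h3 := Finset.card_sdiff_add_card_inter o (support₂ w)
      rw [Finset.inter_comm o] at h3
      have h5 : 5 ≤ (support₂ w ∩ o).card := by
        rw [← hs5]; exact Finset.card_le_card (Finset.subset_inter hs hso)
      rw [h1, Finset.card_union_of_disjoint disjoint_sdiff_sdiff]
      omega
    obtain ⟨v, hv, hvc⟩ := ih _ hcard (w + c) rfl
    refine ⟨v, hv, ?_⟩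
    have e : w - v = (w + c - v) - c := by abel
    rw [e]; exact Submodule.sub_mem _ hvc hc

/-- Two words in the same coset of weights at most 3 and at most 4 are equal. -/
theorem coset_unique {w v v' : GolayPt → ZMod 2} (hv : w - v ∈ golayCode)
    (hv' : w - v' ∈ golayCode) (h3 : hammingNorm v ≤ 3) (h4 : hammingNorm v' ≤ 4) : v = v' := by
  classical
  apply support₂_injective
  have hmem : v + v' ∈ golayCode := by
    have e : v + v' = (w - v') - (w - v) := by rw [← sub_eq_add₂]; abel
    rw [e]; exact Submodule.sub_mem _ hv' hv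
  have hS : symmDiff (support₂ v) (support₂ v') ∈ gSupp :=
    ⟨v + v', hmem, Cfsg.Agent.S0363.support_add v v'⟩
  have hc := gSupp_card hS
  have hle : (symmDiff (support₂ v) (support₂ v')).card ≤ 7 := by
    have h1 : symmDiff (support₂ v) (support₂ v')
        = (support₂ v \ support₂ v') ∪ (support₂ v' \ support₂ v) := rfl
    rw [h1]
    have := Finset.card_union_le (support₂ v \ support₂ v') (support₂ v' \ support₂ v)
    have := Finset.card_le_card (Finset.sdiff_subset : support₂ v \ support₂ v' ⊆ support₂ v)
    have := Finset.card_le_card (Finset.sdiff_subset : support₂ v' \ support₂ v ⊆ support₂ v')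
    have e1 : hammingNorm v = (support₂ v).card := rfl
    have e2 : hammingNorm v' = (support₂ v').card := rfl
    omega
  have h0 : (symmDiff (support₂ v) (support₂ v')).card = 0 := by omega
  rw [Finset.card_eq_zero] at h0
  exact symmDiff_eq_bot.1 h0

/-- The weight-4 members of a coset without lighter words form a sextet. -/
theorem coset_sextet {w v0 : GolayPt → ZMod 2} (hv0 : w - v0 ∈ golayCode)
    (h4 : hammingNorm v0 = 4)
    (hall : ∀ v : GolayPt → ZMod 2, w - v ∈ golayCode → hammingNorm v ≤ 4 → hammingNorm v = 4) :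
    support₂ '' {v : GolayPt → ZMod 2 | hammingNorm v ≤ 4 ∧ w - v ∈ golayCode}
      = ↑(sxt (support₂ v0)) := by
  classical
  have hT : (support₂ v0).card = 4 := h4
  ext U
  simp only [Set.mem_image, Set.mem_setOf_eq, Finset.mem_coe, mem_sxt, mem_octThrough]
  constructor
  · rintro ⟨v, ⟨hv4, hv⟩, rfl⟩
    by_cases heq : support₂ v = support₂ v0
    · exact Or.inl heq
    · right
      have hv4' : (support₂ v).card = 4 := hall v hv hv4
      have hmem : v0 + v ∈ golayCode := by
        have e : v0 + v = (w - v) - (w - v0) := by rw [← sub_eq_add₂]; abel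
        rw [e]; exact Submodule.sub_mem _ hv hv0
      have hS : symmDiff (support₂ v0) (support₂ v) ∈ gSupp :=
        ⟨v0 + v, hmem, Cfsg.Agent.S0363.support_add v0 v⟩
      have hc := gSupp_card hS
      have h1 : symmDiff (support₂ v0) (support₂ v)
          = (support₂ v0 \ support₂ v) ∪ (support₂ v \ support₂ v0) := rfl
      have h2 := Finset.card_sdiff_add_card_inter (support₂ v0) (support₂ v)
      have h3 := Finset.card_sdiff_add_card_inter (support₂ v) (support₂ v0)
      rw [Finset.inter_comm (support₂ v)] at h3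
      have hcard : (symmDiff (support₂ v0) (support₂ v)).card
          = (support₂ v0 \ support₂ v).card + (support₂ v \ support₂ v0).card := by
        rw [h1, Finset.card_union_of_disjoint disjoint_sdiff_sdiff]
      have hne0 : (symmDiff (support₂ v0) (support₂ v)).card ≠ 0 := by
        intro h0
        rw [Finset.card_eq_zero] at h0
        exact heq (symmDiff_eq_bot.1 h0).symm
      have h8 : (symmDiff (support₂ v0) (support₂ v)).card = 8 := by omega
      have hi0 : (support₂ v0 ∩ support₂ v).card = 0 := by omega
      have hdisj : Disjoint (support₂ v0) (support₂ v) := by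
        rw [Finset.disjoint_iff_inter_eq_empty]; exact Finset.card_eq_zero.1 hi0
      have hsd : symmDiff (support₂ v0) (support₂ v) = support₂ v0 ∪ support₂ v :=
        hdisj.symmDiff_eq_sup
      rw [hsd] at hS h8
      refine ⟨support₂ v0 ∪ support₂ v, ⟨⟨hS, h8⟩, Finset.subset_union_left⟩, ?_⟩
      exact Finset.union_sdiff_cancel_left hdisj
  · rintro (rfl | ⟨o, ⟨ho, hTo⟩, rfl⟩)
    · exact ⟨v0, ⟨h4.le, hv0⟩, rfl⟩
    · obtain ⟨⟨c, hc, hco⟩, ho8⟩ := ho
      have hsupp : support₂ (v0 + c) = o \ support₂ v0 := by
        rw [Cfsg.Agent.S0363.support_add, hco, symmDiff_def,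
          Finset.sdiff_eq_empty_iff_subset.2 hTo]
        simp
      refine ⟨v0 + c, ⟨?_, ?_⟩, hsupp⟩
      · show (support₂ (v0 + c)).card ≤ 4
        rw [hsupp, Finset.card_sdiff_of_subset hTo]; omega
      · have e : w - (v0 + c) = (w - v0) - c := by abel
        rw [e]; exact Submodule.sub_mem _ hv0 hc

end Cfsg.Agent.Lib.Helper1
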