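import Mathlib

/-!
Counting lemmas for the classes of short vectors modulo twice a lattice (helper1).
-/

namespace Cfsg.Agent.Lib.Helper1

open Matrix

theorem frame_bound {ι : Type*} [Fintype ι] [DecidableEq ι] (B : Matrix ι ι ℤ)
    (T : Finset (ι → ℤ)) (hq : ∀ x ∈ T, x ⬝ᵥ (B *ᵥ x) ≠ 0)
    (hT : ∀ x ∈ T, ∀ y ∈ T, y = x ∨ y = -x ∨ x ⬝ᵥ (B *ᵥ y) = 0) :
    T.card ≤ 2 * Fintype.card ι := by
  classical
  obtain ⟨P, hP⟩ : ∃ P, P = T.image (fun x => ({x, -x} : Finset (ι → ℤ))) := ⟨_, rfl⟩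
  have h1 : T.card ≤ 2 * P.card := by
    rw [hP]
    apply Finset.card_le_mul_card_image
    intro p hp
    obtain ⟨x0, hx0, rfl⟩ := Finset.mem_image.1 hp
    calc (T.filter (fun x => ({x, -x} : Finset (ι → ℤ)) = {x0, -x0})).card
        ≤ ({x0, -x0} : Finset (ι → ℤ)).card := by
          apply Finset.card_le_card
          intro x hx
          obtain ⟨-, hx⟩ := Finset.mem_filter.1 hx
          rw [← hx]
          exact Finset.mem_insert_self _ _
      _ ≤ 2 := Finset.card_le_two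
  have hrep : ∀ p : ↥P, ∃ x ∈ T, ({x, -x} : Finset (ι → ℤ)) = p.1 := by
    have hP' : ∀ q ∈ P, ∃ x ∈ T, ({x, -x} : Finset (ι → ℤ)) = q := by
      intro q hq'
      rw [hP] at hq'
      exact Finset.mem_image.1 hq'
    intro p
    exact hP' p.1 p.2
  choose r hrT hrp using hrep
  have hli : LinearIndependent ℤ r := by
    rw [linearIndependent_iff']
    intro s g hsum j hj
    have h0 : r j ⬝ᵥ (B *ᵥ (∑ i ∈ s, g i • r i)) = 0 := by
      rw [hsum]
      simp
    rw [Matrix.mulVec_sum, dotProduct_sum] at h0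
    rw [Finset.sum_eq_single j] at h0
    · rw [Matrix.mulVec_smul, dotProduct_smul, smul_eq_mul] at h0
      rcases mul_eq_zero.1 h0 with h | h
      · exact h
      · exact absurd h (hq _ (hrT j))
    · intro i _ hij
      rw [Matrix.mulVec_smul, dotProduct_smul, smul_eq_mul]
      rcases hT (r j) (hrT j) (r i) (hrT i) with h | h | h
      · exfalso
        apply hij
        apply Subtype.ext
        rw [← hrp i, ← hrp j, h]
      · exfalso
        apply hij
        apply Subtype.ext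
        rw [← hrp i, ← hrp j, h, neg_neg, Finset.pair_comm]
      · rw [h, mul_zero]
    · intro hj'
      exact absurd hj hj'
  have h2 := hli.fintype_card_le_finrank
  rw [Fintype.card_coe, Module.finrank_fintype_fun_eq_card] at h2
  omega

theorem cross_count {V Q : Type*} [DecidableEq V] [DecidableEq Q] (ρ : V → Q) (x0 : V)
    (S4 S6 S8 : Finset V) (R : Finset Q) (hR : R.card ≤ 16777216)
    (c4 : S4.card = 196560) (c6 : S6.card = 16773120) (c8 : S8.card = 398034000)
    (hRx0 : ρ x0 ∈ R) (hR4 : ∀ x ∈ S4, ρ x ∈ R) (hR6 : ∀ x ∈ S6, ρ x ∈ R)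
    (hR8 : ∀ x ∈ S8, ρ x ∈ R)
    (d04 : ∀ x ∈ S4, ρ x ≠ ρ x0) (d06 : ∀ x ∈ S6, ρ x ≠ ρ x0) (d08 : ∀ x ∈ S8, ρ x ≠ ρ x0)
    (d46 : ∀ x ∈ S4, ∀ y ∈ S6, ρ x ≠ ρ y) (d48 : ∀ x ∈ S4, ∀ y ∈ S8, ρ x ≠ ρ y)
    (d68 : ∀ x ∈ S6, ∀ y ∈ S8, ρ x ≠ ρ y)
    (f4 : ∀ x ∈ S4, (S4.filter (fun y => ρ y = ρ x)).card ≤ 2)
    (f6 : ∀ x ∈ S6, (S6.filter (fun y => ρ y = ρ x)).card ≤ 2)
    (f8 : ∀ x ∈ S8, (S8.filter (fun y => ρ y = ρ x)).card ≤ 48) :
    (∀ x ∈ S8, (S8.filter (fun y => ρ y = ρ x)).card = 48) ∧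
    (∀ c ∈ R, c = ρ x0 ∨ (∃ x ∈ S4, ρ x = c) ∨ (∃ x ∈ S6, ρ x = c) ∨ (∃ x ∈ S8, ρ x = c)) := by
  classical
  have a4 : S4.card ≤ 2 * (S4.image ρ).card :=
    Finset.card_le_mul_card_image S4 2 (fun c hc => by
      obtain ⟨x, hx, rfl⟩ := Finset.mem_image.1 hc
      exact f4 x hx)
  have a6 : S6.card ≤ 2 * (S6.image ρ).card :=
    Finset.card_le_mul_card_image S6 2 (fun c hc => by
      obtain ⟨x, hx, rfl⟩ := Finset.mem_image.1 hc
      exact f6 x hx)
  have a8 : S8.card ≤ 48 * (S8.image ρ).card :=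
    Finset.card_le_mul_card_image S8 48 (fun c hc => by
      obtain ⟨x, hx, rfl⟩ := Finset.mem_image.1 hc
      exact f8 x hx)
  have e1 : Disjoint ({ρ x0} : Finset Q) (S4.image ρ) := by
    rw [Finset.disjoint_left]
    intro c hc hc'
    rw [Finset.mem_singleton] at hc
    obtain ⟨x, hx, rfl⟩ := Finset.mem_image.1 hc'
    exact d04 x hx hc
  have e2 : Disjoint (({ρ x0} : Finset Q) ∪ S4.image ρ) (S6.image ρ) := by
    rw [Finset.disjoint_left]
    intro c hc hc'
    obtain ⟨y, hy, rfl⟩ := Finset.mem_image.1 hc'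
    rcases Finset.mem_union.1 hc with h | h
    · rw [Finset.mem_singleton] at h
      exact d06 y hy h
    · obtain ⟨x, hx, hxy⟩ := Finset.mem_image.1 h
      exact d46 x hx y hy hxy
  have e3 : Disjoint (({ρ x0} : Finset Q) ∪ S4.image ρ ∪ S6.image ρ) (S8.image ρ) := by
    rw [Finset.disjoint_left]
    intro c hc hc'
    obtain ⟨y, hy, rfl⟩ := Finset.mem_image.1 hc'
    rcases Finset.mem_union.1 hc with h | h
    · rcases Finset.mem_union.1 h with h | h
      · rw [Finset.mem_singleton] at h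
        exact d08 y hy h
      · obtain ⟨x, hx, hxy⟩ := Finset.mem_image.1 h
        exact d48 x hx y hy hxy
    · obtain ⟨x, hx, hxy⟩ := Finset.mem_image.1 h
      exact d68 x hx y hy hxy
  have hsub : (({ρ x0} : Finset Q) ∪ S4.image ρ ∪ S6.image ρ ∪ S8.image ρ) ⊆ R := by
    intro c hc
    rcases Finset.mem_union.1 hc with h | h
    · rcases Finset.mem_union.1 h with h | h
      · rcases Finset.mem_union.1 h with h | h
        · rw [Finset.mem_singleton] at h
          rw [h]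
          exact hRx0
        · obtain ⟨x, hx, rfl⟩ := Finset.mem_image.1 h
          exact hR4 x hx
      · obtain ⟨x, hx, rfl⟩ := Finset.mem_image.1 h
        exact hR6 x hx
    · obtain ⟨x, hx, rfl⟩ := Finset.mem_image.1 h
      exact hR8 x hx
  have hcard : (({ρ x0} : Finset Q) ∪ S4.image ρ ∪ S6.image ρ ∪ S8.image ρ).card
      = 1 + (S4.image ρ).card + (S6.image ρ).card + (S8.image ρ).card := by
    rw [Finset.card_union_of_disjoint e3, Finset.card_union_of_disjoint e2,
      Finset.card_union_of_disjoint e1, Finset.card_singleton]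
  have hle := Finset.card_le_card hsub
  rw [hcard] at hle
  have hI8 : (S8.image ρ).card = 8292375 := by omega
  constructor
  · intro x hx
    by_contra hne
    have hlt : (S8.filter (fun y => ρ y = ρ x)).card < 48 := lt_of_le_of_ne (f8 x hx) hne
    have hs := Finset.card_eq_sum_card_image ρ S8
    have : ∑ b ∈ S8.image ρ, (S8.filter (fun a => ρ a = b)).card < ∑ _b ∈ S8.image ρ, 48 := by
      apply Finset.sum_lt_sum
      · intro c hc
        obtain ⟨y, hy, rfl⟩ := Finset.mem_image.1 hc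
        exact f8 y hy
      · exact ⟨ρ x, Finset.mem_image_of_mem ρ hx, hlt⟩
    rw [Finset.sum_const, smul_eq_mul, hI8, ← hs, c8] at this
    omega
  · have heq : (({ρ x0} : Finset Q) ∪ S4.image ρ ∪ S6.image ρ ∪ S8.image ρ) = R :=
      Finset.eq_of_subset_of_card_le hsub (by rw [hcard]; omega)
    intro c hc
    rw [← heq] at hc
    rcases Finset.mem_union.1 hc with h | h
    · rcases Finset.mem_union.1 h with h | h
      · rcases Finset.mem_union.1 h with h | h
        · rw [Finset.mem_singleton] at h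
          exact Or.inl h
        · obtain ⟨x, hx, rfl⟩ := Finset.mem_image.1 h
          exact Or.inr (Or.inl ⟨x, hx, rfl⟩)
      · obtain ⟨x, hx, rfl⟩ := Finset.mem_image.1 h
        exact Or.inr (Or.inr (Or.inl ⟨x, hx, rfl⟩))
    · obtain ⟨x, hx, rfl⟩ := Finset.mem_image.1 h
      exact Or.inr (Or.inr (Or.inr ⟨x, hx, rfl⟩))

end Cfsg.Agent.Lib.Helper1
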