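import Mathlib
import Cfsg.Agent.Lib.Helper1.Dod11

/-!
Table checks for the stabiliser of a dodecad, a point of it and a point outside it (helper1).
-/

set_option autoImplicit false

namespace Cfsg.Agent.Lib.Helper1.Dod11

open Cfsg Cfsg.Agent.Lib.Helper9

set_option maxHeartbeats 40000000 in
theorem transT_ok : transT.all memD = true := by decide +kernel

set_option maxHeartbeats 40000000 in
theorem keys_eq : transT.map keyOf = keysT := by decide +kernel

set_option maxHeartbeats 40000000 in
theorem keys_nodup : keysT.Nodup := by decide +kernel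

theorem transT_length : transT.length = 144 := by decide +kernel

set_option maxHeartbeats 40000000 in
theorem trans_ok : (List.range 24).all (fun i => (List.range 24).all (fun j =>
    !((8551822 : ℕ).testBit i) || (8551822 : ℕ).testBit j ||
      keysT.contains (2 ^ i, 2 ^ j))) = true := by decide +kernel

set_option maxHeartbeats 40000000 in
theorem repN_perm : chainN.all (fun r => isPermL (repN r.1)) = true := by decide +kernel

set_option maxHeartbeats 40000000 in
theorem gensN_mem : gensN.all (fun s => memH (repN s)) = true := by decide +kernel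

set_option maxHeartbeats 40000000 in
theorem genN_mul : gensN.all (fun s => chainN.all (fun r =>
    compL (repN s) (repN r.1) == repN (tmulN s r.1))) = true := by decide +kernel

set_option maxHeartbeats 40000000 in
theorem kerN : chainN.all (fun r => !(repN r.1 == idL) || r.1 == idN || r.1 == negN) = true := by
  decide +kernel

set_option maxHeartbeats 40000000 in
theorem chainN_ok : chainOK2 chainN = true := by decide +kernel

set_option maxHeartbeats 40000000 in
theorem validN_mem : (List.range 11).all (fun a => (List.range 11).all (fun b =>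
    (List.range 11).all (fun c => (List.range 11).all (fun d =>
      !(vN a b c d) || atN (posOf a b c d) == [a, b, c, d])))) = true := by decide +kernel

set_option maxHeartbeats 40000000 in
theorem centerN : chainN.all (fun r => !(tmulN r.1 gT == tmulN gT r.1) ||
    !(tmulN r.1 gS == tmulN gS r.1) || r.1 == idN || r.1 == negN) = true := by decide +kernel

set_option maxHeartbeats 40000000 in
theorem commN : chainN.all (fun r => tmulN r.1 negN == tmulN negN r.1) = true := by
  decide +kernel

theorem repN_id : repN idN = idL := by decide +kernel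

theorem repN_neg : repN negN = idL := by decide +kernel

/-- The positions in the chain of one matrix from each pair of opposite matrices, ordered by the code of the image. -/
def halfS : List ℕ :=
  [1319, 1055, 457, 595, 1282, 794, 1121, 289, 411, 913, 1192, 678, 575, 37, 828, 1007, 266, 810, 802, 661, 1150, 1214, 1144, 706, 583, 663, 804, 236, 1146, 818, 915, 1005, 729, 826, 1051, 602, 295, 1118, 216, 704, 370, 941, 716, 714, 919, 736, 1195, 908, 846, 1153, 1226, 186, 1164, 1272, 1284, 460, 877, 764, 639, 1255, 1286, 815, 561, 581, 988, 1191, 95, 188, 1064, 1156, 312, 1050, 875, 1110, 1114, 986, 637, 982, 1301, 456, 613, 436, 1124, 1095, 470, 570, 213, 210, 323, 226, 122, 1149, 421, 1213, 925, 557, 861, 918, 592, 1270, 605, 624, 672, 744, 345, 1241, 809, 379, 1009, 691, 1117, 721, 837, 830, 1305, 994, 665, 857, 1099, 1293, 1254, 361, 930, 467, 339, 1283, 803, 662, 754, 817, 1145, 329, 530, 715, 1027, 1129, 735, 1040, 519, 265, 1006, 827, 229, 304, 369, 940, 1022, 886, 501, 294, 1088, 761, 399, 914, 1179, 728, 793, 1308, 594, 256, 1054, 1296, 953, 998, 1074, 705,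 1245, 1082, 1225, 1069, 960, 1203, 71, 1163, 76, 749, 893, 677, 1035, 1132, 360, 626, 928, 511, 742, 864, 1289, 822, 732, 1001, 796, 991, 1091, 1220, 833, 1012, 1182, 1262, 776, 902, 477, 611, 1020, 708, 375, 935, 1318, 587, 1258, 668, 788, 1127, 447, 1025, 772, 969, 1062, 167, 618, 428, 337, 600, 553, 1085, 1311, 1172, 1072, 1176, 541, 608, 867, 443, 629, 327, 1058, 481, 1159, 503, 1067, 597, 596, 658, 1208, 1252, 1057, 480, 1317, 687, 934, 393, 719, 1257, 741, 510, 863, 625, 807, 1139, 993, 1175, 1211, 419, 1292, 1084, 1061, 698, 451, 427, 599, 336, 316, 649, 1189, 1237, 446, 738, 493, 1045, 671, 516, 731, 1240, 243, 454, 1186, 476, 900, 506, 786, 53, 628, 1048, 106, 967, 1261, 1015, 690, 548, 1219, 836, 189, 526, 1065, 313, 1157, 1199, 160, 1198, 606, 136, 439, 1134, 849, 1294, 756, 995, 666, 1275, 871, 614, 1265, 1125, 841, 633, 380, 1076, 1242, 346, 745, 947, 653, 1276, 926, 850, 432, 1247, 221, 682, 881, 401, 258, 389, 642, 499, 632, 463, 870, 1018, 1029, 831, 838, 1010, 1232, 692, 1287, 217, 842, 202, 1266, 989, 740, 509, 1107, 979, 175, 545, 854, 962, 791,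 1205, 973, 479, 978, 544, 532, 1042, 1106, 906, 1260, 954, 799, 1141, 147, 1218, 1280, 933, 146, 349, 1298, 586, 887, 617, 1060, 536, 701, 426, 888, 1204, 972, 790, 853, 961, 955, 800, 1297, 78, 1279, 1142, 492, 895, 894, 1036, 911, 1037, 905, 866, 1041, 531, 110, 711, 1304, 620, 656, 856, 1250, 1098, 390, 259, 402, 882, 683, 569, 647, 1267, 580, 843, 560, 1235, 1137, 301, 1077, 948, 205, 283, 981, 636, 985, 1113, 1109, 874, 623, 203, 1269, 591, 1135, 860, 539, 1277, 654, 1248, 433, 851, 1094, 634, 898, 464, 1300, 872, 1233, 485, 685, 726, 645, 1030, 1200, 162, 965, 784, 138, 527, 1090, 834, 1092, 1183, 1181, 1013, 448, 152, 177, 697, 450, 780, 1207, 321, 657, 296, 1251, 771, 1185, 709, 612, 903, 405, 899, 1312, 821, 554, 1000, 1210, 1173, 1044, 1002, 797, 272, 1290, 823, 408, 1236, 789, 970, 773, 1188, 1171, 669, 718, 552, 1310, 686, 1047, 966, 542, 785, 280, 444, 1138, 806, 163, 781, 284, 279, 565, 579, 1033, 814, 891, 884, 1303, 976, 513, 1104, 958, 1097, 951, 353, 1032, 890, 1080, 938, 675, 269, 524, 759, 679, 382, 357, 381, 758, 372, 523, 945, 859, 1222, 590,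 1315, 767, 622, 1168, 984, 1167, 1112, 1229, 1230, 768, 975, 1316, 1223, 957, 1103, 387, 371, 944, 364, 680, 300, 937, 1079, 484, 725, 566, 950, 1131, 208, 1193, 1122, 412, 748, 500, 1119, 82, 722, 263, 1021, 640, 1166, 929, 461, 878, 1228, 238, 1244, 1215, 1151, 997, 1073, 1196, 273, 1128, 1026, 251, 920, 766, 458, 1314, 1307, 496, 550, 268, 694, 1178, 603, 1087, 1052, 472, 328, 943, 356, 753, 609, 228, 778, 576, 142, 811, 923, 1273, 187, 1160, 1102, 1068, 1154]

/-- A numerical code of a list of numbers below 24. -/
def encL (l : List ℕ) : ℕ := l.foldl (fun acc x => acc * 24 + x) 0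

/-- Check that a list of numbers is strictly increasing. -/
def incr : List ℕ → Bool
  | a :: b :: t => decide (a < b) && incr (b :: t)
  | _ => true

theorem incr_lt : ∀ (t : List ℕ) (a : ℕ), incr (a :: t) = true → ∀ x ∈ t, a < x := by
  intro t
  induction t with
  | nil => intro a _ x hx; exact absurd hx List.not_mem_nil
  | cons b t ih =>
    intro a h x hx
    rw [incr, Bool.and_eq_true, decide_eq_true_eq] at h
    rcases List.mem_cons.1 hx with rfl | hx
    · exact h.1
    · exact lt_trans h.1 (ih b h.2 x hx)

theorem incr_nodup : ∀ l : List ℕ, incr l = true → l.Nodup := by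
  intro l
  induction l with
  | nil => intro _; exact List.nodup_nil
  | cons a t ih =>
    intro h
    refine List.nodup_cons.2 ⟨fun hmem => lt_irrefl a (incr_lt t a h a hmem), ih ?_⟩
    cases t with
    | nil => rfl
    | cons b t' =>
      rw [incr, Bool.and_eq_true] at h
      exact h.2

set_option maxHeartbeats 40000000 in
theorem halfS_lt : halfS.all (fun k => decide (k < 1320)) = true := by decide +kernel

theorem chainN_length : chainN.length = 1320 := by decide +kernel

set_option maxHeartbeats 40000000 in
theorem img_sorted : incr (halfS.map (fun k => encL (repN (atN k)))) = true := by decide +kernel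

theorem imgN_nodup : (halfS.map (fun k => repN (atN k))).Nodup := by
  have h := incr_nodup _ img_sorted
  have h' : ((halfS.map (fun k => repN (atN k))).map encL).Nodup := by
    rw [List.map_map]
    exact h
  exact List.Nodup.of_map _ h'

theorem halfS_length : halfS.length = 660 := by decide +kernel

end Cfsg.Agent.Lib.Helper1.Dod11
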