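import Mathlib
import Cfsg.Agent.Lib.Helper1.Dod5

/-!
Table checks for the stabiliser of a dodecad, a point of it and a pair of points outside it
(helper1).
-/

set_option autoImplicit false

namespace Cfsg.Agent.Lib.Helper1.Dod5

open Cfsg Cfsg.Agent.Lib.Helper9

set_option maxHeartbeats 40000000 in
theorem transT_ok : transT.all memD = true := by decide +kernel

set_option maxHeartbeats 40000000 in
theorem keys_eq : transT.map keyOf = keysT := by decide +kernel

set_option maxHeartbeats 40000000 in
theorem keys_nodup : keysT.Nodup := by decide +kernel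

set_option maxHeartbeats 40000000 in
theorem trans_ok : (List.range 24).all (fun i => (List.range 24).all (fun j =>
    (List.range 24).all (fun j' =>
      !((8551822 : ℕ).testBit i) || (8551822 : ℕ).testBit j || (8551822 : ℕ).testBit j' ||
        j == j' || keysT.contains (2 ^ i, 2 ^ j ||| 2 ^ j')))) = true := by decide +kernel

set_option maxHeartbeats 40000000 in
theorem rep5_ok : ∀ a b c d e : Fin 5, [a, b, c, d, e].Nodup →
    memH (rep5L [a, b, c, d, e]) = true := by decide +kernel

set_option maxHeartbeats 40000000 in
theorem gen5_mul : ∀ s ∈ gens5, ∀ a b c d e : Fin 5, [a, b, c, d, e].Nodup →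
    compL (rep5L s) (rep5L [a, b, c, d, e]) = rep5L (tmul5 s [a, b, c, d, e]) := by
  decide +kernel

set_option maxHeartbeats 40000000 in
theorem ker5 : ∀ a b c d e : Fin 5, [a, b, c, d, e].Nodup →
    (rep5L [a, b, c, d, e] == idL) = true → ([a, b, c, d, e] == id5) = true := by
  decide +kernel

set_option maxHeartbeats 40000000 in
theorem chain5_ok : chain5OK chain5 = true := by decide +kernel

set_option maxHeartbeats 40000000 in
theorem valid5_mem : ∀ a b c d e : Fin 5, [a, b, c, d, e].Nodup →
    chain5.contains [a, b, c, d, e] = true := by decide +kernel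

theorem rep5L_id : rep5L id5 = idL := by decide +kernel

end Cfsg.Agent.Lib.Helper1.Dod5
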