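import Mathlib

/-!
Certificates for subgroups of `GL(2, p)` acting regularly on the nonzero vectors (helper1).
-/

namespace Cfsg.Agent.Lib.Helper1

/-- A 2×2 matrix over `ZMod p` as a 4-tuple of naturals. -/
def tupM {p : ℕ} (M : Matrix (Fin 2) (Fin 2) (ZMod p)) : ℕ × ℕ × ℕ × ℕ :=
  ((M 0 0).val, (M 0 1).val, (M 1 0).val, (M 1 1).val)

/-- Matrix multiplication on 4-tuples. -/
def mulT (p : ℕ) (x y : ℕ × ℕ × ℕ × ℕ) : ℕ × ℕ × ℕ × ℕ :=
  ((x.1 * y.1 + x.2.1 * y.2.2.1) % p, (x.1 * y.2.1 + x.2.1 * y.2.2.2) % p,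
   (x.2.2.1 * y.1 + x.2.2.2 * y.2.2.1) % p, (x.2.2.1 * y.2.1 + x.2.2.2 * y.2.2.2) % p)

theorem tupM_mul {p : ℕ} [NeZero p] (M N : Matrix (Fin 2) (Fin 2) (ZMod p)) :
    tupM (M * N) = mulT p (tupM M) (tupM N) := by
  simp only [tupM, mulT, Matrix.mul_apply, Fin.sum_univ_two, ZMod.val_add, ZMod.val_mul]
  simp only [Nat.add_mod, Nat.mod_mod]

theorem tupM_inj {p : ℕ} [NeZero p] {M N : Matrix (Fin 2) (Fin 2) (ZMod p)}
    (h : tupM M = tupM N) : M = N := by
  simp only [tupM, Prod.mk.injEq] at h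
  obtain ⟨h1, h2, h3, h4⟩ := h
  ext i j
  fin_cases i <;> fin_cases j
  · exact ZMod.val_injective p h1
  · exact ZMod.val_injective p h2
  · exact ZMod.val_injective p h3
  · exact ZMod.val_injective p h4

theorem tupM_one {p : ℕ} [Fact p.Prime] :
    tupM (1 : Matrix (Fin 2) (Fin 2) (ZMod p)) = (1, 0, 0, 1) := by
  simp [tupM, ZMod.val_one]

/-- The `k`-th field of width `w` of the packed table `T`. -/
def entry (T w k : ℕ) : ℕ := (T >>> (w * k)) % 2 ^ w

/-- The tuple stored under the key `k` (the key encodes the first column). -/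
def tupK (p T w k : ℕ) : ℕ × ℕ × ℕ × ℕ :=
  (k / p, (entry T w k - 1) / p, k % p, (entry T w k - 1) % p)

/-- Membership of a tuple in the table. -/
def memT (p T w : ℕ) (t : ℕ × ℕ × ℕ × ℕ) : Bool :=
  entry T w (t.1 * p + t.2.2.1) == t.2.1 * p + t.2.2.2 + 1

def parKey (p Par wp k : ℕ) : ℕ := entry Par wp k % (p * p)
def parGen (p Par wp k : ℕ) : ℕ := (entry Par wp k / (p * p)) % 8
def parDep (p Par wp k : ℕ) : ℕ := entry Par wp k / (p * p * 8)

def stepOK2 (p T w Par wp : ℕ) (gens : List (ℕ × ℕ × ℕ × ℕ)) (k : ℕ) : Bool :=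
  entry T w k != 0 && gens.all (fun g => memT p T w (mulT p (tupK p T w k) g))
  && (tupK p T w k == (1, 0, 0, 1)
    || (parKey p Par wp k != 0 && decide (parGen p Par wp k < gens.length)
      && decide (parDep p Par wp (parKey p Par wp k) < parDep p Par wp k)
      && mulT p (tupK p T w (parKey p Par wp k)) (gens.getD (parGen p Par wp k) (0, 0, 0, 0))
        == tupK p T w k))

/-- The certificate: the table contains the identity, is closed under right multiplication by
the listed tuples, has an entry under every nonzero key, and every entry is reached from the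
identity through the parent pointers. -/
def regOK (p T w Par wp : ℕ) (gens : List (ℕ × ℕ × ℕ × ℕ)) : Bool :=
  memT p T w (1, 0, 0, 1) && entry T w 0 == 0
  && (List.range (p * p)).all (fun k => k == 0 || stepOK2 p T w Par wp gens k)

theorem gl2_regular {p : ℕ} [Fact p.Prime] (T w Par wp : ℕ) (gens : List (ℕ × ℕ × ℕ × ℕ))
    (gl : List (GL (Fin 2) (ZMod p)))
    (hgl : gl.map (fun g : GL (Fin 2) (ZMod p) => tupM (g : Matrix (Fin 2) (Fin 2) (ZMod p)))
        ++ gl.map (fun g : GL (Fin 2) (ZMod p) =>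
          tupM ((g⁻¹ : GL (Fin 2) (ZMod p)) : Matrix (Fin 2) (Fin 2) (ZMod p))) = gens)
    (hcert : regOK p T w Par wp gens = true) :
    Nat.card (Subgroup.closure {g | g ∈ gl}) = p * p - 1 ∧
    ∀ v v' : Fin 2 → ZMod p, v ≠ 0 → v' ≠ 0 →
      ∃! h : Subgroup.closure {g | g ∈ gl},
        Matrix.mulVec ((h : GL (Fin 2) (ZMod p)) : Matrix (Fin 2) (Fin 2) (ZMod p)) v = v' := by
  classical
  have hp : 0 < p := (Fact.out : p.Prime).pos
  unfold regOK at hcert
  simp only [Bool.and_eq_true, List.all_eq_true, List.mem_range, Bool.or_eq_true, beq_iff_eq]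
    at hcert
  obtain ⟨⟨h1, h0⟩, hall⟩ := hcert
  have hgensH : ∀ t ∈ gens, ∃ g ∈ Subgroup.closure {g | g ∈ gl},
      tupM (g : Matrix (Fin 2) (Fin 2) (ZMod p)) = t := by
    intro t ht
    rw [← hgl, List.mem_append, List.mem_map, List.mem_map] at ht
    rcases ht with ⟨g, hg, rfl⟩ | ⟨g, hg, rfl⟩
    · exact ⟨g, Subgroup.subset_closure hg, rfl⟩
    · exact ⟨g⁻¹, Subgroup.inv_mem _ (Subgroup.subset_closure hg), rfl⟩
  have hgen1 : ∀ g ∈ gl, tupM (g : Matrix (Fin 2) (Fin 2) (ZMod p)) ∈ gens := by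
    intro g hg
    rw [← hgl]
    exact List.mem_append_left _ (List.mem_map.2 ⟨g, hg, rfl⟩)
  have hgen2 : ∀ g ∈ gl,
      tupM ((g⁻¹ : GL (Fin 2) (ZMod p)) : Matrix (Fin 2) (Fin 2) (ZMod p)) ∈ gens := by
    intro g hg
    rw [← hgl]
    exact List.mem_append_right _ (List.mem_map.2 ⟨g, hg, rfl⟩)
  have hkey : ∀ t : ℕ × ℕ × ℕ × ℕ, t.2.1 < p → t.2.2.1 < p → t.2.2.2 < p →
      memT p T w t = true → tupK p T w (t.1 * p + t.2.2.1) = t := by
    rintro ⟨a, b, c, d⟩ hb hc hd hm
    simp only [memT, beq_iff_eq] at hm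
    simp only at hb hc hd
    simp only [tupK, hm]
    rw [Prod.mk.injEq, Prod.mk.injEq, Prod.mk.injEq]
    refine ⟨?_, ?_, ?_, ?_⟩
    · rw [Nat.add_comm, Nat.add_mul_div_right _ _ hp, Nat.div_eq_of_lt hc, zero_add]
    · rw [Nat.add_sub_cancel, Nat.add_comm, Nat.add_mul_div_right _ _ hp, Nat.div_eq_of_lt hd,
        zero_add]
    · rw [Nat.add_comm, Nat.add_mul_mod_self_right, Nat.mod_eq_of_lt hc]
    · rw [Nat.add_sub_cancel, Nat.add_comm, Nat.add_mul_mod_self_right, Nat.mod_eq_of_lt hd]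
  have hlt : ∀ M : Matrix (Fin 2) (Fin 2) (ZMod p), (tupM M).1 < p ∧ (tupM M).2.1 < p
      ∧ (tupM M).2.2.1 < p ∧ (tupM M).2.2.2 < p :=
    fun M => ⟨ZMod.val_lt _, ZMod.val_lt _, ZMod.val_lt _, ZMod.val_lt _⟩
  have hkeylt : ∀ a c : ℕ, a < p → c < p → a * p + c < p * p := by
    intro a c ha hc
    have h2 : (a + 1) * p ≤ p * p := Nat.mul_le_mul_right p ha
    have h3 : (a + 1) * p = a * p + p := by ring
    omega
  -- a member of the table gives a certified key
  have hmemk : ∀ M : Matrix (Fin 2) (Fin 2) (ZMod p), memT p T w (tupM M) = true →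
      ∃ k, k < p * p ∧ k ≠ 0 ∧ tupK p T w k = tupM M := by
    intro M hM
    obtain ⟨ha, hb, hc, hd⟩ := hlt M
    refine ⟨(tupM M).1 * p + (tupM M).2.2.1, hkeylt _ _ ha hc, ?_, hkey _ hb hc hd hM⟩
    intro hk0
    simp only [memT, beq_iff_eq] at hM
    rw [hk0, h0] at hM
    omega
  have hA : ∀ h ∈ Subgroup.closure {g | g ∈ gl},
      memT p T w (tupM (h : Matrix (Fin 2) (Fin 2) (ZMod p))) = true := by
    intro h hh
    induction hh using Subgroup.closure_induction_right with
    | one =>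
      rw [Units.val_one, tupM_one]
      exact h1
    | mul_right x hx y hy ih =>
      obtain ⟨k, hk, hk0, hkt⟩ := hmemk _ ih
      have h2 := hall k hk
      rcases h2 with h2 | h2
      · exact absurd h2 hk0
      · unfold stepOK2 at h2
        simp only [Bool.and_eq_true, List.all_eq_true] at h2
        have h3 := h2.1.2 _ (hgen1 y hy)
        rw [Units.val_mul, tupM_mul, ← hkt]
        exact h3
    | mul_inv_cancel x hx y hy ih =>
      obtain ⟨k, hk, hk0, hkt⟩ := hmemk _ ih
      have h2 := hall k hk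
      rcases h2 with h2 | h2
      · exact absurd h2 hk0
      · unfold stepOK2 at h2
        simp only [Bool.and_eq_true, List.all_eq_true] at h2
        have h3 := h2.1.2 _ (hgen2 y hy)
        rw [Units.val_mul, tupM_mul, ← hkt]
        exact h3
  have hB : ∀ n k, 0 < k → k < p * p → parDep p Par wp k = n →
      ∃ h ∈ Subgroup.closure {g | g ∈ gl},
        tupM (h : Matrix (Fin 2) (Fin 2) (ZMod p)) = tupK p T w k := by
    intro n
    induction n using Nat.strong_induction_on with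
    | _ n ih =>
      intro k hk0 hklt hdk
      have h2 := hall k hklt
      rcases h2 with h2 | h2
      · omega
      unfold stepOK2 at h2
      simp only [Bool.and_eq_true, List.all_eq_true, Bool.or_eq_true, beq_iff_eq,
        decide_eq_true_eq, bne_iff_ne] at h2
      obtain ⟨-, h2⟩ := h2
      rcases h2 with h2 | ⟨⟨⟨hpk0, hgi⟩, hdep⟩, hmul⟩
      · exact ⟨1, Subgroup.one_mem _, by rw [Units.val_one, tupM_one, h2]⟩
      · have hpklt : parKey p Par wp k < p * p := Nat.mod_lt _ (Nat.mul_pos hp hp)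
        obtain ⟨h', hh', ht'⟩ := ih _ (by rw [← hdk]; exact hdep) (parKey p Par wp k)
          (Nat.pos_of_ne_zero hpk0) hpklt rfl
        obtain ⟨g, hg, htg⟩ := hgensH (gens.getD (parGen p Par wp k) (0, 0, 0, 0)) (by
          rw [List.getD_eq_getElem _ _ hgi]
          exact List.getElem_mem hgi)
        exact ⟨h' * g, Subgroup.mul_mem _ hh' hg, by
          rw [Units.val_mul, tupM_mul, ht', htg]; exact hmul⟩
  -- the first column determines the member
  have hinj : ∀ h ∈ Subgroup.closure {g | g ∈ gl}, ∀ h' ∈ Subgroup.closure {g | g ∈ gl},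
      (h : Matrix (Fin 2) (Fin 2) (ZMod p)) 0 0 = (h' : Matrix (Fin 2) (Fin 2) (ZMod p)) 0 0 →
      (h : Matrix (Fin 2) (Fin 2) (ZMod p)) 1 0 = (h' : Matrix (Fin 2) (Fin 2) (ZMod p)) 1 0 →
      h = h' := by
    intro h hh h' hh' e0 e1
    have m1 := hA h hh
    have m2 := hA h' hh'
    obtain ⟨ha, hb, hc, hd⟩ := hlt (h : Matrix (Fin 2) (Fin 2) (ZMod p))
    obtain ⟨ha', hb', hc', hd'⟩ := hlt (h' : Matrix (Fin 2) (Fin 2) (ZMod p))
    have k1 := hkey _ hb hc hd m1
    have k2 := hkey _ hb' hc' hd' m2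
    have e0' : (tupM (h : Matrix (Fin 2) (Fin 2) (ZMod p))).1
        = (tupM (h' : Matrix (Fin 2) (Fin 2) (ZMod p))).1 := by
      simp only [tupM]; rw [e0]
    have e1' : (tupM (h : Matrix (Fin 2) (Fin 2) (ZMod p))).2.2.1
        = (tupM (h' : Matrix (Fin 2) (Fin 2) (ZMod p))).2.2.1 := by
      simp only [tupM]; rw [e1]
    rw [e0', e1', k2] at k1
    exact Units.ext (tupM_inj k1.symm)
  have hsurj : ∀ v : Fin 2 → ZMod p, v ≠ 0 → ∃ h ∈ Subgroup.closure {g | g ∈ gl},
      (h : Matrix (Fin 2) (Fin 2) (ZMod p)) 0 0 = v 0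
      ∧ (h : Matrix (Fin 2) (Fin 2) (ZMod p)) 1 0 = v 1 := by
    intro v hv
    have hv0 : (v 0).val < p := ZMod.val_lt _
    have hv1 : (v 1).val < p := ZMod.val_lt _
    have hk0 : 0 < (v 0).val * p + (v 1).val := by
      by_contra hcon
      have hz : (v 0).val * p + (v 1).val = 0 := by omega
      have hz1 : (v 1).val = 0 := by omega
      have hz0 : (v 0).val = 0 := by
        have : (v 0).val * p = 0 := by omega
        rcases Nat.mul_eq_zero.1 this with h | h
        · exact h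
        · omega
      apply hv
      ext i
      fin_cases i
      · exact (ZMod.val_eq_zero _).1 hz0
      · exact (ZMod.val_eq_zero _).1 hz1
    obtain ⟨h, hh, ht⟩ := hB _ _ hk0 (hkeylt _ _ hv0 hv1) rfl
    refine ⟨h, hh, ?_, ?_⟩
    · apply ZMod.val_injective p
      have h3 := congrArg Prod.fst ht
      simp only [tupM, tupK] at h3
      rw [h3, Nat.add_comm, Nat.add_mul_div_right _ _ hp, Nat.div_eq_of_lt hv1, zero_add]
    · apply ZMod.val_injective p
      have h3 := congrArg (fun t : ℕ × ℕ × ℕ × ℕ => t.2.2.1) ht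
      simp only [tupM, tupK] at h3
      rw [h3, Nat.add_comm, Nat.add_mul_mod_self_right, Nat.mod_eq_of_lt hv1]
  have hcol : ∀ M : Matrix (Fin 2) (Fin 2) (ZMod p), M.mulVec ![1, 0] = ![M 0 0, M 1 0] := by
    intro M
    ext i
    fin_cases i <;> simp [Matrix.mulVec, dotProduct, Fin.sum_univ_two]
  have hcol0 : ∀ h ∈ Subgroup.closure {g | g ∈ gl},
      ![(h : Matrix (Fin 2) (Fin 2) (ZMod p)) 0 0, (h : Matrix (Fin 2) (Fin 2) (ZMod p)) 1 0]
        ≠ 0 := by
    intro h hh hz
    have m1 := hA h hh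
    have z0 : (h : Matrix (Fin 2) (Fin 2) (ZMod p)) 0 0 = 0 := by
      have := congrFun hz 0
      simpa using this
    have z1 : (h : Matrix (Fin 2) (Fin 2) (ZMod p)) 1 0 = 0 := by
      have := congrFun hz 1
      simpa using this
    simp only [memT, tupM, beq_iff_eq] at m1
    rw [z0, z1, ZMod.val_zero, zero_mul, add_zero, h0] at m1
    omega
  constructor
  · have hbij : Function.Bijective (fun h : Subgroup.closure {g | g ∈ gl} =>
        (⟨![((h : GL (Fin 2) (ZMod p)) : Matrix (Fin 2) (Fin 2) (ZMod p)) 0 0,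
          ((h : GL (Fin 2) (ZMod p)) : Matrix (Fin 2) (Fin 2) (ZMod p)) 1 0], hcol0 h.1 h.2⟩ :
          {v : Fin 2 → ZMod p // v ≠ 0})) := by
      constructor
      · intro h h' heq
        have heq' := congrArg Subtype.val heq
        simp only at heq'
        have e0 := congrFun heq' 0
        have e1 := congrFun heq' 1
        simp only [Matrix.cons_val_zero, Matrix.cons_val_one] at e0 e1
        exact Subtype.ext (hinj h.1 h.2 h'.1 h'.2 e0 (by simpa using e1))
      · rintro ⟨v, hv⟩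
        obtain ⟨h, hh, e0, e1⟩ := hsurj v hv
        refine ⟨⟨h, hh⟩, Subtype.ext ?_⟩
        ext i
        fin_cases i
        · simpa using e0
        · simpa using e1
    rw [Nat.card_eq_of_bijective _ hbij, Nat.card_eq_fintype_card,
      Fintype.card_subtype_compl, Fintype.card_subtype_eq, Fintype.card_fun, ZMod.card,
      Fintype.card_fin]
    ring_nf
  · intro v v' hv hv'
    obtain ⟨a, ha, a0, a1⟩ := hsurj v hv
    obtain ⟨b, hb, b0, b1⟩ := hsurj v' hv'
    have hav : (a : Matrix (Fin 2) (Fin 2) (ZMod p)).mulVec ![1, 0] = v := by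
      rw [hcol, a0, a1]
      ext i
      fin_cases i <;> simp
    have hbv : (b : Matrix (Fin 2) (Fin 2) (ZMod p)).mulVec ![1, 0] = v' := by
      rw [hcol, b0, b1]
      ext i
      fin_cases i <;> simp
    refine ⟨⟨b * a⁻¹, Subgroup.mul_mem _ hb (Subgroup.inv_mem _ ha)⟩, ?_, ?_⟩
    · show ((b * a⁻¹ : GL (Fin 2) (ZMod p)) : Matrix (Fin 2) (Fin 2) (ZMod p)).mulVec v = v'
      rw [← hav, Matrix.mulVec_mulVec, ← Units.val_mul, inv_mul_cancel_right, hbv]
    · rintro ⟨c, hc⟩ hcv
      have hcv' : ((c : GL (Fin 2) (ZMod p)) : Matrix (Fin 2) (Fin 2) (ZMod p)).mulVec v = v' :=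
        hcv
      have h3 : ((c * a : GL (Fin 2) (ZMod p)) : Matrix (Fin 2) (Fin 2) (ZMod p)).mulVec ![1, 0]
          = (b : Matrix (Fin 2) (Fin 2) (ZMod p)).mulVec ![1, 0] := by
        rw [Units.val_mul, ← Matrix.mulVec_mulVec, hav, hcv', hbv]
      rw [hcol, hcol] at h3
      have e0 := congrFun h3 0
      have e1 := congrFun h3 1
      simp only [Matrix.cons_val_zero, Matrix.cons_val_one] at e0 e1
      have h4 := hinj (c * a) (Subgroup.mul_mem _ hc ha) b hb e0 (by simpa using e1)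
      apply Subtype.ext
      show c = b * a⁻¹
      rw [← h4, mul_inv_cancel_right]

end Cfsg.Agent.Lib.Helper1
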