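import Mathlib
import Cfsg.Prelude.Def_SolvableStructure
import Cfsg.Agent.Lib.Helper1.Basic
import Cfsg.Agent.Lib.Helper1.MinNormal
import Cfsg.Agent.Lib.Helper1.HallSys
import Cfsg.Agent.Lib.Helper1.HallSys2

set_option autoImplicit false

universe u

namespace Cfsg.Agent.Lib.Helper1

open Pointwise

variable {G : Type u} [Group G] [Finite G]

/-- central elements lie in every system normalizer -/
theorem center_le_sysNorm (K : Nat.Primes → Subgroup G) :
    Subgroup.center G ≤ Cfsg.systemNormalizer K := by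
  intro z hz
  unfold Cfsg.systemNormalizer
  rw [Subgroup.mem_iInf]
  intro p
  rw [Subgroup.mem_normalizer_iff]
  intro h
  rw [Subgroup.mem_center_iff] at hz
  rw [← hz h, mul_inv_cancel_right]

/-- a system normalizer avoids a non-central minimal normal subgroup -/
theorem sysNorm_avoid [Group.IsSolvable G] {K : Nat.Primes → Subgroup G}
    (hK : Cfsg.IsComplementSystem K) (B : Subgroup G) [hBn : B.Normal] (hB : B ≠ ⊥)
    (hmin : ∀ N : Subgroup G, N.Normal → N ≤ B → N = ⊥ ∨ N = B)
    (hnc : ¬ B ≤ Subgroup.center G) : B ⊓ Cfsg.systemNormalizer K = ⊥ := by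
  classical
  obtain ⟨p, hp, hBp, -⟩ := minNormal_isPGroup B hB hmin
  haveI : Fact p.Prime := ⟨hp⟩
  have hBc := minNormal_comm B hB hmin
  obtain ⟨pp, hpp⟩ : ∃ pp : Nat.Primes, (pp : ℕ) = p := ⟨⟨p, hp⟩, rfl⟩
  obtain ⟨N, hN⟩ : ∃ N, N = Subgroup.centralizer (B : Set G) := ⟨_, rfl⟩
  haveI hNn : N.Normal := by rw [hN]; infer_instance
  have hNtop : N ≠ ⊤ := by
    intro h
    apply hnc
    intro b hb
    rw [Subgroup.mem_center_iff]
    intro g
    have hg : g ∈ N := by rw [h]; trivial
    rw [hN, Subgroup.mem_centralizer_iff] at hg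
    exact (hg b hb).symm
  haveI : Nontrivial (G ⧸ N) := by
    rw [← Finite.one_lt_card_iff_nontrivial, ← Subgroup.index_eq_card]
    have h1 : N.index ≠ 1 := fun h => hNtop (Subgroup.index_eq_one.1 h)
    have h0 : N.index ≠ 0 := Subgroup.index_ne_zero_of_finite
    omega
  obtain ⟨Mb, hMbn, -, hMbne, hMbmin⟩ :=
    exists_minimal_normal_le (⊤ : Subgroup (G ⧸ N)) inferInstance top_ne_bot
  haveI := hMbn
  obtain ⟨r, hr, hMbr, -⟩ := minNormal_isPGroup Mb hMbne hMbmin
  haveI : Fact r.Prime := ⟨hr⟩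
  obtain ⟨M, hM⟩ : ∃ M, M = Mb.comap (QuotientGroup.mk' N) := ⟨_, rfl⟩
  haveI hMn : M.Normal := by rw [hM]; exact hMbn.comap _
  have hNM : N ≤ M := by
    intro x hx
    rw [hM, Subgroup.mem_comap]
    have : QuotientGroup.mk' N x = 1 := (QuotientGroup.eq_one_iff x).2 hx
    rw [this]
    exact Mb.one_mem
  have hMN : ¬ M ≤ N := by
    intro h
    apply hMbne
    rw [eq_bot_iff]
    intro y hy
    obtain ⟨x, rfl⟩ := QuotientGroup.mk'_surjective N y
    have hx : x ∈ M := by rw [hM]; exact hy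
    rw [Subgroup.mem_bot]
    exact (QuotientGroup.eq_one_iff x).2 (h hx)
  have hC : B ⊓ Subgroup.centralizer (M : Set G) = ⊥ := by
    rcases hmin (B ⊓ Subgroup.centralizer (M : Set G)) inferInstance inf_le_left with h | h
    · exact h
    · exfalso
      apply hMN
      intro m hm
      rw [hN, Subgroup.mem_centralizer_iff]
      intro b hb
      have hb' : b ∈ B ⊓ Subgroup.centralizer (M : Set G) := by rw [h]; exact hb
      have := Subgroup.mem_centralizer_iff.1 (Subgroup.mem_inf.1 hb').2 m hm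
      exact this.symm
  have hrp : r ≠ p := by
    intro hrp
    rw [hrp] at hMbr
    have hker : N ≤ (MulAut.conjNormal (H := B)).ker := by
      intro n hn
      rw [MonoidHom.mem_ker]
      ext b
      rw [MulAut.conjNormal_apply]
      rw [hN, Subgroup.mem_centralizer_iff] at hn
      have h1 := hn b b.2
      rw [← h1]
      simp
    let φ : Mb →* MulAut B :=
      (QuotientGroup.lift N (MulAut.conjNormal (H := B)) hker).comp Mb.subtype
    letI : MulAction Mb B := MulAction.compHom B φ
    have hfix1 : (1 : B) ∈ MulAction.fixedPoints Mb B := by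
      intro m
      show φ m 1 = 1
      exact map_one _
    have hdvd : p ∣ Nat.card B := by
      obtain ⟨j, hj⟩ := IsPGroup.iff_card.1 hBp
      rcases Nat.eq_zero_or_pos j with h0 | h0
      · exfalso
        rw [h0, pow_zero, Subgroup.card_eq_one] at hj
        exact hB hj
      · rw [hj]
        exact dvd_pow_self p h0.ne'
    obtain ⟨b, hbfix, hb1⟩ :=
      hMbr.exists_fixed_point_of_prime_dvd_card_of_fixed_point B hdvd hfix1
    have hbC : (b : G) ∈ B ⊓ Subgroup.centralizer (M : Set G) := by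
      refine Subgroup.mem_inf.2 ⟨b.2, ?_⟩
      rw [Subgroup.mem_centralizer_iff]
      intro m hm
      have hm' : QuotientGroup.mk' N m ∈ Mb := by rw [hM] at hm; exact hm
      have h1 := hbfix ⟨QuotientGroup.mk' N m, hm'⟩
      have h2 : φ ⟨QuotientGroup.mk' N m, hm'⟩ b = b := h1
      have h3 : ((φ ⟨QuotientGroup.mk' N m, hm'⟩ b : B) : G) = m * b * m⁻¹ := by
        show ((MulAut.conjNormal m) b : G) = _
        exact MulAut.conjNormal_apply m b
      rw [h2] at h3
      have h4 : (b : G) * m = m * b := by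
        calc (b : G) * m = (m * b * m⁻¹) * m := by rw [← h3]
          _ = m * b := by group
      exact h4.symm
    rw [hC, Subgroup.mem_bot] at hbC
    exact hb1 (Subtype.ext hbC.symm)
  have hMT : M ≤ K pp ⊔ N := by
    rw [← Subgroup.relIndex_eq_one]
    have h1 : (K pp ⊔ N).relIndex M ∣ p ^ (Nat.card G).factorization p := by
      have := (relIndex_dvd_index_of_normal_right (K pp ⊔ N) M).trans
        (Subgroup.index_dvd_of_le (le_sup_left : K pp ≤ K pp ⊔ N))
      rw [hK pp, hpp] at this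
      exact this
    have h2 : (K pp ⊔ N).relIndex M ∣ Nat.card Mb := by
      have h3 : (K pp ⊔ N).relIndex M ∣ N.relIndex M :=
        Subgroup.relIndex_dvd_of_le_left M le_sup_right
      have h4 : N.relIndex M = Nat.card Mb := by
        have e1 := Cfsg.Agent.Lib.Lead.card_comap_mk' N Mb
        have e2 : Nat.card N * N.relIndex M = Nat.card M :=
          Cfsg.Agent.Lib.Helper6.card_mul_relIndex_of_le hNM
        rw [← hM, ← e2, mul_comm] at e1
        exact Nat.eq_of_mul_eq_mul_right Nat.card_pos e1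
      rw [h4] at h3; exact h3
    obtain ⟨k, hk⟩ := IsPGroup.iff_card.1 hMbr
    rw [hk] at h2
    exact Nat.eq_one_of_dvd_coprimes
      (Nat.Coprime.pow _ _ ((Nat.coprime_primes hp hr).2 (Ne.symm hrp))) h1 h2
  rw [eq_bot_iff]
  intro x hx
  obtain ⟨hxB, hxD⟩ := Subgroup.mem_inf.1 hx
  rw [← hC]
  refine Subgroup.mem_inf.2 ⟨hxB, ?_⟩
  have hxK : ∀ k ∈ K pp, k * x = x * k := by
    intro k hk
    have hxn : x ∈ Subgroup.normalizer ((K pp : Subgroup G) : Set G) := by
      unfold Cfsg.systemNormalizer at hxD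
      exact (Subgroup.mem_iInf.1 hxD) pp
    have hc1 : x * k * x⁻¹ * k⁻¹ ∈ K pp :=
      mul_mem ((Subgroup.mem_normalizer_iff.1 hxn k).1 hk) (inv_mem hk)
    have hc2 : x * k * x⁻¹ * k⁻¹ ∈ B := by
      have : x * k * x⁻¹ * k⁻¹ = x * (k * x⁻¹ * k⁻¹) := by group
      rw [this]
      exact mul_mem hxB (hBn.conj_mem _ (inv_mem hxB) k)
    have hdisj : B ⊓ K pp = ⊥ := by
      apply Subgroup.inf_eq_bot_of_coprime
      obtain ⟨j, hj⟩ := IsPGroup.iff_card.1 hBp
      rw [hj]
      apply Nat.Coprime.pow_left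
      rw [Nat.Prime.coprime_iff_not_dvd hp, ← hpp]
      exact compl_not_dvd_card hK pp
    have hc3 : x * k * x⁻¹ * k⁻¹ ∈ B ⊓ K pp := Subgroup.mem_inf.2 ⟨hc2, hc1⟩
    rw [hdisj, Subgroup.mem_bot] at hc3
    have h5 : x * k * x⁻¹ = k := mul_inv_eq_one.1 hc3
    have h6 : x * k = k * x := mul_inv_eq_iff_eq_mul.1 h5
    exact h6.symm
  have hxN : ∀ n ∈ N, n * x = x * n := by
    intro n hn
    rw [hN, Subgroup.mem_centralizer_iff] at hn
    exact (hn x hxB).symm
  have hle : K pp ⊔ N ≤ Subgroup.centralizer ({x} : Set G) := by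
    apply sup_le
    · intro k hk
      rw [Subgroup.mem_centralizer_iff]
      intro y hy
      rw [Set.mem_singleton_iff.1 hy]
      exact (hxK k hk).symm
    · intro n hn
      rw [Subgroup.mem_centralizer_iff]
      intro y hy
      rw [Set.mem_singleton_iff.1 hy]
      exact (hxN n hn).symm
  rw [Subgroup.mem_centralizer_iff]
  intro m hm
  have := Subgroup.mem_centralizer_iff.1 (hle (hMT hm)) x (Set.mem_singleton x)
  exact this.symm

end Cfsg.Agent.Lib.Helper1
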