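import Mathlib
import Cfsg.Prelude.Def_SporadicCombinatorics

/-!
The hexacode over a field with four elements, via a concrete model (helper1).
-/

namespace Cfsg.Agent.Lib.Helper1

open Cfsg

/-- model of the field with four elements: pairs `(a, b)` standing for `a + b ω` -/
abbrev K4 : Type := ZMod 2 × ZMod 2

/-- multiplication in the model -/
def mulK (x y : K4) : K4 := (x.1 * y.1 + x.2 * y.2, x.1 * y.2 + x.2 * y.1 + x.2 * y.2)

/-- generator rows in the model -/
def hxG1 : Fin 6 → K4 := ![(0, 1), (1, 1), (1, 1), (0, 1), (1, 1), (0, 1)]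
def hxG2 : Fin 6 → K4 := ![(1, 1), (0, 1), (0, 1), (1, 1), (1, 1), (0, 1)]
def hxG3 : Fin 6 → K4 := ![(1, 1), (0, 1), (1, 1), (0, 1), (0, 1), (1, 1)]

/-- words in the model -/
def hxW (t : K4 × K4 × K4) (i : Fin 6) : K4 :=
  mulK t.1 (hxG1 i) + mulK t.2.1 (hxG2 i) + mulK t.2.2 (hxG3 i)

/-- weight in the model -/
def hxWt (t : K4 × K4 × K4) : ℕ := (Finset.univ.filter (fun i => hxW t i ≠ 0)).card

set_option maxRecDepth 100000 in
theorem hxW_inj : ∀ t t' : K4 × K4 × K4, (∀ i, hxW t i = hxW t' i) → t = t' := by decide +kernel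

set_option maxRecDepth 100000 in
theorem hxWt_vals : ∀ t : K4 × K4 × K4, hxWt t = 0 ∨ hxWt t = 4 ∨ hxWt t = 6 := by decide +kernel

set_option maxRecDepth 100000 in
theorem hxWt_cnt4 : (Finset.univ.filter (fun t : K4 × K4 × K4 => hxWt t = 4)).card = 45 := by
  decide +kernel

set_option maxRecDepth 100000 in
theorem hxWt_cnt6 : (Finset.univ.filter (fun t : K4 × K4 × K4 => hxWt t = 6)).card = 18 := by
  decide +kernel

theorem zmod2_cases : ∀ a : ZMod 2, a = 0 ∨ a = 1 := by decide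

section
variable (F : Type*) [Field F] [Fintype F] (hF : Fintype.card F = 4) (ω : F)
  (hω : ω ^ 2 + ω + 1 = 0)
include hF

theorem hx_two : (2 : F) = 0 := by
  have h4 := FiniteField.cast_card_eq_zero F
  rw [hF] at h4
  have h22 : (2 : F) * 2 = 0 := by
    have : ((4 : ℕ) : F) = 2 * 2 := by norm_num
    rw [← this]; exact h4
  rcases mul_eq_zero.1 h22 with h | h <;> exact h

theorem hx_charP : CharP F 2 := CharTwo.of_one_ne_zero_of_two_eq_zero one_ne_zero (hx_two F hF)

include hω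

theorem hx_sq : ω ^ 2 = ω + 1 := by
  have h2 := hx_two F hF
  linear_combination hω - (ω + 1) * h2

theorem hx_ne0 : ω ≠ 0 := by
  rintro rfl
  simp at hω

theorem hx_ne1 : ω ≠ 1 := by
  rintro rfl
  have h2 := hx_two F hF
  have : (1 : F) = 0 := by linear_combination hω - h2
  exact one_ne_zero this

theorem hx_ne1' : ω + 1 ≠ 0 := by
  intro h
  have h2 := hx_two F hF
  apply hx_ne1 F hF ω hω
  linear_combination h - h2

end

section
variable {F : Type*} [Field F] [Fintype F] [CharP F 2] (hF : Fintype.card F = 4) (ω : F)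
  (hω : ω ^ 2 + ω + 1 = 0)

/-- the encoding of the model into `F` -/
def hxE (ω : F) (x : K4) : F := ZMod.castHom (dvd_refl 2) F x.1 + ZMod.castHom (dvd_refl 2) F x.2 * ω

theorem hxE_add (x y : K4) : hxE ω (x + y) = hxE ω x + hxE ω y := by
  unfold hxE
  rw [Prod.fst_add, Prod.snd_add, map_add, map_add]
  ring

theorem hxE_zero : hxE ω 0 = 0 := by
  unfold hxE
  simp

include hF hω

theorem hxE_mul (x y : K4) : hxE ω (mulK x y) = hxE ω x * hxE ω y := by
  have hsq := hx_sq F hF ω hω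
  unfold hxE mulK
  simp only [map_add, map_mul]
  linear_combination (-(ZMod.castHom (dvd_refl 2) F x.2 * ZMod.castHom (dvd_refl 2) F y.2)) * hsq

theorem hxE_eq_zero (x : K4) (h : hxE ω x = 0) : x = 0 := by
  obtain ⟨a, b⟩ := x
  unfold hxE at h
  simp only at h
  rcases zmod2_cases a with rfl | rfl <;> rcases zmod2_cases b with rfl | rfl
  · rfl
  · exfalso
    simp only [map_zero, map_one, zero_add, one_mul] at h
    exact hx_ne0 F hF ω hω h
  · exfalso
    simp only [map_zero, map_one, zero_mul, add_zero] at h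
    exact one_ne_zero h
  · exfalso
    simp only [map_one, one_mul] at h
    apply hx_ne1' F hF ω hω
    rw [add_comm]; exact h

theorem hxE_inj : Function.Injective (hxE ω) := by
  intro x y h
  have h1 : hxE ω (x + y) = 0 := by
    rw [hxE_add, h]
    exact CharTwo.add_self_eq_zero _
  have h2 := hxE_eq_zero hF ω hω _ h1
  have h3 : ∀ x y : K4, x + y = 0 → x = y := by decide
  exact h3 x y h2

theorem hxE_surj : Function.Surjective (hxE ω) := by
  have hb := (Fintype.bijective_iff_injective_and_card (hxE ω)).2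
    ⟨hxE_inj hF ω hω, by rw [hF]; decide⟩
  exact hb.2

theorem hxE_G1 (i : Fin 6) : hxE ω (hxG1 i) = ![ω, ω ^ 2, ω ^ 2, ω, ω ^ 2, ω] i := by
  have hsq := hx_sq F hF ω hω
  fin_cases i <;> simp [hxE, hxG1, hsq] <;> ring

theorem hxE_G2 (i : Fin 6) : hxE ω (hxG2 i) = ![ω ^ 2, ω, ω, ω ^ 2, ω ^ 2, ω] i := by
  have hsq := hx_sq F hF ω hω
  fin_cases i <;> simp [hxE, hxG2, hsq] <;> ring

theorem hxE_G3 (i : Fin 6) : hxE ω (hxG3 i) = ![ω ^ 2, ω, ω ^ 2, ω, ω, ω ^ 2] i := by
  have hsq := hx_sq F hF ω hω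
  fin_cases i <;> simp [hxE, hxG3, hsq] <;> ring

/-- the parametrisation of the hexacode -/
def hxPhi (ω : F) (t : K4 × K4 × K4) : Fin 6 → F := fun i => hxE ω (hxW t i)

theorem hxPhi_inj : Function.Injective (hxPhi ω) := by
  intro t t' h
  apply hxW_inj
  intro i
  exact hxE_inj hF ω hω (congrFun h i)

theorem hx_range : (hexacode F ω : Set (Fin 6 → F)) = Set.range (hxPhi ω) := by
  ext x
  constructor
  · intro hx
    have hx' : x ∈ hexacode F ω := hx
    rw [hexacode, Submodule.mem_span_triple] at hx'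
    obtain ⟨a, b, c, rfl⟩ := hx'
    obtain ⟨a', rfl⟩ := hxE_surj hF ω hω a
    obtain ⟨b', rfl⟩ := hxE_surj hF ω hω b
    obtain ⟨c', rfl⟩ := hxE_surj hF ω hω c
    refine ⟨(a', b', c'), ?_⟩
    funext i
    simp only [hxPhi, hxW, hxE_add, hxE_mul hF ω hω, hxE_G1 hF ω hω, hxE_G2 hF ω hω,
      hxE_G3 hF ω hω, Pi.add_apply, Pi.smul_apply, smul_eq_mul]
  · rintro ⟨⟨a', b', c'⟩, rfl⟩
    show hxPhi ω (a', b', c') ∈ hexacode F ω
    rw [hexacode, Submodule.mem_span_triple]
    refine ⟨hxE ω a', hxE ω b', hxE ω c', ?_⟩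
    funext i
    simp only [hxPhi, hxW, hxE_add, hxE_mul hF ω hω, hxE_G1 hF ω hω, hxE_G2 hF ω hω,
      hxE_G3 hF ω hω, Pi.add_apply, Pi.smul_apply, smul_eq_mul]

theorem hx_wt [DecidableEq F] (t : K4 × K4 × K4) :
    (Finset.univ.filter fun i => hxPhi ω t i ≠ 0).card = hxWt t := by
  unfold hxWt
  congr 1
  ext i
  rw [Finset.mem_filter, Finset.mem_filter]
  constructor
  · rintro ⟨-, h⟩
    refine ⟨Finset.mem_univ _, fun h0 => h ?_⟩
    show hxE ω (hxW t i) = 0
    rw [h0, hxE_zero]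
  · rintro ⟨-, h⟩
    exact ⟨Finset.mem_univ _, fun h0 => h (hxE_eq_zero hF ω hω _ h0)⟩

theorem hx_card : Nat.card ↥(hexacode F ω) = 64 := by
  have h : Nat.card ↥(hexacode F ω) = (hexacode F ω : Set (Fin 6 → F)).ncard :=
    Nat.card_coe_set_eq _
  rw [h, hx_range hF ω hω, ← Set.image_univ,
    Set.ncard_image_of_injective _ (hxPhi_inj hF ω hω), Set.ncard_univ, Nat.card_eq_fintype_card]
  decide

theorem hx_count [DecidableEq F] (n k : ℕ)
    (h : (Finset.univ.filter (fun t : K4 × K4 × K4 => hxWt t = n)).card = k) :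
    {x : Fin 6 → F | x ∈ hexacode F ω ∧ (Finset.univ.filter fun i => x i ≠ 0).card = n}.ncard
      = k := by
  have hset : {x : Fin 6 → F | x ∈ hexacode F ω ∧ (Finset.univ.filter fun i => x i ≠ 0).card = n}
      = hxPhi ω '' ↑(Finset.univ.filter (fun t : K4 × K4 × K4 => hxWt t = n)) := by
    ext x
    simp only [Set.mem_setOf_eq, Set.mem_image, Finset.coe_filter, Finset.mem_univ, true_and]
    constructor
    · rintro ⟨hx, hn⟩
      have hx' : x ∈ (hexacode F ω : Set (Fin 6 → F)) := hx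
      rw [hx_range hF ω hω] at hx'
      obtain ⟨t, rfl⟩ := hx'
      rw [hx_wt hF ω hω] at hn
      exact ⟨t, hn, rfl⟩
    · rintro ⟨t, hn, rfl⟩
      refine ⟨?_, by rw [hx_wt hF ω hω]; exact hn⟩
      have : hxPhi ω t ∈ (hexacode F ω : Set (Fin 6 → F)) := by
        rw [hx_range hF ω hω]; exact ⟨t, rfl⟩
      exact this
  rw [hset, Set.ncard_image_of_injective _ (hxPhi_inj hF ω hω), Set.ncard_coe_finset, h]

theorem hx_weights [DecidableEq F] (x : Fin 6 → F) (hx : x ∈ hexacode F ω) (hx0 : x ≠ 0) :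
    (Finset.univ.filter fun i => x i ≠ 0).card = 4 ∨ (Finset.univ.filter fun i => x i ≠ 0).card = 6 := by
  have hx' : x ∈ (hexacode F ω : Set (Fin 6 → F)) := hx
  rw [hx_range hF ω hω] at hx'
  obtain ⟨t, rfl⟩ := hx'
  rw [hx_wt hF ω hω]
  rcases hxWt_vals t with h | h
  · exfalso
    apply hx0
    funext i
    by_contra hi
    have hmem : i ∈ Finset.univ.filter fun i => hxPhi ω t i ≠ 0 :=
      Finset.mem_filter.2 ⟨Finset.mem_univ _, hi⟩
    rw [← hx_wt hF ω hω, Finset.card_eq_zero] at h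
    rw [h] at hmem
    exact absurd hmem (Finset.notMem_empty _)
  · exact h

end

end Cfsg.Agent.Lib.Helper1
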