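import Mathlib
import Cfsg.Prelude.Def_Sporadic_a
import Cfsg.Agent.Lib.Helper1.Leech
import Cfsg.Agent.Lib.Helper1.Steiner
import Cfsg.Agent.S0358
import Cfsg.Agent.S0360

/-!
The minimal vectors of the rank-24 lattice: shapes and count (helper1).
-/

namespace Cfsg.Agent.Lib.Helper1

open Cfsg

theorem gSupp_ncard : gSupp.ncard = 4096 := by
  have h1 : gSupp = support₂ '' (golayCode : Set (GolayPt → ZMod 2)) := rfl
  rw [h1, Set.ncard_image_of_injective _ (fun v w h => support₂_injective v w h)]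
  have h2 : (golayCode : Set (GolayPt → ZMod 2)).ncard = Nat.card ↥golayCode :=
    (Nat.card_coe_set_eq _).symm
  rw [h2, Module.natCard_eq_pow_finrank (K := ZMod 2), Cfsg.Agent.S0358.result, Nat.card_zmod]
  norm_num

theorem gSupp_compl {c : Finset GolayPt} (hc : c ∈ gSupp) : cᶜ ∈ gSupp := by
  have h1 : cᶜ = symmDiff c Finset.univ := by
    ext x
    simp [Finset.mem_symmDiff]
  rw [h1]
  exact gSupp_symmDiff hc gSupp_univ

theorem card_univ_golay : (Finset.univ : Finset GolayPt).card = 24 := by decide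

theorem leech_mem_of (x : GolayPt → ℤ) (m : ℤ) (h1 : ∀ i, x i ≡ m [ZMOD 2])
    (h2 : ∑ i, x i ≡ 4 * m [ZMOD 8])
    (h3 : ∀ k : ℤ, 0 ≤ k → k < 4 → (Finset.univ.filter fun i => x i ≡ k [ZMOD 4]) ∈ gSupp) :
    x ∈ leechSet := by
  refine ⟨m, h1, h2, fun k => ?_⟩
  have h : (Finset.univ.filter fun i => x i ≡ k [ZMOD 4])
      = (Finset.univ.filter fun i => x i ≡ k % 4 [ZMOD 4]) := by
    ext i
    simp only [Finset.mem_filter, Finset.mem_univ, true_and]
    unfold Int.ModEq
    omega
  rw [h]
  exact h3 (k % 4) (Int.emod_nonneg _ (by norm_num)) (Int.emod_lt_of_pos _ (by norm_num))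

/-- the vectors of shape (∓3, ±1^23) -/
def lOdd (c : Finset GolayPt) (i0 : GolayPt) : GolayPt → ℤ := fun i =>
  if i = i0 then (if i ∈ c then -3 else 3) else (if i ∈ c then 1 else -1)

theorem lOdd_cls (c : Finset GolayPt) (i0 i : GolayPt) :
    (lOdd c i0 i ≡ 1 [ZMOD 4] ↔ i ∈ c) ∧ (lOdd c i0 i ≡ 3 [ZMOD 4] ↔ i ∉ c) ∧
    ¬ lOdd c i0 i ≡ 0 [ZMOD 4] ∧ ¬ lOdd c i0 i ≡ 2 [ZMOD 4] ∧ lOdd c i0 i ≡ 1 [ZMOD 2] := by
  unfold lOdd
  by_cases h1 : i = i0 <;> by_cases h2 : i ∈ c <;> simp [h1, h2, Int.ModEq] <;> simp [← h1, h2]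

theorem lOdd_sq (c : Finset GolayPt) (i0 i : GolayPt) :
    (lOdd c i0 i) ^ 2 = 1 + if i = i0 then 8 else 0 := by
  unfold lOdd
  split_ifs <;> norm_num

theorem lOdd_val (c : Finset GolayPt) (i0 i : GolayPt) :
    lOdd c i0 i = 2 * (if i ∈ c then 1 else 0) - 1
      + (if i = i0 then (if i0 ∈ c then -4 else 4) else 0) := by
  unfold lOdd
  by_cases h1 : i = i0
  · subst h1
    by_cases h2 : i ∈ c <;> simp [h2]
  · by_cases h2 : i ∈ c <;> simp [h1, h2]

theorem lOdd_sum (c : Finset GolayPt) (i0 : GolayPt) :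
    ∑ i, lOdd c i0 i = 2 * (c.card : ℤ) - 24 + (if i0 ∈ c then -4 else 4) := by
  simp only [lOdd_val, Finset.sum_add_distrib, Finset.sum_sub_distrib, ← Finset.mul_sum,
    Finset.sum_boole, Finset.filter_univ_mem, Finset.sum_const, Finset.sum_ite_eq',
    Finset.mem_univ, if_true, card_univ_golay]
  norm_num

theorem lOdd_mem (c : Finset GolayPt) (hc : c ∈ gSupp) (i0 : GolayPt) :
    lOdd c i0 ∈ leechSet ∧ sqNorm (lOdd c i0) = 32 := by
  constructor
  · apply leech_mem_of _ 1 (fun i => (lOdd_cls c i0 i).2.2.2.2)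
    · rw [lOdd_sum]
      obtain ⟨q, hq⟩ := gSupp_card4 hc
      rw [hq]
      push_cast
      unfold Int.ModEq
      split_ifs <;> omega
    · intro k hk0 hk4
      have hk : k = 0 ∨ k = 1 ∨ k = 2 ∨ k = 3 := by omega
      rcases hk with rfl | rfl | rfl | rfl
      · have h : (Finset.univ.filter fun i => lOdd c i0 i ≡ 0 [ZMOD 4]) = ∅ := by
          ext i
          simp only [Finset.mem_filter, Finset.mem_univ, true_and, Finset.notMem_empty, iff_false]
          exact (lOdd_cls c i0 i).2.2.1
        rw [h]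
        exact gSupp_empty
      · have h : (Finset.univ.filter fun i => lOdd c i0 i ≡ 1 [ZMOD 4]) = c := by
          ext i
          simp only [Finset.mem_filter, Finset.mem_univ, true_and]
          exact (lOdd_cls c i0 i).1
        rw [h]
        exact hc
      · have h : (Finset.univ.filter fun i => lOdd c i0 i ≡ 2 [ZMOD 4]) = ∅ := by
          ext i
          simp only [Finset.mem_filter, Finset.mem_univ, true_and, Finset.notMem_empty, iff_false]
          exact (lOdd_cls c i0 i).2.2.2.1
        rw [h]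
        exact gSupp_empty
      · have h : (Finset.univ.filter fun i => lOdd c i0 i ≡ 3 [ZMOD 4]) = cᶜ := by
          ext i
          simp only [Finset.mem_filter, Finset.mem_univ, true_and, Finset.mem_compl]
          exact (lOdd_cls c i0 i).2.1
        rw [h]
        exact gSupp_compl hc
  · unfold sqNorm
    simp only [lOdd_sq, Finset.sum_add_distrib, Finset.sum_const, Finset.sum_ite_eq',
      Finset.mem_univ, if_true, card_univ_golay]
    norm_num

theorem lOdd_inj (c c' : Finset GolayPt) (i0 i0' : GolayPt) (h : lOdd c i0 = lOdd c' i0') :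
    c = c' ∧ i0 = i0' := by
  constructor
  · ext i
    rw [← (lOdd_cls c i0 i).1, h, (lOdd_cls c' i0' i).1]
  · by_contra hne
    have h1 := lOdd_sq c i0 i0
    have h2 := lOdd_sq c' i0' i0
    rw [h] at h1
    rw [h1] at h2
    simp [hne] at h2

/-- the vectors of shapes (±2^8, 0^16) and (±4^2, 0^22) -/
def lEven (a : ℤ) (P N : Finset GolayPt) : GolayPt → ℤ := fun i =>
  if i ∈ N then -a else if i ∈ P then a else 0

theorem lEven_val (a : ℤ) (P N : Finset GolayPt) (hN : N ⊆ P) (i : GolayPt) :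
    lEven a P N i = a * (if i ∈ P then 1 else 0) - 2 * a * (if i ∈ N then 1 else 0) := by
  unfold lEven
  by_cases h1 : i ∈ N
  · simp [h1, hN h1]
    ring
  · by_cases h2 : i ∈ P <;> simp [h1, h2]

theorem lEven_sq (a : ℤ) (P N : Finset GolayPt) (hN : N ⊆ P) (i : GolayPt) :
    (lEven a P N i) ^ 2 = a ^ 2 * (if i ∈ P then 1 else 0) := by
  unfold lEven
  by_cases h1 : i ∈ N
  · simp [h1, hN h1]
  · by_cases h2 : i ∈ P <;> simp [h1, h2]

theorem lEven_sum (a : ℤ) (P N : Finset GolayPt) (hN : N ⊆ P) :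
    ∑ i, lEven a P N i = a * P.card - 2 * a * N.card := by
  simp only [lEven_val a P N hN, Finset.sum_sub_distrib, ← Finset.mul_sum, Finset.sum_boole,
    Finset.filter_univ_mem]

theorem lEven_sqNorm (a : ℤ) (P N : Finset GolayPt) (hN : N ⊆ P) :
    sqNorm (lEven a P N) = a ^ 2 * P.card := by
  unfold sqNorm
  simp only [lEven_sq a P N hN, ← Finset.mul_sum, Finset.sum_boole, Finset.filter_univ_mem]

theorem lEven_char (a : ℤ) (ha : 0 < a) (P N : Finset GolayPt) (hN : N ⊆ P) (i : GolayPt) :
    (i ∈ P ↔ lEven a P N i ≠ 0) ∧ (i ∈ N ↔ lEven a P N i < 0) := by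
  unfold lEven
  by_cases h1 : i ∈ N
  · have h2 := hN h1
    simp only [h1, h2, if_true, true_iff]
    constructor <;> omega
  · by_cases h2 : i ∈ P
    · simp only [h1, h2, if_true, if_false, true_iff, false_iff]
      constructor <;> omega
    · simp only [h1, h2, if_false, false_iff]
      constructor <;> omega

theorem lEven_inj (a : ℤ) (ha : 0 < a) (P N P' N' : Finset GolayPt) (hN : N ⊆ P) (hN' : N' ⊆ P')
    (h : lEven a P N = lEven a P' N') : P = P' ∧ N = N' := by
  constructor
  · ext i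
    rw [(lEven_char a ha P N hN i).1, h, ← (lEven_char a ha P' N' hN' i).1]
  · ext i
    rw [(lEven_char a ha P N hN i).2, h, ← (lEven_char a ha P' N' hN' i).2]

theorem lEven_vals (a : ℤ) (P N : Finset GolayPt) (i : GolayPt) :
    lEven a P N i = a ∨ lEven a P N i = -a ∨ lEven a P N i = 0 := by
  unfold lEven
  split_ifs <;> simp

theorem lEven2_mem (o N : Finset GolayPt) (ho : o ∈ octads) (hN : N ⊆ o) (hev : Even N.card) :
    lEven 2 o N ∈ leechSet ∧ sqNorm (lEven 2 o N) = 32 := by
  have hcls : ∀ i, (lEven 2 o N i ≡ 2 [ZMOD 4] ↔ i ∈ o) ∧ (lEven 2 o N i ≡ 0 [ZMOD 4] ↔ i ∉ o)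
      ∧ ¬ lEven 2 o N i ≡ 1 [ZMOD 4] ∧ ¬ lEven 2 o N i ≡ 3 [ZMOD 4]
      ∧ lEven 2 o N i ≡ 0 [ZMOD 2] := by
    intro i
    unfold lEven
    by_cases h1 : i ∈ N
    · have h2 := hN h1
      simp [h1, h2, Int.ModEq]
    · by_cases h2 : i ∈ o <;> simp [h1, h2, Int.ModEq]
  constructor
  · apply leech_mem_of _ 0 (fun i => (hcls i).2.2.2.2)
    · rw [lEven_sum 2 o N hN, ho.2]
      obtain ⟨q, hq⟩ := hev
      rw [hq]
      push_cast
      unfold Int.ModEq
      omega
    · intro k hk0 hk4
      have hk : k = 0 ∨ k = 1 ∨ k = 2 ∨ k = 3 := by omega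
      rcases hk with rfl | rfl | rfl | rfl
      · have h : (Finset.univ.filter fun i => lEven 2 o N i ≡ 0 [ZMOD 4]) = oᶜ := by
          ext i
          simp only [Finset.mem_filter, Finset.mem_univ, true_and, Finset.mem_compl]
          exact (hcls i).2.1
        rw [h]
        exact gSupp_compl ho.1
      · have h : (Finset.univ.filter fun i => lEven 2 o N i ≡ 1 [ZMOD 4]) = ∅ := by
          ext i
          simp only [Finset.mem_filter, Finset.mem_univ, true_and, Finset.notMem_empty, iff_false]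
          exact (hcls i).2.2.1
        rw [h]
        exact gSupp_empty
      · have h : (Finset.univ.filter fun i => lEven 2 o N i ≡ 2 [ZMOD 4]) = o := by
          ext i
          simp only [Finset.mem_filter, Finset.mem_univ, true_and]
          exact (hcls i).1
        rw [h]
        exact ho.1
      · have h : (Finset.univ.filter fun i => lEven 2 o N i ≡ 3 [ZMOD 4]) = ∅ := by
          ext i
          simp only [Finset.mem_filter, Finset.mem_univ, true_and, Finset.notMem_empty, iff_false]
          exact (hcls i).2.2.2.1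
        rw [h]
        exact gSupp_empty
  · rw [lEven_sqNorm 2 o N hN, ho.2]
    norm_num

theorem lEven4_mem (U N : Finset GolayPt) (hU : U.card = 2) (hN : N ⊆ U) :
    lEven 4 U N ∈ leechSet ∧ sqNorm (lEven 4 U N) = 32 := by
  have hcls : ∀ i, lEven 4 U N i % 4 = 0 := by
    intro i
    rcases lEven_vals 4 U N i with h | h | h <;> rw [h] <;> norm_num
  have hemp : ∀ k : ℤ, k % 4 ≠ 0 →
      (Finset.univ.filter fun i => lEven 4 U N i ≡ k [ZMOD 4]) ∈ gSupp := by
    intro k hk
    have h : (Finset.univ.filter fun i => lEven 4 U N i ≡ k [ZMOD 4]) = ∅ := by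
      ext i
      simp only [Finset.mem_filter, Finset.mem_univ, true_and, Finset.notMem_empty, iff_false]
      have := hcls i
      unfold Int.ModEq
      omega
    rw [h]
    exact gSupp_empty
  constructor
  · apply leech_mem_of _ 0 (fun i => by have := hcls i; unfold Int.ModEq; omega)
    · rw [lEven_sum 4 U N hN, hU]
      push_cast
      unfold Int.ModEq
      omega
    · intro k hk0 hk4
      have hk : k = 0 ∨ k = 1 ∨ k = 2 ∨ k = 3 := by omega
      rcases hk with rfl | rfl | rfl | rfl
      · have h : (Finset.univ.filter fun i => lEven 4 U N i ≡ 0 [ZMOD 4]) = Finset.univ := by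
          ext i
          simp only [Finset.mem_filter, Finset.mem_univ, true_and, iff_true]
          have := hcls i
          unfold Int.ModEq
          omega
        rw [h]
        exact gSupp_univ
      all_goals
        apply hemp
        norm_num
  · rw [lEven_sqNorm 4 U N hN, hU]
    norm_num

end Cfsg.Agent.Lib.Helper1
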