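import Mathlib
import Cfsg.Prelude.Def_Sporadic_a
import Cfsg.Agent.Lib.Helper1.LeechMin

/-!
The minimal vectors of the rank-24 lattice: classification and count (helper1).
-/

namespace Cfsg.Agent.Lib.Helper1

open Cfsg

theorem sum_ite_const (D : Finset GolayPt) (a : ℤ) :
    ∑ i : GolayPt, (if i ∈ D then a else 0) = a * D.card := by
  have h : ∀ i : GolayPt, (if i ∈ D then a else 0) = a * (if i ∈ D then 1 else 0) := by
    intro i
    split_ifs <;> simp
  simp only [h, ← Finset.mul_sum, Finset.sum_boole, Finset.filter_univ_mem]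

theorem leech_min_cases (x : GolayPt → ℤ) (hx : x ∈ leechSet) (h32 : sqNorm x = 32) :
    (∃ c ∈ gSupp, ∃ i0, x = lOdd c i0)
    ∨ (∃ o ∈ octads, ∃ N ⊆ o, Even N.card ∧ x = lEven 2 o N)
    ∨ (∃ U N : Finset GolayPt, U.card = 2 ∧ N ⊆ U ∧ x = lEven 4 U N) := by
  classical
  obtain ⟨m, h1, h2, h3⟩ := hx
  unfold sqNorm at h32
  rcases Int.emod_two_eq_zero_or_one m with hm | hm
  · -- even
    have hev : ∀ i, x i % 2 = 0 := fun i => by
      have := h1 i
      unfold Int.ModEq at this
      omega
    obtain ⟨D, hD⟩ : ∃ D : Finset GolayPt, D = Finset.univ.filter (fun i => x i ≡ 2 [ZMOD 4]) :=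
      ⟨_, rfl⟩
    have hDg : D ∈ gSupp := by rw [hD]; exact h3 2
    have hDmem : ∀ i, i ∈ D ↔ x i % 4 = 2 := by
      intro i
      rw [hD, Finset.mem_filter]
      simp [Int.ModEq]
    have hlb : ∀ i ∈ (Finset.univ : Finset GolayPt), (if i ∈ D then (4 : ℤ) else 0) ≤ x i ^ 2 := by
      intro i _
      split_ifs with hi
      · have h4 := (hDmem i).1 hi
        have h5 : x i ≤ -2 ∨ 2 ≤ x i := by omega
        rcases h5 with h | h <;> nlinarith
      · positivity
    have hsumlb := sum_ite_const D 4
    have hD8 : D.card ≤ 8 := by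
      have h := Finset.sum_le_sum hlb
      rw [hsumlb, h32] at h
      omega
    rcases gSupp_card hDg with h0 | h8 | h | h | h
    · -- D empty
      have hD0 : D = ∅ := Finset.card_eq_zero.1 h0
      have h4 : ∀ i, x i % 4 = 0 := by
        intro i
        have h := hev i
        have hn : ¬ x i % 4 = 2 := fun h' => by
          have h'' := (hDmem i).2 h'
          rw [hD0] at h''
          exact absurd h'' (Finset.notMem_empty _)
        omega
      obtain ⟨U, hU⟩ : ∃ U : Finset GolayPt, U = Finset.univ.filter (fun i => x i ≠ 0) := ⟨_, rfl⟩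
      have hUmem : ∀ i, i ∈ U ↔ x i ≠ 0 := by
        intro i
        rw [hU, Finset.mem_filter]
        simp
      have hlb2 : ∀ i ∈ (Finset.univ : Finset GolayPt),
          (if i ∈ U then (16 : ℤ) else 0) ≤ x i ^ 2 := by
        intro i _
        split_ifs with hi
        · have hne : x i ≠ 0 := (hUmem i).1 hi
          have h5 := h4 i
          have h6 : x i ≤ -4 ∨ 4 ≤ x i := by omega
          rcases h6 with h | h <;> nlinarith
        · positivity
      have hsum2 := sum_ite_const U 16
      have hU2 : U.card ≤ 2 := by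
        have h := Finset.sum_le_sum hlb2
        rw [hsum2, h32] at h
        omega
      have hUeq : U.card = 2 := by
        by_contra hne
        have hs : ∑ i, x i ^ 2 = ∑ i ∈ U, x i ^ 2 := by
          symm
          apply Finset.sum_subset (Finset.subset_univ _)
          intro i _ hi
          have h0' : x i = 0 := by
            by_contra h
            exact hi ((hUmem i).2 h)
          rw [h0']
          norm_num
        rw [hs] at h32
        rcases Nat.lt_or_ge U.card 1 with hlt | hge
        · have hU0 : U = ∅ := Finset.card_eq_zero.1 (by omega)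
          rw [hU0, Finset.sum_empty] at h32
          norm_num at h32
        · obtain ⟨j, hj⟩ := Finset.card_eq_one.1 (by omega : U.card = 1)
          rw [hj, Finset.sum_singleton] at h32
          have h5 := h4 j
          obtain ⟨t, ht⟩ : ∃ t, x j = 4 * t := ⟨x j / 4, by omega⟩
          rw [ht] at h32
          have h6 : t ≤ -2 ∨ t = -1 ∨ t = 0 ∨ t = 1 ∨ 2 ≤ t := by omega
          rcases h6 with h | h | h | h | h <;> nlinarith
      have heq := (Finset.sum_eq_sum_iff_of_le hlb2).1 (by rw [hsum2, h32, hUeq]; norm_num)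
      right; right
      obtain ⟨N, hN⟩ : ∃ N : Finset GolayPt, N = Finset.univ.filter (fun i => x i < 0) := ⟨_, rfl⟩
      have hNmem : ∀ i, i ∈ N ↔ x i < 0 := by
        intro i
        rw [hN, Finset.mem_filter]
        simp
      refine ⟨U, N, hUeq, ?_, ?_⟩
      · intro i hi
        rw [hUmem]
        have := (hNmem i).1 hi
        omega
      · funext i
        unfold lEven
        have hi := heq i (Finset.mem_univ _)
        by_cases hU' : i ∈ U
        · rw [if_pos hU'] at hi
          have h7 : (x i - 4) * (x i + 4) = 0 := by nlinarith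
          by_cases hneg : x i < 0
          · rw [if_pos ((hNmem i).2 hneg)]
            rcases mul_eq_zero.1 h7 with h | h <;> omega
          · rw [if_neg (fun h => hneg ((hNmem i).1 h)), if_pos hU']
            rcases mul_eq_zero.1 h7 with h | h <;> omega
        · have hx0 : x i = 0 := by
            by_contra h
            exact hU' ((hUmem i).2 h)
          rw [if_neg (fun h => by have := (hNmem i).1 h; omega), if_neg hU', hx0]
    · -- D an octad
      have ho : D ∈ octads := ⟨hDg, h8⟩
      have heq := (Finset.sum_eq_sum_iff_of_le hlb).1 (by rw [hsumlb, h32, h8]; norm_num)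
      right; left
      obtain ⟨N, hN⟩ : ∃ N : Finset GolayPt, N = Finset.univ.filter (fun i => x i < 0) := ⟨_, rfl⟩
      have hNmem : ∀ i, i ∈ N ↔ x i < 0 := by
        intro i
        rw [hN, Finset.mem_filter]
        simp
      have hval : ∀ i, (i ∈ D → x i = 2 ∨ x i = -2) ∧ (i ∉ D → x i = 0) := by
        intro i
        have hi := heq i (Finset.mem_univ _)
        constructor
        · intro hiD
          rw [if_pos hiD] at hi
          have h7 : (x i - 2) * (x i + 2) = 0 := by nlinarith
          rcases mul_eq_zero.1 h7 with h | h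
          · left; omega
          · right; omega
        · intro hiD
          rw [if_neg hiD] at hi
          exact pow_eq_zero_iff (two_ne_zero) |>.1 hi.symm
      have hNo : N ⊆ D := by
        intro i hi
        by_contra hiD
        have h5 := (hval i).2 hiD
        have h6 := (hNmem i).1 hi
        omega
      have hxeq : x = lEven 2 D N := by
        funext i
        unfold lEven
        by_cases hneg : x i < 0
        · have hiN : i ∈ N := (hNmem i).2 hneg
          rw [if_pos hiN]
          rcases (hval i).1 (hNo hiN) with h | h <;> omega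
        · have hiN : i ∉ N := fun h => hneg ((hNmem i).1 h)
          rw [if_neg hiN]
          by_cases hiD : i ∈ D
          · rw [if_pos hiD]
            rcases (hval i).1 hiD with h | h <;> omega
          · rw [if_neg hiD]
            exact (hval i).2 hiD
      refine ⟨D, ho, N, hNo, ?_, hxeq⟩
      have hs := lEven_sum 2 D N hNo
      rw [← hxeq, h8] at hs
      rw [hs] at h2
      unfold Int.ModEq at h2
      rw [Nat.even_iff]
      push_cast at h2
      omega
    · omega
    · omega
    · omega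
  · -- odd
    have hodd : ∀ i, x i % 2 = 1 := fun i => by
      have := h1 i
      unfold Int.ModEq at this
      omega
    obtain ⟨c, hc⟩ : ∃ c : Finset GolayPt, c = Finset.univ.filter (fun i => x i ≡ 1 [ZMOD 4]) :=
      ⟨_, rfl⟩
    have hcg : c ∈ gSupp := by rw [hc]; exact h3 1
    have hcmem : ∀ i, i ∈ c ↔ x i % 4 = 1 := by
      intro i
      rw [hc, Finset.mem_filter]
      simp [Int.ModEq]
    obtain ⟨T, hT⟩ : ∃ T : Finset GolayPt, T = Finset.univ.filter (fun i => x i ^ 2 ≠ 1) := ⟨_, rfl⟩
    have hTmem : ∀ i, i ∈ T ↔ x i ^ 2 ≠ 1 := by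
      intro i
      rw [hT, Finset.mem_filter]
      simp
    have hlb : ∀ i ∈ (Finset.univ : Finset GolayPt),
        (1 + if i ∈ T then (8 : ℤ) else 0) ≤ x i ^ 2 := by
      intro i _
      have h5 := hodd i
      have h4 : x i ≤ -3 ∨ x i = -1 ∨ x i = 1 ∨ 3 ≤ x i := by omega
      split_ifs with hi
      · have hne := (hTmem i).1 hi
        rcases h4 with h | h | h | h
        · nlinarith
        · exfalso; apply hne; rw [h]; norm_num
        · exfalso; apply hne; rw [h]; norm_num
        · nlinarith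
      · rcases h4 with h | h | h | h <;> nlinarith
    have hsumlb : ∑ i : GolayPt, (1 + if i ∈ T then (8 : ℤ) else 0) = 24 + 8 * T.card := by
      rw [Finset.sum_add_distrib, sum_ite_const, Finset.sum_const, card_univ_golay]
      norm_num
    have hT1 : T.card ≤ 1 := by
      have h := Finset.sum_le_sum hlb
      rw [hsumlb, h32] at h
      omega
    have hT1' : T.card = 1 := by
      by_contra hne
      have hT0 : T = ∅ := Finset.card_eq_zero.1 (by omega)
      have h6 : ∑ i, x i ^ 2 = ∑ i : GolayPt, (1 : ℤ) := by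
        apply Finset.sum_congr rfl
        intro i _
        by_contra h
        have h7 : i ∈ T := (hTmem i).2 h
        rw [hT0] at h7
        exact absurd h7 (Finset.notMem_empty _)
      rw [h6, Finset.sum_const, card_univ_golay] at h32
      norm_num at h32
    obtain ⟨i0, hi0⟩ := Finset.card_eq_one.1 hT1'
    have heq := (Finset.sum_eq_sum_iff_of_le hlb).1 (by rw [hsumlb, h32, hT1']; norm_num)
    left
    refine ⟨c, hcg, i0, ?_⟩
    funext i
    unfold lOdd
    have hi := heq i (Finset.mem_univ _)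
    have hcm := hcmem i
    by_cases h : i = i0
    · have hiT : i ∈ T := by rw [hi0, h]; exact Finset.mem_singleton_self _
      rw [if_pos hiT] at hi
      rw [if_pos h]
      have h7 : (x i - 3) * (x i + 3) = 0 := by nlinarith
      rcases mul_eq_zero.1 h7 with h' | h'
      · have h8 : x i = 3 := by omega
        rw [if_neg (by rw [hcm]; omega)]
        exact h8
      · have h8 : x i = -3 := by omega
        rw [if_pos (by rw [hcm]; omega)]
        exact h8
    · have hiT : i ∉ T := by rw [hi0, Finset.mem_singleton]; exact h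
      rw [if_neg hiT] at hi
      rw [if_neg h]
      have h7 : (x i - 1) * (x i + 1) = 0 := by nlinarith
      rcases mul_eq_zero.1 h7 with h' | h'
      · have h8 : x i = 1 := by omega
        rw [if_pos (by rw [hcm]; omega)]
        exact h8
      · have h8 : x i = -1 := by omega
        rw [if_neg (by rw [hcm]; omega)]
        exact h8

theorem even_subsets (o : Finset GolayPt) (ho : o.card = 8) :
    ((o.powerset).filter (fun N => Even N.card)).card = 128 := by
  classical
  have hne : o.Nonempty := Finset.card_pos.1 (by omega)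
  have h0 := Finset.sum_powerset_neg_one_pow_card_of_nonempty hne
  have h1 : ∀ N ∈ o.powerset, ((-1 : ℤ) ^ N.card) = (if Even N.card then 2 else 0) - 1 := by
    intro N _
    split_ifs with h
    · rw [h.neg_one_pow]; norm_num
    · rw [Nat.not_even_iff_odd] at h
      rw [h.neg_one_pow]; norm_num
  rw [Finset.sum_congr rfl h1, Finset.sum_sub_distrib, Finset.sum_const, Finset.card_powerset,
    ho] at h0
  have h2 : ∑ N ∈ o.powerset, (if Even N.card then (2 : ℤ) else 0)
      = 2 * ((o.powerset).filter (fun N => Even N.card)).card := by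
    have h3 : ∀ N ∈ o.powerset, (if Even N.card then (2 : ℤ) else 0)
        = 2 * (if Even N.card then 1 else 0) := fun N _ => by split_ifs <;> simp
    rw [Finset.sum_congr rfl h3, ← Finset.mul_sum, Finset.sum_boole]
  rw [h2] at h0
  norm_num at h0
  omega

theorem lOdd_ne_lEven (c : Finset GolayPt) (i0 : GolayPt) (a : ℤ) (ha : a % 2 = 0)
    (P N : Finset GolayPt) : lOdd c i0 ≠ lEven a P N := by
  intro h
  have h1 := (lOdd_cls c i0 i0).2.2.2.2
  rw [h] at h1
  unfold Int.ModEq at h1
  rcases lEven_vals a P N i0 with h2 | h2 | h2 <;> rw [h2] at h1 <;> omega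

theorem lEven2_ne_lEven4 (o N U N' : Finset GolayPt) (ho : o.card = 8) (hN : N ⊆ o) :
    lEven 2 o N ≠ lEven 4 U N' := by
  intro h
  obtain ⟨i, hi⟩ : o.Nonempty := Finset.card_pos.1 (by omega)
  have h1 := (lEven_char 2 (by norm_num) o N hN i).1.1 hi
  have h2 : lEven 2 o N i = 2 ∨ lEven 2 o N i = -2 := by
    rcases lEven_vals 2 o N i with h3 | h3 | h3
    · exact Or.inl h3
    · exact Or.inr h3
    · exact absurd h3 h1
  rw [h] at h2
  rcases lEven_vals 4 U N' i with h3 | h3 | h3 <;> rw [h3] at h2 <;> omega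

theorem leech_min_count :
    {x : GolayPt → ℤ | x ∈ leechSet ∧ sqNorm x = 32}.ncard = 196560 := by
  classical
  obtain ⟨Gf, hGf, hGcard⟩ := exists_blockFinset gSupp
  obtain ⟨Of, hOf, hOcard⟩ := exists_blockFinset octads
  rw [gSupp_ncard] at hGcard
  rw [Cfsg.Agent.S0360.result] at hOcard
  obtain ⟨D3, hD3⟩ : ∃ D3 : Finset (Finset GolayPt × GolayPt), D3 = Gf ×ˢ Finset.univ := ⟨_, rfl⟩
  obtain ⟨D2, hD2⟩ : ∃ D2 : Finset ((_ : Finset GolayPt) × Finset GolayPt),
      D2 = Of.sigma (fun o => (o.powerset).filter (fun N => Even N.card)) := ⟨_, rfl⟩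
  obtain ⟨D1, hD1⟩ : ∃ D1 : Finset ((_ : Finset GolayPt) × Finset GolayPt),
      D1 = (Finset.powersetCard 2 (Finset.univ : Finset GolayPt)).sigma (fun U => U.powerset) :=
    ⟨_, rfl⟩
  obtain ⟨f3, hf3⟩ : ∃ f3 : Finset GolayPt × GolayPt → (GolayPt → ℤ),
      f3 = fun p => lOdd p.1 p.2 := ⟨_, rfl⟩
  obtain ⟨f2, hf2⟩ : ∃ f2 : ((_ : Finset GolayPt) × Finset GolayPt) → (GolayPt → ℤ),
      f2 = fun p => lEven 2 p.1 p.2 := ⟨_, rfl⟩
  obtain ⟨f1, hf1⟩ : ∃ f1 : ((_ : Finset GolayPt) × Finset GolayPt) → (GolayPt → ℤ),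
      f1 = fun p => lEven 4 p.1 p.2 := ⟨_, rfl⟩
  have m3 : ∀ p, p ∈ D3 ↔ p.1 ∈ gSupp := by
    intro p
    rw [hD3, Finset.mem_product, hGf]
    simp
  have m2 : ∀ p, p ∈ D2 ↔ p.1 ∈ octads ∧ p.2 ⊆ p.1 ∧ Even p.2.card := by
    intro p
    rw [hD2, Finset.mem_sigma, Finset.mem_filter, Finset.mem_powerset, hOf]
  have m1 : ∀ p, p ∈ D1 ↔ p.1.card = 2 ∧ p.2 ⊆ p.1 := by
    intro p
    rw [hD1, Finset.mem_sigma, Finset.mem_powersetCard, Finset.mem_powerset]
    simp
  have hset : {x : GolayPt → ℤ | x ∈ leechSet ∧ sqNorm x = 32}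
      = ↑(D3.image f3 ∪ D2.image f2 ∪ D1.image f1) := by
    ext x
    simp only [Set.mem_setOf_eq, Finset.coe_union, Finset.coe_image, Set.mem_union,
      Set.mem_image, Finset.mem_coe]
    constructor
    · rintro ⟨hx, h32⟩
      rcases leech_min_cases x hx h32 with ⟨c, hc, i0, rfl⟩ | ⟨o, ho, N, hN, hev, rfl⟩
        | ⟨U, N, hU, hN, rfl⟩
      · left; left
        exact ⟨(c, i0), (m3 _).2 hc, by rw [hf3]⟩
      · left; right
        exact ⟨⟨o, N⟩, (m2 _).2 ⟨ho, hN, hev⟩, by rw [hf2]⟩
      · right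
        exact ⟨⟨U, N⟩, (m1 _).2 ⟨hU, hN⟩, by rw [hf1]⟩
    · rintro ((⟨p, hp, rfl⟩ | ⟨p, hp, rfl⟩) | ⟨p, hp, rfl⟩)
      · rw [hf3]
        exact lOdd_mem p.1 ((m3 p).1 hp) p.2
      · rw [hf2]
        obtain ⟨h1, h2, h3⟩ := (m2 p).1 hp
        exact lEven2_mem p.1 p.2 h1 h2 h3
      · rw [hf1]
        obtain ⟨h1, h2⟩ := (m1 p).1 hp
        exact lEven4_mem p.1 p.2 h1 h2
  have inj3 : Set.InjOn f3 ↑D3 := by
    rintro ⟨c, i0⟩ - ⟨c', i0'⟩ - h
    rw [hf3] at h
    obtain ⟨h1, h2⟩ := lOdd_inj c c' i0 i0' h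
    rw [h1, h2]
  have inj2 : Set.InjOn f2 ↑D2 := by
    rintro ⟨o, N⟩ hp ⟨o', N'⟩ hp' h
    rw [hf2] at h
    obtain ⟨-, hN, -⟩ := (m2 _).1 (Finset.mem_coe.1 hp)
    obtain ⟨-, hN', -⟩ := (m2 _).1 (Finset.mem_coe.1 hp')
    obtain ⟨h1, h2⟩ := lEven_inj 2 (by norm_num) o N o' N' hN hN' h
    subst h1
    subst h2
    rfl
  have inj1 : Set.InjOn f1 ↑D1 := by
    rintro ⟨o, N⟩ hp ⟨o', N'⟩ hp' h
    rw [hf1] at h
    obtain ⟨-, hN⟩ := (m1 _).1 (Finset.mem_coe.1 hp)
    obtain ⟨-, hN'⟩ := (m1 _).1 (Finset.mem_coe.1 hp')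
    obtain ⟨h1, h2⟩ := lEven_inj 4 (by norm_num) o N o' N' hN hN' h
    subst h1
    subst h2
    rfl
  have dis32 : Disjoint (D3.image f3) (D2.image f2) := by
    rw [Finset.disjoint_left]
    intro x h3' h2'
    obtain ⟨p, -, rfl⟩ := Finset.mem_image.1 h3'
    obtain ⟨q, -, hq⟩ := Finset.mem_image.1 h2'
    rw [hf3, hf2] at hq
    exact lOdd_ne_lEven p.1 p.2 2 (by norm_num) q.1 q.2 hq.symm
  have dis1 : Disjoint (D3.image f3 ∪ D2.image f2) (D1.image f1) := by
    rw [Finset.disjoint_left]
    intro x h h1'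
    obtain ⟨q, -, hq⟩ := Finset.mem_image.1 h1'
    rcases Finset.mem_union.1 h with h3' | h2'
    · obtain ⟨p, -, rfl⟩ := Finset.mem_image.1 h3'
      rw [hf3, hf1] at hq
      exact lOdd_ne_lEven p.1 p.2 4 (by norm_num) q.1 q.2 hq.symm
    · obtain ⟨p, hp, rfl⟩ := Finset.mem_image.1 h2'
      rw [hf2, hf1] at hq
      obtain ⟨h1, h2, -⟩ := (m2 p).1 hp
      exact lEven2_ne_lEven4 p.1 p.2 q.1 q.2 h1.2 h2 hq.symm
  have c3 : D3.card = 98304 := by
    rw [hD3, Finset.card_product, ← hGcard, card_univ_golay]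
  have c2 : D2.card = 97152 := by
    rw [hD2, Finset.card_sigma, Finset.sum_congr rfl (fun o ho =>
      even_subsets o ((hOf o).1 ho).2), Finset.sum_const, ← hOcard]
    rfl
  have c1 : D1.card = 1104 := by
    rw [hD1, Finset.card_sigma, Finset.sum_congr rfl (fun U hU => by
      rw [Finset.card_powerset, (Finset.mem_powersetCard.1 hU).2]), Finset.sum_const,
      Finset.card_powersetCard, card_univ_golay]
    decide
  rw [hset, Set.ncard_coe_finset, Finset.card_union_of_disjoint dis1,
    Finset.card_union_of_disjoint dis32, Finset.card_image_of_injOn inj3,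
    Finset.card_image_of_injOn inj2, Finset.card_image_of_injOn inj1, c3, c2, c1]

end Cfsg.Agent.Lib.Helper1
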