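import Mathlib
import Cfsg.Prelude.Def_Sporadic_a
import Cfsg.Agent.Lib.Helper1.LeechMin2
import Cfsg.Agent.S0361

/-!
The vectors of sum of squares 48 of the rank-24 lattice: shapes (helper1).
-/

namespace Cfsg.Agent.Lib.Helper1

open Cfsg

/-- the vectors of shape (∓3^T, ±1) -/
def lOddT (c T : Finset GolayPt) : GolayPt → ℤ := fun i =>
  if i ∈ T then (if i ∈ c then -3 else 3) else (if i ∈ c then 1 else -1)

theorem lOddT_cls (c T : Finset GolayPt) (i : GolayPt) :
    (lOddT c T i ≡ 1 [ZMOD 4] ↔ i ∈ c) ∧ (lOddT c T i ≡ 3 [ZMOD 4] ↔ i ∉ c) ∧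
    ¬ lOddT c T i ≡ 0 [ZMOD 4] ∧ ¬ lOddT c T i ≡ 2 [ZMOD 4] ∧ lOddT c T i ≡ 1 [ZMOD 2] := by
  unfold lOddT
  by_cases h1 : i ∈ T <;> by_cases h2 : i ∈ c <;> simp [h1, h2, Int.ModEq]

theorem lOddT_sq (c T : Finset GolayPt) (i : GolayPt) :
    (lOddT c T i) ^ 2 = 1 + if i ∈ T then 8 else 0 := by
  unfold lOddT
  split_ifs <;> norm_num

theorem lOddT_val (c T : Finset GolayPt) (i : GolayPt) :
    lOddT c T i = 2 * (if i ∈ c then 1 else 0) - 1
      + (4 * (if i ∈ T then 1 else 0) - 8 * (if i ∈ T ∩ c then 1 else 0)) := by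
  unfold lOddT
  by_cases h1 : i ∈ T <;> by_cases h2 : i ∈ c <;> simp [h1, h2]

theorem lOddT_sum (c T : Finset GolayPt) :
    ∑ i, lOddT c T i = 2 * (c.card : ℤ) - 24 + (4 * (T.card : ℤ) - 8 * ((T ∩ c).card : ℤ)) := by
  simp only [lOddT_val, Finset.sum_add_distrib, Finset.sum_sub_distrib, ← Finset.mul_sum,
    Finset.sum_boole, Finset.filter_univ_mem, Finset.sum_const, card_univ_golay]
  norm_num

theorem lOddT_mem (c : Finset GolayPt) (hc : c ∈ gSupp) (T : Finset GolayPt) (hT : Odd T.card) :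
    lOddT c T ∈ leechSet ∧ sqNorm (lOddT c T) = 24 + 8 * T.card := by
  constructor
  · apply leech_mem_of _ 1 (fun i => (lOddT_cls c T i).2.2.2.2)
    · rw [lOddT_sum]
      obtain ⟨q, hq⟩ := gSupp_card4 hc
      obtain ⟨r, hr⟩ := hT
      rw [hq, hr]
      push_cast
      unfold Int.ModEq
      omega
    · intro k hk0 hk4
      have hk : k = 0 ∨ k = 1 ∨ k = 2 ∨ k = 3 := by omega
      rcases hk with rfl | rfl | rfl | rfl
      · have h : (Finset.univ.filter fun i => lOddT c T i ≡ 0 [ZMOD 4]) = ∅ := by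
          ext i
          simp only [Finset.mem_filter, Finset.mem_univ, true_and, Finset.notMem_empty, iff_false]
          exact (lOddT_cls c T i).2.2.1
        rw [h]
        exact gSupp_empty
      · have h : (Finset.univ.filter fun i => lOddT c T i ≡ 1 [ZMOD 4]) = c := by
          ext i
          simp only [Finset.mem_filter, Finset.mem_univ, true_and]
          exact (lOddT_cls c T i).1
        rw [h]
        exact hc
      · have h : (Finset.univ.filter fun i => lOddT c T i ≡ 2 [ZMOD 4]) = ∅ := by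
          ext i
          simp only [Finset.mem_filter, Finset.mem_univ, true_and, Finset.notMem_empty, iff_false]
          exact (lOddT_cls c T i).2.2.2.1
        rw [h]
        exact gSupp_empty
      · have h : (Finset.univ.filter fun i => lOddT c T i ≡ 3 [ZMOD 4]) = cᶜ := by
          ext i
          simp only [Finset.mem_filter, Finset.mem_univ, true_and, Finset.mem_compl]
          exact (lOddT_cls c T i).2.1
        rw [h]
        exact gSupp_compl hc
  · unfold sqNorm
    simp only [lOddT_sq, Finset.sum_add_distrib, Finset.sum_const, card_univ_golay]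
    rw [sum_ite_const]
    norm_num

theorem lOddT_inj (c c' T T' : Finset GolayPt) (h : lOddT c T = lOddT c' T') :
    c = c' ∧ T = T' := by
  constructor
  · ext i
    rw [← (lOddT_cls c T i).1, h, (lOddT_cls c' T' i).1]
  · ext i
    have h1 := lOddT_sq c T i
    have h2 := lOddT_sq c' T' i
    rw [h] at h1
    rw [h1] at h2
    by_cases hi : i ∈ T <;> by_cases hi' : i ∈ T' <;> simp [hi, hi'] at h2 ⊢

/-- the vectors of shape (±5, ±1^23) -/
def lOdd5 (c : Finset GolayPt) (i0 : GolayPt) : GolayPt → ℤ := fun i =>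
  if i = i0 then (if i ∈ c then 5 else -5) else (if i ∈ c then 1 else -1)

theorem lOdd5_cls (c : Finset GolayPt) (i0 i : GolayPt) :
    (lOdd5 c i0 i ≡ 1 [ZMOD 4] ↔ i ∈ c) ∧ (lOdd5 c i0 i ≡ 3 [ZMOD 4] ↔ i ∉ c) ∧
    ¬ lOdd5 c i0 i ≡ 0 [ZMOD 4] ∧ ¬ lOdd5 c i0 i ≡ 2 [ZMOD 4] ∧ lOdd5 c i0 i ≡ 1 [ZMOD 2] := by
  unfold lOdd5
  by_cases h1 : i = i0 <;> by_cases h2 : i ∈ c <;> simp [h1, h2, Int.ModEq] <;> simp [← h1, h2]

theorem lOdd5_sq (c : Finset GolayPt) (i0 i : GolayPt) :
    (lOdd5 c i0 i) ^ 2 = 1 + if i = i0 then 24 else 0 := by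
  unfold lOdd5
  split_ifs <;> norm_num

theorem lOdd5_val (c : Finset GolayPt) (i0 i : GolayPt) :
    lOdd5 c i0 i = 2 * (if i ∈ c then 1 else 0) - 1
      + (if i = i0 then (if i0 ∈ c then 4 else -4) else 0) := by
  unfold lOdd5
  by_cases h1 : i = i0
  · subst h1
    by_cases h2 : i ∈ c <;> simp [h2]
  · by_cases h2 : i ∈ c <;> simp [h1, h2]

theorem lOdd5_sum (c : Finset GolayPt) (i0 : GolayPt) :
    ∑ i, lOdd5 c i0 i = 2 * (c.card : ℤ) - 24 + (if i0 ∈ c then 4 else -4) := by
  simp only [lOdd5_val, Finset.sum_add_distrib, Finset.sum_sub_distrib, ← Finset.mul_sum,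
    Finset.sum_boole, Finset.filter_univ_mem, Finset.sum_const, Finset.sum_ite_eq',
    Finset.mem_univ, if_true, card_univ_golay]
  norm_num

theorem lOdd5_mem (c : Finset GolayPt) (hc : c ∈ gSupp) (i0 : GolayPt) :
    lOdd5 c i0 ∈ leechSet ∧ sqNorm (lOdd5 c i0) = 48 := by
  constructor
  · apply leech_mem_of _ 1 (fun i => (lOdd5_cls c i0 i).2.2.2.2)
    · rw [lOdd5_sum]
      obtain ⟨q, hq⟩ := gSupp_card4 hc
      rw [hq]
      push_cast
      unfold Int.ModEq
      split_ifs <;> omega
    · intro k hk0 hk4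
      have hk : k = 0 ∨ k = 1 ∨ k = 2 ∨ k = 3 := by omega
      rcases hk with rfl | rfl | rfl | rfl
      · have h : (Finset.univ.filter fun i => lOdd5 c i0 i ≡ 0 [ZMOD 4]) = ∅ := by
          ext i
          simp only [Finset.mem_filter, Finset.mem_univ, true_and, Finset.notMem_empty, iff_false]
          exact (lOdd5_cls c i0 i).2.2.1
        rw [h]
        exact gSupp_empty
      · have h : (Finset.univ.filter fun i => lOdd5 c i0 i ≡ 1 [ZMOD 4]) = c := by
          ext i
          simp only [Finset.mem_filter, Finset.mem_univ, true_and]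
          exact (lOdd5_cls c i0 i).1
        rw [h]
        exact hc
      · have h : (Finset.univ.filter fun i => lOdd5 c i0 i ≡ 2 [ZMOD 4]) = ∅ := by
          ext i
          simp only [Finset.mem_filter, Finset.mem_univ, true_and, Finset.notMem_empty, iff_false]
          exact (lOdd5_cls c i0 i).2.2.2.1
        rw [h]
        exact gSupp_empty
      · have h : (Finset.univ.filter fun i => lOdd5 c i0 i ≡ 3 [ZMOD 4]) = cᶜ := by
          ext i
          simp only [Finset.mem_filter, Finset.mem_univ, true_and, Finset.mem_compl]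
          exact (lOdd5_cls c i0 i).2.1
        rw [h]
        exact gSupp_compl hc
  · unfold sqNorm
    simp only [lOdd5_sq, Finset.sum_add_distrib, Finset.sum_const, Finset.sum_ite_eq',
      Finset.mem_univ, if_true, card_univ_golay]
    norm_num

theorem lOdd5_inj (c c' : Finset GolayPt) (i0 i0' : GolayPt) (h : lOdd5 c i0 = lOdd5 c' i0') :
    c = c' ∧ i0 = i0' := by
  constructor
  · ext i
    rw [← (lOdd5_cls c i0 i).1, h, (lOdd5_cls c' i0' i).1]
  · by_contra hne
    have h1 := lOdd5_sq c i0 i0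
    have h2 := lOdd5_sq c' i0' i0
    rw [h] at h1
    rw [h1] at h2
    simp [hne] at h2

/-- the vectors of shape (±4, ±2^8, 0^15) -/
def lMix (o N : Finset GolayPt) (j : GolayPt) (b : Bool) : GolayPt → ℤ := fun i =>
  if i = j then (if b then 4 else -4) else lEven 2 o N i

theorem lMix_val (o N : Finset GolayPt) (hN : N ⊆ o) (j : GolayPt) (hj : j ∉ o) (b : Bool)
    (i : GolayPt) :
    lMix o N j b i = lEven 2 o N i + (if i = j then (if b then 4 else -4) else 0) := by
  unfold lMix
  by_cases h : i = j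
  · subst h
    have h0 : lEven 2 o N i = 0 := by
      unfold lEven
      rw [if_neg (fun h => hj (hN h)), if_neg hj]
    simp [h0]
  · simp [h]

theorem lMix_sq (o N : Finset GolayPt) (hN : N ⊆ o) (j : GolayPt) (hj : j ∉ o) (b : Bool)
    (i : GolayPt) :
    (lMix o N j b i) ^ 2 = 4 * (if i ∈ o then 1 else 0) + (if i = j then 16 else 0) := by
  unfold lMix
  by_cases h : i = j
  · subst h
    cases b <;> simp [hj]
  · simp only [h, if_false, add_zero]
    rw [lEven_sq 2 o N hN]
    norm_num

theorem lMix_sum (o N : Finset GolayPt) (hN : N ⊆ o) (j : GolayPt) (hj : j ∉ o) (b : Bool) :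
    ∑ i, lMix o N j b i = 2 * (o.card : ℤ) - 2 * 2 * N.card + (if b then 4 else -4) := by
  simp only [lMix_val o N hN j hj b, Finset.sum_add_distrib, lEven_sum 2 o N hN,
    Finset.sum_ite_eq', Finset.mem_univ, if_true]

theorem lMix_cls (o N : Finset GolayPt) (hN : N ⊆ o) (j : GolayPt) (hj : j ∉ o) (b : Bool)
    (i : GolayPt) :
    (lMix o N j b i ≡ 2 [ZMOD 4] ↔ i ∈ o) ∧ (lMix o N j b i ≡ 0 [ZMOD 4] ↔ i ∉ o)
      ∧ ¬ lMix o N j b i ≡ 1 [ZMOD 4] ∧ ¬ lMix o N j b i ≡ 3 [ZMOD 4]
      ∧ lMix o N j b i ≡ 0 [ZMOD 2] := by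
  unfold lMix lEven
  by_cases h : i = j
  · subst h
    cases b <;> simp [hj, Int.ModEq]
  · by_cases h1 : i ∈ N
    · have h2 := hN h1
      simp [h, h1, h2, Int.ModEq]
    · by_cases h2 : i ∈ o <;> simp [h, h1, h2, Int.ModEq]

theorem lMix_mem (o N : Finset GolayPt) (ho : o ∈ octads) (hN : N ⊆ o) (hodd : Odd N.card)
    (j : GolayPt) (hj : j ∉ o) (b : Bool) :
    lMix o N j b ∈ leechSet ∧ sqNorm (lMix o N j b) = 48 := by
  have hcls := lMix_cls o N hN j hj b
  constructor
  · apply leech_mem_of _ 0 (fun i => (hcls i).2.2.2.2)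
    · rw [lMix_sum o N hN j hj b, ho.2]
      obtain ⟨q, hq⟩ := hodd
      rw [hq]
      push_cast
      unfold Int.ModEq
      cases b <;> simp <;> omega
    · intro k hk0 hk4
      have hk : k = 0 ∨ k = 1 ∨ k = 2 ∨ k = 3 := by omega
      rcases hk with rfl | rfl | rfl | rfl
      · have h : (Finset.univ.filter fun i => lMix o N j b i ≡ 0 [ZMOD 4]) = oᶜ := by
          ext i
          simp only [Finset.mem_filter, Finset.mem_univ, true_and, Finset.mem_compl]
          exact (hcls i).2.1
        rw [h]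
        exact gSupp_compl ho.1
      · have h : (Finset.univ.filter fun i => lMix o N j b i ≡ 1 [ZMOD 4]) = ∅ := by
          ext i
          simp only [Finset.mem_filter, Finset.mem_univ, true_and, Finset.notMem_empty, iff_false]
          exact (hcls i).2.2.1
        rw [h]
        exact gSupp_empty
      · have h : (Finset.univ.filter fun i => lMix o N j b i ≡ 2 [ZMOD 4]) = o := by
          ext i
          simp only [Finset.mem_filter, Finset.mem_univ, true_and]
          exact (hcls i).1
        rw [h]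
        exact ho.1
      · have h : (Finset.univ.filter fun i => lMix o N j b i ≡ 3 [ZMOD 4]) = ∅ := by
          ext i
          simp only [Finset.mem_filter, Finset.mem_univ, true_and, Finset.notMem_empty, iff_false]
          exact (hcls i).2.2.2.1
        rw [h]
        exact gSupp_empty
  · unfold sqNorm
    simp only [lMix_sq o N hN j hj b, Finset.sum_add_distrib, ← Finset.mul_sum, Finset.sum_boole,
      Finset.filter_univ_mem, Finset.sum_ite_eq', Finset.mem_univ, if_true, ho.2]
    norm_num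

/-- shape (±2^12, 0^12) -/
theorem lEven2d_mem (d N : Finset GolayPt) (hd : d ∈ dodecads) (hN : N ⊆ d) (hev : Even N.card) :
    lEven 2 d N ∈ leechSet ∧ sqNorm (lEven 2 d N) = 48 := by
  have hcls : ∀ i, (lEven 2 d N i ≡ 2 [ZMOD 4] ↔ i ∈ d) ∧ (lEven 2 d N i ≡ 0 [ZMOD 4] ↔ i ∉ d)
      ∧ ¬ lEven 2 d N i ≡ 1 [ZMOD 4] ∧ ¬ lEven 2 d N i ≡ 3 [ZMOD 4]
      ∧ lEven 2 d N i ≡ 0 [ZMOD 2] := by
    intro i
    unfold lEven
    by_cases h1 : i ∈ N
    · have h2 := hN h1
      simp [h1, h2, Int.ModEq]
    · by_cases h2 : i ∈ d <;> simp [h1, h2, Int.ModEq]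
  constructor
  · apply leech_mem_of _ 0 (fun i => (hcls i).2.2.2.2)
    · rw [lEven_sum 2 d N hN, hd.2]
      obtain ⟨q, hq⟩ := hev
      rw [hq]
      push_cast
      unfold Int.ModEq
      omega
    · intro k hk0 hk4
      have hk : k = 0 ∨ k = 1 ∨ k = 2 ∨ k = 3 := by omega
      rcases hk with rfl | rfl | rfl | rfl
      · have h : (Finset.univ.filter fun i => lEven 2 d N i ≡ 0 [ZMOD 4]) = dᶜ := by
          ext i
          simp only [Finset.mem_filter, Finset.mem_univ, true_and, Finset.mem_compl]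
          exact (hcls i).2.1
        rw [h]
        exact gSupp_compl hd.1
      · have h : (Finset.univ.filter fun i => lEven 2 d N i ≡ 1 [ZMOD 4]) = ∅ := by
          ext i
          simp only [Finset.mem_filter, Finset.mem_univ, true_and, Finset.notMem_empty, iff_false]
          exact (hcls i).2.2.1
        rw [h]
        exact gSupp_empty
      · have h : (Finset.univ.filter fun i => lEven 2 d N i ≡ 2 [ZMOD 4]) = d := by
          ext i
          simp only [Finset.mem_filter, Finset.mem_univ, true_and]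
          exact (hcls i).1
        rw [h]
        exact hd.1
      · have h : (Finset.univ.filter fun i => lEven 2 d N i ≡ 3 [ZMOD 4]) = ∅ := by
          ext i
          simp only [Finset.mem_filter, Finset.mem_univ, true_and, Finset.notMem_empty, iff_false]
          exact (hcls i).2.2.2.1
        rw [h]
        exact gSupp_empty
  · rw [lEven_sqNorm 2 d N hN, hd.2]
    norm_num

end Cfsg.Agent.Lib.Helper1
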