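import Mathlib
import Cfsg.Prelude.Def_Sporadic_a
import Cfsg.Agent.Lib.Helper1.LeechN6

/-!
The vectors of sum of squares 48 of the rank-24 lattice: classification (helper1).
-/

namespace Cfsg.Agent.Lib.Helper1

open Cfsg

theorem leech_n6_odd (x : GolayPt → ℤ) (m : ℤ) (h1 : ∀ i, x i ≡ m [ZMOD 2])
    (h3 : ∀ k : ℤ, (Finset.univ.filter fun i => x i ≡ k [ZMOD 4]) ∈ gSupp)
    (h48 : ∑ i, x i ^ 2 = 48) (hm : m % 2 = 1) :
    (∃ c ∈ gSupp, ∃ T : Finset GolayPt, T.card = 3 ∧ x = lOddT c T)
    ∨ (∃ c ∈ gSupp, ∃ i0, x = lOdd5 c i0) := by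
  classical
  have hodd : ∀ i, x i % 2 = 1 := fun i => by
    have := h1 i
    unfold Int.ModEq at this
    omega
  obtain ⟨c, hc⟩ : ∃ c : Finset GolayPt, c = Finset.univ.filter (fun i => x i ≡ 1 [ZMOD 4]) :=
    ⟨_, rfl⟩
  have hcg : c ∈ gSupp := by rw [hc]; exact h3 1
  have hcmem : ∀ i, i ∈ c ↔ x i % 4 = 1 := by
    intro i
    rw [hc, Finset.mem_filter]
    simp [Int.ModEq]
  obtain ⟨A, hA⟩ : ∃ A : Finset GolayPt, A = Finset.univ.filter (fun i => x i ^ 2 = 9) := ⟨_, rfl⟩
  have hAmem : ∀ i, i ∈ A ↔ x i ^ 2 = 9 := by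
    intro i
    rw [hA, Finset.mem_filter]
    simp
  obtain ⟨Bg, hBg⟩ : ∃ Bg : Finset GolayPt, Bg = Finset.univ.filter (fun i => 25 ≤ x i ^ 2) :=
    ⟨_, rfl⟩
  have hBmem : ∀ i, i ∈ Bg ↔ 25 ≤ x i ^ 2 := by
    intro i
    rw [hBg, Finset.mem_filter]
    simp
  have hlb : ∀ i ∈ (Finset.univ : Finset GolayPt),
      (1 + (if i ∈ A then (8 : ℤ) else 0) + (if i ∈ Bg then (24 : ℤ) else 0)) ≤ x i ^ 2 := by
    intro i _
    by_cases hiA : i ∈ A
    · have h9 := (hAmem i).1 hiA
      have hiB : i ∉ Bg := fun hb => by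
        have := (hBmem i).1 hb
        omega
      rw [if_pos hiA, if_neg hiB]
      omega
    · by_cases hiB : i ∈ Bg
      · rw [if_neg hiA, if_pos hiB]
        have := (hBmem i).1 hiB
        omega
      · rw [if_neg hiA, if_neg hiB]
        have h5 := hodd i
        have h6 : x i ≤ -1 ∨ 1 ≤ x i := by omega
        rcases h6 with h | h <;> nlinarith
  have hsumlb : ∑ i : GolayPt, (1 + (if i ∈ A then (8 : ℤ) else 0) + (if i ∈ Bg then (24 : ℤ) else 0))
      = 24 + 8 * A.card + 24 * Bg.card := by
    rw [Finset.sum_add_distrib, Finset.sum_add_distrib, sum_ite_const, sum_ite_const,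
      Finset.sum_const, card_univ_golay]
    norm_num
  have hle := Finset.sum_le_sum hlb
  rw [hsumlb, h48] at hle
  -- values of x off A ∪ Bg
  have hsmall : ∀ i, i ∉ A → i ∉ Bg → x i ^ 2 = 1 := by
    intro i hiA hiB
    have h5 := hodd i
    have h9 : x i ^ 2 ≠ 9 := fun h => hiA ((hAmem i).2 h)
    have h25 : ¬ 25 ≤ x i ^ 2 := fun h => hiB ((hBmem i).2 h)
    have h6 : x i ≤ -5 ∨ x i = -3 ∨ x i = -1 ∨ x i = 1 ∨ x i = 3 ∨ 5 ≤ x i := by omega
    rcases h6 with h | h | h | h | h | h
    · exfalso; apply h25; nlinarith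
    · exfalso; apply h9; rw [h]; norm_num
    · rw [h]; norm_num
    · rw [h]; norm_num
    · exfalso; apply h9; rw [h]; norm_num
    · exfalso; apply h25; nlinarith
  have hpm1 : ∀ i, x i ^ 2 = 1 → x i = if i ∈ c then 1 else -1 := by
    intro i hi
    have hcm := hcmem i
    have h7 : (x i - 1) * (x i + 1) = 0 := by nlinarith
    rcases mul_eq_zero.1 h7 with h' | h'
    · have h8 : x i = 1 := by omega
      rw [if_pos (by rw [hcm]; omega)]
      exact h8
    · have h8 : x i = -1 := by omega
      rw [if_neg (by rw [hcm]; omega)]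
      exact h8
  rcases Nat.eq_zero_or_pos Bg.card with hB0 | hBpos
  · -- no big coordinate
    left
    have hBe : Bg = ∅ := Finset.card_eq_zero.1 hB0
    have hnB : ∀ i, i ∉ Bg := fun i => by rw [hBe]; exact Finset.notMem_empty i
    have heq : ∀ i ∈ (Finset.univ : Finset GolayPt),
        (1 + (if i ∈ A then (8 : ℤ) else 0) + (if i ∈ Bg then (24 : ℤ) else 0)) = x i ^ 2 := by
      intro i _
      rw [if_neg (hnB i)]
      by_cases hiA : i ∈ A
      · rw [if_pos hiA, (hAmem i).1 hiA]
        norm_num
      · rw [if_neg hiA, hsmall i hiA (hnB i)]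
        norm_num
    have hs := Finset.sum_congr rfl heq
    rw [hsumlb, h48, hB0] at hs
    have hA3 : A.card = 3 := by
      push_cast at hs
      omega
    refine ⟨c, hcg, A, hA3, ?_⟩
    funext i
    unfold lOddT
    have hcm := hcmem i
    by_cases hiA : i ∈ A
    · rw [if_pos hiA]
      have h9 := (hAmem i).1 hiA
      have h7 : (x i - 3) * (x i + 3) = 0 := by nlinarith
      rcases mul_eq_zero.1 h7 with h' | h'
      · have h8 : x i = 3 := by omega
        rw [if_neg (by rw [hcm]; omega)]
        exact h8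
      · have h8 : x i = -3 := by omega
        rw [if_pos (by rw [hcm]; omega)]
        exact h8
    · rw [if_neg hiA]
      exact hpm1 i (hsmall i hiA (hnB i))
  · -- one big coordinate
    right
    have hB1 : Bg.card = 1 := by
      push_cast at hle
      omega
    have hA0 : A.card = 0 := by
      rw [hB1] at hle
      push_cast at hle
      omega
    have hAe : A = ∅ := Finset.card_eq_zero.1 hA0
    have hnA : ∀ i, i ∉ A := fun i => by rw [hAe]; exact Finset.notMem_empty i
    have heq := (Finset.sum_eq_sum_iff_of_le hlb).1 (by rw [hsumlb, h48, hB1, hA0]; norm_num)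
    obtain ⟨i0, hi0⟩ := Finset.card_eq_one.1 hB1
    refine ⟨c, hcg, i0, ?_⟩
    funext i
    unfold lOdd5
    have hi := heq i (Finset.mem_univ _)
    have hcm := hcmem i
    by_cases h : i = i0
    · have hiB : i ∈ Bg := by rw [hi0, h]; exact Finset.mem_singleton_self _
      rw [if_neg (hnA i), if_pos hiB] at hi
      rw [if_pos h]
      have h7 : (x i - 5) * (x i + 5) = 0 := by nlinarith
      rcases mul_eq_zero.1 h7 with h' | h'
      · have h8 : x i = 5 := by omega
        rw [if_pos (by rw [hcm]; omega)]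
        exact h8
      · have h8 : x i = -5 := by omega
        rw [if_neg (by rw [hcm]; omega)]
        exact h8
    · have hiB : i ∉ Bg := by rw [hi0, Finset.mem_singleton]; exact h
      rw [if_neg h]
      exact hpm1 i (hsmall i (hnA i) hiB)

theorem leech_n6_even (x : GolayPt → ℤ) (m : ℤ) (h1 : ∀ i, x i ≡ m [ZMOD 2])
    (h2 : ∑ i, x i ≡ 4 * m [ZMOD 8])
    (h3 : ∀ k : ℤ, (Finset.univ.filter fun i => x i ≡ k [ZMOD 4]) ∈ gSupp)
    (h48 : ∑ i, x i ^ 2 = 48) (hm : m % 2 = 0) :
    (∃ d ∈ dodecads, ∃ N ⊆ d, Even N.card ∧ x = lEven 2 d N)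
    ∨ (∃ o ∈ octads, ∃ N ⊆ o, Odd N.card ∧ ∃ j, j ∉ o ∧ ∃ b : Bool, x = lMix o N j b) := by
  classical
  have hev : ∀ i, x i % 2 = 0 := fun i => by
    have := h1 i
    unfold Int.ModEq at this
    omega
  obtain ⟨D, hD⟩ : ∃ D : Finset GolayPt, D = Finset.univ.filter (fun i => x i ≡ 2 [ZMOD 4]) :=
    ⟨_, rfl⟩
  have hDg : D ∈ gSupp := by rw [hD]; exact h3 2
  have hDmem : ∀ i, i ∈ D ↔ x i % 4 = 2 := by
    intro i
    rw [hD, Finset.mem_filter]
    simp [Int.ModEq]
  have hlb : ∀ i ∈ (Finset.univ : Finset GolayPt), (if i ∈ D then (4 : ℤ) else 0) ≤ x i ^ 2 := by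
    intro i _
    split_ifs with hi
    · have h4 := (hDmem i).1 hi
      have h5 : x i ≤ -2 ∨ 2 ≤ x i := by omega
      rcases h5 with h | h <;> nlinarith
    · positivity
  have hsumlb := sum_ite_const D 4
  have hD12 : D.card ≤ 12 := by
    have h := Finset.sum_le_sum hlb
    rw [hsumlb, h48] at h
    omega
  obtain ⟨N, hN⟩ : ∃ N : Finset GolayPt, N = Finset.univ.filter (fun i => i ∈ D ∧ x i < 0) :=
    ⟨_, rfl⟩
  have hNmem : ∀ i, i ∈ N ↔ i ∈ D ∧ x i < 0 := by
    intro i
    rw [hN, Finset.mem_filter]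
    simp
  have hNo : N ⊆ D := fun i hi => ((hNmem i).1 hi).1
  have hpm2 : ∀ i, i ∈ D → x i ^ 2 = 4 → x i = if i ∈ N then -2 else 2 := by
    intro i hiD hi
    have h7 : (x i - 2) * (x i + 2) = 0 := by nlinarith
    rcases mul_eq_zero.1 h7 with h' | h'
    · have h8 : x i = 2 := by omega
      rw [if_neg (fun h => by have := ((hNmem i).1 h).2; omega)]
      exact h8
    · have h8 : x i = -2 := by omega
      rw [if_pos ((hNmem i).2 ⟨hiD, by omega⟩)]
      exact h8
  rcases gSupp_card hDg with h0 | h8 | h12 | h | h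
  · -- D empty: impossible
    exfalso
    have hD0 : D = ∅ := Finset.card_eq_zero.1 h0
    have h4 : ∀ i, x i % 4 = 0 := by
      intro i
      have h := hev i
      have hn : ¬ x i % 4 = 2 := fun h' => by
        have h'' := (hDmem i).2 h'
        rw [hD0] at h''
        exact absurd h'' (Finset.notMem_empty _)
      omega
    obtain ⟨U, hU⟩ : ∃ U : Finset GolayPt, U = Finset.univ.filter (fun i => x i ≠ 0) := ⟨_, rfl⟩
    have hUmem : ∀ i, i ∈ U ↔ x i ≠ 0 := by
      intro i
      rw [hU, Finset.mem_filter]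
      simp
    obtain ⟨U', hU'⟩ : ∃ U' : Finset GolayPt, U' = Finset.univ.filter (fun i => 64 ≤ x i ^ 2) :=
      ⟨_, rfl⟩
    have hU'mem : ∀ i, i ∈ U' ↔ 64 ≤ x i ^ 2 := by
      intro i
      rw [hU', Finset.mem_filter]
      simp
    have hlb2 : ∀ i ∈ (Finset.univ : Finset GolayPt),
        ((if i ∈ U then (16 : ℤ) else 0) + (if i ∈ U' then (48 : ℤ) else 0)) ≤ x i ^ 2 := by
      intro i _
      by_cases hiU' : i ∈ U'
      · have h64 := (hU'mem i).1 hiU'
        have hiU : i ∈ U := (hUmem i).2 (fun h => by rw [h] at h64; norm_num at h64)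
        rw [if_pos hiU, if_pos hiU']
        omega
      · rw [if_neg hiU', add_zero]
        split_ifs with hi
        · have hne : x i ≠ 0 := (hUmem i).1 hi
          have h5 := h4 i
          have h6 : x i ≤ -4 ∨ 4 ≤ x i := by omega
          rcases h6 with h | h <;> nlinarith
        · positivity
    have hsum2 : ∑ i : GolayPt, ((if i ∈ U then (16 : ℤ) else 0) + (if i ∈ U' then (48 : ℤ) else 0))
        = 16 * U.card + 48 * U'.card := by
      rw [Finset.sum_add_distrib, sum_ite_const, sum_ite_const]
    have hle := Finset.sum_le_sum hlb2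
    rw [hsum2, h48] at hle
    have hU'0 : U'.card = 0 := by
      by_contra hne
      obtain ⟨i, hi⟩ : U'.Nonempty := Finset.card_pos.1 (by omega)
      have h64 := (hU'mem i).1 hi
      have hiU : i ∈ U := (hUmem i).2 (fun h => by rw [h] at h64; norm_num at h64)
      have : 1 ≤ U.card := Finset.card_pos.2 ⟨i, hiU⟩
      have : 1 ≤ U'.card := Finset.card_pos.2 ⟨i, hi⟩
      omega
    have hU'e : U' = ∅ := Finset.card_eq_zero.1 hU'0
    have hval : ∀ i, x i = 0 ∨ x i = 4 ∨ x i = -4 := by
      intro i
      have h5 := h4 i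
      have h64 : ¬ 64 ≤ x i ^ 2 := fun h => by
        have := (hU'mem i).2 h
        rw [hU'e] at this
        exact absurd this (Finset.notMem_empty _)
      have h6 : x i ≤ -8 ∨ x i = -4 ∨ x i = 0 ∨ x i = 4 ∨ 8 ≤ x i := by omega
      rcases h6 with h | h | h | h | h
      · exfalso; apply h64; nlinarith
      · right; right; exact h
      · left; exact h
      · right; left; exact h
      · exfalso; apply h64; nlinarith
    have heq : ∀ i ∈ (Finset.univ : Finset GolayPt), x i ^ 2 = if i ∈ U then (16 : ℤ) else 0 := by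
      intro i _
      by_cases hiU : i ∈ U
      · rw [if_pos hiU]
        have hne := (hUmem i).1 hiU
        rcases hval i with h | h | h
        · exact absurd h hne
        · rw [h]; norm_num
        · rw [h]; norm_num
      · rw [if_neg hiU]
        have h0' : x i = 0 := by
          by_contra h
          exact hiU ((hUmem i).2 h)
        rw [h0']
        norm_num
    have hs := Finset.sum_congr rfl heq
    rw [h48, sum_ite_const] at hs
    have hU3 : U.card = 3 := by omega
    -- the sum is 4 mod 8
    obtain ⟨N', hN'⟩ : ∃ N' : Finset GolayPt, N' = Finset.univ.filter (fun i => x i < 0) :=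
      ⟨_, rfl⟩
    have hN'mem : ∀ i, i ∈ N' ↔ x i < 0 := by
      intro i
      rw [hN', Finset.mem_filter]
      simp
    have hN'U : N' ⊆ U := by
      intro i hi
      rw [hUmem]
      have := (hN'mem i).1 hi
      omega
    have hxeq : x = lEven 4 U N' := by
      funext i
      unfold lEven
      by_cases hneg : x i < 0
      · rw [if_pos ((hN'mem i).2 hneg)]
        rcases hval i with h | h | h <;> omega
      · rw [if_neg (fun h => hneg ((hN'mem i).1 h))]
        by_cases hiU : i ∈ U
        · rw [if_pos hiU]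
          have hne := (hUmem i).1 hiU
          rcases hval i with h | h | h <;> omega
        · rw [if_neg hiU]
          by_contra h
          exact hiU ((hUmem i).2 h)
    have hsum := lEven_sum 4 U N' hN'U
    rw [← hxeq, hU3] at hsum
    rw [hsum] at h2
    unfold Int.ModEq at h2
    push_cast at h2
    omega
  · -- D an octad
    right
    have ho : D ∈ octads := ⟨hDg, h8⟩
    obtain ⟨E, hE⟩ : ∃ E : Finset GolayPt, E = Finset.univ.filter (fun i => i ∉ D ∧ x i ≠ 0) :=
      ⟨_, rfl⟩
    have hEmem : ∀ i, i ∈ E ↔ i ∉ D ∧ x i ≠ 0 := by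
      intro i
      rw [hE, Finset.mem_filter]
      simp
    obtain ⟨D', hD'⟩ : ∃ D' : Finset GolayPt,
        D' = Finset.univ.filter (fun i => i ∈ D ∧ x i ^ 2 ≠ 4) := ⟨_, rfl⟩
    have hD'mem : ∀ i, i ∈ D' ↔ i ∈ D ∧ x i ^ 2 ≠ 4 := by
      intro i
      rw [hD', Finset.mem_filter]
      simp
    have hlb2 : ∀ i ∈ (Finset.univ : Finset GolayPt),
        ((if i ∈ D then (4 : ℤ) else 0) + (if i ∈ D' then (32 : ℤ) else 0)
          + (if i ∈ E then (16 : ℤ) else 0)) ≤ x i ^ 2 := by
      intro i _
      by_cases hiD : i ∈ D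
      · have hiE : i ∉ E := fun h => ((hEmem i).1 h).1 hiD
        rw [if_pos hiD, if_neg hiE, add_zero]
        have h4 := (hDmem i).1 hiD
        by_cases hiD' : i ∈ D'
        · rw [if_pos hiD']
          have hne := ((hD'mem i).1 hiD').2
          have h5 : x i ≤ -6 ∨ x i = -2 ∨ x i = 2 ∨ 6 ≤ x i := by omega
          rcases h5 with h | h | h | h
          · nlinarith
          · exfalso; apply hne; rw [h]; norm_num
          · exfalso; apply hne; rw [h]; norm_num
          · nlinarith
        · rw [if_neg hiD', add_zero]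
          have h5 : x i ≤ -2 ∨ 2 ≤ x i := by omega
          rcases h5 with h | h <;> nlinarith
      · have hiD' : i ∉ D' := fun h => hiD ((hD'mem i).1 h).1
        rw [if_neg hiD, if_neg hiD', zero_add, zero_add]
        split_ifs with hiE
        · have hne := ((hEmem i).1 hiE).2
          have h5 := hev i
          have h6 : ¬ x i % 4 = 2 := fun h => hiD ((hDmem i).2 h)
          have h7 : x i ≤ -4 ∨ 4 ≤ x i := by omega
          rcases h7 with h | h <;> nlinarith
        · positivity
    have hsum2 : ∑ i : GolayPt, ((if i ∈ D then (4 : ℤ) else 0) + (if i ∈ D' then (32 : ℤ) else 0)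
          + (if i ∈ E then (16 : ℤ) else 0)) = 4 * D.card + 32 * D'.card + 16 * E.card := by
      rw [Finset.sum_add_distrib, Finset.sum_add_distrib, sum_ite_const, sum_ite_const,
        sum_ite_const]
    have hle := Finset.sum_le_sum hlb2
    rw [hsum2, h48, h8] at hle
    have hD'0 : D'.card = 0 := by
      push_cast at hle
      omega
    have hD'e : D' = ∅ := Finset.card_eq_zero.1 hD'0
    have hDval : ∀ i, i ∈ D → x i ^ 2 = 4 := by
      intro i hiD
      by_contra h
      have := (hD'mem i).2 ⟨hiD, h⟩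
      rw [hD'e] at this
      exact absurd this (Finset.notMem_empty _)
    have hE1 : E.card = 1 := by
      by_contra hne
      have hE0 : E.card = 0 := by
        push_cast at hle
        omega
      have hEe : E = ∅ := Finset.card_eq_zero.1 hE0
      have heq : ∀ i ∈ (Finset.univ : Finset GolayPt), x i ^ 2 = if i ∈ D then (4 : ℤ) else 0 := by
        intro i _
        by_cases hiD : i ∈ D
        · rw [if_pos hiD, hDval i hiD]
        · rw [if_neg hiD]
          have h0' : x i = 0 := by
            by_contra h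
            have := (hEmem i).2 ⟨hiD, h⟩
            rw [hEe] at this
            exact absurd this (Finset.notMem_empty _)
          rw [h0']
          norm_num
      have hs := Finset.sum_congr rfl heq
      rw [h48, sum_ite_const, h8] at hs
      norm_num at hs
    have heq := (Finset.sum_eq_sum_iff_of_le hlb2).1 (by
      rw [hsum2, h48, h8, hD'0, hE1]; norm_num)
    obtain ⟨j, hj⟩ := Finset.card_eq_one.1 hE1
    have hjE : j ∈ E := by rw [hj]; exact Finset.mem_singleton_self _
    have hjD : j ∉ D := ((hEmem j).1 hjE).1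
    have hxeq : x = lMix D N j (decide (0 < x j)) := by
      funext i
      unfold lMix
      have hi := heq i (Finset.mem_univ _)
      by_cases hij : i = j
      · subst hij
        rw [if_pos rfl]
        have hiD' : i ∉ D' := by rw [hD'e]; exact Finset.notMem_empty _
        rw [if_neg hjD, if_neg hiD', if_pos hjE] at hi
        have h7 : (x i - 4) * (x i + 4) = 0 := by nlinarith
        by_cases hpos : 0 < x i
        · simp only [hpos, decide_true, if_true]
          rcases mul_eq_zero.1 h7 with h | h <;> omega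
        · simp only [hpos, decide_false]
          rcases mul_eq_zero.1 h7 with h | h
          · omega
          · simp
            omega
      · rw [if_neg hij]
        unfold lEven
        by_cases hiD : i ∈ D
        · have := hpm2 i hiD (hDval i hiD)
          by_cases hiN : i ∈ N
          · rw [if_pos hiN] at this ⊢
            exact this
          · rw [if_neg hiN] at this ⊢
            rw [if_pos hiD]
            exact this
        · have hiN : i ∉ N := fun h => hiD (hNo h)
          rw [if_neg hiN, if_neg hiD]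
          by_contra h
          have := (hEmem i).2 ⟨hiD, h⟩
          rw [hj, Finset.mem_singleton] at this
          exact hij this
    refine ⟨D, ho, N, hNo, ?_, j, hjD, decide (0 < x j), hxeq⟩
    have hsum := lMix_sum D N hNo j hjD (decide (0 < x j))
    rw [← hxeq, h8] at hsum
    rw [hsum] at h2
    unfold Int.ModEq at h2
    rw [Nat.odd_iff]
    push_cast at h2
    split_ifs at h2 <;> omega
  · -- D a dodecad
    left
    have hd : D ∈ dodecads := ⟨hDg, h12⟩
    have heq := (Finset.sum_eq_sum_iff_of_le hlb).1 (by rw [hsumlb, h48, h12]; norm_num)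
    have hxeq : x = lEven 2 D N := by
      funext i
      unfold lEven
      have hi := heq i (Finset.mem_univ _)
      by_cases hiD : i ∈ D
      · rw [if_pos hiD] at hi
        have := hpm2 i hiD hi.symm
        by_cases hiN : i ∈ N
        · rw [if_pos hiN] at this ⊢
          exact this
        · rw [if_neg hiN] at this ⊢
          rw [if_pos hiD]
          exact this
      · rw [if_neg hiD] at hi
        have hiN : i ∉ N := fun h => hiD (hNo h)
        rw [if_neg hiN, if_neg hiD]
        exact pow_eq_zero_iff (two_ne_zero) |>.1 hi.symm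
    refine ⟨D, hd, N, hNo, ?_, hxeq⟩
    have hs := lEven_sum 2 D N hNo
    rw [← hxeq, h12] at hs
    rw [hs] at h2
    unfold Int.ModEq at h2
    rw [Nat.even_iff]
    push_cast at h2
    omega
  · omega
  · omega

theorem leech_n6_cases (x : GolayPt → ℤ) (hx : x ∈ leechSet) (h48 : sqNorm x = 48) :
    (∃ c ∈ gSupp, ∃ T : Finset GolayPt, T.card = 3 ∧ x = lOddT c T)
    ∨ (∃ c ∈ gSupp, ∃ i0, x = lOdd5 c i0)
    ∨ (∃ d ∈ dodecads, ∃ N ⊆ d, Even N.card ∧ x = lEven 2 d N)
    ∨ (∃ o ∈ octads, ∃ N ⊆ o, Odd N.card ∧ ∃ j, j ∉ o ∧ ∃ b : Bool, x = lMix o N j b) := by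
  obtain ⟨m, h1, h2, h3⟩ := hx
  unfold sqNorm at h48
  rcases Int.emod_two_eq_zero_or_one m with hm | hm
  · rcases leech_n6_even x m h1 h2 h3 h48 hm with h | h
    · exact Or.inr (Or.inr (Or.inl h))
    · exact Or.inr (Or.inr (Or.inr h))
  · rcases leech_n6_odd x m h1 h3 h48 hm with h | h
    · exact Or.inl h
    · exact Or.inr (Or.inl h)

end Cfsg.Agent.Lib.Helper1
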