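import Mathlib
import Cfsg.Prelude.Def_Sporadic_a
import Cfsg.Agent.Lib.Helper1.LeechN6b

/-!
The vectors of sum of squares 48 of the rank-24 lattice: counts by shape (helper1).
-/

namespace Cfsg.Agent.Lib.Helper1

open Cfsg

theorem even_odd_subsets (s : Finset GolayPt) (n : ℕ) (hs : s.card = n + 1) :
    ((s.powerset).filter (fun N => Even N.card)).card = 2 ^ n
    ∧ ((s.powerset).filter (fun N => Odd N.card)).card = 2 ^ n := by
  classical
  have hne : s.Nonempty := Finset.card_pos.1 (by omega)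
  have h0 := Finset.sum_powerset_neg_one_pow_card_of_nonempty hne
  have h1 : ∀ N ∈ s.powerset, ((-1 : ℤ) ^ N.card) = (if Even N.card then 2 else 0) - 1 := by
    intro N _
    split_ifs with h
    · rw [h.neg_one_pow]; norm_num
    · rw [Nat.not_even_iff_odd] at h
      rw [h.neg_one_pow]; norm_num
  rw [Finset.sum_congr rfl h1, Finset.sum_sub_distrib, Finset.sum_const, Finset.card_powerset,
    hs] at h0
  have h2 : ∑ N ∈ s.powerset, (if Even N.card then (2 : ℤ) else 0)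
      = 2 * ((s.powerset).filter (fun N => Even N.card)).card := by
    have h3 : ∀ N ∈ s.powerset, (if Even N.card then (2 : ℤ) else 0)
        = 2 * (if Even N.card then 1 else 0) := fun N _ => by split_ifs <;> simp
    rw [Finset.sum_congr rfl h3, ← Finset.mul_sum, Finset.sum_boole]
  rw [h2] at h0
  have h4 : (2 : ℤ) * ((s.powerset).filter (fun N => Even N.card)).card = 2 ^ (n + 1) := by
    simp only [smul_eq_mul, nsmul_eq_mul, mul_one] at h0
    push_cast at h0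
    linarith
  have h5 : ((s.powerset).filter (fun N => Even N.card)).card = 2 ^ n := by
    have h6 : (2 : ℤ) * ((s.powerset).filter (fun N => Even N.card)).card = 2 * (2 ^ n : ℕ) := by
      rw [h4]; push_cast; ring
    have h7 := mul_left_cancel₀ (two_ne_zero) h6
    exact_mod_cast h7
  refine ⟨h5, ?_⟩
  have h8 := Finset.card_filter_add_card_filter_not (s := s.powerset) (fun N => Even N.card)
  rw [Finset.card_powerset, hs, h5] at h8
  have h9 : (s.powerset).filter (fun N => Odd N.card)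
      = (s.powerset).filter (fun N => ¬ Even N.card) := by
    apply Finset.filter_congr
    intro N _
    exact Nat.not_even_iff_odd.symm
  rw [h9]
  have : 2 ^ (n + 1) = 2 * 2 ^ n := by ring
  omega

theorem lMix_inj (o N o' N' : Finset GolayPt) (j j' : GolayPt) (b b' : Bool) (hN : N ⊆ o)
    (hN' : N' ⊆ o') (hj : j ∉ o) (hj' : j' ∉ o') (h : lMix o N j b = lMix o' N' j' b') :
    o = o' ∧ N = N' ∧ j = j' ∧ b = b' := by
  have ho : o = o' := by
    ext i
    rw [← (lMix_cls o N hN j hj b i).1, h, (lMix_cls o' N' hN' j' hj' b' i).1]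
  subst ho
  have hjj : j = j' := by
    by_contra hne
    have h1 := lMix_sq o N hN j hj b j
    have h2 := lMix_sq o N' hN' j' hj' b' j
    rw [h] at h1
    rw [h1] at h2
    simp [hj, hne] at h2
  subst hjj
  have hb : b = b' := by
    have h1 := congrFun h j
    unfold lMix at h1
    rw [if_pos rfl, if_pos rfl] at h1
    cases b <;> cases b' <;> simp at h1 ⊢
  refine ⟨rfl, ?_, rfl, hb⟩
  ext i
  by_cases hij : i = j
  · subst hij
    exact ⟨fun h' => absurd (hN h') hj, fun h' => absurd (hN' h') hj⟩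
  · have h1 := congrFun h i
    unfold lMix at h1
    rw [if_neg hij, if_neg hij] at h1
    rw [(lEven_char 2 (by norm_num) o N hN i).2, h1, ← (lEven_char 2 (by norm_num) o N' hN' i).2]

theorem n6_imgA : ∃ F : Finset (GolayPt → ℤ), F.card = 8290304 ∧
    ∀ x, x ∈ F ↔ ∃ c ∈ gSupp, ∃ T : Finset GolayPt, T.card = 3 ∧ x = lOddT c T := by
  classical
  obtain ⟨Gf, hGf, hGcard⟩ := exists_blockFinset gSupp
  rw [gSupp_ncard] at hGcard
  refine ⟨(Gf ×ˢ Finset.powersetCard 3 (Finset.univ : Finset GolayPt)).image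
    (fun p => lOddT p.1 p.2), ?_, ?_⟩
  · rw [Finset.card_image_of_injOn, Finset.card_product, ← hGcard, Finset.card_powersetCard,
      card_univ_golay]
    · decide
    · rintro ⟨c, T⟩ - ⟨c', T'⟩ - h
      obtain ⟨h1, h2⟩ := lOddT_inj c c' T T' h
      rw [h1, h2]
  · intro x
    rw [Finset.mem_image]
    constructor
    · rintro ⟨⟨c, T⟩, hp, rfl⟩
      obtain ⟨h1, h2⟩ := Finset.mem_product.1 hp
      exact ⟨c, (hGf c).1 h1, T, (Finset.mem_powersetCard.1 h2).2, rfl⟩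
    · rintro ⟨c, hc, T, hT, rfl⟩
      exact ⟨(c, T), Finset.mem_product.2 ⟨(hGf c).2 hc,
        Finset.mem_powersetCard.2 ⟨Finset.subset_univ _, hT⟩⟩, rfl⟩

theorem n6_imgB : ∃ F : Finset (GolayPt → ℤ), F.card = 98304 ∧
    ∀ x, x ∈ F ↔ ∃ c ∈ gSupp, ∃ i0, x = lOdd5 c i0 := by
  classical
  obtain ⟨Gf, hGf, hGcard⟩ := exists_blockFinset gSupp
  rw [gSupp_ncard] at hGcard
  refine ⟨(Gf ×ˢ (Finset.univ : Finset GolayPt)).image (fun p => lOdd5 p.1 p.2), ?_, ?_⟩
  · rw [Finset.card_image_of_injOn, Finset.card_product, ← hGcard, card_univ_golay]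
    rintro ⟨c, T⟩ - ⟨c', T'⟩ - h
    obtain ⟨h1, h2⟩ := lOdd5_inj c c' T T' h
    rw [h1, h2]
  · intro x
    rw [Finset.mem_image]
    constructor
    · rintro ⟨⟨c, i0⟩, hp, rfl⟩
      obtain ⟨h1, -⟩ := Finset.mem_product.1 hp
      exact ⟨c, (hGf c).1 h1, i0, rfl⟩
    · rintro ⟨c, hc, i0, rfl⟩
      exact ⟨(c, i0), Finset.mem_product.2 ⟨(hGf c).2 hc, Finset.mem_univ _⟩, rfl⟩

theorem n6_imgC : ∃ F : Finset (GolayPt → ℤ), F.card = 5275648 ∧
    ∀ x, x ∈ F ↔ ∃ d ∈ dodecads, ∃ N ⊆ d, Even N.card ∧ x = lEven 2 d N := by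
  classical
  obtain ⟨Df, hDf, hDcard⟩ := exists_blockFinset dodecads
  rw [Cfsg.Agent.S0361.result] at hDcard
  obtain ⟨Dom, hDom⟩ : ∃ Dom : Finset ((_ : Finset GolayPt) × Finset GolayPt),
      Dom = Df.sigma (fun d => (d.powerset).filter (fun N => Even N.card)) := ⟨_, rfl⟩
  have hm : ∀ p, p ∈ Dom ↔ p.1 ∈ dodecads ∧ p.2 ⊆ p.1 ∧ Even p.2.card := by
    intro p
    rw [hDom, Finset.mem_sigma, Finset.mem_filter, Finset.mem_powerset, hDf]
  refine ⟨Dom.image (fun p => lEven 2 p.1 p.2), ?_, ?_⟩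
  · rw [Finset.card_image_of_injOn, hDom, Finset.card_sigma, Finset.sum_congr rfl (fun d hd =>
      (even_odd_subsets d 11 ((hDf d).1 hd).2).1), Finset.sum_const, ← hDcard]
    · rfl
    · rintro ⟨o, N⟩ hp ⟨o', N'⟩ hp' h
      obtain ⟨-, hN, -⟩ := (hm _).1 (Finset.mem_coe.1 hp)
      obtain ⟨-, hN', -⟩ := (hm _).1 (Finset.mem_coe.1 hp')
      obtain ⟨h1, h2⟩ := lEven_inj 2 (by norm_num) o N o' N' hN hN' h
      subst h1
      subst h2
      rfl
  · intro x
    rw [Finset.mem_image]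
    constructor
    · rintro ⟨p, hp, rfl⟩
      obtain ⟨h1, h2, h3⟩ := (hm p).1 hp
      exact ⟨p.1, h1, p.2, h2, h3, rfl⟩
    · rintro ⟨d, hd, N, hN, hev, rfl⟩
      exact ⟨⟨d, N⟩, (hm _).2 ⟨hd, hN, hev⟩, rfl⟩

theorem n6_imgD : ∃ F : Finset (GolayPt → ℤ), F.card = 3108864 ∧
    ∀ x, x ∈ F ↔ ∃ o ∈ octads, ∃ N ⊆ o, Odd N.card ∧ ∃ j, j ∉ o ∧ ∃ b : Bool,
      x = lMix o N j b := by
  classical
  obtain ⟨Of, hOf, hOcard⟩ := exists_blockFinset octads
  rw [Cfsg.Agent.S0360.result] at hOcard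
  obtain ⟨Dom, hDom⟩ : ∃ Dom : Finset ((_ : Finset GolayPt) × (Finset GolayPt × GolayPt × Bool)),
      Dom = Of.sigma (fun o => ((o.powerset).filter (fun N => Odd N.card)) ×ˢ oᶜ
        ×ˢ (Finset.univ : Finset Bool)) := ⟨_, rfl⟩
  have hm : ∀ p, p ∈ Dom ↔ p.1 ∈ octads ∧ p.2.1 ⊆ p.1 ∧ Odd p.2.1.card ∧ p.2.2.1 ∉ p.1 := by
    intro p
    rw [hDom, Finset.mem_sigma, Finset.mem_product, Finset.mem_product, Finset.mem_filter,
      Finset.mem_powerset, hOf, Finset.mem_compl]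
    simp only [Finset.mem_univ, and_true]
    tauto
  refine ⟨Dom.image (fun p => lMix p.1 p.2.1 p.2.2.1 p.2.2.2), ?_, ?_⟩
  · rw [Finset.card_image_of_injOn, hDom, Finset.card_sigma, Finset.sum_congr rfl (fun o ho => by
      rw [Finset.card_product, Finset.card_product, (even_odd_subsets o 7 ((hOf o).1 ho).2).2,
        Finset.card_compl, ((hOf o).1 ho).2, Finset.card_univ, Fintype.card_bool]),
      Finset.sum_const, ← hOcard]
    · rfl
    · rintro ⟨o, N, j, b⟩ hp ⟨o', N', j', b'⟩ hp' h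
      obtain ⟨-, hN, -, hj⟩ := (hm _).1 (Finset.mem_coe.1 hp)
      obtain ⟨-, hN', -, hj'⟩ := (hm _).1 (Finset.mem_coe.1 hp')
      obtain ⟨h1, h2, h3, h4⟩ := lMix_inj o N o' N' j j' b b' hN hN' hj hj' h
      subst h1
      subst h2
      subst h3
      subst h4
      rfl
  · intro x
    rw [Finset.mem_image]
    constructor
    · rintro ⟨p, hp, rfl⟩
      obtain ⟨h1, h2, h3, h4⟩ := (hm p).1 hp
      exact ⟨p.1, h1, p.2.1, h2, h3, p.2.2.1, h4, p.2.2.2, rfl⟩
    · rintro ⟨o, ho, N, hN, hodd, j, hj, b, rfl⟩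
      exact ⟨⟨o, N, j, b⟩, (hm _).2 ⟨ho, hN, hodd, hj⟩, rfl⟩

end Cfsg.Agent.Lib.Helper1
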