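import Mathlib
import Cfsg.Prelude.Def_Sporadic_a
import Cfsg.Agent.Lib.Helper1.LeechN6c

/-!
The vectors of sum of squares 64 of the rank-24 lattice: the shapes (helper1).
-/

namespace Cfsg.Agent.Lib.Helper1

open Cfsg

theorem leech_mem_even (x : GolayPt → ℤ) (D : Finset GolayPt) (hD : D ∈ gSupp)
    (hcls : ∀ i, (i ∈ D → x i % 4 = 2) ∧ (i ∉ D → x i % 4 = 0))
    (hsum : ∑ i, x i ≡ 0 [ZMOD 8]) : x ∈ leechSet := by
  apply leech_mem_of x 0
  · intro i
    by_cases h : i ∈ D
    · have := (hcls i).1 h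
      unfold Int.ModEq
      omega
    · have := (hcls i).2 h
      unfold Int.ModEq
      omega
  · simpa using hsum
  · intro k hk0 hk4
    have hk : k = 0 ∨ k = 1 ∨ k = 2 ∨ k = 3 := by omega
    rcases hk with rfl | rfl | rfl | rfl
    · have h : (Finset.univ.filter fun i => x i ≡ 0 [ZMOD 4]) = Dᶜ := by
        ext i
        simp only [Finset.mem_filter, Finset.mem_univ, true_and, Finset.mem_compl]
        have := hcls i
        unfold Int.ModEq
        by_cases h : i ∈ D
        · have := (hcls i).1 h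
          simp only [h, not_true, iff_false]
          omega
        · have := (hcls i).2 h
          simp only [h, not_false_iff, iff_true]
          omega
      rw [h]
      exact gSupp_compl hD
    · have h : (Finset.univ.filter fun i => x i ≡ 1 [ZMOD 4]) = ∅ := by
        ext i
        simp only [Finset.mem_filter, Finset.mem_univ, true_and, Finset.notMem_empty, iff_false]
        unfold Int.ModEq
        by_cases h : i ∈ D
        · have := (hcls i).1 h
          omega
        · have := (hcls i).2 h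
          omega
      rw [h]
      exact gSupp_empty
    · have h : (Finset.univ.filter fun i => x i ≡ 2 [ZMOD 4]) = D := by
        ext i
        simp only [Finset.mem_filter, Finset.mem_univ, true_and]
        unfold Int.ModEq
        by_cases h : i ∈ D
        · have := (hcls i).1 h
          simp only [h, iff_true]
          omega
        · have := (hcls i).2 h
          simp only [h, iff_false]
          omega
      rw [h]
      exact hD
    · have h : (Finset.univ.filter fun i => x i ≡ 3 [ZMOD 4]) = ∅ := by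
        ext i
        simp only [Finset.mem_filter, Finset.mem_univ, true_and, Finset.notMem_empty, iff_false]
        unfold Int.ModEq
        by_cases h : i ∈ D
        · have := (hcls i).1 h
          omega
        · have := (hcls i).2 h
          omega
      rw [h]
      exact gSupp_empty

theorem leech_mem_odd (x : GolayPt → ℤ) (c : Finset GolayPt) (hc : c ∈ gSupp)
    (hcls : ∀ i, (i ∈ c → x i % 4 = 1) ∧ (i ∉ c → x i % 4 = 3))
    (hsum : ∑ i, x i ≡ 4 [ZMOD 8]) : x ∈ leechSet := by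
  apply leech_mem_of x 1
  · intro i
    by_cases h : i ∈ c
    · have := (hcls i).1 h
      unfold Int.ModEq
      omega
    · have := (hcls i).2 h
      unfold Int.ModEq
      omega
  · simpa using hsum
  · intro k hk0 hk4
    have hk : k = 0 ∨ k = 1 ∨ k = 2 ∨ k = 3 := by omega
    rcases hk with rfl | rfl | rfl | rfl
    · have h : (Finset.univ.filter fun i => x i ≡ 0 [ZMOD 4]) = ∅ := by
        ext i
        simp only [Finset.mem_filter, Finset.mem_univ, true_and, Finset.notMem_empty, iff_false]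
        unfold Int.ModEq
        by_cases h : i ∈ c
        · have := (hcls i).1 h
          omega
        · have := (hcls i).2 h
          omega
      rw [h]
      exact gSupp_empty
    · have h : (Finset.univ.filter fun i => x i ≡ 1 [ZMOD 4]) = c := by
        ext i
        simp only [Finset.mem_filter, Finset.mem_univ, true_and]
        unfold Int.ModEq
        by_cases h : i ∈ c
        · have := (hcls i).1 h
          simp only [h, iff_true]
          omega
        · have := (hcls i).2 h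
          simp only [h, iff_false]
          omega
      rw [h]
      exact hc
    · have h : (Finset.univ.filter fun i => x i ≡ 2 [ZMOD 4]) = ∅ := by
        ext i
        simp only [Finset.mem_filter, Finset.mem_univ, true_and, Finset.notMem_empty, iff_false]
        unfold Int.ModEq
        by_cases h : i ∈ c
        · have := (hcls i).1 h
          omega
        · have := (hcls i).2 h
          omega
      rw [h]
      exact gSupp_empty
    · have h : (Finset.univ.filter fun i => x i ≡ 3 [ZMOD 4]) = cᶜ := by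
        ext i
        simp only [Finset.mem_filter, Finset.mem_univ, true_and, Finset.mem_compl]
        unfold Int.ModEq
        by_cases h : i ∈ c
        · have := (hcls i).1 h
          simp only [h, not_true, iff_false]
          omega
        · have := (hcls i).2 h
          simp only [h, not_false_iff, iff_true]
          omega
      rw [h]
      exact gSupp_compl hc

/-! ### the even shapes with disjoint parts -/

theorem lG_char (a : ℤ) (ha : 0 < a) (ha4 : (4 : ℤ) ∣ a) (D N U N' : Finset GolayPt)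
    (hN : N ⊆ D) (hN' : N' ⊆ U) (hd : Disjoint U D) (i : GolayPt) :
    (i ∈ D ↔ (lEven 2 D N + lEven a U N') i % 4 = 2) ∧
    (i ∈ N ↔ (lEven 2 D N + lEven a U N') i % 4 = 2 ∧ (lEven 2 D N + lEven a U N') i < 0) ∧
    (i ∈ U ↔ (lEven 2 D N + lEven a U N') i % 4 = 0 ∧ (lEven 2 D N + lEven a U N') i ≠ 0) ∧
    (i ∈ N' ↔ (lEven 2 D N + lEven a U N') i % 4 = 0 ∧ (lEven 2 D N + lEven a U N') i < 0) := by
  obtain ⟨t, rfl⟩ := ha4
  have hUD : i ∈ U → i ∉ D := fun h1 h2 => Finset.disjoint_left.1 hd h1 h2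
  simp only [Pi.add_apply]
  unfold lEven
  by_cases h1 : i ∈ D
  · have h3 : i ∉ U := fun h => hUD h h1
    have h4 : i ∉ N' := fun h => h3 (hN' h)
    by_cases h2 : i ∈ N
    · simp only [h1, h2, h3, h4, if_true, if_false, true_iff, false_iff]
      omega
    · simp only [h1, h2, h3, h4, if_true, if_false, true_iff, false_iff]
      omega
  · have h2 : i ∉ N := fun h => h1 (hN h)
    by_cases h3 : i ∈ U
    · by_cases h4 : i ∈ N'
      · simp only [h1, h2, h3, h4, if_true, if_false, true_iff, false_iff]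
        omega
      · simp only [h1, h2, h3, h4, if_true, if_false, true_iff, false_iff]
        omega
    · have h4 : i ∉ N' := fun h => h3 (hN' h)
      simp only [h1, h2, h3, h4, if_true, if_false, true_iff, false_iff]
      omega

theorem lG_inj (a : ℤ) (ha : 0 < a) (ha4 : (4 : ℤ) ∣ a) (D N U N' D1 N1 U1 N1' : Finset GolayPt)
    (hN : N ⊆ D) (hN' : N' ⊆ U) (hd : Disjoint U D) (hN1 : N1 ⊆ D1) (hN1' : N1' ⊆ U1)
    (hd1 : Disjoint U1 D1) (h : lEven 2 D N + lEven a U N' = lEven 2 D1 N1 + lEven a U1 N1') :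
    D = D1 ∧ N = N1 ∧ U = U1 ∧ N' = N1' := by
  refine ⟨?_, ?_, ?_, ?_⟩
  · ext i
    rw [(lG_char a ha ha4 D N U N' hN hN' hd i).1, h,
      ← (lG_char a ha ha4 D1 N1 U1 N1' hN1 hN1' hd1 i).1]
  · ext i
    rw [(lG_char a ha ha4 D N U N' hN hN' hd i).2.1, h,
      ← (lG_char a ha ha4 D1 N1 U1 N1' hN1 hN1' hd1 i).2.1]
  · ext i
    rw [(lG_char a ha ha4 D N U N' hN hN' hd i).2.2.1, h,
      ← (lG_char a ha ha4 D1 N1 U1 N1' hN1 hN1' hd1 i).2.2.1]
  · ext i
    rw [(lG_char a ha ha4 D N U N' hN hN' hd i).2.2.2, h,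
      ← (lG_char a ha ha4 D1 N1 U1 N1' hN1 hN1' hd1 i).2.2.2]

theorem lG_mem (a : ℤ) (ha : 0 < a) (ha4 : (4 : ℤ) ∣ a) (D N U N' : Finset GolayPt)
    (hD : D ∈ gSupp) (hN : N ⊆ D) (hN' : N' ⊆ U) (hd : Disjoint U D)
    (hsum : 2 * (D.card : ℤ) - 2 * 2 * N.card + (a * U.card - 2 * a * N'.card) ≡ 0 [ZMOD 8]) :
    lEven 2 D N + lEven a U N' ∈ leechSet := by
  apply leech_mem_even _ D hD
  · intro i
    have h := lG_char a ha ha4 D N U N' hN hN' hd i
    constructor
    · intro hi
      exact h.1.1 hi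
    · intro hi
      have h1 : ¬ (lEven 2 D N + lEven a U N') i % 4 = 2 := fun h' => hi (h.1.2 h')
      obtain ⟨t, rfl⟩ := ha4
      simp only [Pi.add_apply] at h1 ⊢
      rcases lEven_vals 2 D N i with h2 | h2 | h2 <;>
        rcases lEven_vals (4 * t) U N' i with h3 | h3 | h3 <;> rw [h2, h3] at h1 ⊢ <;> omega
  · simp only [Pi.add_apply, Finset.sum_add_distrib, lEven_sum 2 D N hN, lEven_sum a U N' hN']
    exact hsum

theorem lG_zero (a : ℤ) (D N U N' : Finset GolayPt) (hN : N ⊆ D) (hN' : N' ⊆ U)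
    (hd : Disjoint U D) (i : GolayPt) : lEven 2 D N i * lEven a U N' i = 0 := by
  unfold lEven
  by_cases h1 : i ∈ D
  · have h3 : i ∉ U := fun h => Finset.disjoint_left.1 hd h h1
    have h4 : i ∉ N' := fun h => h3 (hN' h)
    simp [h3, h4]
  · have h2 : i ∉ N := fun h => h1 (hN h)
    simp [h1, h2]

theorem lEven_q4 (a : ℤ) (P N : Finset GolayPt) (hN : N ⊆ P) :
    ∑ i, (lEven a P N i) ^ 4 = a ^ 4 * P.card := by
  have h : ∀ i, (lEven a P N i) ^ 4 = if i ∈ P then a ^ 4 else 0 := by
    intro i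
    have h2 : (lEven a P N i) ^ 4 = ((lEven a P N i) ^ 2) ^ 2 := by ring
    rw [h2, lEven_sq a P N hN]
    split_ifs <;> ring
  simp only [h]
  exact sum_ite_const P (a ^ 4)

theorem lG_sqNorm (a : ℤ) (D N U N' : Finset GolayPt) (hN : N ⊆ D) (hN' : N' ⊆ U)
    (hd : Disjoint U D) :
    sqNorm (lEven 2 D N + lEven a U N') = 4 * D.card + a ^ 2 * U.card := by
  have h : ∀ i, ((lEven 2 D N + lEven a U N') i) ^ 2
      = (lEven 2 D N i) ^ 2 + (lEven a U N' i) ^ 2 := by
    intro i
    have h0 := lG_zero a D N U N' hN hN' hd i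
    simp only [Pi.add_apply]
    have : (lEven 2 D N i + lEven a U N' i) ^ 2
        = (lEven 2 D N i) ^ 2 + (lEven a U N' i) ^ 2 + 2 * (lEven 2 D N i * lEven a U N' i) := by
      ring
    rw [this, h0]
    ring
  unfold sqNorm
  simp only [h, Finset.sum_add_distrib]
  have h1 := lEven_sqNorm 2 D N hN
  have h2 := lEven_sqNorm a U N' hN'
  unfold sqNorm at h1 h2
  rw [h1, h2]
  norm_num

theorem lG_q4 (a : ℤ) (D N U N' : Finset GolayPt) (hN : N ⊆ D) (hN' : N' ⊆ U)
    (hd : Disjoint U D) :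
    ∑ i, ((lEven 2 D N + lEven a U N') i) ^ 4 = 16 * D.card + a ^ 4 * U.card := by
  have h : ∀ i, ((lEven 2 D N + lEven a U N') i) ^ 4
      = (lEven 2 D N i) ^ 4 + (lEven a U N' i) ^ 4 := by
    intro i
    have h0 := lG_zero a D N U N' hN hN' hd i
    simp only [Pi.add_apply]
    have : (lEven 2 D N i + lEven a U N' i) ^ 4
        = (lEven 2 D N i) ^ 4 + (lEven a U N' i) ^ 4 + (lEven 2 D N i * lEven a U N' i)
          * (4 * (lEven 2 D N i) ^ 2 + 6 * (lEven 2 D N i * lEven a U N' i)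
            + 4 * (lEven a U N' i) ^ 2) := by
      ring
    rw [this, h0]
    ring
  simp only [h, Finset.sum_add_distrib, lEven_q4 2 D N hN, lEven_q4 a U N' hN']
  norm_num

theorem lG_img (GD : Finset (Finset GolayPt)) (dk : ℕ)
    (hGD : ∀ D, D ∈ GD ↔ D ∈ gSupp ∧ D.card = dk)
    (P : ℕ → Prop) [DecidablePred P] (np : ℕ)
    (hnp : ∀ D ∈ GD, ((D.powerset).filter (fun N => P N.card)).card = np)
    (a : ℤ) (ha : 0 < a) (ha4 : (4 : ℤ) ∣ a) (uk : ℕ) :
    ∃ F : Finset (GolayPt → ℤ), F.card = GD.card * (np * (Nat.choose (24 - dk) uk * 2 ^ uk)) ∧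
      ∀ x, x ∈ F ↔ ∃ D ∈ gSupp, D.card = dk ∧ ∃ N ⊆ D, P N.card ∧ ∃ U : Finset GolayPt,
        U.card = uk ∧ Disjoint U D ∧ ∃ N' ⊆ U, x = lEven 2 D N + lEven a U N' := by
  classical
  obtain ⟨Dom, hDom⟩ : ∃ Dom : Finset ((_ : Finset GolayPt) × (Finset GolayPt ×
      ((_ : Finset GolayPt) × Finset GolayPt))),
      Dom = GD.sigma (fun D => ((D.powerset).filter (fun N => P N.card)) ×ˢ
        ((Finset.powersetCard uk Dᶜ).sigma (fun U => U.powerset))) := ⟨_, rfl⟩
  have hm : ∀ p, p ∈ Dom ↔ (p.1 ∈ gSupp ∧ p.1.card = dk) ∧ (p.2.1 ⊆ p.1 ∧ P p.2.1.card)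
      ∧ (p.2.2.1.card = uk ∧ Disjoint p.2.2.1 p.1) ∧ p.2.2.2 ⊆ p.2.2.1 := by
    intro p
    rw [hDom, Finset.mem_sigma, Finset.mem_product, Finset.mem_sigma, Finset.mem_filter,
      Finset.mem_powerset, Finset.mem_powerset, Finset.mem_powersetCard, hGD,
      Finset.subset_compl_iff_disjoint_right]
    tauto
  refine ⟨Dom.image (fun p => lEven 2 p.1 p.2.1 + lEven a p.2.2.1 p.2.2.2), ?_, ?_⟩
  · rw [Finset.card_image_of_injOn, hDom, Finset.card_sigma, Finset.sum_congr rfl (fun D hD => by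
      rw [Finset.card_product, hnp D hD, Finset.card_sigma,
        Finset.sum_congr rfl (fun U hU => by
          rw [Finset.card_powerset, (Finset.mem_powersetCard.1 hU).2]),
        Finset.sum_const, Finset.card_powersetCard, Finset.card_compl, ((hGD D).1 hD).2,
        ← Finset.card_univ (α := GolayPt), card_univ_golay, smul_eq_mul]),
      Finset.sum_const, smul_eq_mul]
    rintro ⟨D, N, U, N'⟩ hp ⟨D1, N1, U1, N1'⟩ hp' h
    obtain ⟨-, ⟨hN, -⟩, ⟨-, hd⟩, hN'⟩ := (hm _).1 (Finset.mem_coe.1 hp)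
    obtain ⟨-, ⟨hN1, -⟩, ⟨-, hd1⟩, hN1'⟩ := (hm _).1 (Finset.mem_coe.1 hp')
    obtain ⟨h1, h2, h3, h4⟩ := lG_inj a ha ha4 D N U N' D1 N1 U1 N1' hN hN' hd hN1 hN1' hd1 h
    subst h1
    subst h2
    subst h3
    subst h4
    rfl
  · intro x
    rw [Finset.mem_image]
    constructor
    · rintro ⟨p, hp, rfl⟩
      obtain ⟨⟨h1, h2⟩, ⟨h3, h4⟩, ⟨h5, h6⟩, h7⟩ := (hm p).1 hp
      exact ⟨p.1, h1, h2, p.2.1, h3, h4, p.2.2.1, h5, h6, p.2.2.2, h7, rfl⟩
    · rintro ⟨D, hD, hDk, N, hN, hP, U, hU, hd, N', hN', rfl⟩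
      exact ⟨⟨D, N, U, N'⟩, (hm _).2 ⟨⟨hD, hDk⟩, ⟨hN, hP⟩, ⟨hU, hd⟩, hN'⟩, rfl⟩

end Cfsg.Agent.Lib.Helper1
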