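import Mathlib
import Cfsg.Prelude.Def_Sporadic_a
import Cfsg.Prelude.Def_SporadicCombinatorics
import Cfsg.Agent.Lib.Helper1.LeechN8a
import Cfsg.Agent.Lib.Helper1.Golay

/-!
Signed coordinate permutations from the code's monomial group preserve the rank-24 lattice
(helper1).
-/

namespace Cfsg.Agent.Lib.Helper1

open Cfsg
open scoped Pointwise

theorem leech_sign (c : Finset GolayPt) (hc : c ∈ gSupp) (x : GolayPt → ℤ) (hx : x ∈ leechSet) :
    (fun i => if i ∈ c then -x i else x i) ∈ leechSet := by
  classical
  obtain ⟨m, h1, h2, h3⟩ := hx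
  obtain ⟨y, hy⟩ : ∃ y : GolayPt → ℤ, y = fun i => if i ∈ c then -x i else x i := ⟨_, rfl⟩
  rw [← hy]
  have hyi : ∀ i, y i = x i - 2 * (if i ∈ c then x i else 0) := by
    intro i
    rw [hy]
    simp only
    split_ifs <;> ring
  have hsum : ∑ i, y i = ∑ i, x i - 2 * ∑ i, (if i ∈ c then x i else 0) := by
    simp only [hyi, Finset.sum_sub_distrib, Finset.mul_sum]
  rcases Int.emod_two_eq_zero_or_one m with hm | hm
  · obtain ⟨D, hD⟩ : ∃ D : Finset GolayPt, D = Finset.univ.filter (fun i => x i ≡ 2 [ZMOD 4]) :=
      ⟨_, rfl⟩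
    have hDg : D ∈ gSupp := by rw [hD]; exact h3 2
    have hDmem : ∀ i, i ∈ D ↔ x i % 4 = 2 := by
      intro i
      rw [hD, Finset.mem_filter]
      simp [Int.ModEq]
    have hxe : ∀ i, x i % 2 = 0 := fun i => by
      have := h1 i
      unfold Int.ModEq at this
      omega
    apply leech_mem_even y D hDg
    · intro i
      have h5 := hDmem i
      have h6 := hxe i
      rw [hyi]
      constructor
      · intro hi
        have := h5.1 hi
        split_ifs <;> omega
      · intro hi
        have : ¬ x i % 4 = 2 := fun h => hi (h5.2 h)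
        split_ifs <;> omega
    · rw [hsum]
      have h4 : (4 : ℤ) ∣ ∑ i, (if i ∈ c then x i else 0) := by
        have e : ∑ i, (if i ∈ c then x i else 0)
            = ∑ i, ((if i ∈ c then x i else 0) - (if i ∈ c ∩ D then 2 else 0))
              + 2 * ((c ∩ D).card : ℤ) := by
          rw [Finset.sum_sub_distrib, sum_ite_const]
          ring
        rw [e]
        apply dvd_add
        · apply Finset.dvd_sum
          intro i _
          have h5 := hDmem i
          have h6 := hxe i
          by_cases hic : i ∈ c
          · by_cases hiD : i ∈ D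
            · rw [if_pos hic, if_pos (Finset.mem_inter.2 ⟨hic, hiD⟩)]
              have := h5.1 hiD
              omega
            · rw [if_pos hic, if_neg (fun h => hiD (Finset.mem_inter.1 h).2)]
              have : ¬ x i % 4 = 2 := fun h => hiD (h5.2 h)
              omega
          · rw [if_neg hic, if_neg (fun h => hic (Finset.mem_inter.1 h).1)]
            norm_num
        · obtain ⟨t, ht⟩ := gSupp_inter_even hc hDg
          rw [ht]
          push_cast
          exact ⟨t, by ring⟩
      unfold Int.ModEq at *
      omega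
  · obtain ⟨C1, hC1⟩ : ∃ C1 : Finset GolayPt, C1 = Finset.univ.filter (fun i => x i ≡ 1 [ZMOD 4]) :=
      ⟨_, rfl⟩
    have hC1g : C1 ∈ gSupp := by rw [hC1]; exact h3 1
    have hCmem : ∀ i, i ∈ C1 ↔ x i % 4 = 1 := by
      intro i
      rw [hC1, Finset.mem_filter]
      simp [Int.ModEq]
    have hxo : ∀ i, x i % 2 = 1 := fun i => by
      have := h1 i
      unfold Int.ModEq at this
      omega
    apply leech_mem_odd y (symmDiff C1 c) (gSupp_symmDiff hC1g hc)
    · intro i
      have h5 := hCmem i
      have h6 := hxo i
      rw [hyi, Finset.mem_symmDiff]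
      constructor
      · rintro (⟨hi1, hi2⟩ | ⟨hi1, hi2⟩)
        · have := h5.1 hi1
          rw [if_neg hi2]
          omega
        · have : ¬ x i % 4 = 1 := fun h => hi2 (h5.2 h)
          rw [if_pos hi1]
          omega
      · intro hi
        by_cases hic : i ∈ c
        · have hi1 : i ∈ C1 := by
            by_contra h
            exact hi (Or.inr ⟨hic, h⟩)
          have := h5.1 hi1
          rw [if_pos hic]
          omega
        · have hi1 : i ∉ C1 := fun h => hi (Or.inl ⟨h, hic⟩)
          have : ¬ x i % 4 = 1 := fun h => hi1 (h5.2 h)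
          rw [if_neg hic]
          omega
    · rw [hsum]
      have h4 : (4 : ℤ) ∣ ∑ i, (if i ∈ c then x i else 0) := by
        have e : ∑ i, (if i ∈ c then x i else 0)
            = ∑ i, ((if i ∈ c then x i else 0) - ((if i ∈ c then -1 else 0)
                + (if i ∈ c ∩ C1 then 2 else 0)))
              + (-1 * (c.card : ℤ) + 2 * ((c ∩ C1).card : ℤ)) := by
          rw [Finset.sum_sub_distrib, Finset.sum_add_distrib, sum_ite_const, sum_ite_const]
          ring
        rw [e]
        apply dvd_add
        · apply Finset.dvd_sum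
          intro i _
          have h5 := hCmem i
          have h6 := hxo i
          by_cases hic : i ∈ c
          · by_cases hiD : i ∈ C1
            · rw [if_pos hic, if_pos hic, if_pos (Finset.mem_inter.2 ⟨hic, hiD⟩)]
              have := h5.1 hiD
              omega
            · rw [if_pos hic, if_pos hic, if_neg (fun h => hiD (Finset.mem_inter.1 h).2)]
              have : ¬ x i % 4 = 1 := fun h => hiD (h5.2 h)
              omega
          · rw [if_neg hic, if_neg hic, if_neg (fun h => hic (Finset.mem_inter.1 h).1)]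
            norm_num
        · obtain ⟨t, ht⟩ := gSupp_inter_even hc hC1g
          obtain ⟨q, hq⟩ := gSupp_card4 hc
          rw [ht, hq]
          push_cast
          exact ⟨-q + t, by ring⟩
      unfold Int.ModEq at *
      omega

theorem leech_perm (σ : Equiv.Perm GolayPt) (hσ : σ ∈ M24) (x : GolayPt → ℤ)
    (hx : x ∈ leechSet) : (fun i => x (σ.symm i)) ∈ leechSet := by
  classical
  obtain ⟨m, h1, h2, h3⟩ := hx
  refine ⟨m, fun i => h1 _, ?_, fun k => ?_⟩
  · have : ∑ i, x (σ.symm i) = ∑ i, x i := Equiv.sum_comp σ.symm x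
    rw [this]
    exact h2
  · have : (Finset.univ.filter fun i => x (σ.symm i) ≡ k [ZMOD 4])
        = σ • (Finset.univ.filter fun i => x i ≡ k [ZMOD 4]) := by
      ext i
      rw [Finset.mem_smul_finset]
      simp only [Finset.mem_filter, Finset.mem_univ, true_and]
      constructor
      · intro h
        exact ⟨σ.symm i, h, by simp⟩
      · rintro ⟨j, hj, rfl⟩
        simpa using hj
    rw [this]
    exact M24_smul_mem σ hσ _ (h3 k)

theorem signedPerm_mem (σ : Equiv.Perm GolayPt) (hσ : σ ∈ M24) (c : Finset GolayPt)
    (hc : c ∈ gSupp) (x : GolayPt → ℤ) (hx : x ∈ leechSet) : signedPerm σ c x ∈ leechSet :=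
  leech_sign c hc _ (leech_perm σ hσ x hx)

theorem dotInt_signedPerm (σ : Equiv.Perm GolayPt) (c : Finset GolayPt) (x y : GolayPt → ℤ) :
    dotInt (signedPerm σ c x) (signedPerm σ c y) = dotInt x y := by
  unfold dotInt signedPerm
  have h : ∀ i, (if i ∈ c then -x (σ.symm i) else x (σ.symm i))
      * (if i ∈ c then -y (σ.symm i) else y (σ.symm i)) = x (σ.symm i) * y (σ.symm i) := by
    intro i
    split_ifs <;> ring
  simp only [h]
  exact Equiv.sum_comp σ.symm (fun i => x i * y i)

theorem sqNorm_signedPerm (σ : Equiv.Perm GolayPt) (c : Finset GolayPt) (x : GolayPt → ℤ) :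
    sqNorm (signedPerm σ c x) = sqNorm x := by
  unfold sqNorm signedPerm
  have h : ∀ i, (if i ∈ c then -x (σ.symm i) else x (σ.symm i)) ^ 2 = x (σ.symm i) ^ 2 := by
    intro i
    split_ifs <;> ring
  simp only [h]
  exact Equiv.sum_comp σ.symm (fun i => x i ^ 2)

end Cfsg.Agent.Lib.Helper1
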