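import Mathlib
import Cfsg.Prelude.Def_Sporadic_a
import Cfsg.Agent.Lib.Helper1.LeechAut

/-!
Moment identities for finite sets of integer vectors (helper1).
-/

namespace Cfsg.Agent.Lib.Helper1

open Cfsg

theorem moment2 (Min : Finset (GolayPt → ℤ)) (v : GolayPt → ℤ) (A2 : ℤ)
    (hdiag : ∀ i, ∑ w ∈ Min, w i * w i = A2)
    (hoff : ∀ i j, i ≠ j → ∑ w ∈ Min, w i * w j = 0) :
    ∑ w ∈ Min, (dotInt v w) ^ 2 = A2 * sqNorm v := by
  have e : ∀ w : GolayPt → ℤ, (dotInt v w) ^ 2 = ∑ i, ∑ j, (v i * v j) * (w i * w j) := by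
    intro w
    unfold dotInt
    rw [sq, Finset.sum_mul_sum]
    exact Finset.sum_congr rfl (fun i _ => Finset.sum_congr rfl (fun j _ => by ring))
  rw [Finset.sum_congr rfl (fun w _ => e w), Finset.sum_comm]
  have h : ∀ i, ∑ w ∈ Min, ∑ j, (v i * v j) * (w i * w j) = A2 * v i ^ 2 := by
    intro i
    rw [Finset.sum_comm, Finset.sum_eq_single i]
    · rw [← Finset.mul_sum, hdiag]
      ring
    · intro j _ hji
      rw [← Finset.mul_sum, hoff i j (Ne.symm hji), mul_zero]
    · intro h
      exact absurd (Finset.mem_univ i) h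
  rw [Finset.sum_congr rfl (fun i _ => h i)]
  unfold sqNorm
  rw [Finset.mul_sum]

theorem moment4 (Min : Finset (GolayPt → ℤ)) (v : GolayPt → ℤ) (B : ℤ)
    (hM4 : ∀ i j k l, ∑ w ∈ Min, (w i * w j) * (w k * w l)
      = B * ((if i = j ∧ k = l then 1 else 0) + (if i = k ∧ j = l then 1 else 0)
        + (if i = l ∧ j = k then 1 else 0))) :
    ∑ w ∈ Min, (dotInt v w) ^ 4 = 3 * B * (sqNorm v) ^ 2 := by
  classical
  have e : ∀ w : GolayPt → ℤ, (dotInt v w) ^ 4
      = ∑ i, ∑ k, ∑ j, ∑ l, ((v i * v j) * (v k * v l)) * ((w i * w j) * (w k * w l)) := by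
    intro w
    unfold dotInt
    have e2 : (∑ i, v i * w i) ^ 4 = ((∑ i, v i * w i) * (∑ i, v i * w i))
        * ((∑ i, v i * w i) * (∑ i, v i * w i)) := by ring
    rw [e2, Finset.sum_mul_sum, Finset.sum_mul_sum]
    refine Finset.sum_congr rfl (fun i _ => Finset.sum_congr rfl (fun k _ => ?_))
    rw [Finset.sum_mul_sum]
    exact Finset.sum_congr rfl (fun j _ => Finset.sum_congr rfl (fun l _ => by ring))
  rw [Finset.sum_congr rfl (fun w _ => e w), Finset.sum_comm]
  have swap : ∀ i, ∑ w ∈ Min, ∑ k, ∑ j, ∑ l,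
        ((v i * v j) * (v k * v l)) * ((w i * w j) * (w k * w l))
      = ∑ k, ∑ j, ∑ l, ((v i * v j) * (v k * v l)) * (B * ((if i = j ∧ k = l then 1 else 0)
        + (if i = k ∧ j = l then 1 else 0) + (if i = l ∧ j = k then 1 else 0))) := by
    intro i
    rw [Finset.sum_comm]
    refine Finset.sum_congr rfl (fun k _ => ?_)
    rw [Finset.sum_comm]
    refine Finset.sum_congr rfl (fun j _ => ?_)
    rw [Finset.sum_comm]
    refine Finset.sum_congr rfl (fun l _ => ?_)
    rw [← Finset.mul_sum, hM4]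
  rw [Finset.sum_congr rfl (fun i _ => swap i)]
  have L1 : ∀ i k, ∑ j, ∑ l, ((v i * v j) * (v k * v l)) * (if i = j ∧ k = l then (1 : ℤ) else 0)
      = v i ^ 2 * v k ^ 2 := by
    intro i k
    rw [Finset.sum_eq_single i]
    · rw [Finset.sum_eq_single k]
      · simp only [true_and, if_true]
        ring
      · intro l _ hl
        rw [if_neg (fun h => hl h.2.symm), mul_zero]
      · intro h
        exact absurd (Finset.mem_univ k) h
    · intro j _ hj
      apply Finset.sum_eq_zero
      intro l _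
      rw [if_neg (fun h => hj h.1.symm), mul_zero]
    · intro h
      exact absurd (Finset.mem_univ i) h
  have L2 : ∀ i k, ∑ j, ∑ l, ((v i * v j) * (v k * v l)) * (if i = k ∧ j = l then (1 : ℤ) else 0)
      = if i = k then v i ^ 2 * ∑ j, v j ^ 2 else 0 := by
    intro i k
    by_cases hik : i = k
    · subst hik
      rw [if_pos rfl, Finset.mul_sum]
      refine Finset.sum_congr rfl (fun j _ => ?_)
      rw [Finset.sum_eq_single j]
      · simp only [true_and, if_true]
        ring
      · intro l _ hl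
        rw [if_neg (fun h => hl h.2.symm), mul_zero]
      · intro h
        exact absurd (Finset.mem_univ j) h
    · rw [if_neg hik]
      apply Finset.sum_eq_zero
      intro j _
      apply Finset.sum_eq_zero
      intro l _
      rw [if_neg (fun h => hik h.1), mul_zero]
  have L3 : ∀ i k, ∑ j, ∑ l, ((v i * v j) * (v k * v l)) * (if i = l ∧ j = k then (1 : ℤ) else 0)
      = v i ^ 2 * v k ^ 2 := by
    intro i k
    rw [Finset.sum_eq_single k]
    · rw [Finset.sum_eq_single i]
      · simp only [and_self, if_true]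
        ring
      · intro l _ hl
        rw [if_neg (fun h => hl h.1.symm), mul_zero]
      · intro h
        exact absurd (Finset.mem_univ i) h
    · intro j _ hj
      apply Finset.sum_eq_zero
      intro l _
      rw [if_neg (fun h => hj h.2), mul_zero]
    · intro h
      exact absurd (Finset.mem_univ k) h
  have comb : ∀ i k, ∑ j, ∑ l, ((v i * v j) * (v k * v l)) * (B * ((if i = j ∧ k = l then 1 else 0)
        + (if i = k ∧ j = l then 1 else 0) + (if i = l ∧ j = k then 1 else 0)))
      = B * (v i ^ 2 * v k ^ 2) + B * (if i = k then v i ^ 2 * ∑ j, v j ^ 2 else 0)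
        + B * (v i ^ 2 * v k ^ 2) := by
    intro i k
    have split : ∑ j, ∑ l, ((v i * v j) * (v k * v l)) * (B * ((if i = j ∧ k = l then 1 else 0)
        + (if i = k ∧ j = l then 1 else 0) + (if i = l ∧ j = k then 1 else 0)))
        = B * (∑ j, ∑ l, ((v i * v j) * (v k * v l)) * (if i = j ∧ k = l then (1 : ℤ) else 0))
          + B * (∑ j, ∑ l, ((v i * v j) * (v k * v l)) * (if i = k ∧ j = l then (1 : ℤ) else 0))
          + B * (∑ j, ∑ l, ((v i * v j) * (v k * v l))
            * (if i = l ∧ j = k then (1 : ℤ) else 0)) := by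
      simp only [Finset.mul_sum, ← Finset.sum_add_distrib]
      exact Finset.sum_congr rfl (fun j _ => Finset.sum_congr rfl (fun l _ => by ring))
    rw [split, L1, L2, L3]
  rw [Finset.sum_congr rfl (fun i _ => Finset.sum_congr rfl (fun k _ => comb i k))]
  simp only [Finset.sum_add_distrib, ← Finset.mul_sum, Finset.sum_ite_eq, Finset.mem_univ, if_true]
  unfold sqNorm
  rw [← Finset.sum_mul]
  ring

end Cfsg.Agent.Lib.Helper1
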