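import Mathlib
import Cfsg.Prelude.Def_Sporadic_a
import Cfsg.Agent.Lib.Helper1.LeechN8a

/-!
The vectors of sum of squares 64 of the rank-24 lattice: the shapes (±6, ±2^7) and
(±5, ±3^2, ±1^21), (±3^5, ±1^19) (helper1).
-/

namespace Cfsg.Agent.Lib.Helper1

open Cfsg

/-- the vectors of shape (±6, ±2^7, 0^16) -/
def lSix (o N : Finset GolayPt) (q : GolayPt) : GolayPt → ℤ := fun i =>
  if i = q then 3 * lEven 2 o N i else lEven 2 o N i

theorem lSix_char (o N : Finset GolayPt) (hN : N ⊆ o) (q : GolayPt) (hq : q ∈ o) (i : GolayPt) :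
    (i ∈ o ↔ lSix o N q i ≠ 0) ∧ (i ∈ N ↔ lSix o N q i < 0) ∧ (i = q ↔ (lSix o N q i) ^ 2 = 36)
    ∧ (i ∈ o → lSix o N q i % 4 = 2) ∧ (i ∉ o → lSix o N q i % 4 = 0) := by
  unfold lSix lEven
  by_cases h0 : i = q
  · subst h0
    by_cases h1 : i ∈ N
    · simp [h1, hq]
    · simp [h1, hq]
  · by_cases h1 : i ∈ N
    · have h2 := hN h1
      simp [h0, h1, h2]
    · by_cases h2 : i ∈ o
      · simp [h0, h1, h2]
      · simp [h0, h1, h2]

theorem lSix_val (o N : Finset GolayPt) (q : GolayPt) (i : GolayPt) :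
    lSix o N q i = lEven 2 o N i + (if i = q then 2 * lEven 2 o N q else 0) := by
  unfold lSix
  by_cases h : i = q
  · subst h
    simp
    ring
  · simp [h]

theorem lSix_sq (o N : Finset GolayPt) (hN : N ⊆ o) (q : GolayPt) (hq : q ∈ o) (i : GolayPt) :
    (lSix o N q i) ^ 2 = 4 * (if i ∈ o then 1 else 0) + (if i = q then 32 else 0) := by
  unfold lSix
  by_cases h : i = q
  · subst h
    simp only [if_true]
    rw [mul_pow, lEven_sq 2 o N hN]
    simp [hq]
  · simp only [h, if_false, add_zero]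
    rw [lEven_sq 2 o N hN]
    norm_num

theorem lSix_sum (o N : Finset GolayPt) (hN : N ⊆ o) (q : GolayPt) (hq : q ∈ o) :
    ∑ i, lSix o N q i = 2 * (o.card : ℤ) - 2 * 2 * N.card + (if q ∈ N then -4 else 4) := by
  simp only [lSix_val, Finset.sum_add_distrib, lEven_sum 2 o N hN, Finset.sum_ite_eq',
    Finset.mem_univ, if_true]
  congr 1
  unfold lEven
  by_cases h : q ∈ N <;> simp [h, hq]

theorem lSix_mem (o N : Finset GolayPt) (ho : o ∈ octads) (hN : N ⊆ o) (hodd : Odd N.card)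
    (q : GolayPt) (hq : q ∈ o) :
    lSix o N q ∈ leechSet ∧ sqNorm (lSix o N q) = 64 ∧ ∑ i, (lSix o N q i) ^ 4 = 1408 := by
  refine ⟨?_, ?_, ?_⟩
  · apply leech_mem_even _ o ho.1
    · intro i
      exact ⟨(lSix_char o N hN q hq i).2.2.2.1, (lSix_char o N hN q hq i).2.2.2.2⟩
    · rw [lSix_sum o N hN q hq, ho.2]
      obtain ⟨t, ht⟩ := hodd
      rw [ht]
      push_cast
      unfold Int.ModEq
      split_ifs <;> omega
  · unfold sqNorm
    simp only [lSix_sq o N hN q hq, Finset.sum_add_distrib, ← Finset.mul_sum, Finset.sum_boole,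
      Finset.filter_univ_mem, Finset.sum_ite_eq', Finset.mem_univ, if_true, ho.2]
    norm_num
  · have h : ∀ i, (lSix o N q i) ^ 4 = 16 * (if i ∈ o then 1 else 0) + (if i = q then 1280 else 0) := by
      intro i
      have h2 : (lSix o N q i) ^ 4 = ((lSix o N q i) ^ 2) ^ 2 := by ring
      rw [h2, lSix_sq o N hN q hq]
      by_cases h0 : i = q
      · subst h0
        simp [hq]
      · by_cases h1 : i ∈ o <;> simp [h0, h1]
    simp only [h, Finset.sum_add_distrib, ← Finset.mul_sum, Finset.sum_boole,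
      Finset.filter_univ_mem, Finset.sum_ite_eq', Finset.mem_univ, if_true, ho.2]
    norm_num

theorem lSix_inj (o N o' N' : Finset GolayPt) (q q' : GolayPt) (hN : N ⊆ o) (hN' : N' ⊆ o')
    (hq : q ∈ o) (hq' : q' ∈ o') (h : lSix o N q = lSix o' N' q') :
    o = o' ∧ N = N' ∧ q = q' := by
  refine ⟨?_, ?_, ?_⟩
  · ext i
    rw [(lSix_char o N hN q hq i).1, h, ← (lSix_char o' N' hN' q' hq' i).1]
  · ext i
    rw [(lSix_char o N hN q hq i).2.1, h, ← (lSix_char o' N' hN' q' hq' i).2.1]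
  · have h1 := (lSix_char o N hN q hq q).2.2.1.1 rfl
    rw [h] at h1
    exact (lSix_char o' N' hN' q' hq' q).2.2.1.2 h1

theorem n8_imgSix : ∃ F : Finset (GolayPt → ℤ), F.card = 759 * (2 ^ 7 * 8) ∧
    ∀ x, x ∈ F ↔ ∃ o ∈ octads, ∃ N ⊆ o, Odd N.card ∧ ∃ q ∈ o, x = lSix o N q := by
  classical
  obtain ⟨Of, hOf, hOcard⟩ := exists_blockFinset octads
  rw [Cfsg.Agent.S0360.result] at hOcard
  obtain ⟨Dom, hDom⟩ : ∃ Dom : Finset ((_ : Finset GolayPt) × (Finset GolayPt × GolayPt)),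
      Dom = Of.sigma (fun o => ((o.powerset).filter (fun N => Odd N.card)) ×ˢ o) := ⟨_, rfl⟩
  have hm : ∀ p, p ∈ Dom ↔ p.1 ∈ octads ∧ p.2.1 ⊆ p.1 ∧ Odd p.2.1.card ∧ p.2.2 ∈ p.1 := by
    intro p
    rw [hDom, Finset.mem_sigma, Finset.mem_product, Finset.mem_filter,
      Finset.mem_powerset, hOf]
    tauto
  refine ⟨Dom.image (fun p => lSix p.1 p.2.1 p.2.2), ?_, ?_⟩
  · rw [Finset.card_image_of_injOn, hDom, Finset.card_sigma, Finset.sum_congr rfl (fun o ho => by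
      rw [Finset.card_product, (even_odd_subsets o 7 ((hOf o).1 ho).2).2, ((hOf o).1 ho).2]),
      Finset.sum_const, ← hOcard]
    · rfl
    · rintro ⟨o, N, q⟩ hp ⟨o', N', q'⟩ hp' h
      obtain ⟨-, hN, -, hq⟩ := (hm _).1 (Finset.mem_coe.1 hp)
      obtain ⟨-, hN', -, hq'⟩ := (hm _).1 (Finset.mem_coe.1 hp')
      obtain ⟨h1, h2, h3⟩ := lSix_inj o N o' N' q q' hN hN' hq hq' h
      subst h1
      subst h2
      subst h3
      rfl
  · intro x
    rw [Finset.mem_image]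
    constructor
    · rintro ⟨p, hp, rfl⟩
      obtain ⟨h1, h2, h3, h4⟩ := (hm p).1 hp
      exact ⟨p.1, h1, p.2.1, h2, h3, p.2.2, h4, rfl⟩
    · rintro ⟨o, ho, N, hN, hodd, q, hq, rfl⟩
      exact ⟨⟨o, N, q⟩, (hm _).2 ⟨ho, hN, hodd, hq⟩, rfl⟩

/-! ### odd shapes -/

theorem lOddT_q4 (c T : Finset GolayPt) :
    ∑ i, (lOddT c T i) ^ 4 = 24 + 80 * T.card := by
  have h : ∀ i, (lOddT c T i) ^ 4 = 1 + (if i ∈ T then 80 else 0) := by
    intro i
    have h2 : (lOddT c T i) ^ 4 = ((lOddT c T i) ^ 2) ^ 2 := by ring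
    rw [h2, lOddT_sq]
    split_ifs <;> norm_num
  simp only [h, Finset.sum_add_distrib, Finset.sum_const, card_univ_golay]
  rw [sum_ite_const]
  norm_num

theorem lOddT_img (k : ℕ) : ∃ F : Finset (GolayPt → ℤ), F.card = 4096 * Nat.choose 24 k ∧
    ∀ x, x ∈ F ↔ ∃ c ∈ gSupp, ∃ T : Finset GolayPt, T.card = k ∧ x = lOddT c T := by
  classical
  obtain ⟨Gf, hGf, hGcard⟩ := exists_blockFinset gSupp
  rw [gSupp_ncard] at hGcard
  refine ⟨(Gf ×ˢ Finset.powersetCard k (Finset.univ : Finset GolayPt)).image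
    (fun p => lOddT p.1 p.2), ?_, ?_⟩
  · rw [Finset.card_image_of_injOn, Finset.card_product, ← hGcard, Finset.card_powersetCard,
      card_univ_golay]
    rintro ⟨c, T⟩ - ⟨c', T'⟩ - h
    obtain ⟨h1, h2⟩ := lOddT_inj c c' T T' h
    rw [h1, h2]
  · intro x
    rw [Finset.mem_image]
    constructor
    · rintro ⟨⟨c, T⟩, hp, rfl⟩
      obtain ⟨h1, h2⟩ := Finset.mem_product.1 hp
      exact ⟨c, (hGf c).1 h1, T, (Finset.mem_powersetCard.1 h2).2, rfl⟩
    · rintro ⟨c, hc, T, hT, rfl⟩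
      exact ⟨(c, T), Finset.mem_product.2 ⟨(hGf c).2 hc,
        Finset.mem_powersetCard.2 ⟨Finset.subset_univ _, hT⟩⟩, rfl⟩

/-- the vectors of shape (∓5, ±3^2, ±1^21) -/
def lOdd53 (c : Finset GolayPt) (i0 : GolayPt) (T : Finset GolayPt) : GolayPt → ℤ := fun i =>
  if i = i0 then (if i ∈ c then 5 else -5) else lOddT c T i

theorem lOdd53_cls (c : Finset GolayPt) (i0 : GolayPt) (T : Finset GolayPt) (i : GolayPt) :
    (i ∈ c → lOdd53 c i0 T i % 4 = 1) ∧ (i ∉ c → lOdd53 c i0 T i % 4 = 3) := by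
  unfold lOdd53 lOddT
  by_cases h0 : i = i0
  · subst h0
    by_cases h2 : i ∈ c <;> simp [h2]
  · by_cases h1 : i ∈ T <;> by_cases h2 : i ∈ c <;> simp [h0, h1, h2]

theorem lOdd53_sq (c : Finset GolayPt) (i0 : GolayPt) (T : Finset GolayPt) (h0 : i0 ∉ T)
    (i : GolayPt) :
    (lOdd53 c i0 T i) ^ 2 = 1 + (if i ∈ T then 8 else 0) + (if i = i0 then 24 else 0) := by
  unfold lOdd53
  by_cases h : i = i0
  · subst h
    by_cases h2 : i ∈ c <;> simp [h0, h2]
  · simp only [h, if_false, add_zero]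
    exact lOddT_sq c T i

theorem lOdd53_val (c : Finset GolayPt) (i0 : GolayPt) (T : Finset GolayPt) (h0 : i0 ∉ T)
    (i : GolayPt) :
    lOdd53 c i0 T i = lOddT c T i + (if i = i0 then (if i0 ∈ c then 4 else -4) else 0) := by
  unfold lOdd53
  by_cases h : i = i0
  · subst h
    unfold lOddT
    by_cases h2 : i ∈ c <;> simp [h0, h2]
  · simp [h]

theorem lOdd53_mem (c : Finset GolayPt) (hc : c ∈ gSupp) (i0 : GolayPt) (T : Finset GolayPt)
    (h0 : i0 ∉ T) (hT : T.card = 2) :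
    lOdd53 c i0 T ∈ leechSet ∧ sqNorm (lOdd53 c i0 T) = 64
      ∧ ∑ i, (lOdd53 c i0 T i) ^ 4 = 808 := by
  refine ⟨?_, ?_, ?_⟩
  · apply leech_mem_odd _ c hc (lOdd53_cls c i0 T)
    simp only [lOdd53_val c i0 T h0, Finset.sum_add_distrib, lOddT_sum, Finset.sum_ite_eq',
      Finset.mem_univ, if_true, hT]
    obtain ⟨q, hq⟩ := gSupp_card4 hc
    rw [hq]
    push_cast
    unfold Int.ModEq
    split_ifs <;> omega
  · unfold sqNorm
    simp only [lOdd53_sq c i0 T h0, Finset.sum_add_distrib, Finset.sum_const, Finset.sum_ite_eq',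
      Finset.mem_univ, if_true, card_univ_golay]
    rw [sum_ite_const, hT]
    norm_num
  · have h : ∀ i, (lOdd53 c i0 T i) ^ 4
        = 1 + (if i ∈ T then 80 else 0) + (if i = i0 then 624 else 0) := by
      intro i
      have h2 : (lOdd53 c i0 T i) ^ 4 = ((lOdd53 c i0 T i) ^ 2) ^ 2 := by ring
      rw [h2, lOdd53_sq c i0 T h0]
      by_cases h3 : i = i0
      · subst h3
        simp [h0]
      · by_cases h4 : i ∈ T <;> simp [h3, h4]
    simp only [h, Finset.sum_add_distrib, Finset.sum_const, Finset.sum_ite_eq',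
      Finset.mem_univ, if_true, card_univ_golay]
    rw [sum_ite_const, hT]
    norm_num

theorem lOdd53_inj (c c' : Finset GolayPt) (i0 i0' : GolayPt) (T T' : Finset GolayPt)
    (h0 : i0 ∉ T) (h0' : i0' ∉ T') (h : lOdd53 c i0 T = lOdd53 c' i0' T') :
    c = c' ∧ i0 = i0' ∧ T = T' := by
  have hsq : ∀ i, (1 : ℤ) + (if i ∈ T then 8 else 0) + (if i = i0 then 24 else 0)
      = 1 + (if i ∈ T' then 8 else 0) + (if i = i0' then 24 else 0) := by
    intro i
    rw [← lOdd53_sq c i0 T h0, h, lOdd53_sq c' i0' T' h0']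
  refine ⟨?_, ?_, ?_⟩
  · ext i
    have h1 := lOdd53_cls c i0 T i
    have h2 := lOdd53_cls c' i0' T' i
    rw [h] at h1
    by_cases hi : i ∈ c <;> by_cases hi' : i ∈ c' <;> simp only [hi, hi']
    · have := h1.1 hi
      have := h2.2 hi'
      omega
    · have := h1.2 hi
      have := h2.1 hi'
      omega
  · have h1 := hsq i0
    by_contra hne
    simp only [h0, if_false, if_true, hne] at h1
    split_ifs at h1 <;> omega
  · ext i
    have h1 := hsq i
    by_cases hi : i ∈ T <;> by_cases hi' : i ∈ T' <;> simp only [hi, hi'] <;>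
      simp only [hi, hi', if_true, if_false] at h1 <;> split_ifs at h1 <;> omega

theorem n8_img53 : ∃ F : Finset (GolayPt → ℤ), F.card = 4096 * (24 * 253) ∧
    ∀ x, x ∈ F ↔ ∃ c ∈ gSupp, ∃ i0, ∃ T : Finset GolayPt, i0 ∉ T ∧ T.card = 2 ∧
      x = lOdd53 c i0 T := by
  classical
  obtain ⟨Gf, hGf, hGcard⟩ := exists_blockFinset gSupp
  rw [gSupp_ncard] at hGcard
  obtain ⟨Dom, hDom⟩ : ∃ Dom : Finset (Finset GolayPt × ((_ : GolayPt) × Finset GolayPt)),
      Dom = Gf ×ˢ ((Finset.univ : Finset GolayPt).sigma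
        (fun i0 => Finset.powersetCard 2 (Finset.univ.erase i0))) := ⟨_, rfl⟩
  have hm : ∀ p, p ∈ Dom ↔ p.1 ∈ gSupp ∧ p.2.1 ∉ p.2.2 ∧ p.2.2.card = 2 := by
    intro p
    rw [hDom, Finset.mem_product, Finset.mem_sigma, Finset.mem_powersetCard, hGf,
      Finset.subset_erase]
    simp
  refine ⟨Dom.image (fun p => lOdd53 p.1 p.2.1 p.2.2), ?_, ?_⟩
  · rw [Finset.card_image_of_injOn, hDom, Finset.card_product, ← hGcard, Finset.card_sigma,
      Finset.sum_congr rfl (fun i0 _ => by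
        rw [Finset.card_powersetCard, Finset.card_erase_of_mem (Finset.mem_univ _),
          card_univ_golay]),
      Finset.sum_const, card_univ_golay]
    · rfl
    · rintro ⟨c, i0, T⟩ hp ⟨c', i0', T'⟩ hp' h
      obtain ⟨-, h0, -⟩ := (hm _).1 (Finset.mem_coe.1 hp)
      obtain ⟨-, h0', -⟩ := (hm _).1 (Finset.mem_coe.1 hp')
      obtain ⟨h1, h2, h3⟩ := lOdd53_inj c c' i0 i0' T T' h0 h0' h
      subst h1
      subst h2
      subst h3
      rfl
  · intro x
    rw [Finset.mem_image]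
    constructor
    · rintro ⟨p, hp, rfl⟩
      obtain ⟨h1, h2, h3⟩ := (hm p).1 hp
      exact ⟨p.1, h1, p.2.1, p.2.2, h2, h3, rfl⟩
    · rintro ⟨c, hc, i0, T, h0, hT, rfl⟩
      exact ⟨⟨c, i0, T⟩, (hm _).2 ⟨hc, h0, hT⟩, rfl⟩

end Cfsg.Agent.Lib.Helper1
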