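import Mathlib
import Cfsg.Prelude.Def_Sporadic_a
import Cfsg.Agent.Lib.Helper1.LeechN8b

/-!
The vectors of sum of squares 64 of the rank-24 lattice: classification (helper1).
-/

namespace Cfsg.Agent.Lib.Helper1

open Cfsg

theorem leech_n8_bound (x : GolayPt → ℤ) (h64 : ∑ i, x i ^ 2 = 64) (i : GolayPt) :
    -8 ≤ x i ∧ x i ≤ 8 := by
  have h : x i ^ 2 ≤ ∑ j, x j ^ 2 :=
    Finset.single_le_sum (f := fun j => x j ^ 2) (fun j _ => sq_nonneg (x j)) (Finset.mem_univ i)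
  rw [h64] at h
  constructor <;> nlinarith

theorem leech_n8_odd (x : GolayPt → ℤ) (m : ℤ) (h1 : ∀ i, x i ≡ m [ZMOD 2])
    (h3 : ∀ k : ℤ, (Finset.univ.filter fun i => x i ≡ k [ZMOD 4]) ∈ gSupp)
    (h64 : ∑ i, x i ^ 2 = 64) (hm : m % 2 = 1) :
    (∃ c ∈ gSupp, ∃ T : Finset GolayPt, T.card = 5 ∧ x = lOddT c T)
    ∨ (∃ c ∈ gSupp, ∃ i0, ∃ T : Finset GolayPt, i0 ∉ T ∧ T.card = 2 ∧ x = lOdd53 c i0 T) := by
  classical
  have hv : ∀ i, x i = 1 ∨ x i = -1 ∨ x i = 3 ∨ x i = -3 ∨ x i = 5 ∨ x i = -5 ∨ x i = 7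
      ∨ x i = -7 := by
    intro i
    have := leech_n8_bound x h64 i
    have := h1 i
    unfold Int.ModEq at this
    omega
  obtain ⟨c, hc⟩ : ∃ c : Finset GolayPt, c = Finset.univ.filter (fun i => x i ≡ 1 [ZMOD 4]) :=
    ⟨_, rfl⟩
  have hcg : c ∈ gSupp := by rw [hc]; exact h3 1
  have hcmem : ∀ i, i ∈ c ↔ x i % 4 = 1 := by
    intro i
    rw [hc, Finset.mem_filter]
    simp [Int.ModEq]
  obtain ⟨B3, hB3⟩ : ∃ B3 : Finset GolayPt, B3 = Finset.univ.filter (fun i => x i = 3 ∨ x i = -3) :=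
    ⟨_, rfl⟩
  obtain ⟨B5, hB5⟩ : ∃ B5 : Finset GolayPt, B5 = Finset.univ.filter (fun i => x i = 5 ∨ x i = -5) :=
    ⟨_, rfl⟩
  obtain ⟨B7, hB7⟩ : ∃ B7 : Finset GolayPt, B7 = Finset.univ.filter (fun i => x i = 7 ∨ x i = -7) :=
    ⟨_, rfl⟩
  have m3 : ∀ i, i ∈ B3 ↔ (x i = 3 ∨ x i = -3) := by
    intro i
    rw [hB3, Finset.mem_filter]
    simp
  have m5 : ∀ i, i ∈ B5 ↔ (x i = 5 ∨ x i = -5) := by
    intro i
    rw [hB5, Finset.mem_filter]
    simp
  have m7 : ∀ i, i ∈ B7 ↔ (x i = 7 ∨ x i = -7) := by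
    intro i
    rw [hB7, Finset.mem_filter]
    simp
  have hsq : ∀ i, x i ^ 2 = 1 + (if i ∈ B3 then 8 else 0) + (if i ∈ B5 then 24 else 0)
      + (if i ∈ B7 then 48 else 0) := by
    intro i
    rcases hv i with h | h | h | h | h | h | h | h <;> simp [m3, m5, m7, h]
  have hsum : (64 : ℤ) = 24 + 8 * B3.card + 24 * B5.card + 48 * B7.card := by
    rw [← h64]
    simp only [hsq, Finset.sum_add_distrib, Finset.sum_const, card_univ_golay, sum_ite_const]
    norm_num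
  have h7 : B7.card = 0 := by omega
  have hcases : (B3.card = 5 ∧ B5.card = 0) ∨ (B3.card = 2 ∧ B5.card = 1) := by omega
  have hno7 : ∀ i, ¬ (x i = 7 ∨ x i = -7) := by
    intro i h
    have : i ∈ B7 := (m7 i).2 h
    rw [Finset.card_eq_zero.1 h7] at this
    exact Finset.notMem_empty i this
  rcases hcases with ⟨h3c, h5c⟩ | ⟨h3c, h5c⟩
  · left
    have hno5 : ∀ i, ¬ (x i = 5 ∨ x i = -5) := by
      intro i h
      have : i ∈ B5 := (m5 i).2 h
      rw [Finset.card_eq_zero.1 h5c] at this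
      exact Finset.notMem_empty i this
    refine ⟨c, hcg, B3, h3c, ?_⟩
    funext i
    unfold lOddT
    rcases hv i with h | h | h | h | h | h | h | h
    · simp [m3, hcmem, h]
    · simp [m3, hcmem, h]
    · simp [m3, hcmem, h]
    · simp [m3, hcmem, h]
    · exact absurd (Or.inl h) (hno5 i)
    · exact absurd (Or.inr h) (hno5 i)
    · exact absurd (Or.inl h) (hno7 i)
    · exact absurd (Or.inr h) (hno7 i)
  · right
    obtain ⟨i0, hi0⟩ := Finset.card_eq_one.1 h5c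
    have hi5 : ∀ i, (x i = 5 ∨ x i = -5) ↔ i = i0 := by
      intro i
      rw [← m5, hi0, Finset.mem_singleton]
    refine ⟨c, hcg, i0, B3, ?_, h3c, ?_⟩
    · intro h
      have h5 := (hi5 i0).2 rfl
      rw [m3] at h
      omega
    · funext i
      unfold lOdd53 lOddT
      by_cases hi : i = i0
      · rw [if_pos hi]
        rcases (hi5 i).2 hi with h | h
        · simp [hcmem, h]
        · simp [hcmem, h]
      · rw [if_neg hi]
        have hn5 : ¬ (x i = 5 ∨ x i = -5) := fun h => hi ((hi5 i).1 h)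
        rcases hv i with h | h | h | h | h | h | h | h
        · simp [m3, hcmem, h]
        · simp [m3, hcmem, h]
        · simp [m3, hcmem, h]
        · simp [m3, hcmem, h]
        · exact absurd (Or.inl h) hn5
        · exact absurd (Or.inr h) hn5
        · exact absurd (Or.inl h) (hno7 i)
        · exact absurd (Or.inr h) (hno7 i)

theorem decomp_disj (x : GolayPt → ℤ) (a : ℤ) (ha : a = 4 ∨ a = 8)
    (hv : ∀ i, x i = 0 ∨ x i = 2 ∨ x i = -2 ∨ x i = a ∨ x i = -a) :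
    x = lEven 2 (Finset.univ.filter fun i => x i = 2 ∨ x i = -2)
          (Finset.univ.filter fun i => x i = -2)
      + lEven a (Finset.univ.filter fun i => x i = a ∨ x i = -a)
          (Finset.univ.filter fun i => x i = -a) := by
  funext i
  simp only [Pi.add_apply]
  unfold lEven
  simp only [Finset.mem_filter, Finset.mem_univ, true_and]
  rcases ha with rfl | rfl <;> rcases hv i with h | h | h | h | h <;> simp [h]

theorem leech_n8_even_aux (x : GolayPt → ℤ) (hsum8 : ∑ i, x i ≡ 0 [ZMOD 8]) (a : ℤ)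
    (ha : a = 4 ∨ a = 8) (hv : ∀ i, x i = 0 ∨ x i = 2 ∨ x i = -2 ∨ x i = a ∨ x i = -a)
    (hDg : (Finset.univ.filter fun i => x i ≡ 2 [ZMOD 4]) ∈ gSupp) :
    ∃ D ∈ gSupp, ∃ N ⊆ D, ∃ U : Finset GolayPt, Disjoint U D ∧ ∃ N' ⊆ U,
      x = lEven 2 D N + lEven a U N' ∧ D = (Finset.univ.filter fun i => x i = 2 ∨ x i = -2)
      ∧ U = (Finset.univ.filter fun i => x i = a ∨ x i = -a)
      ∧ 2 * (D.card : ℤ) - 2 * 2 * N.card + (a * U.card - 2 * a * N'.card) ≡ 0 [ZMOD 8] := by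
  have hDeq : (Finset.univ.filter fun i => x i ≡ 2 [ZMOD 4])
      = (Finset.univ.filter fun i => x i = 2 ∨ x i = -2) := by
    ext i
    simp only [Finset.mem_filter, Finset.mem_univ, true_and]
    unfold Int.ModEq
    rcases ha with rfl | rfl <;> rcases hv i with h | h | h | h | h <;> simp [h]
  rw [hDeq] at hDg
  have hN : (Finset.univ.filter fun i => x i = -2)
      ⊆ (Finset.univ.filter fun i => x i = 2 ∨ x i = -2) := by
    intro i hi
    simp only [Finset.mem_filter, Finset.mem_univ, true_and] at hi ⊢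
    exact Or.inr hi
  have hN' : (Finset.univ.filter fun i => x i = -a)
      ⊆ (Finset.univ.filter fun i => x i = a ∨ x i = -a) := by
    intro i hi
    simp only [Finset.mem_filter, Finset.mem_univ, true_and] at hi ⊢
    exact Or.inr hi
  have hd : Disjoint (Finset.univ.filter fun i => x i = a ∨ x i = -a)
      (Finset.univ.filter fun i => x i = 2 ∨ x i = -2) := by
    rw [Finset.disjoint_left]
    intro i hi hi'
    simp only [Finset.mem_filter, Finset.mem_univ, true_and] at hi hi'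
    rcases ha with rfl | rfl <;> omega
  have hx := decomp_disj x a ha hv
  refine ⟨_, hDg, _, hN, _, hd, _, hN', hx, rfl, rfl, ?_⟩
  have hs : ∑ i, x i = ∑ i, (lEven 2 (Finset.univ.filter fun i => x i = 2 ∨ x i = -2)
          (Finset.univ.filter fun i => x i = -2)
      + lEven a (Finset.univ.filter fun i => x i = a ∨ x i = -a)
          (Finset.univ.filter fun i => x i = -a)) i := by
    rw [← hx]
  simp only [Pi.add_apply, Finset.sum_add_distrib, lEven_sum 2 _ _ hN, lEven_sum a _ _ hN'] at hs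
  rw [← hs]
  exact hsum8

theorem leech_n8_even (x : GolayPt → ℤ) (m : ℤ) (h1 : ∀ i, x i ≡ m [ZMOD 2])
    (h2 : ∑ i, x i ≡ 4 * m [ZMOD 8])
    (h3 : ∀ k : ℤ, (Finset.univ.filter fun i => x i ≡ k [ZMOD 4]) ∈ gSupp)
    (h64 : ∑ i, x i ^ 2 = 64) (hm : m % 2 = 0) :
    (∃ D ∈ gSupp, ∃ N ⊆ D, ∃ a : ℤ, ∃ U : Finset GolayPt, Disjoint U D ∧ ∃ N' ⊆ U,
        x = lEven 2 D N + lEven a U N' ∧
        ((D.card = 16 ∧ a = 4 ∧ U.card = 0 ∧ Even N.card)
          ∨ (D.card = 12 ∧ a = 4 ∧ U.card = 1 ∧ Odd N.card)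
          ∨ (D.card = 8 ∧ a = 4 ∧ U.card = 2 ∧ Even N.card)
          ∨ (D.card = 0 ∧ a = 4 ∧ U.card = 4 ∧ Even N.card)
          ∨ (D.card = 0 ∧ a = 8 ∧ U.card = 1 ∧ Even N.card)))
    ∨ (∃ o ∈ octads, ∃ N ⊆ o, Odd N.card ∧ ∃ q ∈ o, x = lSix o N q) := by
  classical
  have hsum8 : ∑ i, x i ≡ 0 [ZMOD 8] := by
    unfold Int.ModEq at *
    omega
  have hv : ∀ i, x i = 0 ∨ x i = 2 ∨ x i = -2 ∨ x i = 4 ∨ x i = -4 ∨ x i = 6 ∨ x i = -6
      ∨ x i = 8 ∨ x i = -8 := by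
    intro i
    have := leech_n8_bound x h64 i
    have := h1 i
    unfold Int.ModEq at this
    omega
  obtain ⟨A2, hA2⟩ : ∃ A2 : Finset GolayPt, A2 = Finset.univ.filter (fun i => x i = 2 ∨ x i = -2) :=
    ⟨_, rfl⟩
  obtain ⟨A4, hA4⟩ : ∃ A4 : Finset GolayPt, A4 = Finset.univ.filter (fun i => x i = 4 ∨ x i = -4) :=
    ⟨_, rfl⟩
  obtain ⟨A6, hA6⟩ : ∃ A6 : Finset GolayPt, A6 = Finset.univ.filter (fun i => x i = 6 ∨ x i = -6) :=
    ⟨_, rfl⟩
  obtain ⟨A8, hA8⟩ : ∃ A8 : Finset GolayPt, A8 = Finset.univ.filter (fun i => x i = 8 ∨ x i = -8) :=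
    ⟨_, rfl⟩
  have m2 : ∀ i, i ∈ A2 ↔ (x i = 2 ∨ x i = -2) := by
    intro i
    rw [hA2, Finset.mem_filter]
    simp
  have m4 : ∀ i, i ∈ A4 ↔ (x i = 4 ∨ x i = -4) := by
    intro i
    rw [hA4, Finset.mem_filter]
    simp
  have m6 : ∀ i, i ∈ A6 ↔ (x i = 6 ∨ x i = -6) := by
    intro i
    rw [hA6, Finset.mem_filter]
    simp
  have m8 : ∀ i, i ∈ A8 ↔ (x i = 8 ∨ x i = -8) := by
    intro i
    rw [hA8, Finset.mem_filter]
    simp
  have hsq : ∀ i, x i ^ 2 = (if i ∈ A2 then 4 else 0) + (if i ∈ A4 then 16 else 0)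
      + (if i ∈ A6 then 36 else 0) + (if i ∈ A8 then 64 else 0) := by
    intro i
    rcases hv i with h | h | h | h | h | h | h | h | h <;> simp [m2, m4, m6, m8, h]
  have hsum' : ∑ i, x i ^ 2 = 4 * A2.card + 16 * A4.card + 36 * A6.card + 64 * A8.card := by
    simp only [hsq, Finset.sum_add_distrib, sum_ite_const]
  rw [h64] at hsum'
  have hsum : 64 = 4 * A2.card + 16 * A4.card + 36 * A6.card + 64 * A8.card := by
    exact_mod_cast hsum'
  obtain ⟨D, hD⟩ : ∃ D : Finset GolayPt, D = Finset.univ.filter (fun i => x i ≡ 2 [ZMOD 4]) :=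
    ⟨_, rfl⟩
  have hDg : D ∈ gSupp := by rw [hD]; exact h3 2
  have hDmem : ∀ i, i ∈ D ↔ x i % 4 = 2 := by
    intro i
    rw [hD, Finset.mem_filter]
    simp [Int.ModEq]
  have hDc : D.card = A2.card + A6.card := by
    have h : ∀ i, (if i ∈ D then (1 : ℤ) else 0)
        = (if i ∈ A2 then 1 else 0) + (if i ∈ A6 then 1 else 0) := by
      intro i
      rcases hv i with h | h | h | h | h | h | h | h | h <;> simp [hDmem, m2, m6, h]
    have h' := Finset.sum_congr (s₁ := (Finset.univ : Finset GolayPt)) rfl (fun i _ => h i)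
    rw [Finset.sum_add_distrib, sum_ite_const, sum_ite_const, sum_ite_const] at h'
    have h'' : (D.card : ℤ) = A2.card + A6.card := by linarith
    exact_mod_cast h''
  have hDk := gSupp_card hDg
  have hcases : (A2.card = 16 ∧ A4.card = 0 ∧ A6.card = 0 ∧ A8.card = 0)
      ∨ (A2.card = 12 ∧ A4.card = 1 ∧ A6.card = 0 ∧ A8.card = 0)
      ∨ (A2.card = 8 ∧ A4.card = 2 ∧ A6.card = 0 ∧ A8.card = 0)
      ∨ (A2.card = 0 ∧ A4.card = 4 ∧ A6.card = 0 ∧ A8.card = 0)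
      ∨ (A2.card = 0 ∧ A4.card = 0 ∧ A6.card = 0 ∧ A8.card = 1)
      ∨ (A2.card = 7 ∧ A4.card = 0 ∧ A6.card = 1 ∧ A8.card = 0) := by
    have b8 : A8.card ≤ 1 := by omega
    have b6 : A6.card ≤ 1 := by omega
    have b4 : A4.card ≤ 4 := by omega
    have b2 : A2.card ≤ 16 := by omega
    clear hsq hsum' m2 m4 m6 m8 hv hDmem
    obtain ⟨k8, hk8⟩ : ∃ k, A8.card = k := ⟨_, rfl⟩
    obtain ⟨k6, hk6⟩ : ∃ k, A6.card = k := ⟨_, rfl⟩
    obtain ⟨k4, hk4⟩ : ∃ k, A4.card = k := ⟨_, rfl⟩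
    obtain ⟨k2, hk2⟩ : ∃ k, A2.card = k := ⟨_, rfl⟩
    obtain ⟨kD, hkD⟩ : ∃ k, D.card = k := ⟨_, rfl⟩
    rw [hk8, hk6, hk4, hk2] at hsum
    rw [hk6, hk2, hkD] at hDc
    rw [hkD] at hDk
    rw [hk8] at b8
    rw [hk6] at b6
    rw [hk4] at b4
    rw [hk2] at b2
    rw [hk8, hk6, hk4, hk2]
    clear hk8 hk6 hk4 hk2 hkD
    interval_cases k8 <;> interval_cases k6 <;> interval_cases k4 <;> omega
  have hnone : ∀ (A : Finset GolayPt), A.card = 0 → ∀ i, i ∉ A := by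
    intro A hA i
    rw [Finset.card_eq_zero.1 hA]
    exact Finset.notMem_empty i
  have hDgg : (Finset.univ.filter fun i => x i ≡ 2 [ZMOD 4]) ∈ gSupp := h3 2
  -- the four cases with `a = 4`
  have key4 : A6.card = 0 → A8.card = 0 →
      ∃ D ∈ gSupp, ∃ N ⊆ D, ∃ U : Finset GolayPt, Disjoint U D ∧ ∃ N' ⊆ U,
      x = lEven 2 D N + lEven 4 U N' ∧ D = A2 ∧ U = A4
      ∧ 2 * (D.card : ℤ) - 2 * 2 * N.card + (4 * U.card - 2 * 4 * N'.card) ≡ 0 [ZMOD 8] := by
    intro h6 h8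
    have hv4 : ∀ i, x i = 0 ∨ x i = 2 ∨ x i = -2 ∨ x i = 4 ∨ x i = -4 := by
      intro i
      have n6 := hnone A6 h6 i
      have n8 := hnone A8 h8 i
      rw [m6] at n6
      rw [m8] at n8
      have := hv i
      omega
    obtain ⟨D', hD'g, N, hN, U, hd, N', hN', hx, hD', hU, hs⟩ :=
      leech_n8_even_aux x hsum8 4 (Or.inl rfl) hv4 hDgg
    exact ⟨D', hD'g, N, hN, U, hd, N', hN', hx, by rw [hD', hA2], by rw [hU, hA4], hs⟩
  rcases hcases with ⟨c2, c4, c6, c8⟩ | ⟨c2, c4, c6, c8⟩ | ⟨c2, c4, c6, c8⟩ | ⟨c2, c4, c6, c8⟩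
    | ⟨c2, c4, c6, c8⟩ | ⟨c2, c4, c6, c8⟩
  · left
    obtain ⟨D', hD'g, N, hN, U, hd, N', hN', hx, hD', hU, hs⟩ := key4 c6 c8
    refine ⟨D', hD'g, N, hN, 4, U, hd, N', hN', hx, Or.inl ⟨by rw [hD', c2], rfl, by rw [hU, c4], ?_⟩⟩
    rw [hD', hU, c2, c4] at hs
    have hc := Finset.card_le_card hN'
    rw [hU, c4] at hc
    rw [Nat.even_iff]
    unfold Int.ModEq at hs
    push_cast at hs
    omega
  · left
    obtain ⟨D', hD'g, N, hN, U, hd, N', hN', hx, hD', hU, hs⟩ := key4 c6 c8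
    refine ⟨D', hD'g, N, hN, 4, U, hd, N', hN', hx,
      Or.inr (Or.inl ⟨by rw [hD', c2], rfl, by rw [hU, c4], ?_⟩)⟩
    rw [hD', hU, c2, c4] at hs
    rw [Nat.odd_iff]
    unfold Int.ModEq at hs
    push_cast at hs
    omega
  · left
    obtain ⟨D', hD'g, N, hN, U, hd, N', hN', hx, hD', hU, hs⟩ := key4 c6 c8
    refine ⟨D', hD'g, N, hN, 4, U, hd, N', hN', hx,
      Or.inr (Or.inr (Or.inl ⟨by rw [hD', c2], rfl, by rw [hU, c4], ?_⟩))⟩
    rw [hD', hU, c2, c4] at hs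
    rw [Nat.even_iff]
    unfold Int.ModEq at hs
    push_cast at hs
    omega
  · left
    obtain ⟨D', hD'g, N, hN, U, hd, N', hN', hx, hD', hU, hs⟩ := key4 c6 c8
    refine ⟨D', hD'g, N, hN, 4, U, hd, N', hN', hx,
      Or.inr (Or.inr (Or.inr (Or.inl ⟨by rw [hD', c2], rfl, by rw [hU, c4], ?_⟩)))⟩
    have hc := Finset.card_le_card hN
    rw [hD', c2] at hc
    rw [Nat.even_iff]
    omega
  · left
    have hv8 : ∀ i, x i = 0 ∨ x i = 2 ∨ x i = -2 ∨ x i = 8 ∨ x i = -8 := by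
      intro i
      have n6 := hnone A6 c6 i
      have n4 := hnone A4 c4 i
      rw [m6] at n6
      rw [m4] at n4
      have := hv i
      omega
    obtain ⟨D', hD'g, N, hN, U, hd, N', hN', hx, hD', hU, hs⟩ :=
      leech_n8_even_aux x hsum8 8 (Or.inr rfl) hv8 hDgg
    refine ⟨D', hD'g, N, hN, 8, U, hd, N', hN', hx,
      Or.inr (Or.inr (Or.inr (Or.inr ⟨by rw [hD', ← hA2, c2], rfl, by rw [hU, ← hA8, c8], ?_⟩)))⟩
    have hc := Finset.card_le_card hN
    rw [hD', ← hA2, c2] at hc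
    rw [Nat.even_iff]
    omega
  · right
    have hv6 : ∀ i, x i = 0 ∨ x i = 2 ∨ x i = -2 ∨ x i = 6 ∨ x i = -6 := by
      intro i
      have n8 := hnone A8 c8 i
      have n4 := hnone A4 c4 i
      rw [m8] at n8
      rw [m4] at n4
      have := hv i
      omega
    obtain ⟨q, hq⟩ := Finset.card_eq_one.1 c6
    have hq6 : ∀ i, (x i = 6 ∨ x i = -6) ↔ i = q := by
      intro i
      rw [← m6, hq, Finset.mem_singleton]
    obtain ⟨N, hNdef⟩ : ∃ N : Finset GolayPt, N = Finset.univ.filter (fun i => x i < 0) := ⟨_, rfl⟩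
    have hNmem : ∀ i, i ∈ N ↔ x i < 0 := by
      intro i
      rw [hNdef, Finset.mem_filter]
      simp
    have hNo : N ⊆ D := by
      intro i hi
      rw [hNmem] at hi
      rw [hDmem]
      have := hv6 i
      omega
    have hqD : q ∈ D := by
      rw [hDmem]
      have := (hq6 q).2 rfl
      omega
    have ho : D ∈ octads := ⟨hDg, by rw [hDc, c2, c6]⟩
    have hx : x = lSix D N q := by
      funext i
      unfold lSix lEven
      by_cases hi : i = q
      · rw [if_pos hi]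
        rcases (hq6 i).2 hi with h | h
        · simp [hNmem, hDmem, h]
        · simp [hNmem, hDmem, h]
      · rw [if_neg hi]
        have hn6 : ¬ (x i = 6 ∨ x i = -6) := fun h => hi ((hq6 i).1 h)
        rcases hv6 i with h | h | h | h | h
        · simp [hNmem, hDmem, h]
        · simp [hNmem, hDmem, h]
        · simp [hNmem, hDmem, h]
        · exact absurd (Or.inl h) hn6
        · exact absurd (Or.inr h) hn6
    refine ⟨D, ho, N, hNo, ?_, q, hqD, hx⟩
    have hs := lSix_sum D N hNo q hqD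
    rw [← hx, ho.2] at hs
    rw [hs] at hsum8
    rw [Nat.odd_iff]
    unfold Int.ModEq at hsum8
    push_cast at hsum8
    split_ifs at hsum8 <;> omega

end Cfsg.Agent.Lib.Helper1
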