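import Mathlib
import Cfsg.Prelude.Def_Sporadic_a
import Cfsg.Agent.Lib.Helper1.LeechN8c

/-!
The vectors of sum of squares 64 of the rank-24 lattice: the count (helper1).
-/

namespace Cfsg.Agent.Lib.Helper1

open Cfsg

theorem card_union_kappa {V : Type*} [DecidableEq V] (κ : V → ℤ) (A B : Finset V) (SA : Finset ℤ)
    (hA : ∀ x ∈ A, κ x ∈ SA) (vb : ℤ) (hB : ∀ x ∈ B, κ x = vb) (hv : vb ∉ SA) :
    (A ∪ B).card = A.card + B.card ∧ ∀ x ∈ A ∪ B, κ x ∈ insert vb SA := by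
  constructor
  · apply Finset.card_union_of_disjoint
    rw [Finset.disjoint_left]
    intro x hx hx'
    exact hv (hB x hx' ▸ hA x hx)
  · intro x hx
    rcases Finset.mem_union.1 hx with h | h
    · exact Finset.mem_insert_of_mem (hA x h)
    · rw [hB x h]
      exact Finset.mem_insert_self _ _

theorem lG_prof (dk uk : ℕ) (a : ℤ) (ha : 0 < a) (ha4 : (4 : ℤ) ∣ a) (P : ℕ → Prop)
    (hP : ∀ n : ℕ, P n → 2 * (dk : ℤ) - 4 * n + a * uk ≡ 0 [ZMOD 8])
    (hn : 4 * (dk : ℤ) + a ^ 2 * uk = 64) (x : GolayPt → ℤ)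
    (hx : ∃ D ∈ gSupp, D.card = dk ∧ ∃ N ⊆ D, P N.card ∧ ∃ U : Finset GolayPt,
      U.card = uk ∧ Disjoint U D ∧ ∃ N' ⊆ U, x = lEven 2 D N + lEven a U N') :
    (x ∈ leechSet ∧ sqNorm x = 64) ∧ ∑ i, x i ^ 4 = 16 * dk + a ^ 4 * uk := by
  obtain ⟨D, hD, hDk, N, hN, hPN, U, hUk, hd, N', hN', rfl⟩ := hx
  refine ⟨⟨?_, ?_⟩, ?_⟩
  · apply lG_mem a ha ha4 D N U N' hD hN hN' hd
    have h := hP _ hPN
    rw [hDk, hUk]
    obtain ⟨t, rfl⟩ := ha4
    unfold Int.ModEq at *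
    have e : 2 * (dk : ℤ) - 2 * 2 * N.card + (4 * t * uk - 2 * (4 * t) * N'.card)
        = (2 * (dk : ℤ) - 4 * N.card + 4 * t * uk) + 8 * (-(t * N'.card)) := by ring
    rw [e, Int.add_mul_emod_self_left]
    exact h
  · rw [lG_sqNorm a D N U N' hN hN' hd, hDk, hUk]
    exact hn
  · rw [lG_q4 a D N U N' hN hN' hd, hDk, hUk]

theorem gk8 : ∃ GD : Finset (Finset GolayPt), (∀ D, D ∈ GD ↔ D ∈ gSupp ∧ D.card = 8)
    ∧ GD.card = 759 := by
  classical
  obtain ⟨Of, hOf, hOcard⟩ := exists_blockFinset octads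
  rw [Cfsg.Agent.S0360.result] at hOcard
  exact ⟨Of, fun D => (hOf D).trans Iff.rfl, hOcard.symm⟩

theorem gk12 : ∃ GD : Finset (Finset GolayPt), (∀ D, D ∈ GD ↔ D ∈ gSupp ∧ D.card = 12)
    ∧ GD.card = 2576 := by
  classical
  obtain ⟨Df, hDf, hDcard⟩ := exists_blockFinset dodecads
  rw [Cfsg.Agent.S0361.result] at hDcard
  exact ⟨Df, fun D => (hDf D).trans Iff.rfl, hDcard.symm⟩

theorem gk16 : ∃ GD : Finset (Finset GolayPt), (∀ D, D ∈ GD ↔ D ∈ gSupp ∧ D.card = 16)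
    ∧ GD.card = 759 := by
  classical
  obtain ⟨Of, hOf, hOcard⟩ := gk8
  refine ⟨Of.image compl, ?_, ?_⟩
  · intro D
    rw [Finset.mem_image]
    constructor
    · rintro ⟨o, ho, rfl⟩
      obtain ⟨h1, h2⟩ := (hOf o).1 ho
      refine ⟨gSupp_compl h1, ?_⟩
      rw [Finset.card_compl, h2, ← Finset.card_univ (α := GolayPt), card_univ_golay]
    · rintro ⟨h1, h2⟩
      refine ⟨Dᶜ, (hOf _).2 ⟨gSupp_compl h1, ?_⟩, compl_compl D⟩
      rw [Finset.card_compl, h2, ← Finset.card_univ (α := GolayPt), card_univ_golay]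
  · rw [Finset.card_image_of_injective _ compl_injective, hOcard]

theorem gk0 : ∃ GD : Finset (Finset GolayPt), (∀ D, D ∈ GD ↔ D ∈ gSupp ∧ D.card = 0)
    ∧ GD.card = 1 := by
  classical
  refine ⟨{∅}, ?_, Finset.card_singleton _⟩
  intro D
  rw [Finset.mem_singleton]
  constructor
  · rintro rfl
    exact ⟨gSupp_empty, Finset.card_empty⟩
  · rintro ⟨-, h⟩
    exact Finset.card_eq_zero.1 h

theorem n8_count : {x : GolayPt → ℤ | x ∈ leechSet ∧ sqNorm x = 64}.ncard = 398034000 := by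
  classical
  obtain ⟨GD16, hGD16, c16⟩ := gk16
  obtain ⟨GD12, hGD12, c12⟩ := gk12
  obtain ⟨GD8, hGD8, c8⟩ := gk8
  obtain ⟨GD0, hGD0, c0⟩ := gk0
  obtain ⟨F1, hF1, hA1⟩ := lG_img GD16 16 hGD16 (fun n => Even n) (2 ^ 15)
    (fun D hD => (even_odd_subsets D 15 ((hGD16 D).1 hD).2).1) 4 (by norm_num) (by norm_num) 0
  obtain ⟨F2, hF2, hA2⟩ := lG_img GD12 12 hGD12 (fun n => Odd n) (2 ^ 11)
    (fun D hD => (even_odd_subsets D 11 ((hGD12 D).1 hD).2).2) 4 (by norm_num) (by norm_num) 1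
  obtain ⟨F3, hF3, hA3⟩ := lG_img GD8 8 hGD8 (fun n => Even n) (2 ^ 7)
    (fun D hD => (even_odd_subsets D 7 ((hGD8 D).1 hD).2).1) 4 (by norm_num) (by norm_num) 2
  have hnp0 : ∀ D ∈ GD0, ((D.powerset).filter (fun N => Even N.card)).card = 1 := by
    intro D hD
    rw [Finset.card_eq_zero.1 ((hGD0 D).1 hD).2]
    rfl
  obtain ⟨F4, hF4, hA4⟩ := lG_img GD0 0 hGD0 (fun n => Even n) 1 hnp0 4 (by norm_num)
    (by norm_num) 4
  obtain ⟨F5, hF5, hA5⟩ := lG_img GD0 0 hGD0 (fun n => Even n) 1 hnp0 8 (by norm_num)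
    (by norm_num) 1
  obtain ⟨F6, hF6, hA6⟩ := n8_imgSix
  obtain ⟨F7, hF7, hA7⟩ := lOddT_img 5
  obtain ⟨F8, hF8, hA8⟩ := n8_img53
  have hev : ∀ (c : ℤ), (∀ n : ℕ, Even n → c - 4 * (n : ℤ) ≡ 0 [ZMOD 8]) ↔ c % 8 = 0 := by
    intro c
    constructor
    · intro h
      have := h 0 (by decide)
      unfold Int.ModEq at this
      omega
    · rintro h n ⟨t, rfl⟩
      unfold Int.ModEq
      push_cast
      omega
  have hod : ∀ (c : ℤ), (∀ n : ℕ, Odd n → c - 4 * (n : ℤ) ≡ 0 [ZMOD 8]) ↔ c % 8 = 4 := by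
    intro c
    constructor
    · intro h
      have := h 1 (by decide)
      unfold Int.ModEq at this
      omega
    · rintro h n ⟨t, rfl⟩
      unfold Int.ModEq
      push_cast
      omega
  have p1 : ∀ x ∈ F1, (x ∈ leechSet ∧ sqNorm x = 64) ∧ ∑ i, x i ^ 4 = 256 := by
    intro x hx
    have := lG_prof 16 0 4 (by norm_num) (by norm_num) (fun n => Even n)
      (fun n hn => by
        have := (hev (2 * 16)).2 (by norm_num) n hn
        simpa using this) (by norm_num) x ((hA1 x).1 hx)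
    simpa using this
  have p2 : ∀ x ∈ F2, (x ∈ leechSet ∧ sqNorm x = 64) ∧ ∑ i, x i ^ 4 = 448 := by
    intro x hx
    have := lG_prof 12 1 4 (by norm_num) (by norm_num) (fun n => Odd n)
      (fun n hn => by
        have := (hod (2 * 12 + 4)).2 (by norm_num) n hn
        have e : (2 * 12 + 4 : ℤ) - 4 * n = 2 * ((12 : ℕ) : ℤ) - 4 * n + 4 * ((1 : ℕ) : ℤ) := by
          push_cast; ring
        rw [← e]
        exact this) (by norm_num) x ((hA2 x).1 hx)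
    refine ⟨this.1, ?_⟩
    rw [this.2]
    norm_num
  have p3 : ∀ x ∈ F3, (x ∈ leechSet ∧ sqNorm x = 64) ∧ ∑ i, x i ^ 4 = 640 := by
    intro x hx
    have := lG_prof 8 2 4 (by norm_num) (by norm_num) (fun n => Even n)
      (fun n hn => by
        have := (hev (2 * 8 + 8)).2 (by norm_num) n hn
        have e : (2 * 8 + 8 : ℤ) - 4 * n = 2 * ((8 : ℕ) : ℤ) - 4 * n + 4 * ((2 : ℕ) : ℤ) := by
          push_cast; ring
        rw [← e]
        exact this) (by norm_num) x ((hA3 x).1 hx)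
    refine ⟨this.1, ?_⟩
    rw [this.2]
    norm_num
  have p4 : ∀ x ∈ F4, (x ∈ leechSet ∧ sqNorm x = 64) ∧ ∑ i, x i ^ 4 = 1024 := by
    intro x hx
    have := lG_prof 0 4 4 (by norm_num) (by norm_num) (fun n => Even n)
      (fun n hn => by
        have := (hev (16)).2 (by norm_num) n hn
        have e : (16 : ℤ) - 4 * n = 2 * ((0 : ℕ) : ℤ) - 4 * n + 4 * ((4 : ℕ) : ℤ) := by
          push_cast; ring
        rw [← e]
        exact this) (by norm_num) x ((hA4 x).1 hx)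
    refine ⟨this.1, ?_⟩
    rw [this.2]
    norm_num
  have p5 : ∀ x ∈ F5, (x ∈ leechSet ∧ sqNorm x = 64) ∧ ∑ i, x i ^ 4 = 4096 := by
    intro x hx
    have := lG_prof 0 1 8 (by norm_num) (by norm_num) (fun n => Even n)
      (fun n hn => by
        have := (hev (8)).2 (by norm_num) n hn
        have e : (8 : ℤ) - 4 * n = 2 * ((0 : ℕ) : ℤ) - 4 * n + 8 * ((1 : ℕ) : ℤ) := by
          push_cast; ring
        rw [← e]
        exact this) (by norm_num) x ((hA5 x).1 hx)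
    refine ⟨this.1, ?_⟩
    rw [this.2]
    norm_num
  have p6 : ∀ x ∈ F6, (x ∈ leechSet ∧ sqNorm x = 64) ∧ ∑ i, x i ^ 4 = 1408 := by
    intro x hx
    obtain ⟨o, ho, N, hN, hodd, q, hq, rfl⟩ := (hA6 x).1 hx
    obtain ⟨h1, h2, h3⟩ := lSix_mem o N ho hN hodd q hq
    exact ⟨⟨h1, h2⟩, h3⟩
  have p7 : ∀ x ∈ F7, (x ∈ leechSet ∧ sqNorm x = 64) ∧ ∑ i, x i ^ 4 = 424 := by
    intro x hx
    obtain ⟨c, hc, T, hT, rfl⟩ := (hA7 x).1 hx
    obtain ⟨h1, h2⟩ := lOddT_mem c hc T (by rw [hT]; decide)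
    refine ⟨⟨h1, ?_⟩, ?_⟩
    · rw [h2, hT]
      norm_num
    · rw [lOddT_q4, hT]
      norm_num
  have p8 : ∀ x ∈ F8, (x ∈ leechSet ∧ sqNorm x = 64) ∧ ∑ i, x i ^ 4 = 808 := by
    intro x hx
    obtain ⟨c, hc, i0, T, h0, hT, rfl⟩ := (hA8 x).1 hx
    obtain ⟨h1, h2, h3⟩ := lOdd53_mem c hc i0 T h0 hT
    exact ⟨⟨h1, h2⟩, h3⟩
  have hset : {x : GolayPt → ℤ | x ∈ leechSet ∧ sqNorm x = 64}
      = ↑(F1 ∪ F2 ∪ F3 ∪ F4 ∪ F5 ∪ F6 ∪ F7 ∪ F8) := by
    ext x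
    simp only [Finset.coe_union, Set.mem_union, Finset.mem_coe, Set.mem_setOf_eq]
    constructor
    · rintro ⟨hx, h64⟩
      obtain ⟨m, h1, h2, h3⟩ := hx
      unfold sqNorm at h64
      rcases Int.emod_two_eq_zero_or_one m with hm | hm
      · rcases leech_n8_even x m h1 h2 h3 h64 hm with
          ⟨D, hDg, N, hN, a, U, hd, N', hN', hx, hc⟩ | h
        · rcases hc with ⟨e1, e2, e3, e4⟩ | ⟨e1, e2, e3, e4⟩ | ⟨e1, e2, e3, e4⟩
            | ⟨e1, e2, e3, e4⟩ | ⟨e1, e2, e3, e4⟩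
          · subst e2
            exact Or.inl (Or.inl (Or.inl (Or.inl (Or.inl (Or.inl (Or.inl
              ((hA1 x).2 ⟨D, hDg, e1, N, hN, e4, U, e3, hd, N', hN', hx⟩)))))))
          · subst e2
            exact Or.inl (Or.inl (Or.inl (Or.inl (Or.inl (Or.inl (Or.inr
              ((hA2 x).2 ⟨D, hDg, e1, N, hN, e4, U, e3, hd, N', hN', hx⟩)))))))
          · subst e2
            exact Or.inl (Or.inl (Or.inl (Or.inl (Or.inl (Or.inr
              ((hA3 x).2 ⟨D, hDg, e1, N, hN, e4, U, e3, hd, N', hN', hx⟩))))))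
          · subst e2
            exact Or.inl (Or.inl (Or.inl (Or.inl (Or.inr
              ((hA4 x).2 ⟨D, hDg, e1, N, hN, e4, U, e3, hd, N', hN', hx⟩)))))
          · subst e2
            exact Or.inl (Or.inl (Or.inl (Or.inr
              ((hA5 x).2 ⟨D, hDg, e1, N, hN, e4, U, e3, hd, N', hN', hx⟩))))
        · exact Or.inl (Or.inl (Or.inr ((hA6 x).2 h)))
      · rcases leech_n8_odd x m h1 h3 h64 hm with h | h
        · exact Or.inl (Or.inr ((hA7 x).2 h))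
        · exact Or.inr ((hA8 x).2 h)
    · rintro (((((((h | h) | h) | h) | h) | h) | h) | h)
      · exact (p1 x h).1
      · exact (p2 x h).1
      · exact (p3 x h).1
      · exact (p4 x h).1
      · exact (p5 x h).1
      · exact (p6 x h).1
      · exact (p7 x h).1
      · exact (p8 x h).1
  obtain ⟨κ, hκ⟩ : ∃ κ : (GolayPt → ℤ) → ℤ, κ = fun x => ∑ i, x i ^ 4 := ⟨_, rfl⟩
  have q1 : ∀ x ∈ F1, κ x ∈ ({256} : Finset ℤ) := by
    intro x hx
    rw [Finset.mem_singleton, hκ]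
    exact (p1 x hx).2
  obtain ⟨u2, k2⟩ := card_union_kappa κ F1 F2 _ q1 448
    (fun x hx => by rw [hκ]; exact (p2 x hx).2) (by decide)
  obtain ⟨u3, k3⟩ := card_union_kappa κ _ F3 _ k2 640
    (fun x hx => by rw [hκ]; exact (p3 x hx).2) (by decide)
  obtain ⟨u4, k4⟩ := card_union_kappa κ _ F4 _ k3 1024
    (fun x hx => by rw [hκ]; exact (p4 x hx).2) (by decide)
  obtain ⟨u5, k5⟩ := card_union_kappa κ _ F5 _ k4 4096
    (fun x hx => by rw [hκ]; exact (p5 x hx).2) (by decide)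
  obtain ⟨u6, k6⟩ := card_union_kappa κ _ F6 _ k5 1408
    (fun x hx => by rw [hκ]; exact (p6 x hx).2) (by decide)
  obtain ⟨u7, k7⟩ := card_union_kappa κ _ F7 _ k6 424
    (fun x hx => by rw [hκ]; exact (p7 x hx).2) (by decide)
  obtain ⟨u8, k8⟩ := card_union_kappa κ _ F8 _ k7 808
    (fun x hx => by rw [hκ]; exact (p8 x hx).2) (by decide)
  rw [hset, Set.ncard_coe_finset, u8, u7, u6, u5, u4, u3, u2, hF1, hF2, hF3, hF4, hF5, hF6, hF7,
    hF8, c16, c12, c8, c0]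
  decide

end Cfsg.Agent.Lib.Helper1
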