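import Mathlib
import Cfsg.Prelude.Def_Sporadic_a
import Cfsg.Agent.Lib.Helper1.LeechDesign1
import Cfsg.Agent.Lib.Helper1.LeechN8d
import Cfsg.Agent.Lib.Helper1.LeechMin2
import Cfsg.Agent.Lib.Helper1.M24Fix5
import Cfsg.Agent.Lib.Helper1.M24Sets

/-!
The minimal vectors of the rank-24 lattice: second and fourth moments (helper1).
-/

namespace Cfsg.Agent.Lib.Helper1

open Cfsg

theorem exists_octad_avoid (i : GolayPt) (X : Finset GolayPt) (hX : X.card ≤ 3) (hi : i ∉ X) :
    ∃ c ∈ gSupp, i ∈ c ∧ Disjoint c X := by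
  classical
  obtain ⟨Bf, hBf, -⟩ := exists_blockFinset octads
  have h1 := octads_through {i} (by simp) Bf hBf
  rw [Finset.card_singleton] at h1
  have h253 : (Bf.filter (fun o => {i} ⊆ o)).card = 253 := by
    have e1 : Nat.choose (8 - 1) (5 - 1) = 35 := by decide
    have e2 : Nat.choose (24 - 1) (5 - 1) = 8855 := by decide
    rw [e1, e2] at h1
    omega
  have h77 : ∀ j ∈ X, (Bf.filter (fun o => {i, j} ⊆ o)).card = 77 := by
    intro j hj
    have hij : i ≠ j := fun h => hi (h ▸ hj)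
    have h2 := octads_through {i, j} (by rw [Finset.card_pair hij]; norm_num) Bf hBf
    rw [Finset.card_pair hij] at h2
    have e1 : Nat.choose (8 - 2) (5 - 2) = 20 := by decide
    have e2 : Nat.choose (24 - 2) (5 - 2) = 1540 := by decide
    rw [e1, e2] at h2
    omega
  have hbad : (X.biUnion (fun j => Bf.filter (fun o => {i, j} ⊆ o))).card ≤ 231 := by
    calc (X.biUnion (fun j => Bf.filter (fun o => {i, j} ⊆ o))).card
        ≤ ∑ j ∈ X, (Bf.filter (fun o => {i, j} ⊆ o)).card := Finset.card_biUnion_le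
      _ = ∑ j ∈ X, 77 := Finset.sum_congr rfl h77
      _ = X.card * 77 := by rw [Finset.sum_const, smul_eq_mul]
      _ ≤ 231 := by omega
  have hne : ((Bf.filter (fun o => {i} ⊆ o))
      \ (X.biUnion (fun j => Bf.filter (fun o => {i, j} ⊆ o)))).Nonempty := by
    rw [← Finset.card_pos]
    have := Finset.le_card_sdiff (X.biUnion (fun j => Bf.filter (fun o => {i, j} ⊆ o)))
      (Bf.filter (fun o => {i} ⊆ o))
    omega
  obtain ⟨o, ho⟩ := hne
  rw [Finset.mem_sdiff, Finset.mem_filter, Finset.mem_biUnion] at ho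
  obtain ⟨⟨hoB, hio⟩, hnot⟩ := ho
  have hoo := (hBf o).1 hoB
  refine ⟨o, hoo.1, Finset.singleton_subset_iff.1 hio, ?_⟩
  rw [Finset.disjoint_left]
  intro j hjo hjX
  apply hnot
  refine ⟨j, hjX, Finset.mem_filter.2 ⟨hoB, ?_⟩⟩
  intro a ha
  rcases Finset.mem_insert.1 ha with rfl | ha
  · exact Finset.singleton_subset_iff.1 hio
  · rw [Finset.mem_singleton] at ha
    rw [ha]
    exact hjo

theorem lG_prof' (n : ℤ) (dk uk : ℕ) (a : ℤ) (ha : 0 < a) (ha4 : (4 : ℤ) ∣ a) (P : ℕ → Prop)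
    (hP : ∀ n : ℕ, P n → 2 * (dk : ℤ) - 4 * n + a * uk ≡ 0 [ZMOD 8])
    (hn : 4 * (dk : ℤ) + a ^ 2 * uk = n) (x : GolayPt → ℤ)
    (hx : ∃ D ∈ gSupp, D.card = dk ∧ ∃ N ⊆ D, P N.card ∧ ∃ U : Finset GolayPt,
      U.card = uk ∧ Disjoint U D ∧ ∃ N' ⊆ U, x = lEven 2 D N + lEven a U N') :
    (x ∈ leechSet ∧ sqNorm x = n) ∧ ∑ i, x i ^ 4 = 16 * dk + a ^ 4 * uk := by
  obtain ⟨D, hD, hDk, N, hN, hPN, U, hUk, hd, N', hN', rfl⟩ := hx
  refine ⟨⟨?_, ?_⟩, ?_⟩
  · apply lG_mem a ha ha4 D N U N' hD hN hN' hd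
    have h := hP _ hPN
    rw [hDk, hUk]
    obtain ⟨t, rfl⟩ := ha4
    unfold Int.ModEq at *
    have e : 2 * (dk : ℤ) - 2 * 2 * N.card + (4 * t * uk - 2 * (4 * t) * N'.card)
        = (2 * (dk : ℤ) - 4 * N.card + 4 * t * uk) + 8 * (-(t * N'.card)) := by ring
    rw [e, Int.add_mul_emod_self_left]
    exact h
  · rw [lG_sqNorm a D N U N' hN hN' hd, hDk, hUk]
    exact hn
  · rw [lG_q4 a D N U N' hN hN' hd, hDk, hUk]

theorem exists_min : ∃ Min : Finset (GolayPt → ℤ),
    (∀ w, w ∈ Min ↔ w ∈ leechSet ∧ sqNorm w = 32) ∧ Min.card = 196560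
      ∧ ∑ w ∈ Min, ∑ i, w i ^ 4 = 23224320 := by
  classical
  obtain ⟨GD8, hGD8, c8⟩ := gk8
  obtain ⟨GD0, hGD0, c0⟩ := gk0
  have hnp0 : ∀ D ∈ GD0, ((D.powerset).filter (fun N => Even N.card)).card = 1 := by
    intro D hD
    rw [Finset.card_eq_zero.1 ((hGD0 D).1 hD).2]
    rfl
  obtain ⟨F1, hF1, hA1⟩ := lG_img GD0 0 hGD0 (fun n => Even n) 1 hnp0 4 (by norm_num)
    (by norm_num) 2
  obtain ⟨F2, hF2, hA2⟩ := lG_img GD8 8 hGD8 (fun n => Even n) (2 ^ 7)
    (fun D hD => (even_odd_subsets D 7 ((hGD8 D).1 hD).2).1) 4 (by norm_num) (by norm_num) 0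
  obtain ⟨F3, hF3, hA3⟩ := lOddT_img 1
  have hev : ∀ (c : ℤ), c % 8 = 0 → ∀ n : ℕ, Even n → c - 4 * (n : ℤ) ≡ 0 [ZMOD 8] := by
    rintro c h n ⟨t, rfl⟩
    unfold Int.ModEq
    push_cast
    omega
  have p1 : ∀ x ∈ F1, (x ∈ leechSet ∧ sqNorm x = 32) ∧ ∑ i, x i ^ 4 = 512 := by
    intro x hx
    have := lG_prof' 32 0 2 4 (by norm_num) (by norm_num) (fun n => Even n)
      (fun n hn => by
        have := hev 8 (by norm_num) n hn
        have e : (8 : ℤ) - 4 * n = 2 * ((0 : ℕ) : ℤ) - 4 * n + 4 * ((2 : ℕ) : ℤ) := by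
          push_cast; ring
        rw [← e]
        exact this) (by norm_num) x ((hA1 x).1 hx)
    refine ⟨this.1, ?_⟩
    rw [this.2]
    norm_num
  have p2 : ∀ x ∈ F2, (x ∈ leechSet ∧ sqNorm x = 32) ∧ ∑ i, x i ^ 4 = 128 := by
    intro x hx
    have := lG_prof' 32 8 0 4 (by norm_num) (by norm_num) (fun n => Even n)
      (fun n hn => by
        have := hev 16 (by norm_num) n hn
        have e : (16 : ℤ) - 4 * n = 2 * ((8 : ℕ) : ℤ) - 4 * n + 4 * ((0 : ℕ) : ℤ) := by
          push_cast; ring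
        rw [← e]
        exact this) (by norm_num) x ((hA2 x).1 hx)
    refine ⟨this.1, ?_⟩
    rw [this.2]
    norm_num
  have p3 : ∀ x ∈ F3, (x ∈ leechSet ∧ sqNorm x = 32) ∧ ∑ i, x i ^ 4 = 104 := by
    intro x hx
    obtain ⟨c, hc, T, hT, rfl⟩ := (hA3 x).1 hx
    obtain ⟨h1, h2⟩ := lOddT_mem c hc T (by rw [hT]; decide)
    refine ⟨⟨h1, ?_⟩, ?_⟩
    · rw [h2, hT]
      norm_num
    · rw [lOddT_q4, hT]
      norm_num
  have d12 : Disjoint F1 F2 := by
    rw [Finset.disjoint_left]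
    intro x h1 h2
    have := (p1 x h1).2
    rw [(p2 x h2).2] at this
    norm_num at this
  have d3 : Disjoint (F1 ∪ F2) F3 := by
    rw [Finset.disjoint_left]
    intro x h h3
    have h' := (p3 x h3).2
    rcases Finset.mem_union.1 h with h1 | h2
    · rw [(p1 x h1).2] at h'
      norm_num at h'
    · rw [(p2 x h2).2] at h'
      norm_num at h'
  have hmem : ∀ w, w ∈ F1 ∪ F2 ∪ F3 ↔ w ∈ leechSet ∧ sqNorm w = 32 := by
    intro w
    rw [Finset.mem_union, Finset.mem_union]
    constructor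
    · rintro ((h | h) | h)
      · exact (p1 w h).1
      · exact (p2 w h).1
      · exact (p3 w h).1
    · rintro ⟨hw, h32⟩
      rcases leech_min_cases w hw h32 with ⟨c, hc, i0, rfl⟩ | ⟨o, ho, N, hN, hev', rfl⟩
        | ⟨U, N, hU, hN, rfl⟩
      · right
        refine (hA3 _).2 ⟨c, hc, {i0}, Finset.card_singleton _, ?_⟩
        funext i
        unfold lOdd lOddT
        simp only [Finset.mem_singleton]
      · left; right
        refine (hA2 _).2 ⟨o, ho.1, ho.2, N, hN, hev', ∅, Finset.card_empty,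
          Finset.disjoint_empty_left _, ∅, Finset.Subset.refl _, ?_⟩
        funext i
        simp [lEven]
      · left; left
        refine (hA1 _).2 ⟨∅, gSupp_empty, Finset.card_empty, ∅, Finset.Subset.refl _,
          ⟨0, rfl⟩, U, hU, Finset.disjoint_empty_right _, N, hN, ?_⟩
        funext i
        simp [lEven]
  refine ⟨F1 ∪ F2 ∪ F3, hmem, ?_, ?_⟩
  · have hs : {x : GolayPt → ℤ | x ∈ leechSet ∧ sqNorm x = 32} = ↑(F1 ∪ F2 ∪ F3) := by
      ext w
      rw [Finset.mem_coe, hmem]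
      rfl
    have := leech_min_count
    rw [hs, Set.ncard_coe_finset] at this
    exact this
  · rw [Finset.sum_union d3, Finset.sum_union d12,
      Finset.sum_congr rfl (fun x hx => (p1 x hx).2),
      Finset.sum_congr rfl (fun x hx => (p2 x hx).2),
      Finset.sum_congr rfl (fun x hx => (p3 x hx).2),
      Finset.sum_const, Finset.sum_const, Finset.sum_const, hF1, hF2, hF3, c0, c8]
    decide

theorem M4_formula (Min : Finset (GolayPt → ℤ)) (B : ℤ)
    (hD4 : ∀ i, ∑ w ∈ Min, (w i * w i) * (w i * w i) = 3 * B)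
    (hE : ∀ i k, i ≠ k → ∑ w ∈ Min, (w i * w i) * (w k * w k) = B)
    (hV2 : ∀ i k l, k ≠ l → ∑ w ∈ Min, (w i * w i) * (w k * w l) = 0)
    (hV1 : ∀ i j k l, i ≠ j → i ≠ k → i ≠ l → ∑ w ∈ Min, (w i * w j) * (w k * w l) = 0)
    (i j k l : GolayPt) :
    ∑ w ∈ Min, (w i * w j) * (w k * w l)
      = B * ((if i = j ∧ k = l then 1 else 0) + (if i = k ∧ j = l then 1 else 0)
        + (if i = l ∧ j = k then 1 else 0)) := by
  by_cases hij : i = j
  · subst hij
    by_cases hkl : k = l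
    · subst hkl
      by_cases hik : i = k
      · subst hik
        rw [hD4]
        simp
        ring
      · rw [hE i k hik]
        simp [hik]
    · rw [hV2 i k l hkl]
      have h1 : ¬ (i = k ∧ i = l) := fun h => hkl (h.1.symm.trans h.2)
      have h2 : ¬ (i = l ∧ i = k) := fun h => hkl (h.2.symm.trans h.1)
      rw [if_neg (fun h => hkl h.2), if_neg h1, if_neg h2]
      ring
  · by_cases hik : i = k
    · subst hik
      by_cases hjl : j = l
      · subst hjl
        rw [Finset.sum_congr rfl (fun w _ =>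
          (by ring : (w i * w j) * (w i * w j) = (w i * w i) * (w j * w j))), hE i j hij]
        rw [if_neg (fun h => hij h.1), if_pos ⟨rfl, rfl⟩, if_neg (fun h => hij h.1)]
        ring
      · rw [Finset.sum_congr rfl (fun w _ =>
          (by ring : (w i * w j) * (w i * w l) = (w i * w i) * (w j * w l))), hV2 i j l hjl]
        rw [if_neg (fun h => hij h.1), if_neg (fun h => hjl h.2), if_neg (fun h => hij h.2.symm)]
        ring
    · by_cases hil : i = l
      · subst hil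
        by_cases hjk : j = k
        · subst hjk
          rw [Finset.sum_congr rfl (fun w _ =>
            (by ring : (w i * w j) * (w j * w i) = (w i * w i) * (w j * w j))), hE i j hij]
          rw [if_neg (fun h => hij h.1), if_pos ⟨rfl, rfl⟩]
          ring
        · rw [Finset.sum_congr rfl (fun w _ =>
            (by ring : (w i * w j) * (w k * w i) = (w i * w i) * (w j * w k))), hV2 i j k hjk]
          rw [if_neg (fun h => hij h.1), if_neg (fun h => hik h.1), if_neg (fun h => hjk h.2)]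
          ring
      · rw [hV1 i j k l hij hik hil]
        rw [if_neg (fun h => hij h.1), if_neg (fun h => hik h.1), if_neg (fun h => hil h.1)]
        ring

end Cfsg.Agent.Lib.Helper1
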