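import Mathlib
import Cfsg.Prelude.Def_Sporadic_a
import Cfsg.Agent.Lib.Helper1.LeechN6c

/-!
The rank-24 lattice has index 2^36 in the lattice of all integer vectors (helper1).
-/

namespace Cfsg.Agent.Lib.Helper1

open Cfsg

/-- Coordinatewise reduction modulo `n`. -/
def redHom (n : ℕ) : (GolayPt → ℤ) →+ (GolayPt → ZMod n) :=
  AddMonoidHom.compLeft (Int.castAddHom (ZMod n)) GolayPt

theorem redHom_apply (n : ℕ) (x : GolayPt → ℤ) (i : GolayPt) : redHom n x i = (x i : ZMod n) :=
  rfl

/-- Parity of the coordinate at `i0`. -/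
def par0 (i0 : GolayPt) : (GolayPt → ℤ) →+ ZMod 2 :=
  (Int.castAddHom (ZMod 2)).comp (Pi.evalAddMonoidHom (fun _ => ℤ) i0)

theorem par0_apply (i0 : GolayPt) (x : GolayPt → ℤ) : par0 i0 x = (x i0 : ZMod 2) := rfl

theorem leech_mem4 (x : GolayPt → ℤ) (h4 : ∀ i, x i ≡ 0 [ZMOD 4]) (h8 : ∑ i, x i ≡ 0 [ZMOD 8]) :
    x ∈ leechSet := by
  apply leech_mem_of x 0
  · intro i
    have := h4 i
    unfold Int.ModEq at *
    omega
  · simpa using h8
  · intro k hk0 hk4
    by_cases hk : k = 0
    · subst hk
      have : (Finset.univ.filter fun i => x i ≡ 0 [ZMOD 4]) = Finset.univ := by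
        ext i
        simp [h4 i]
      rw [this]
      exact gSupp_univ
    · have : (Finset.univ.filter fun i => x i ≡ k [ZMOD 4]) = ∅ := by
        ext i
        simp only [Finset.mem_filter, Finset.mem_univ, true_and, Finset.notMem_empty, iff_false]
        intro h
        have := h4 i
        unfold Int.ModEq at *
        omega
      rw [this]
      exact gSupp_empty

theorem leech_sum8 (x : GolayPt → ℤ) (hx : x ∈ leechSet) (h4 : ∀ i, x i ≡ 0 [ZMOD 4]) :
    ∑ i, x i ≡ 0 [ZMOD 8] := by
  obtain ⟨i0⟩ : Nonempty GolayPt := inferInstance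
  obtain ⟨m, h1, h2, -⟩ := hx
  have := h1 i0
  have := h4 i0
  unfold Int.ModEq at *
  omega

theorem card_fun_zmod8 : Nat.card (GolayPt → ZMod 8) = 8 ^ 24 := by
  rw [Nat.card_eq_fintype_card, Fintype.card_fun, ZMod.card, ← Finset.card_univ (α := GolayPt),
    card_univ_golay]

theorem redHom8_index : (redHom 8).ker.index = 8 ^ 24 := by
  rw [AddSubgroup.index_ker]
  have : (redHom 8).range = ⊤ := by
    rw [AddMonoidHom.range_eq_top]
    intro r
    refine ⟨fun i => ((r i).val : ℤ), ?_⟩
    funext i
    rw [redHom_apply]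
    simp
  rw [this, AddSubgroup.card_top, card_fun_zmod8]

theorem leech_index : leechSub.index = 2 ^ 36 := by
  classical
  obtain ⟨i0⟩ : Nonempty GolayPt := inferInstance
  obtain ⟨L2, hL2⟩ : ∃ L2 : AddSubgroup (GolayPt → ℤ), L2 = leechSub ⊓ (par0 i0).ker := ⟨_, rfl⟩
  obtain ⟨L4, hL4⟩ : ∃ L4 : AddSubgroup (GolayPt → ℤ), L4 = L2 ⊓ (redHom 4).ker := ⟨_, rfl⟩
  have m1 : ∀ x, x ∈ L2 ↔ x ∈ leechSet ∧ ∀ i, x i ≡ 0 [ZMOD 2] := by
    intro x
    rw [hL2, AddSubgroup.mem_inf, AddMonoidHom.mem_ker, par0_apply,
      ZMod.intCast_zmod_eq_zero_iff_dvd]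
    constructor
    · rintro ⟨h1, h2⟩
      refine ⟨h1, fun i => ?_⟩
      obtain ⟨m, h3, -, -⟩ := h1
      have := h3 i
      have := h3 i0
      unfold Int.ModEq at *
      omega
    · rintro ⟨h1, h2⟩
      refine ⟨h1, ?_⟩
      have := h2 i0
      unfold Int.ModEq at *
      omega
  have m2 : ∀ x, x ∈ L4 ↔ x ∈ leechSet ∧ ∀ i, x i ≡ 0 [ZMOD 4] := by
    intro x
    rw [hL4, AddSubgroup.mem_inf, AddMonoidHom.mem_ker, m1]
    constructor
    · rintro ⟨⟨h1, -⟩, h2⟩
      refine ⟨h1, fun i => ?_⟩
      have := congrFun h2 i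
      rw [redHom_apply, Pi.zero_apply, ZMod.intCast_zmod_eq_zero_iff_dvd] at this
      unfold Int.ModEq
      omega
    · rintro ⟨h1, h2⟩
      refine ⟨⟨h1, fun i => ?_⟩, ?_⟩
      · have := h2 i
        unfold Int.ModEq at *
        omega
      · funext i
        rw [redHom_apply, Pi.zero_apply, ZMod.intCast_zmod_eq_zero_iff_dvd]
        have := h2 i
        unfold Int.ModEq at *
        omega
  have m3 : ∀ x, x ∈ (redHom 8).ker ↔ ∀ i, x i ≡ 0 [ZMOD 8] := by
    intro x
    rw [AddMonoidHom.mem_ker]
    constructor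
    · intro h2 i
      have := congrFun h2 i
      rw [redHom_apply, Pi.zero_apply, ZMod.intCast_zmod_eq_zero_iff_dvd] at this
      unfold Int.ModEq
      omega
    · intro h2
      funext i
      rw [redHom_apply, Pi.zero_apply, ZMod.intCast_zmod_eq_zero_iff_dvd]
      have := h2 i
      unfold Int.ModEq at *
      omega
  have hK8 : (redHom 8).ker ≤ L4 := by
    intro x hx
    rw [m3] at hx
    rw [m2]
    have h4 : ∀ i, x i ≡ 0 [ZMOD 4] := by
      intro i
      have := hx i
      unfold Int.ModEq at *
      omega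
    refine ⟨leech_mem4 x h4 ?_, h4⟩
    have : (8 : ℤ) ∣ ∑ i, x i := Finset.dvd_sum (fun i _ => by
      have := hx i
      unfold Int.ModEq at this
      omega)
    unfold Int.ModEq
    omega
  -- first relative index
  have c1 : (par0 i0).ker.relIndex leechSub = 2 := by
    rw [AddSubgroup.relIndex_ker]
    have : leechSub.map (par0 i0) = ⊤ := by
      rw [AddSubgroup.eq_top_iff']
      intro a
      have h0 : (0 : ZMod 2) ∈ leechSub.map (par0 i0) := AddSubgroup.zero_mem _
      have h1 : (1 : ZMod 2) ∈ leechSub.map (par0 i0) := by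
        refine ⟨lOdd ∅ i0, (lOdd_mem ∅ gSupp_empty i0).1, ?_⟩
        rw [par0_apply]
        simp [lOdd]
        decide
      fin_cases a
      · exact h0
      · exact h1
    rw [this, AddSubgroup.card_top, Nat.card_zmod]
  -- second relative index
  have c2 : (redHom 4).ker.relIndex L2 = 4096 := by
    rw [AddSubgroup.relIndex_ker]
    obtain ⟨g2, hg2⟩ : ∃ g2 : Finset GolayPt → (GolayPt → ZMod 4),
        g2 = fun D i => if i ∈ D then 2 else 0 := ⟨_, rfl⟩
    have hinj : Function.Injective g2 := by
      intro D D' h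
      ext i
      have := congrFun h i
      rw [hg2] at this
      simp only at this
      by_cases h1 : i ∈ D <;> by_cases h2 : i ∈ D' <;> simp only [h1, h2, if_true, if_false] at this
        <;> simp only [h1, h2]
      · exact absurd this (by decide)
      · exact absurd this (by decide)
    have himg : ((L2.map (redHom 4) : AddSubgroup (GolayPt → ZMod 4)) : Set (GolayPt → ZMod 4))
        = g2 '' gSupp := by
      ext r
      constructor
      · rintro ⟨x, hx, rfl⟩
        obtain ⟨hx1, hx2⟩ := (m1 x).1 hx
        refine ⟨Finset.univ.filter fun i => x i ≡ 2 [ZMOD 4], ?_, ?_⟩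
        · obtain ⟨m, -, -, h3⟩ := hx1
          exact h3 2
        · funext i
          rw [hg2, redHom_apply]
          simp only [Finset.mem_filter, Finset.mem_univ, true_and]
          by_cases h : x i ≡ 2 [ZMOD 4]
          · rw [if_pos h]
            exact_mod_cast ((ZMod.intCast_eq_intCast_iff (x i) 2 4).2 h).symm
          · rw [if_neg h]
            have h0 : x i ≡ 0 [ZMOD 4] := by
              have := hx2 i
              unfold Int.ModEq at *
              omega
            exact_mod_cast ((ZMod.intCast_eq_intCast_iff (x i) 0 4).2 h0).symm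
      · rintro ⟨D, hD, rfl⟩
        have hw : lOdd D i0 - lOdd ∅ i0 ∈ leechSet :=
          leechSub.sub_mem (lOdd_mem D hD i0).1 (lOdd_mem ∅ gSupp_empty i0).1
        have hcl : ∀ i, (i ∈ D → (lOdd D i0 - lOdd ∅ i0) i ≡ 2 [ZMOD 4]) ∧
            (i ∉ D → (lOdd D i0 - lOdd ∅ i0) i ≡ 0 [ZMOD 4]) := by
          intro i
          have hc1 := lOdd_cls D i0 i
          have hc3 : lOdd ∅ i0 i ≡ 3 [ZMOD 4] := (lOdd_cls ∅ i0 i).2.1.2 (by simp)
          simp only [Pi.sub_apply]
          constructor
          · intro hd
            have h6 := hc1.1.2 hd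
            unfold Int.ModEq at *
            omega
          · intro hd
            have h6 := hc1.2.1.2 hd
            unfold Int.ModEq at *
            omega
        refine ⟨lOdd D i0 - lOdd ∅ i0, (m1 _).2 ⟨hw, fun i => ?_⟩, ?_⟩
        · by_cases hd : i ∈ D
          · have := (hcl i).1 hd
            unfold Int.ModEq at *
            omega
          · have := (hcl i).2 hd
            unfold Int.ModEq at *
            omega
        · funext i
          rw [hg2, redHom_apply]
          simp only
          by_cases hd : i ∈ D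
          · rw [if_pos hd]
            exact_mod_cast (ZMod.intCast_eq_intCast_iff _ 2 4).2 ((hcl i).1 hd)
          · rw [if_neg hd]
            exact_mod_cast (ZMod.intCast_eq_intCast_iff _ 0 4).2 ((hcl i).2 hd)
    have h2 : Nat.card ↥(L2.map (redHom 4))
        = ((L2.map (redHom 4) : AddSubgroup (GolayPt → ZMod 4)) : Set (GolayPt → ZMod 4)).ncard :=
      Nat.card_coe_set_eq _
    rw [h2, himg, Set.ncard_image_of_injective _ hinj, gSupp_ncard]
  -- third relative index
  have c3 : (redHom 8).ker.relIndex L4 = 2 ^ 23 := by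
    rw [AddSubgroup.relIndex_ker]
    obtain ⟨g3, hg3⟩ : ∃ g3 : Finset GolayPt → (GolayPt → ZMod 8),
        g3 = fun D i => if i ∈ D then 4 else 0 := ⟨_, rfl⟩
    have hinj : Function.Injective g3 := by
      intro D D' h
      ext i
      have := congrFun h i
      rw [hg3] at this
      simp only at this
      by_cases h1 : i ∈ D <;> by_cases h2 : i ∈ D' <;> simp only [h1, h2, if_true, if_false] at this
        <;> simp only [h1, h2]
      · exact absurd this (by decide)
      · exact absurd this (by decide)
    have himg : ((L4.map (redHom 8) : AddSubgroup (GolayPt → ZMod 8)) : Set (GolayPt → ZMod 8))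
        = g3 '' (((Finset.univ : Finset GolayPt).powerset.filter (fun N => Even N.card) :
          Finset (Finset GolayPt)) : Set (Finset GolayPt)) := by
      ext r
      constructor
      · rintro ⟨x, hx, rfl⟩
        obtain ⟨hx1, hx2⟩ := (m2 x).1 hx
        have hval : ∀ i, (x i : ZMod 8) = if x i ≡ 4 [ZMOD 8] then 4 else 0 := by
          intro i
          by_cases h : x i ≡ 4 [ZMOD 8]
          · rw [if_pos h]
            exact_mod_cast ((ZMod.intCast_eq_intCast_iff (x i) 4 8).2 h)
          · rw [if_neg h]
            have h0 : x i ≡ 0 [ZMOD 8] := by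
              have := hx2 i
              unfold Int.ModEq at *
              omega
            exact_mod_cast ((ZMod.intCast_eq_intCast_iff (x i) 0 8).2 h0)
        refine ⟨Finset.univ.filter fun i => x i ≡ 4 [ZMOD 8], ?_, ?_⟩
        · rw [Finset.mem_coe, Finset.mem_filter]
          refine ⟨Finset.mem_powerset.2 (Finset.subset_univ _), ?_⟩
          have h8 := leech_sum8 x hx1 hx2
          have hs : ∑ i, x i ≡ ∑ i, (if x i ≡ 4 [ZMOD 8] then (4 : ℤ) else 0) [ZMOD 8] := by
            refine (ZMod.intCast_eq_intCast_iff _ _ 8).1 ?_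
            push_cast
            refine Finset.sum_congr rfl (fun i _ => ?_)
            rw [hval i]
          have hs2 : ∑ i : GolayPt, (if x i ≡ 4 [ZMOD 8] then (4 : ℤ) else 0)
              = 4 * ((Finset.univ.filter fun i => x i ≡ 4 [ZMOD 8]).card : ℤ) := by
            rw [← sum_ite_const]
            refine Finset.sum_congr rfl (fun i _ => ?_)
            simp
          rw [hs2] at hs
          rw [Nat.even_iff]
          unfold Int.ModEq at *
          omega
        · funext i
          rw [hg3, redHom_apply, hval i]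
          simp
      · rintro ⟨S, hS, rfl⟩
        rw [Finset.mem_coe, Finset.mem_filter] at hS
        obtain ⟨-, hev⟩ := hS
        have h4 : ∀ i, (if i ∈ S then (4 : ℤ) else 0) ≡ 0 [ZMOD 4] := by
          intro i
          split_ifs <;> decide
        refine ⟨fun i => if i ∈ S then 4 else 0, (m2 _).2 ⟨leech_mem4 _ h4 ?_, h4⟩, ?_⟩
        · rw [sum_ite_const]
          obtain ⟨t, ht⟩ := hev
          rw [ht]
          push_cast
          unfold Int.ModEq
          omega
        · funext i
          rw [hg3, redHom_apply]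
          simp only
          split_ifs <;> simp
    have h2 : Nat.card ↥(L4.map (redHom 8))
        = ((L4.map (redHom 8) : AddSubgroup (GolayPt → ZMod 8)) : Set (GolayPt → ZMod 8)).ncard :=
      Nat.card_coe_set_eq _
    rw [h2, himg, Set.ncard_image_of_injective _ hinj, Set.ncard_coe_finset,
      (even_odd_subsets Finset.univ 23 card_univ_golay).1]
  have e1 : L2.relIndex leechSub = 2 := by
    rw [hL2, AddSubgroup.inf_relIndex_left]
    exact c1
  have e2 : L4.relIndex L2 = 4096 := by
    rw [hL4, AddSubgroup.inf_relIndex_left]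
    exact c2
  have hL42 : L4 ≤ L2 := by
    rw [hL4]
    exact inf_le_left
  have hL2L : L2 ≤ leechSub := by
    rw [hL2]
    exact inf_le_left
  have t1 := AddSubgroup.relIndex_mul_relIndex (redHom 8).ker L4 L2 hK8 hL42
  have t2 := AddSubgroup.relIndex_mul_relIndex (redHom 8).ker L2 leechSub (hK8.trans hL42) hL2L
  have t3 := AddSubgroup.relIndex_mul_index (H := (redHom 8).ker) (K := leechSub)
    ((hK8.trans hL42).trans hL2L)
  rw [← t2, ← t1, c3, e2, e1, redHom8_index] at t3
  omega

end Cfsg.Agent.Lib.Helper1
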