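import Mathlib
import Cfsg.Prelude.Def_Sporadic_a
import Cfsg.Prelude.Def_SporadicCombinatorics
import Cfsg.Agent.Lib.Helper1.LeechAut
import Cfsg.Agent.Lib.Helper1.LeechIdx

/-!
The monomial automorphisms of the rank-24 lattice (helper1).
-/

namespace Cfsg.Agent.Lib.Helper1

open Cfsg
open scoped Pointwise

theorem signedPerm_add (σ : Equiv.Perm GolayPt) (c : Finset GolayPt) (x y : GolayPt → ℤ) :
    signedPerm σ c (x + y) = signedPerm σ c x + signedPerm σ c y := by
  funext i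
  unfold signedPerm
  simp only [Pi.add_apply]
  split_ifs <;> ring

theorem signedPerm_inv (σ : Equiv.Perm GolayPt) (c : Finset GolayPt) (x : GolayPt → ℤ) :
    signedPerm σ⁻¹ (σ⁻¹ • c) (signedPerm σ c x) = x := by
  funext i
  unfold signedPerm
  have h1 : (σ⁻¹).symm i = σ i := rfl
  have h2 : i ∈ σ⁻¹ • c ↔ σ i ∈ c := by
    rw [Finset.mem_inv_smul_finset_iff]
    rfl
  rw [h1, Equiv.symm_apply_apply]
  by_cases h : σ i ∈ c
  · rw [if_pos (h2.2 h), if_pos h, neg_neg]
  · rw [if_neg (fun h' => h (h2.1 h')), if_neg h]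

theorem signedPerm_inv' (σ : Equiv.Perm GolayPt) (c : Finset GolayPt) (x : GolayPt → ℤ) :
    signedPerm σ c (signedPerm σ⁻¹ (σ⁻¹ • c) x) = x := by
  funext i
  unfold signedPerm
  have h1 : (σ⁻¹).symm (σ.symm i) = i := by
    show σ (σ.symm i) = i
    rw [Equiv.apply_symm_apply]
  have h2 : σ.symm i ∈ σ⁻¹ • c ↔ i ∈ c := by
    rw [Finset.mem_inv_smul_finset_iff]
    show σ (σ.symm i) ∈ c ↔ i ∈ c
    rw [Equiv.apply_symm_apply]
  rw [h1]
  by_cases h : i ∈ c
  · rw [if_pos h, if_pos (h2.2 h), neg_neg]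
  · rw [if_neg h, if_neg (fun h' => h (h2.1 h'))]

theorem signedPerm_memL (σ : Equiv.Perm GolayPt) (hσ : σ ∈ M24) (c : Finset GolayPt)
    (hc : c ∈ gSupp) (x : GolayPt → ℤ) (hx : x ∈ leechLattice) :
    signedPerm σ c x ∈ leechLattice :=
  (mem_leechLattice_iff _).2 (signedPerm_mem σ hσ c hc x ((mem_leechLattice_iff x).1 hx))

/-- the monomial permutation of the lattice -/
def monoPerm (σ : Equiv.Perm GolayPt) (hσ : σ ∈ M24) (c : Finset GolayPt) (hc : c ∈ gSupp) :
    Equiv.Perm ↥leechLattice where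
  toFun v := ⟨signedPerm σ c v.1, signedPerm_memL σ hσ c hc v.1 v.2⟩
  invFun v := ⟨signedPerm σ⁻¹ (σ⁻¹ • c) v.1,
    signedPerm_memL σ⁻¹ (M24.inv_mem hσ) (σ⁻¹ • c) (M24_smul_mem σ⁻¹ (M24.inv_mem hσ) c hc) v.1 v.2⟩
  left_inv v := Subtype.ext (signedPerm_inv σ c v.1)
  right_inv v := Subtype.ext (signedPerm_inv' σ c v.1)

theorem monoPerm_apply (σ : Equiv.Perm GolayPt) (hσ : σ ∈ M24) (c : Finset GolayPt)
    (hc : c ∈ gSupp) (v : ↥leechLattice) :
    ((monoPerm σ hσ c hc v : ↥leechLattice) : GolayPt → ℤ) = signedPerm σ c v.1 := rfl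

theorem monoPerm_mem (σ : Equiv.Perm GolayPt) (hσ : σ ∈ M24) (c : Finset GolayPt)
    (hc : c ∈ gSupp) : monoPerm σ hσ c hc ∈ Co0 := by
  refine ⟨fun v w => ?_, fun v => ?_⟩
  · apply Subtype.ext
    rw [monoPerm_apply]
    exact signedPerm_add σ c v.1 w.1
  · rw [monoPerm_apply]
    exact sqNorm_signedPerm σ c v.1

/-- the monomial automorphism as an element of the automorphism group -/
def monoCo0 (σ : Equiv.Perm GolayPt) (hσ : σ ∈ M24) (c : Finset GolayPt) (hc : c ∈ gSupp) :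
    ↥Co0 := ⟨monoPerm σ hσ c hc, monoPerm_mem σ hσ c hc⟩

theorem monoCo0_smul (σ : Equiv.Perm GolayPt) (hσ : σ ∈ M24) (c : Finset GolayPt)
    (hc : c ∈ gSupp) (v : ↥leechLattice) :
    ((monoCo0 σ hσ c hc • v : ↥leechLattice) : GolayPt → ℤ) = signedPerm σ c v.1 := rfl

theorem single8_mem (i : GolayPt) (s : ℤ) (hs : s = 8 ∨ s = -8) :
    (Pi.single i s : GolayPt → ℤ) ∈ leechLattice := by
  classical
  rw [mem_leechLattice_iff]
  apply leech_mem4
  · intro k
    rw [Pi.single_apply]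
    rcases hs with rfl | rfl <;> split_ifs <;> decide
  · rw [Finset.sum_pi_single']
    simp only [Finset.mem_univ, if_true]
    rcases hs with rfl | rfl <;> decide

theorem signedPerm_single (σ : Equiv.Perm GolayPt) (c : Finset GolayPt) (i : GolayPt) (s : ℤ) :
    signedPerm σ c (Pi.single i s) = Pi.single (σ i) (if σ i ∈ c then -s else s) := by
  classical
  funext k
  unfold signedPerm
  rw [Pi.single_apply, Pi.single_apply]
  by_cases hk : k = σ i
  · subst hk
    rw [Equiv.symm_apply_apply]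
    simp
  · have : σ.symm k ≠ i := fun h => hk (by rw [← h, Equiv.apply_symm_apply])
    simp [hk, this]

end Cfsg.Agent.Lib.Helper1
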