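import Mathlib
import Cfsg.Prelude.Def_Sporadic_a
import Cfsg.Prelude.Def_SporadicCombinatorics
import Cfsg.Agent.Lib.Helper1.LeechMono

/-!
Lattice automorphisms preserving the standard cross are monomial (helper1).
-/

namespace Cfsg.Agent.Lib.Helper1

open Cfsg
open scoped Pointwise

/-- the lattice vector `8 e_i` -/
def E8 (i : GolayPt) : ↥leechLattice := ⟨Pi.single i 8, single8_mem i 8 (Or.inl rfl)⟩

theorem E8_val (i : GolayPt) : ((E8 i : ↥leechLattice) : GolayPt → ℤ) = Pi.single i 8 := rfl

theorem eight_smul_eq (v : ↥leechLattice) : (8 : ℤ) • v = ∑ i, (v.1 i) • E8 i := by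
  classical
  apply Subtype.ext
  funext k
  rw [AddSubgroup.val_finsetSum, Finset.sum_apply]
  simp only [AddSubgroup.coe_zsmul, Pi.smul_apply, E8_val, Pi.single_apply, smul_eq_mul, mul_ite,
    mul_zero, Finset.sum_ite_eq, Finset.mem_univ, if_true]
  ring

theorem mono_of_stab (G : Equiv.Perm ↥leechLattice) (hG : G ∈ Co0)
    (hst : ∀ v : ↥leechLattice, (v : GolayPt → ℤ) ∈ stdCross →
      ((G v : ↥leechLattice) : GolayPt → ℤ) ∈ stdCross) :
    ∃ σ ∈ M24, ∃ c ∈ gSupp, ∀ v : ↥leechLattice,
      ((G v : ↥leechLattice) : GolayPt → ℤ) = signedPerm σ c v.1 := by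
  classical
  obtain ⟨hadd, hnorm⟩ := hG
  obtain ⟨φ, hφ⟩ : ∃ φ : ↥leechLattice →+ ↥leechLattice, ∀ v, φ v = G v :=
    ⟨AddMonoidHom.mk' G hadd, fun v => rfl⟩
  have hE : ∀ i, ∃ j s, (s = 8 ∨ s = -8) ∧ ((G (E8 i) : ↥leechLattice) : GolayPt → ℤ)
      = Pi.single j s := fun i => hst (E8 i) ⟨i, 8, Or.inl rfl, rfl⟩
  choose π s hs hπ using hE
  -- the basic formula
  have hform : ∀ (v : ↥leechLattice) (k : GolayPt),
      8 * ((G v : ↥leechLattice) : GolayPt → ℤ) k
        = ∑ i, (if k = π i then v.1 i * s i else 0) := by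
    intro v k
    have h1 : φ ((8 : ℤ) • v) = φ (∑ i, (v.1 i) • E8 i) := by rw [eight_smul_eq]
    rw [map_zsmul, map_sum] at h1
    simp only [map_zsmul] at h1
    simp only [hφ] at h1
    have h2 := congrArg (fun w : ↥leechLattice => (w : GolayPt → ℤ) k) h1
    simp only [AddSubgroup.coe_zsmul, Pi.smul_apply, smul_eq_mul,
      AddSubgroup.val_finsetSum, Finset.sum_apply, hπ, Pi.single_apply, mul_ite, mul_zero] at h2
    exact h2
  have hneg : ∀ v : ↥leechLattice, G (-v) = -G v := by
    intro v
    rw [← hφ, ← hφ, map_neg]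
  have hπinj : Function.Injective π := by
    intro i j hij
    by_contra hne
    have h1 := hπ i
    have h2 := hπ j
    rw [hij] at h1
    have hcase : G (E8 i) = G (E8 j) ∨ G (E8 i) = G (-E8 j) := by
      rcases hs i with hi | hi <;> rcases hs j with hj | hj
      · left
        apply Subtype.ext
        rw [h1, h2, hi, hj]
      · right
        rw [hneg]
        apply Subtype.ext
        rw [AddSubgroup.coe_neg, h1, h2, hi, hj]
        funext k
        by_cases hk : k = π j <;> simp [Pi.single_apply, hk]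
      · right
        rw [hneg]
        apply Subtype.ext
        rw [AddSubgroup.coe_neg, h1, h2, hi, hj]
        funext k
        by_cases hk : k = π j <;> simp [Pi.single_apply, hk]
      · left
        apply Subtype.ext
        rw [h1, h2, hi, hj]
    rcases hcase with h | h
    · have h3 := congrArg (fun w : ↥leechLattice => (w : GolayPt → ℤ) i) (G.injective h)
      simp [E8_val, Pi.single_apply, hne] at h3
    · have h3 := congrArg (fun w : ↥leechLattice => (w : GolayPt → ℤ) i) (G.injective h)
      simp [E8_val, Pi.single_apply, hne] at h3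
  have hπbij : Function.Bijective π := ⟨hπinj, Finite.injective_iff_surjective.1 hπinj⟩
  obtain ⟨σ, hσdef⟩ : ∃ σ : Equiv.Perm GolayPt, ∀ i, σ i = π i :=
    ⟨Equiv.ofBijective π hπbij, fun i => rfl⟩
  have hform2 : ∀ (v : ↥leechLattice) (k : GolayPt),
      8 * ((G v : ↥leechLattice) : GolayPt → ℤ) k = v.1 (σ.symm k) * s (σ.symm k) := by
    intro v k
    rw [hform v k, Finset.sum_eq_single (σ.symm k)]
    · rw [if_pos]
      rw [← hσdef, Equiv.apply_symm_apply]
    · intro i _ hi
      rw [if_neg]
      intro hk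
      apply hi
      rw [hk, ← hσdef, Equiv.symm_apply_apply]
    · intro h
      exact absurd (Finset.mem_univ _) h
  obtain ⟨c, hcdef⟩ : ∃ c : Finset GolayPt, c = Finset.univ.filter (fun k => s (σ.symm k) = -8) :=
    ⟨_, rfl⟩
  have hmono : ∀ v : ↥leechLattice,
      ((G v : ↥leechLattice) : GolayPt → ℤ) = signedPerm σ c v.1 := by
    intro v
    funext k
    have h := hform2 v k
    unfold signedPerm
    have hck : k ∈ c ↔ s (σ.symm k) = -8 := by
      rw [hcdef, Finset.mem_filter]
      simp
    rcases hs (σ.symm k) with h8 | h8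
    · rw [if_neg (fun h' => by rw [hck.1 h'] at h8; norm_num at h8)]
      rw [h8] at h
      linarith
    · rw [if_pos (hck.2 h8)]
      rw [h8] at h
      linarith
  obtain ⟨i0⟩ : Nonempty GolayPt := inferInstance
  -- the permutation part preserves the code
  have hσD : ∀ D ∈ gSupp, σ • D ∈ gSupp := by
    intro D hD
    have hw : lOdd D i0 - lOdd ∅ i0 ∈ leechSet :=
      leechSub.sub_mem (lOdd_mem D hD i0).1 (lOdd_mem ∅ gSupp_empty i0).1
    have hcl : ∀ i, (i ∈ D ↔ (lOdd D i0 - lOdd ∅ i0) i % 4 = 2) := by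
      intro i
      have hc1 := lOdd_cls D i0 i
      have hc3 : lOdd ∅ i0 i ≡ 3 [ZMOD 4] := (lOdd_cls ∅ i0 i).2.1.2 (by simp)
      simp only [Pi.sub_apply]
      constructor
      · intro hd
        have h6 := hc1.1.2 hd
        unfold Int.ModEq at *
        omega
      · intro h
        by_contra hd
        have h6 := hc1.2.1.2 hd
        unfold Int.ModEq at *
        omega
    have hGv := (G ⟨_, (mem_leechLattice_iff _).2 hw⟩).2
    rw [mem_leechLattice_iff, hmono] at hGv
    obtain ⟨m, -, -, h3⟩ := hGv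
    have h2 := h3 2
    have : (Finset.univ.filter fun k => signedPerm σ c (lOdd D i0 - lOdd ∅ i0) k ≡ 2 [ZMOD 4])
        = σ • D := by
      ext k
      rw [Finset.mem_filter, Finset.mem_smul_finset]
      simp only [Finset.mem_univ, true_and]
      have hk := hcl (σ.symm k)
      constructor
      · intro h
        refine ⟨σ.symm k, hk.2 ?_, by simp⟩
        unfold signedPerm Int.ModEq at h
        split_ifs at h <;> omega
      · rintro ⟨j, hj, rfl⟩
        have hj' := (hcl j).1 hj
        unfold signedPerm Int.ModEq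
        have e : σ.symm (σ • j) = j := by simp
        rw [e]
        split_ifs <;> omega
    rw [this] at h2
    exact h2
  have hσM : σ ∈ M24 := by
    rw [MulAction.mem_stabilizer_iff]
    apply Set.eq_of_subset_of_ncard_le
    · rintro _ ⟨D, hD, rfl⟩
      exact hσD D hD
    · rw [Set.ncard_smul_set]
    · exact Set.toFinite _
  -- the sign part is a codeword
  have hcg : c ∈ gSupp := by
    have hw := (lOdd_mem ∅ gSupp_empty i0).1
    have hGv := (G ⟨_, (mem_leechLattice_iff _).2 hw⟩).2
    rw [mem_leechLattice_iff, hmono] at hGv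
    obtain ⟨m, -, -, h3⟩ := hGv
    have h1 := h3 1
    have : (Finset.univ.filter fun k => signedPerm σ c (lOdd ∅ i0) k ≡ 1 [ZMOD 4]) = c := by
      ext k
      rw [Finset.mem_filter]
      simp only [Finset.mem_univ, true_and]
      have hc3 : lOdd ∅ i0 (σ.symm k) ≡ 3 [ZMOD 4] := (lOdd_cls ∅ i0 (σ.symm k)).2.1.2 (by simp)
      unfold signedPerm Int.ModEq at *
      by_cases hk : k ∈ c
      · simp only [hk, if_true, iff_true]
        omega
      · simp only [hk, if_false, iff_false]
        omega
    rw [this] at h1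
    exact h1
  exact ⟨σ, hσM, c, hcg, hmono⟩

end Cfsg.Agent.Lib.Helper1
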