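import Mathlib
import Cfsg.Prelude.Def_Sporadic_a
import Cfsg.Prelude.Def_SporadicCombinatorics
import Cfsg.Agent.Lib.Helper1.LeechMono2
import Cfsg.Agent.Lib.Helper1.LeechDesign2
import Cfsg.Agent.Lib.Helper1.M24Sets

/-!
The centre of the automorphism group of the rank-24 lattice (helper1).
-/

namespace Cfsg.Agent.Lib.Helper1

open Cfsg
open scoped Pointwise

/-- negation as an element of the automorphism group -/
def negCo0 : ↥Co0 := monoCo0 1 M24.one_mem Finset.univ gSupp_univ

theorem negCo0_smul (v : ↥leechLattice) : negCo0 • v = -v := by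
  apply Subtype.ext
  unfold negCo0
  rw [monoCo0_smul]
  funext k
  unfold signedPerm
  simp only [Finset.mem_univ, if_true]
  rfl

theorem Co0_smul_add (g : ↥Co0) (v w : ↥leechLattice) : g • (v + w) = g • v + g • w := g.2.1 v w

theorem Co0_smul_neg (g : ↥Co0) (v : ↥leechLattice) : g • (-v) = -(g • v) := by
  have h0 : g • (0 : ↥leechLattice) = 0 := by
    have := Co0_smul_add g 0 0
    rw [add_zero] at this
    exact left_eq_add.mp this
  have h1 := Co0_smul_add g v (-v)
  rw [add_neg_cancel, h0] at h1
  exact (neg_eq_of_add_eq_zero_right h1.symm).symm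

theorem Co0_ext (g h : ↥Co0) (hh : ∀ v : ↥leechLattice, g • v = h • v) : g = h := by
  apply Subtype.ext
  apply Equiv.ext
  exact hh

theorem negCo0_central : negCo0 ∈ Subgroup.center ↥Co0 := by
  rw [Subgroup.mem_center_iff]
  intro g
  apply Co0_ext
  intro v
  rw [mul_smul, mul_smul, negCo0_smul, negCo0_smul, Co0_smul_neg]

theorem negCo0_ne_one : negCo0 ≠ 1 := by
  intro h
  have h1 := negCo0_smul (E8 none)
  rw [h, one_smul] at h1
  have h2 := congrArg (fun w : ↥leechLattice => (w : GolayPt → ℤ) none) h1
  simp [E8_val] at h2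

theorem center_cases (z : ↥Co0) (hz : z ∈ Subgroup.center ↥Co0) : z = 1 ∨ z = negCo0 := by
  classical
  rw [Subgroup.mem_center_iff] at hz
  -- z commutes with everything
  have hcomm : ∀ (g : ↥Co0) (v : ↥leechLattice), z • (g • v) = g • (z • v) := by
    intro g v
    rw [← mul_smul, ← mul_smul, hz g]
  -- images of E8 i
  have hE : ∀ i, ∃ t : ℤ, (t = 8 ∨ t = -8) ∧ ((z • E8 i : ↥leechLattice) : GolayPt → ℤ)
      = Pi.single i t := by
    intro i
    have hzero : ∀ k, k ≠ i → ((z • E8 i : ↥leechLattice) : GolayPt → ℤ) k = 0 := by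
      intro k hk
      obtain ⟨c, hc, hkc, hdis⟩ := exists_octad_avoid k {i} (by simp) (by simpa using hk)
      have hic : i ∉ c := fun h => (Finset.disjoint_left.mp hdis h) (Finset.mem_singleton_self i)
      have hfix : monoCo0 1 M24.one_mem c hc • E8 i = E8 i := by
        apply Subtype.ext
        rw [monoCo0_smul, E8_val, signedPerm_single]
        simp [hic]
      have h1 := hcomm (monoCo0 1 M24.one_mem c hc) (E8 i)
      rw [hfix] at h1
      have h2 := congrArg (fun w : ↥leechLattice => (w : GolayPt → ℤ) k) h1
      simp only [monoCo0_smul] at h2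
      unfold signedPerm at h2
      simp only [hkc, if_true, Equiv.Perm.one_symm, Equiv.Perm.coe_one, id_eq] at h2
      omega
    have hform : ((z • E8 i : ↥leechLattice) : GolayPt → ℤ)
        = Pi.single i (((z • E8 i : ↥leechLattice) : GolayPt → ℤ) i) := by
      funext k
      rw [Pi.single_apply]
      split_ifs with hk
      · rw [hk]
      · exact hzero k hk
    have hn : sqNorm ((z • E8 i : ↥leechLattice) : GolayPt → ℤ) = sqNorm (E8 i).1 := z.2.2 (E8 i)
    refine ⟨_, ?_, hform⟩
    rw [hform] at hn
    generalize ((z • E8 i : ↥leechLattice) : GolayPt → ℤ) i = t at hn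
    unfold sqNorm at hn
    rw [E8_val] at hn
    simp only [Pi.single_apply, ite_pow] at hn
    simp only [ne_eq, OfNat.ofNat_ne_zero, not_false_eq_true, zero_pow, Finset.sum_ite_eq',
      Finset.mem_univ, if_true] at hn
    have h3 : (t - 8) * (t + 8) = 0 := by ring_nf; ring_nf at hn; omega
    rcases mul_eq_zero.mp h3 with h | h
    · left; omega
    · right; omega
  choose t ht hzt using hE
  have hst : ∀ v : ↥leechLattice, (v : GolayPt → ℤ) ∈ stdCross →
      ((z.1 v : ↥leechLattice) : GolayPt → ℤ) ∈ stdCross := by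
    rintro v ⟨i, s, hs, hv⟩
    rcases hs with rfl | rfl
    · have : v = E8 i := Subtype.ext hv
      rw [this]
      exact ⟨i, t i, ht i, hzt i⟩
    · have : v = -E8 i := by
        apply Subtype.ext
        rw [hv]
        funext k
        simp only [AddSubgroup.coe_neg, E8_val, Pi.neg_apply, Pi.single_apply]
        split_ifs <;> simp
      rw [this]
      have h1 : z.1 (-E8 i) = -(z • E8 i) := Co0_smul_neg z (E8 i)
      rw [h1]
      refine ⟨i, -t i, ?_, ?_⟩
      · rcases ht i with h | h <;> rw [h] <;> simp
      · funext k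
        simp only [AddSubgroup.coe_neg, hzt i, Pi.neg_apply, Pi.single_apply]
        split_ifs <;> simp
  obtain ⟨σ, hσ, c, hc, hmono⟩ := mono_of_stab z.1 z.2 hst
  have hσ1 : σ = 1 := by
    apply Equiv.ext
    intro i
    have h1 := hmono (E8 i)
    have h2 : ((z.1 (E8 i) : ↥leechLattice) : GolayPt → ℤ) = Pi.single i (t i) := hzt i
    rw [h2, E8_val, signedPerm_single] at h1
    have h3 := congrFun h1 i
    rw [Pi.single_apply, Pi.single_apply, if_pos rfl] at h3
    by_contra hne
    rw [if_neg (fun h => hne h.symm)] at h3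
    rcases ht i with h | h <;> rw [h] at h3 <;> norm_num at h3
  subst hσ1
  -- c is invariant under M24
  have hinv : ∀ τ ∈ M24, ∀ i, τ i ∈ c ↔ i ∈ c := by
    intro τ hτ i
    have h1 := hcomm (monoCo0 τ hτ ∅ gSupp_empty) (E8 i)
    have h2 := congrArg (fun w : ↥leechLattice => (w : GolayPt → ℤ) (τ i)) h1
    have e1 : ∀ w : ↥leechLattice, ((z • w : ↥leechLattice) : GolayPt → ℤ) = signedPerm 1 c w.1 :=
      hmono
    simp only [e1, monoCo0_smul, E8_val, signedPerm_single] at h2
    simp only [Finset.notMem_empty, if_false, Equiv.Perm.coe_one, id_eq, Pi.single_apply,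
      if_true] at h2
    by_cases ha : τ i ∈ c <;> by_cases hb : i ∈ c <;> simp only [ha, hb, if_true, if_false] at h2
      <;> simp only [ha, hb] <;> norm_num at h2
  have hcases : (∀ i, i ∉ c) ∨ (∀ i, i ∈ c) := by
    by_cases h0 : (none : GolayPt) ∈ c
    · right
      intro i
      obtain ⟨g, hg, hga⟩ := M24_extend {none} (by simp) (fun _ => i) (by simp)
      have := hga none (by simp)
      rw [← this, hinv g hg]
      exact h0
    · left
      intro i
      obtain ⟨g, hg, hga⟩ := M24_extend {none} (by simp) (fun _ => i) (by simp)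
      have := hga none (by simp)
      rw [← this, hinv g hg]
      exact h0
  rcases hcases with h | h
  · left
    apply Co0_ext
    intro v
    apply Subtype.ext
    rw [one_smul]
    have := hmono v
    rw [show ((z • v : ↥leechLattice) : GolayPt → ℤ) = _ from this]
    funext k
    unfold signedPerm
    simp only [h k, if_true, if_false, Pi.neg_apply, AddSubgroup.coe_neg]
    rfl
  · right
    apply Co0_ext
    intro v
    apply Subtype.ext
    rw [negCo0_smul]
    have := hmono v
    rw [show ((z • v : ↥leechLattice) : GolayPt → ℤ) = _ from this]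
    funext k
    unfold signedPerm
    simp only [h k, if_true, if_false, Pi.neg_apply, AddSubgroup.coe_neg]
    rfl

theorem center_card : Nat.card (Subgroup.center ↥Co0) = 2 := by
  classical
  rw [Nat.card_eq_two_iff]
  refine ⟨1, ⟨negCo0, negCo0_central⟩, ?_, ?_⟩
  · intro h
    have := congrArg Subtype.val h
    exact negCo0_ne_one this.symm
  · ext ⟨z, hz⟩
    simp only [Set.mem_insert_iff, Set.mem_singleton_iff, Set.mem_univ, iff_true]
    rcases center_cases z hz with h | h
    · left; exact Subtype.ext h
    · right; exact Subtype.ext h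

end Cfsg.Agent.Lib.Helper1
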