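import Mathlib
import Cfsg.Prelude.Def_Sporadic_a
import Cfsg.Agent.Lib.Helper1.LeechN6c

/-!
The vectors of sum of squares 48 of the rank-24 lattice: value profiles of the four shapes and
the resulting counts (helper1).
-/

namespace Cfsg.Agent.Lib.Helper1

open Cfsg

theorem n6_profA (x : GolayPt → ℤ)
    (h : ∃ c ∈ gSupp, ∃ T : Finset GolayPt, T.card = 3 ∧ x = lOddT c T) :
    (x ∈ leechSet ∧ sqNorm x = 48) ∧ (∀ i, |x i| = 1 ∨ |x i| = 3) ∧
      ∃ i j k, i ≠ j ∧ j ≠ k ∧ i ≠ k ∧ |x i| = 3 ∧ |x j| = 3 ∧ |x k| = 3 := by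
  obtain ⟨c, hc, T, hT, rfl⟩ := h
  have hv : ∀ i, (i ∈ T → |lOddT c T i| = 3) ∧ (i ∉ T → |lOddT c T i| = 1) := by
    intro i
    unfold lOddT
    by_cases h1 : i ∈ T <;> by_cases h2 : i ∈ c <;> simp [h1, h2]
  refine ⟨?_, ?_, ?_⟩
  · have := lOddT_mem c hc T (by rw [hT]; decide)
    refine ⟨this.1, ?_⟩
    rw [this.2, hT]
    norm_num
  · intro i
    by_cases h1 : i ∈ T
    · exact Or.inr ((hv i).1 h1)
    · exact Or.inl ((hv i).2 h1)
  · obtain ⟨i, j, k, hij, hik, hjk, rfl⟩ := Finset.card_eq_three.1 hT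
    exact ⟨i, j, k, hij, hjk, hik, (hv i).1 (by simp), (hv j).1 (by simp), (hv k).1 (by simp)⟩

theorem n6_profB (x : GolayPt → ℤ) (h : ∃ c ∈ gSupp, ∃ i0, x = lOdd5 c i0) :
    (x ∈ leechSet ∧ sqNorm x = 48) ∧ (∀ i, |x i| = 1 ∨ |x i| = 5) ∧ ∃ i, |x i| = 5 := by
  obtain ⟨c, hc, i0, rfl⟩ := h
  have hv : ∀ i, (i = i0 → |lOdd5 c i0 i| = 5) ∧ (i ≠ i0 → |lOdd5 c i0 i| = 1) := by
    intro i
    unfold lOdd5
    by_cases h1 : i = i0
    · subst h1
      by_cases h2 : i ∈ c <;> simp [h2]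
    · by_cases h2 : i ∈ c <;> simp [h1, h2]
  refine ⟨lOdd5_mem c hc i0, ?_, ⟨i0, (hv i0).1 rfl⟩⟩
  intro i
  by_cases h1 : i = i0
  · exact Or.inr ((hv i).1 h1)
  · exact Or.inl ((hv i).2 h1)

theorem n6_profC (x : GolayPt → ℤ)
    (h : ∃ d ∈ dodecads, ∃ N ⊆ d, Even N.card ∧ x = lEven 2 d N) :
    (x ∈ leechSet ∧ sqNorm x = 48) ∧ ∀ i, x i = 0 ∨ x i = 2 ∨ x i = -2 := by
  obtain ⟨d, hd, N, hN, hev, rfl⟩ := h
  refine ⟨lEven2d_mem d N hd hN hev, ?_⟩
  intro i
  rcases lEven_vals 2 d N i with h | h | h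
  · exact Or.inr (Or.inl h)
  · exact Or.inr (Or.inr h)
  · exact Or.inl h

theorem n6_profD (x : GolayPt → ℤ)
    (h : ∃ o ∈ octads, ∃ N ⊆ o, Odd N.card ∧ ∃ j, j ∉ o ∧ ∃ b : Bool, x = lMix o N j b) :
    (x ∈ leechSet ∧ sqNorm x = 48) ∧ (∀ i, |x i| = 0 ∨ |x i| = 2 ∨ |x i| = 4) ∧
      ∃ i, |x i| = 4 := by
  obtain ⟨o, ho, N, hN, hodd, j, hj, b, rfl⟩ := h
  refine ⟨lMix_mem o N ho hN hodd j hj b, ?_, ⟨j, ?_⟩⟩
  · intro i
    unfold lMix
    by_cases h1 : i = j
    · right; right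
      cases b <;> simp [h1]
    · rw [if_neg h1]
      rcases lEven_vals 2 o N i with h | h | h
      · right; left; rw [h]; rfl
      · right; left; rw [h]; rfl
      · left; rw [h]; rfl
  · unfold lMix
    cases b <;> simp

theorem n6_count1 : {x : GolayPt → ℤ | x ∈ leechSet ∧ sqNorm x = 48 ∧
    ∀ i, x i = 0 ∨ x i = 2 ∨ x i = -2}.ncard = 5275648 := by
  obtain ⟨F, hF, hmem⟩ := n6_imgC
  have : {x : GolayPt → ℤ | x ∈ leechSet ∧ sqNorm x = 48 ∧
      ∀ i, x i = 0 ∨ x i = 2 ∨ x i = -2} = ↑F := by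
    ext x
    rw [Finset.mem_coe, hmem]
    constructor
    · rintro ⟨h1, h2, h3⟩
      rcases leech_n6_cases x h1 h2 with h | h | h | h
      · exfalso
        obtain ⟨-, hv, -⟩ := n6_profA x h
        obtain ⟨i⟩ : Nonempty GolayPt := inferInstance
        rcases h3 i with h' | h' | h' <;> rcases hv i with h'' | h'' <;> rw [h'] at h'' <;>
          norm_num at h''
      · exfalso
        obtain ⟨-, hv, -⟩ := n6_profB x h
        obtain ⟨i⟩ : Nonempty GolayPt := inferInstance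
        rcases h3 i with h' | h' | h' <;> rcases hv i with h'' | h'' <;> rw [h'] at h'' <;>
          norm_num at h''
      · exact h
      · exfalso
        obtain ⟨-, -, i, hi⟩ := n6_profD x h
        rcases h3 i with h' | h' | h' <;> rw [h'] at hi <;> norm_num at hi
    · intro h
      obtain ⟨⟨h1, h2⟩, h3⟩ := n6_profC x h
      exact ⟨h1, h2, h3⟩
  rw [this, Set.ncard_coe_finset, hF]

theorem n6_count2 : {x : GolayPt → ℤ | x ∈ leechSet ∧ sqNorm x = 48 ∧
    ∃ i j k, i ≠ j ∧ j ≠ k ∧ i ≠ k ∧ |x i| = 3 ∧ |x j| = 3 ∧ |x k| = 3}.ncard = 8290304 := by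
  obtain ⟨F, hF, hmem⟩ := n6_imgA
  have : {x : GolayPt → ℤ | x ∈ leechSet ∧ sqNorm x = 48 ∧
      ∃ i j k, i ≠ j ∧ j ≠ k ∧ i ≠ k ∧ |x i| = 3 ∧ |x j| = 3 ∧ |x k| = 3} = ↑F := by
    ext x
    rw [Finset.mem_coe, hmem]
    constructor
    · rintro ⟨h1, h2, i, -, -, -, -, -, hi, -, -⟩
      rcases leech_n6_cases x h1 h2 with h | h | h | h
      · exact h
      · exfalso
        obtain ⟨-, hv, -⟩ := n6_profB x h
        rcases hv i with h'' | h'' <;> rw [hi] at h'' <;> norm_num at h''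
      · exfalso
        obtain ⟨-, hv⟩ := n6_profC x h
        rcases hv i with h'' | h'' | h'' <;> rw [h''] at hi <;> norm_num at hi
      · exfalso
        obtain ⟨-, hv, -⟩ := n6_profD x h
        rcases hv i with h'' | h'' | h'' <;> rw [hi] at h'' <;> norm_num at h''
    · intro h
      obtain ⟨⟨h1, h2⟩, -, h3⟩ := n6_profA x h
      exact ⟨h1, h2, h3⟩
  rw [this, Set.ncard_coe_finset, hF]

theorem n6_count3 : {x : GolayPt → ℤ | x ∈ leechSet ∧ sqNorm x = 48 ∧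
    ∃ i, |x i| = 4}.ncard = 3108864 := by
  obtain ⟨F, hF, hmem⟩ := n6_imgD
  have : {x : GolayPt → ℤ | x ∈ leechSet ∧ sqNorm x = 48 ∧ ∃ i, |x i| = 4} = ↑F := by
    ext x
    rw [Finset.mem_coe, hmem]
    constructor
    · rintro ⟨h1, h2, i, hi⟩
      rcases leech_n6_cases x h1 h2 with h | h | h | h
      · exfalso
        obtain ⟨-, hv, -⟩ := n6_profA x h
        rcases hv i with h'' | h'' <;> rw [hi] at h'' <;> norm_num at h''
      · exfalso
        obtain ⟨-, hv, -⟩ := n6_profB x h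
        rcases hv i with h'' | h'' <;> rw [hi] at h'' <;> norm_num at h''
      · exfalso
        obtain ⟨-, hv⟩ := n6_profC x h
        rcases hv i with h'' | h'' | h'' <;> rw [h''] at hi <;> norm_num at hi
      · exact h
    · intro h
      obtain ⟨⟨h1, h2⟩, -, h3⟩ := n6_profD x h
      exact ⟨h1, h2, h3⟩
  rw [this, Set.ncard_coe_finset, hF]

theorem n6_count4 : {x : GolayPt → ℤ | x ∈ leechSet ∧ sqNorm x = 48 ∧
    ∃ i, |x i| = 5}.ncard = 98304 := by
  obtain ⟨F, hF, hmem⟩ := n6_imgB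
  have : {x : GolayPt → ℤ | x ∈ leechSet ∧ sqNorm x = 48 ∧ ∃ i, |x i| = 5} = ↑F := by
    ext x
    rw [Finset.mem_coe, hmem]
    constructor
    · rintro ⟨h1, h2, i, hi⟩
      rcases leech_n6_cases x h1 h2 with h | h | h | h
      · exfalso
        obtain ⟨-, hv, -⟩ := n6_profA x h
        rcases hv i with h'' | h'' <;> rw [hi] at h'' <;> norm_num at h''
      · exact h
      · exfalso
        obtain ⟨-, hv⟩ := n6_profC x h
        rcases hv i with h'' | h'' | h'' <;> rw [h''] at hi <;> norm_num at hi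
      · exfalso
        obtain ⟨-, hv, -⟩ := n6_profD x h
        rcases hv i with h'' | h'' | h'' <;> rw [hi] at h'' <;> norm_num at h''
    · intro h
      obtain ⟨⟨h1, h2⟩, -, h3⟩ := n6_profB x h
      exact ⟨h1, h2, h3⟩
  rw [this, Set.ncard_coe_finset, hF]

theorem n6_count : {x : GolayPt → ℤ | x ∈ leechSet ∧ sqNorm x = 48}.ncard = 16773120 := by
  classical
  obtain ⟨FA, hFA, hA⟩ := n6_imgA
  obtain ⟨FB, hFB, hB⟩ := n6_imgB
  obtain ⟨FC, hFC, hC⟩ := n6_imgC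
  obtain ⟨FD, hFD, hD⟩ := n6_imgD
  have : {x : GolayPt → ℤ | x ∈ leechSet ∧ sqNorm x = 48} = ↑(FA ∪ FB ∪ FC ∪ FD) := by
    ext x
    rw [Finset.mem_coe, Finset.mem_union, Finset.mem_union, Finset.mem_union, hA, hB, hC, hD]
    constructor
    · rintro ⟨h1, h2⟩
      rcases leech_n6_cases x h1 h2 with h | h | h | h
      · exact Or.inl (Or.inl (Or.inl h))
      · exact Or.inl (Or.inl (Or.inr h))
      · exact Or.inl (Or.inr h)
      · exact Or.inr h
    · rintro (((h | h) | h) | h)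
      · exact (n6_profA x h).1
      · exact (n6_profB x h).1
      · exact (n6_profC x h).1
      · exact (n6_profD x h).1
  have dAB : Disjoint FA FB := by
    rw [Finset.disjoint_left]
    intro x hx hx'
    obtain ⟨-, -, i, -, -, -, -, -, hi, -, -⟩ := n6_profA x ((hA x).1 hx)
    obtain ⟨-, hv, -⟩ := n6_profB x ((hB x).1 hx')
    rcases hv i with h'' | h'' <;> rw [hi] at h'' <;> norm_num at h''
  have dAC : Disjoint FA FC := by
    rw [Finset.disjoint_left]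
    intro x hx hx'
    obtain ⟨-, -, i, -, -, -, -, -, hi, -, -⟩ := n6_profA x ((hA x).1 hx)
    obtain ⟨-, hv⟩ := n6_profC x ((hC x).1 hx')
    rcases hv i with h'' | h'' | h'' <;> rw [h''] at hi <;> norm_num at hi
  have dAD : Disjoint FA FD := by
    rw [Finset.disjoint_left]
    intro x hx hx'
    obtain ⟨-, -, i, -, -, -, -, -, hi, -, -⟩ := n6_profA x ((hA x).1 hx)
    obtain ⟨-, hv, -⟩ := n6_profD x ((hD x).1 hx')
    rcases hv i with h'' | h'' | h'' <;> rw [hi] at h'' <;> norm_num at h''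
  have dBC : Disjoint FB FC := by
    rw [Finset.disjoint_left]
    intro x hx hx'
    obtain ⟨-, -, i, hi⟩ := n6_profB x ((hB x).1 hx)
    obtain ⟨-, hv⟩ := n6_profC x ((hC x).1 hx')
    rcases hv i with h'' | h'' | h'' <;> rw [h''] at hi <;> norm_num at hi
  have dBD : Disjoint FB FD := by
    rw [Finset.disjoint_left]
    intro x hx hx'
    obtain ⟨-, -, i, hi⟩ := n6_profB x ((hB x).1 hx)
    obtain ⟨-, hv, -⟩ := n6_profD x ((hD x).1 hx')
    rcases hv i with h'' | h'' | h'' <;> rw [hi] at h'' <;> norm_num at h''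
  have dCD : Disjoint FC FD := by
    rw [Finset.disjoint_left]
    intro x hx hx'
    obtain ⟨-, -, i, hi⟩ := n6_profD x ((hD x).1 hx')
    obtain ⟨-, hv⟩ := n6_profC x ((hC x).1 hx)
    rcases hv i with h'' | h'' | h'' <;> rw [h''] at hi <;> norm_num at hi
  rw [this, Set.ncard_coe_finset, Finset.card_union_of_disjoint, Finset.card_union_of_disjoint,
    Finset.card_union_of_disjoint dAB, hFA, hFB, hFC, hFD]
  · rw [Finset.disjoint_union_left]
    exact ⟨dAC, dBC⟩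
  · rw [Finset.disjoint_union_left, Finset.disjoint_union_left]
    exact ⟨⟨dAD, dBD⟩, dCD⟩

end Cfsg.Agent.Lib.Helper1
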