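import Mathlib
import Cfsg.Prelude.Def_Sporadic_a
import Cfsg.Agent.Lib.Helper1.LeechN8d
import Cfsg.Agent.Lib.Helper1.LeechN6d
import Cfsg.Agent.Lib.Helper1.LeechMin2
import Cfsg.Agent.Lib.Helper1.LeechIdx
import Cfsg.Agent.Lib.Helper1.CrossCount
import Cfsg.Agent.S5592

/-!
The classes of the rank-24 lattice modulo twice the lattice: every class has a representative of
sum of squares at most 64, and the vectors of sum of squares 64 fall into classes of 48 (helper1).
-/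

namespace Cfsg.Agent.Lib.Helper1

open Cfsg Matrix

/-- doubling -/
def dbl : (GolayPt → ℤ) →+ (GolayPt → ℤ) := nsmulAddMonoidHom 2

theorem dbl_apply (x : GolayPt → ℤ) : dbl x = 2 • x := rfl

theorem dbl_injective : Function.Injective dbl := by
  intro x y h
  funext i
  have := congrFun h i
  simp only [dbl_apply, Pi.smul_apply, nsmul_eq_mul] at this
  push_cast at this
  omega

theorem redHom2_index : (redHom 2).ker.index = 2 ^ 24 := by
  rw [AddSubgroup.index_ker]
  have : (redHom 2).range = ⊤ := by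
    rw [AddMonoidHom.range_eq_top]
    intro r
    refine ⟨fun i => ((r i).val : ℤ), ?_⟩
    funext i
    rw [redHom_apply]
    simp
  rw [this, AddSubgroup.card_top, Nat.card_eq_fintype_card, Fintype.card_fun, ZMod.card,
    ← Finset.card_univ (α := GolayPt), card_univ_golay]

theorem dbl_top : (⊤ : AddSubgroup (GolayPt → ℤ)).map dbl = (redHom 2).ker := by
  ext x
  rw [AddSubgroup.mem_map, AddMonoidHom.mem_ker]
  constructor
  · rintro ⟨z, -, rfl⟩
    funext i
    rw [redHom_apply, dbl_apply, Pi.zero_apply, ZMod.intCast_zmod_eq_zero_iff_dvd]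
    simp
  · intro h
    refine ⟨fun i => x i / 2, AddSubgroup.mem_top _, ?_⟩
    funext i
    have := congrFun h i
    rw [redHom_apply, Pi.zero_apply, ZMod.intCast_zmod_eq_zero_iff_dvd] at this
    simp only [dbl_apply, Pi.smul_apply, nsmul_eq_mul]
    push_cast
    omega

theorem dbl_relIndex : (leechSub.map dbl).relIndex leechSub = 2 ^ 24 := by
  have h1 : (leechSub.map dbl).relIndex ((⊤ : AddSubgroup (GolayPt → ℤ)).map dbl)
      = leechSub.relIndex ⊤ :=
    AddSubgroup.relIndex_map_map_of_injective leechSub ⊤ dbl_injective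
  rw [AddSubgroup.relIndex_top_right, leech_index] at h1
  have hle : leechSub.map dbl ≤ (⊤ : AddSubgroup (GolayPt → ℤ)).map dbl :=
    AddSubgroup.map_mono le_top
  have h2 := AddSubgroup.relIndex_mul_index hle
  rw [h1, dbl_top, redHom2_index] at h2
  have hle' : leechSub.map dbl ≤ leechSub := by
    rintro x ⟨z, hz, rfl⟩
    rw [dbl_apply, two_smul]
    exact leechSub.add_mem hz hz
  have h3 := AddSubgroup.relIndex_mul_index hle'
  rw [leech_index, ← h2] at h3
  have : (leechSub.map dbl).relIndex leechSub * 2 ^ 36 = 2 ^ 24 * 2 ^ 36 := by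
    rw [h3, mul_comm]
  exact Nat.eq_of_mul_eq_mul_right (by norm_num) this

theorem sqNorm_neg' (u : GolayPt → ℤ) : sqNorm (-u) = sqNorm u := by
  unfold sqNorm
  simp

theorem leech_cross_main :
    (∀ x ∈ leechSet, sqNorm x = 64 →
      {y : GolayPt → ℤ | y ∈ leechSet ∧ sqNorm y = 64 ∧ ∃ z ∈ leechSet, x - y = 2 • z}.ncard = 48)
    ∧ (∀ x ∈ leechSet, ∃ y ∈ leechSet, sqNorm y ≤ 64 ∧ ∃ z ∈ leechSet, x - y = 2 • z) := by
  classical
  obtain ⟨T2, hT2⟩ : ∃ T2 : AddSubgroup (GolayPt → ℤ), T2 = leechSub.map dbl := ⟨_, rfl⟩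
  obtain ⟨ρ, hρdef⟩ : ∃ ρ : (GolayPt → ℤ) → (GolayPt → ℤ) ⧸ T2, ρ = QuotientAddGroup.mk' T2 :=
    ⟨_, rfl⟩
  have hρ : ∀ u v : GolayPt → ℤ, ρ u = ρ v ↔ ∃ z ∈ leechSet, u - v = 2 • z := by
    intro u v
    rw [hρdef]
    show ((u : (GolayPt → ℤ) ⧸ T2) = (v : (GolayPt → ℤ) ⧸ T2)) ↔ _
    rw [QuotientAddGroup.eq_iff_sub_mem, hT2, AddSubgroup.mem_map]
    constructor
    · rintro ⟨z, hz, h⟩
      exact ⟨z, hz, h.symm⟩
    · rintro ⟨z, hz, h⟩
      exact ⟨z, hz, h.symm⟩
  -- the classes of the lattice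
  have hRcard : Nat.card ↥(leechSub.map (QuotientAddGroup.mk' T2)) = 2 ^ 24 := by
    rw [← AddSubgroup.relIndex_ker, QuotientAddGroup.ker_mk', hT2]
    exact dbl_relIndex
  have hRfin : ((leechSub.map (QuotientAddGroup.mk' T2) : AddSubgroup ((GolayPt → ℤ) ⧸ T2)) :
      Set ((GolayPt → ℤ) ⧸ T2)).Finite := by
    have : Finite ↥(leechSub.map (QuotientAddGroup.mk' T2)) :=
      Nat.finite_of_card_ne_zero (by rw [hRcard]; norm_num)
    exact Set.toFinite _
  obtain ⟨R, hRdef⟩ : ∃ R, R = hRfin.toFinset := ⟨_, rfl⟩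
  have hRmem : ∀ u ∈ leechSet, ρ u ∈ R := by
    intro u hu
    rw [hRdef, Set.Finite.mem_toFinset, hρdef]
    exact ⟨u, hu, rfl⟩
  have hRc : R.card ≤ 16777216 := by
    rw [hRdef, ← Set.ncard_eq_toFinset_card _ hRfin]
    have h2 : Nat.card ↥(leechSub.map (QuotientAddGroup.mk' T2))
        = ((leechSub.map (QuotientAddGroup.mk' T2) : AddSubgroup ((GolayPt → ℤ) ⧸ T2)) :
          Set ((GolayPt → ℤ) ⧸ T2)).ncard := Nat.card_coe_set_eq _
    rw [← h2, hRcard]
    norm_num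
  -- the three sets of short vectors
  have hfin4 : {x : GolayPt → ℤ | x ∈ leechSet ∧ sqNorm x = 32}.Finite :=
    Set.finite_of_ncard_ne_zero (by rw [leech_min_count]; norm_num)
  have hfin6 : {x : GolayPt → ℤ | x ∈ leechSet ∧ sqNorm x = 48}.Finite :=
    Set.finite_of_ncard_ne_zero (by rw [n6_count]; norm_num)
  have hfin8 : {x : GolayPt → ℤ | x ∈ leechSet ∧ sqNorm x = 64}.Finite :=
    Set.finite_of_ncard_ne_zero (by rw [n8_count]; norm_num)
  obtain ⟨S4, hS4⟩ : ∃ S4, S4 = hfin4.toFinset := ⟨_, rfl⟩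
  obtain ⟨S6, hS6⟩ : ∃ S6, S6 = hfin6.toFinset := ⟨_, rfl⟩
  obtain ⟨S8, hS8⟩ : ∃ S8, S8 = hfin8.toFinset := ⟨_, rfl⟩
  have m4 : ∀ y, y ∈ S4 ↔ y ∈ leechSet ∧ sqNorm y = 32 := by
    intro y
    rw [hS4, Set.Finite.mem_toFinset]
    rfl
  have m6 : ∀ y, y ∈ S6 ↔ y ∈ leechSet ∧ sqNorm y = 48 := by
    intro y
    rw [hS6, Set.Finite.mem_toFinset]
    rfl
  have m8 : ∀ y, y ∈ S8 ↔ y ∈ leechSet ∧ sqNorm y = 64 := by
    intro y
    rw [hS8, Set.Finite.mem_toFinset]
    rfl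
  have c4 : S4.card = 196560 := by
    rw [hS4, ← Set.ncard_eq_toFinset_card _ hfin4, leech_min_count]
  have c6 : S6.card = 16773120 := by
    rw [hS6, ← Set.ncard_eq_toFinset_card _ hfin6, n6_count]
  have c8 : S8.card = 398034000 := by
    rw [hS8, ← Set.ncard_eq_toFinset_card _ hfin8, n8_count]
  have hq0 : sqNorm (0 : GolayPt → ℤ) = 0 := by
    unfold sqNorm
    simp
  have hpair : ∀ u v : GolayPt → ℤ, u ∈ leechSet → v ∈ leechSet → sqNorm u ≤ 64 → sqNorm v ≤ 64 →
      ρ u = ρ v → v = u ∨ v = -u ∨ (sqNorm u = 64 ∧ sqNorm v = 64 ∧ dotInt u v = 0) := by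
    intro u v hu hv hun hvn huv
    by_cases hne : u = v
    · exact Or.inl hne.symm
    · obtain ⟨z, hz, hz'⟩ := (hρ u v).1 huv
      rcases Cfsg.Agent.S5592.result u v ((mem_leechLattice_iff u).2 hu)
        ((mem_leechLattice_iff v).2 hv) hne hun hvn ⟨z, (mem_leechLattice_iff z).2 hz, hz'⟩
        with h | h
      · right; left
        rw [h, neg_neg]
      · exact Or.inr (Or.inr h)
  have hdiff : ∀ u v : GolayPt → ℤ, u ∈ leechSet → v ∈ leechSet → sqNorm u ≤ 64 → sqNorm v ≤ 64 →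
      sqNorm u ≠ sqNorm v → ρ u ≠ ρ v := by
    intro u v hu hv hun hvn hne huv
    rcases hpair u v hu hv hun hvn huv with h | h | ⟨h, h', -⟩
    · rw [h] at hne
      exact hne rfl
    · rw [h, sqNorm_neg'] at hne
      exact hne rfl
    · rw [h, h'] at hne
      exact hne rfl
  have hfib2 : ∀ (S : Finset (GolayPt → ℤ)) (n : ℤ), n < 64 →
      (∀ y ∈ S, y ∈ leechSet ∧ sqNorm y = n) →
      ∀ u ∈ S, (S.filter (fun y => ρ y = ρ u)).card ≤ 2 := by
    intro S n hn hS u hu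
    calc (S.filter (fun y => ρ y = ρ u)).card ≤ ({u, -u} : Finset (GolayPt → ℤ)).card := by
          apply Finset.card_le_card
          intro y hy
          obtain ⟨hyS, hyu⟩ := Finset.mem_filter.1 hy
          have h1 := hS u hu
          have h2 := hS y hyS
          rcases hpair u y h1.1 h2.1 (by omega) (by omega) hyu.symm with h | h | ⟨h, -, -⟩
          · rw [h]
            exact Finset.mem_insert_self _ _
          · rw [h]
            exact Finset.mem_insert_of_mem (Finset.mem_singleton_self _)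
          · omega
      _ ≤ 2 := Finset.card_le_two
  have hmain := cross_count ρ 0 S4 S6 S8 R hRc c4 c6 c8
    (hRmem 0 leechSet_zero) (fun u hu => hRmem u ((m4 u).1 hu).1)
    (fun u hu => hRmem u ((m6 u).1 hu).1) (fun u hu => hRmem u ((m8 u).1 hu).1)
    (fun u hu => hdiff u 0 ((m4 u).1 hu).1 leechSet_zero (by rw [((m4 u).1 hu).2]; norm_num)
      (by rw [hq0]; norm_num) (by rw [((m4 u).1 hu).2, hq0]; norm_num))
    (fun u hu => hdiff u 0 ((m6 u).1 hu).1 leechSet_zero (by rw [((m6 u).1 hu).2]; norm_num)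
      (by rw [hq0]; norm_num) (by rw [((m6 u).1 hu).2, hq0]; norm_num))
    (fun u hu => hdiff u 0 ((m8 u).1 hu).1 leechSet_zero (by rw [((m8 u).1 hu).2])
      (by rw [hq0]; norm_num) (by rw [((m8 u).1 hu).2, hq0]; norm_num))
    (fun u hu v hv => hdiff u v ((m4 u).1 hu).1 ((m6 v).1 hv).1
      (by rw [((m4 u).1 hu).2]; norm_num) (by rw [((m6 v).1 hv).2]; norm_num)
      (by rw [((m4 u).1 hu).2, ((m6 v).1 hv).2]; norm_num))
    (fun u hu v hv => hdiff u v ((m4 u).1 hu).1 ((m8 v).1 hv).1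
      (by rw [((m4 u).1 hu).2]; norm_num) (by rw [((m8 v).1 hv).2])
      (by rw [((m4 u).1 hu).2, ((m8 v).1 hv).2]; norm_num))
    (fun u hu v hv => hdiff u v ((m6 u).1 hu).1 ((m8 v).1 hv).1
      (by rw [((m6 u).1 hu).2]; norm_num) (by rw [((m8 v).1 hv).2])
      (by rw [((m6 u).1 hu).2, ((m8 v).1 hv).2]; norm_num))
    (hfib2 S4 32 (by norm_num) (fun y hy => (m4 y).1 hy))
    (hfib2 S6 48 (by norm_num) (fun y hy => (m6 y).1 hy))
    (by
      intro u hu
      have hdot : ∀ a b : GolayPt → ℤ, a ⬝ᵥ ((1 : Matrix GolayPt GolayPt ℤ) *ᵥ b) = dotInt a b := by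
        intro a b
        rw [Matrix.one_mulVec]
        rfl
      have hsq : ∀ a : GolayPt → ℤ, dotInt a a = sqNorm a := by
        intro a
        unfold dotInt sqNorm
        exact Finset.sum_congr rfl (fun i _ => (sq (a i)).symm)
      have hb := frame_bound (1 : Matrix GolayPt GolayPt ℤ) (S8.filter (fun y => ρ y = ρ u))
        (by
          intro y hy
          rw [hdot, hsq, ((m8 y).1 (Finset.mem_filter.1 hy).1).2]
          norm_num)
        (by
          intro y hy w hw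
          obtain ⟨hyS, hyu⟩ := Finset.mem_filter.1 hy
          obtain ⟨hwS, hwu⟩ := Finset.mem_filter.1 hw
          rw [hdot]
          rcases hpair y w ((m8 y).1 hyS).1 ((m8 w).1 hwS).1 (by rw [((m8 y).1 hyS).2])
            (by rw [((m8 w).1 hwS).2]) (hyu.trans hwu.symm) with h | h | ⟨-, -, h⟩
          · exact Or.inl h
          · exact Or.inr (Or.inl h)
          · exact Or.inr (Or.inr h))
      rw [← Finset.card_univ (α := GolayPt), card_univ_golay] at hb
      exact hb)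
  constructor
  · intro x hx h64
    have hx8 : x ∈ S8 := (m8 x).2 ⟨hx, h64⟩
    have hset : {y : GolayPt → ℤ | y ∈ leechSet ∧ sqNorm y = 64 ∧ ∃ z ∈ leechSet, x - y = 2 • z}
        = ↑(S8.filter (fun y => ρ y = ρ x)) := by
      ext y
      rw [Finset.mem_coe, Finset.mem_filter, m8]
      constructor
      · rintro ⟨h1, h2, h3⟩
        exact ⟨⟨h1, h2⟩, ((hρ x y).2 h3).symm⟩
      · rintro ⟨⟨h1, h2⟩, h3⟩
        exact ⟨h1, h2, (hρ x y).1 h3.symm⟩
    rw [hset, Set.ncard_coe_finset]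
    exact hmain.1 x hx8
  · intro x hx
    rcases hmain.2 (ρ x) (hRmem x hx) with h | ⟨y, hy, h⟩ | ⟨y, hy, h⟩ | ⟨y, hy, h⟩
    · exact ⟨0, leechSet_zero, by rw [hq0]; norm_num, (hρ x 0).1 h⟩
    · exact ⟨y, ((m4 y).1 hy).1, by rw [((m4 y).1 hy).2]; norm_num, (hρ x y).1 h.symm⟩
    · exact ⟨y, ((m6 y).1 hy).1, by rw [((m6 y).1 hy).2]; norm_num, (hρ x y).1 h.symm⟩
    · exact ⟨y, ((m8 y).1 hy).1, by rw [((m8 y).1 hy).2], (hρ x y).1 h.symm⟩

end Cfsg.Agent.Lib.Helper1
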