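import Mathlib
import Cfsg.Prelude.Def_Sporadic_a
import Cfsg.Agent.Lib.Helper1.LeechDesign2

/-!
The minimal vectors of the rank-24 lattice: second and fourth moments (helper1).
-/

namespace Cfsg.Agent.Lib.Helper1

open Cfsg

/-- sign change on a set of coordinates -/
def sgn (c : Finset GolayPt) (w : GolayPt → ℤ) : GolayPt → ℤ := fun i => if i ∈ c then -w i else w i

/-- coordinate permutation -/
def prm (σ : Equiv.Perm GolayPt) (w : GolayPt → ℤ) : GolayPt → ℤ := fun i => w (σ.symm i)

theorem sgn_sgn (c : Finset GolayPt) (w : GolayPt → ℤ) : sgn c (sgn c w) = w := by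
  funext i
  unfold sgn
  split_ifs <;> ring

theorem sqNorm_sgn (c : Finset GolayPt) (w : GolayPt → ℤ) : sqNorm (sgn c w) = sqNorm w := by
  unfold sqNorm sgn
  refine Finset.sum_congr rfl (fun i _ => ?_)
  split_ifs <;> ring

theorem sqNorm_prm (σ : Equiv.Perm GolayPt) (w : GolayPt → ℤ) : sqNorm (prm σ w) = sqNorm w := by
  unfold sqNorm prm
  exact Equiv.sum_comp σ.symm (fun i => w i ^ 2)

theorem prm_inv (σ : Equiv.Perm GolayPt) (w : GolayPt → ℤ) : prm σ⁻¹ (prm σ w) = w := by
  funext i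
  show w (σ.symm (σ i)) = w i
  rw [Equiv.symm_apply_apply]

theorem prm_inv' (σ : Equiv.Perm GolayPt) (w : GolayPt → ℤ) : prm σ (prm σ⁻¹ w) = w := by
  funext i
  show w (σ (σ.symm i)) = w i
  rw [Equiv.apply_symm_apply]

theorem min_moments : ∃ Min : Finset (GolayPt → ℤ),
    (∀ w, w ∈ Min ↔ w ∈ leechSet ∧ sqNorm w = 32) ∧ Min.card = 196560 ∧
    (∀ v : GolayPt → ℤ, ∑ w ∈ Min, (dotInt v w) ^ 2 = 262080 * sqNorm v) ∧
    (∀ v : GolayPt → ℤ, ∑ w ∈ Min, (dotInt v w) ^ 4 = 967680 * (sqNorm v) ^ 2) := by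
  classical
  obtain ⟨Min, hmem, hcard, hκ⟩ := exists_min
  have hsign : ∀ c ∈ gSupp, ∀ F : (GolayPt → ℤ) → ℤ,
      (∀ w, F (sgn c w) = -F w) → ∑ w ∈ Min, F w = 0 := by
    intro c hc F hF
    have hτ : ∀ w ∈ Min, sgn c w ∈ Min := by
      intro w hw
      obtain ⟨h1, h2⟩ := (hmem w).1 hw
      exact (hmem _).2 ⟨leech_sign c hc w h1, by rw [sqNorm_sgn, h2]⟩
    have h := Finset.sum_nbij' (s := Min) (t := Min) (f := fun w => F (sgn c w)) (g := F)
      (sgn c) (sgn c) hτ hτ (fun w _ => sgn_sgn c w) (fun w _ => sgn_sgn c w) (fun w _ => rfl)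
    rw [Finset.sum_congr rfl (fun w _ => hF w), Finset.sum_neg_distrib] at h
    linarith
  have hperm : ∀ σ ∈ M24, ∀ F : (GolayPt → ℤ) → ℤ,
      ∑ w ∈ Min, F (prm σ w) = ∑ w ∈ Min, F w := by
    intro σ hσ F
    have hτ : ∀ τ ∈ M24, ∀ w ∈ Min, prm τ w ∈ Min := by
      intro τ hτ' w hw
      obtain ⟨h1, h2⟩ := (hmem w).1 hw
      exact (hmem _).2 ⟨leech_perm τ hτ' w h1, by rw [sqNorm_prm, h2]⟩
    exact Finset.sum_nbij' (s := Min) (t := Min) (f := fun w => F (prm σ w)) (g := F)
      (prm σ) (prm σ⁻¹) (hτ σ hσ) (hτ σ⁻¹ (M24.inv_mem hσ)) (fun w _ => prm_inv σ w)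
      (fun w _ => prm_inv' σ w) (fun w _ => rfl)
  have hoff2 : ∀ i j, i ≠ j → ∑ w ∈ Min, w i * w j = 0 := by
    intro i j hij
    obtain ⟨c, hc, hic, hd⟩ := exists_octad_avoid i {j} (by simp) (by simp [hij])
    have hjc : j ∉ c := fun h => Finset.disjoint_left.1 hd h (Finset.mem_singleton_self j)
    exact hsign c hc (fun w => w i * w j) (fun w => by
      simp only [sgn, if_pos hic, if_neg hjc]
      ring)
  have hV2 : ∀ i k l, k ≠ l → ∑ w ∈ Min, (w i * w i) * (w k * w l) = 0 := by
    intro i k l hkl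
    obtain ⟨c, hc, hkc, hd⟩ := exists_octad_avoid k {l} (by simp) (by simp [hkl])
    have hlc : l ∉ c := fun h => Finset.disjoint_left.1 hd h (Finset.mem_singleton_self l)
    exact hsign c hc (fun w => (w i * w i) * (w k * w l)) (fun w => by
      simp only [sgn, if_pos hkc, if_neg hlc]
      split_ifs <;> ring)
  have hV1 : ∀ i j k l, i ≠ j → i ≠ k → i ≠ l → ∑ w ∈ Min, (w i * w j) * (w k * w l) = 0 := by
    intro i j k l hij hik hil
    obtain ⟨c, hc, hic, hd⟩ := exists_octad_avoid i {j, k, l} Finset.card_le_three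
      (by simp [hij, hik, hil])
    have hjc : j ∉ c := fun h => Finset.disjoint_left.1 hd h (by simp)
    have hkc : k ∉ c := fun h => Finset.disjoint_left.1 hd h (by simp)
    have hlc : l ∉ c := fun h => Finset.disjoint_left.1 hd h (by simp)
    exact hsign c hc (fun w => (w i * w j) * (w k * w l)) (fun w => by
      simp only [sgn, if_pos hic, if_neg hjc, if_neg hkc, if_neg hlc]
      ring)
  have hu1 : ∀ (F2 : ℤ → ℤ) (i i' : GolayPt), ∑ w ∈ Min, F2 (w i) = ∑ w ∈ Min, F2 (w i') := by
    intro F2 i i'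
    obtain ⟨g, hg, hgi⟩ := M24_extend {i} (by simp) (fun _ => i') (by
      intro a ha b hb _
      rw [Finset.coe_singleton, Set.mem_singleton_iff] at ha hb
      rw [ha, hb])
    have h1 := hgi i (Finset.mem_singleton_self i)
    have h2 : g.symm i' = i := by rw [Equiv.symm_apply_eq]; exact h1.symm
    have := hperm g hg (fun w => F2 (w i'))
    simp only [prm, h2] at this
    exact this
  have hu2 : ∀ (F2 : ℤ → ℤ → ℤ) (i k i' k' : GolayPt), i ≠ k → i' ≠ k' →
      ∑ w ∈ Min, F2 (w i) (w k) = ∑ w ∈ Min, F2 (w i') (w k') := by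
    intro F2 i k i' k' hik hik'
    obtain ⟨g, hg, hgi⟩ := M24_extend {i, k} (by rw [Finset.card_pair hik]; norm_num)
      (fun a => if a = i then i' else k') (by
      intro a ha b hb hab
      rw [Finset.coe_insert, Finset.coe_singleton] at ha hb
      rcases ha with rfl | ha <;> rcases hb with rfl | hb
      · rfl
      · rw [Set.mem_singleton_iff] at hb
        subst hb
        simp only [if_true, if_neg (Ne.symm hik)] at hab
        exact absurd hab hik'
      · rw [Set.mem_singleton_iff] at ha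
        subst ha
        simp only [if_true, if_neg (Ne.symm hik)] at hab
        exact absurd hab.symm hik'
      · rw [Set.mem_singleton_iff] at ha hb
        rw [ha, hb])
    have h1 := hgi i (by simp)
    have h1' := hgi k (by simp)
    simp only [if_true, if_neg (Ne.symm hik)] at h1 h1'
    have h2 : g.symm i' = i := by rw [Equiv.symm_apply_eq]; exact h1.symm
    have h2' : g.symm k' = k := by rw [Equiv.symm_apply_eq]; exact h1'.symm
    have := hperm g hg (fun w => F2 (w i') (w k'))
    simp only [prm, h2, h2'] at this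
    exact this
  have hsq32 : ∀ w ∈ Min, ∑ i, w i * w i = 32 := by
    intro w hw
    have := ((hmem w).1 hw).2
    unfold sqNorm at this
    rw [← this]
    exact Finset.sum_congr rfl (fun i _ => (sq (w i)).symm)
  obtain ⟨i0, i1, h01⟩ : ∃ i0 i1 : GolayPt, i0 ≠ i1 := ⟨none, some 0, by simp⟩
  -- second moment constant
  have hA2 : ∀ i, ∑ w ∈ Min, w i * w i = 262080 := by
    have h24 : ∑ i : GolayPt, ∑ w ∈ Min, w i * w i = 32 * 196560 := by
      rw [Finset.sum_comm, Finset.sum_congr rfl hsq32, Finset.sum_const, hcard]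
      norm_num
    have hall : ∀ i, ∑ w ∈ Min, w i * w i = ∑ w ∈ Min, w i0 * w i0 :=
      fun i => hu1 (fun a => a * a) i i0
    rw [Finset.sum_congr rfl (fun i _ => hall i), Finset.sum_const, card_univ_golay,
      nsmul_eq_mul] at h24
    intro i
    rw [hall i]
    push_cast at h24
    linarith
  have hD4 : ∀ i, ∑ w ∈ Min, (w i * w i) * (w i * w i) = 3 * 322560 := by
    have h24 : ∑ i : GolayPt, ∑ w ∈ Min, (w i * w i) * (w i * w i) = 23224320 := by
      rw [Finset.sum_comm, ← hκ]
      exact Finset.sum_congr rfl (fun w _ => Finset.sum_congr rfl (fun i _ => by ring))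
    have hall : ∀ i, ∑ w ∈ Min, (w i * w i) * (w i * w i)
        = ∑ w ∈ Min, (w i0 * w i0) * (w i0 * w i0) :=
      fun i => hu1 (fun a => (a * a) * (a * a)) i i0
    rw [Finset.sum_congr rfl (fun i _ => hall i), Finset.sum_const, card_univ_golay,
      nsmul_eq_mul] at h24
    intro i
    rw [hall i]
    push_cast at h24
    linarith
  have hE : ∀ i k, i ≠ k → ∑ w ∈ Min, (w i * w i) * (w k * w k) = 322560 := by
    have htot : ∑ i : GolayPt, ∑ k : GolayPt, ∑ w ∈ Min, (w i * w i) * (w k * w k)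
        = 196560 * 1024 := by
      have e : ∀ i : GolayPt, ∑ k : GolayPt, ∑ w ∈ Min, (w i * w i) * (w k * w k)
          = ∑ w ∈ Min, ∑ k : GolayPt, (w i * w i) * (w k * w k) := fun i => Finset.sum_comm
      rw [Finset.sum_congr rfl (fun i _ => e i), Finset.sum_comm]
      have e2 : ∀ w ∈ Min, ∑ i : GolayPt, ∑ k : GolayPt, (w i * w i) * (w k * w k) = 1024 := by
        intro w hw
        rw [← Finset.sum_mul_sum, hsq32 w hw]
        norm_num
      rw [Finset.sum_congr rfl e2, Finset.sum_const, hcard]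
      norm_num
    have hall : ∀ i k, i ≠ k → ∑ w ∈ Min, (w i * w i) * (w k * w k)
        = ∑ w ∈ Min, (w i0 * w i0) * (w i1 * w i1) :=
      fun i k hik => hu2 (fun a b => (a * a) * (b * b)) i k i0 i1 hik h01
    obtain ⟨E, hEdef⟩ : ∃ E : ℤ, E = ∑ w ∈ Min, (w i0 * w i0) * (w i1 * w i1) := ⟨_, rfl⟩
    have hrow : ∀ i : GolayPt, ∑ k : GolayPt, ∑ w ∈ Min, (w i * w i) * (w k * w k)
        = 24 * E + (3 * 322560 - E) := by
      intro i
      have e3 : ∀ k : GolayPt, ∑ w ∈ Min, (w i * w i) * (w k * w k)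
          = E + (if i = k then 3 * 322560 - E else 0) := by
        intro k
        by_cases hik : i = k
        · subst hik
          rw [if_pos rfl, hD4 i]
          ring
        · rw [if_neg hik, hall i k hik, ← hEdef]
          ring
      rw [Finset.sum_congr rfl (fun k _ => e3 k), Finset.sum_add_distrib, Finset.sum_const,
        card_univ_golay, Finset.sum_ite_eq, if_pos (Finset.mem_univ i), nsmul_eq_mul]
      norm_num
    rw [Finset.sum_congr rfl (fun i _ => hrow i), Finset.sum_const, card_univ_golay,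
      nsmul_eq_mul] at htot
    intro i k hik
    rw [hall i k hik, ← hEdef]
    push_cast at htot
    linarith
  have hM4 := M4_formula Min 322560 hD4 hE hV2 hV1
  refine ⟨Min, hmem, hcard, fun v => moment2 Min v 262080 hA2 hoff2, fun v => ?_⟩
  rw [moment4 Min v 322560 hM4]
  ring

end Cfsg.Agent.Lib.Helper1
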