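import Mathlib
import Cfsg.Prelude.Def_Sporadic_a
import Cfsg.Agent.Lib.Helper1.LeechDesign3
import Cfsg.Agent.Lib.Helper9.Leech

/-!
The census of minimal vectors of the rank-24 lattice by inner product with a fixed minimal vector
(helper1).
-/

namespace Cfsg.Agent.Lib.Helper1

open Cfsg

theorem leech_sum_on (c : Finset GolayPt) (hc : c ∈ gSupp) (x : GolayPt → ℤ) (hx : x ∈ leechSet) :
    (4 : ℤ) ∣ ∑ i, (if i ∈ c then x i else 0) := by
  obtain ⟨m', h1', h2', -⟩ := leech_sign c hc x hx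
  obtain ⟨m, h1, h2, -⟩ := hx
  obtain ⟨i0⟩ : Nonempty GolayPt := inferInstance
  have hs : ∑ i, (if i ∈ c then -x i else x i)
      = ∑ i, x i - 2 * ∑ i, (if i ∈ c then x i else 0) := by
    rw [Finset.mul_sum, ← Finset.sum_sub_distrib]
    refine Finset.sum_congr rfl (fun i _ => ?_)
    split_ifs <;> ring
  rw [hs] at h2'
  have ha := h1 i0
  have hb := h1' i0
  simp only at hb
  unfold Int.ModEq at *
  split_ifs at hb <;> omega

theorem dot_EE (x y : GolayPt → ℤ) (hx : x ∈ leechSet) (hy : y ∈ leechSet)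
    (hxe : ∀ i, x i % 2 = 0) (hye : ∀ i, y i % 2 = 0) : (8 : ℤ) ∣ dotInt x y := by
  classical
  obtain ⟨m, -, -, h3⟩ := hx
  obtain ⟨m', -, -, h3'⟩ := hy
  obtain ⟨D, hD⟩ : ∃ D : Finset GolayPt, D = Finset.univ.filter (fun i => x i ≡ 2 [ZMOD 4]) :=
    ⟨_, rfl⟩
  obtain ⟨D', hD'⟩ : ∃ D' : Finset GolayPt, D' = Finset.univ.filter (fun i => y i ≡ 2 [ZMOD 4]) :=
    ⟨_, rfl⟩
  have hDg : D ∈ gSupp := by rw [hD]; exact h3 2
  have hD'g : D' ∈ gSupp := by rw [hD']; exact h3' 2
  have hDmem : ∀ i, i ∈ D ↔ x i % 4 = 2 := by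
    intro i
    rw [hD, Finset.mem_filter]
    simp [Int.ModEq]
  have hD'mem : ∀ i, i ∈ D' ↔ y i % 4 = 2 := by
    intro i
    rw [hD', Finset.mem_filter]
    simp [Int.ModEq]
  have e : dotInt x y = ∑ i, (x i * y i - (if i ∈ D ∩ D' then 4 else 0))
      + 4 * ((D ∩ D').card : ℤ) := by
    unfold dotInt
    rw [Finset.sum_sub_distrib, sum_ite_const]
    ring
  rw [e]
  apply dvd_add
  · apply Finset.dvd_sum
    intro i _
    have h5 := hDmem i
    have h6 := hD'mem i
    have h7 := hxe i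
    have h8 := hye i
    obtain ⟨a, ha⟩ : ∃ a, x i = 2 * a := ⟨x i / 2, by omega⟩
    obtain ⟨b, hb⟩ : ∃ b, y i = 2 * b := ⟨y i / 2, by omega⟩
    by_cases hi : i ∈ D ∩ D'
    · rw [if_pos hi]
      obtain ⟨hi1, hi2⟩ := Finset.mem_inter.1 hi
      have := h5.1 hi1
      have := h6.1 hi2
      obtain ⟨a', ha'⟩ : ∃ a', a = 2 * a' + 1 := ⟨(a - 1) / 2, by omega⟩
      obtain ⟨b', hb'⟩ : ∃ b', b = 2 * b' + 1 := ⟨(b - 1) / 2, by omega⟩
      rw [ha, hb, ha', hb']
      exact ⟨2 * a' * b' + a' + b', by ring⟩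
    · rw [if_neg hi]
      have hor : ¬ x i % 4 = 2 ∨ ¬ y i % 4 = 2 := by
        by_contra hcon
        push Not at hcon
        exact hi (Finset.mem_inter.2 ⟨h5.2 hcon.1, h6.2 hcon.2⟩)
      rcases hor with h | h
      · obtain ⟨a', ha'⟩ : ∃ a', a = 2 * a' := ⟨a / 2, by omega⟩
        rw [ha, hb, ha']
        exact ⟨a' * b, by ring⟩
      · obtain ⟨b', hb'⟩ : ∃ b', b = 2 * b' := ⟨b / 2, by omega⟩
        rw [ha, hb, hb']
        exact ⟨a * b', by ring⟩
  · obtain ⟨t, ht⟩ := gSupp_inter_even hDg hD'g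
    rw [ht]
    push_cast
    exact ⟨t, by ring⟩

theorem dot_EO (x y : GolayPt → ℤ) (hx : x ∈ leechSet) (hy : y ∈ leechSet)
    (hxe : ∀ i, x i % 2 = 0) (hyo : ∀ i, y i % 2 = 1) : (8 : ℤ) ∣ dotInt x y := by
  classical
  have hx' := hx
  obtain ⟨m, h1, h2, -⟩ := hx
  obtain ⟨m', -, -, h3'⟩ := hy
  obtain ⟨i0⟩ : Nonempty GolayPt := inferInstance
  have hsum8 : (8 : ℤ) ∣ ∑ i, x i := by
    have := h1 i0
    have := hxe i0
    unfold Int.ModEq at *
    omega
  obtain ⟨c, hc⟩ : ∃ c : Finset GolayPt, c = Finset.univ.filter (fun i => y i ≡ 3 [ZMOD 4]) :=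
    ⟨_, rfl⟩
  have hcg : c ∈ gSupp := by rw [hc]; exact h3' 3
  have hcmem : ∀ i, i ∈ c ↔ y i % 4 = 3 := by
    intro i
    rw [hc, Finset.mem_filter]
    simp [Int.ModEq]
  have h4 := leech_sum_on c hcg x hx'
  have e : dotInt x y = ∑ i, (x i * y i - (x i - 2 * (if i ∈ c then x i else 0)))
      + (∑ i, x i - 2 * ∑ i, (if i ∈ c then x i else 0)) := by
    unfold dotInt
    rw [Finset.sum_sub_distrib, Finset.sum_sub_distrib, Finset.mul_sum]
    ring
  rw [e]
  apply dvd_add
  · apply Finset.dvd_sum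
    intro i _
    have h5 := hcmem i
    have h7 := hxe i
    have h8 := hyo i
    obtain ⟨a, ha⟩ : ∃ a, x i = 2 * a := ⟨x i / 2, by omega⟩
    by_cases hi : i ∈ c
    · rw [if_pos hi]
      have := h5.1 hi
      obtain ⟨b, hb⟩ : ∃ b, y i = 4 * b + 3 := ⟨(y i - 3) / 4, by omega⟩
      rw [ha, hb]
      exact ⟨a * b + a, by ring⟩
    · rw [if_neg hi]
      have : ¬ y i % 4 = 3 := fun h => hi (h5.2 h)
      obtain ⟨b, hb⟩ : ∃ b, y i = 4 * b + 1 := ⟨(y i - 1) / 4, by omega⟩
      rw [ha, hb]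
      exact ⟨a * b, by ring⟩
  · obtain ⟨t, ht⟩ := h4
    obtain ⟨s, hs⟩ := hsum8
    rw [ht, hs]
    exact ⟨s - t, by ring⟩

theorem dotInt_comm' (x y : GolayPt → ℤ) : dotInt x y = dotInt y x := by
  unfold dotInt
  exact Finset.sum_congr rfl (fun i _ => mul_comm _ _)

theorem leech_dot8 (x y : GolayPt → ℤ) (hx : x ∈ leechSet) (hy : y ∈ leechSet) :
    (8 : ℤ) ∣ dotInt x y := by
  obtain ⟨i0⟩ : Nonempty GolayPt := inferInstance
  have hpar : ∀ z ∈ leechSet, (∀ i, z i % 2 = 0) ∨ (∀ i, z i % 2 = 1) := by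
    rintro z ⟨m, h1, -, -⟩
    rcases Int.emod_two_eq_zero_or_one m with hm | hm
    · left
      intro i
      have := h1 i
      unfold Int.ModEq at this
      omega
    · right
      intro i
      have := h1 i
      unfold Int.ModEq at this
      omega
  rcases hpar x hx with hxe | hxo
  · rcases hpar y hy with hye | hyo
    · exact dot_EE x y hx hy hxe hye
    · exact dot_EO x y hx hy hxe hyo
  · rcases hpar y hy with hye | hyo
    · rw [dotInt_comm']
      exact dot_EO y x hy hx hye hxo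
    · have hd : y - x ∈ leechSet := leechSub.sub_mem hy hx
      have hde : ∀ i, (y - x) i % 2 = 0 := by
        intro i
        have := hxo i
        have := hyo i
        simp only [Pi.sub_apply]
        omega
      have h1 := dot_EO (y - x) x hd hx hde hxo
      have e : dotInt x y = dotInt (y - x) x + ∑ i, x i ^ 2 := by
        unfold dotInt
        rw [← Finset.sum_add_distrib]
        refine Finset.sum_congr rfl (fun i _ => ?_)
        simp only [Pi.sub_apply]
        ring
      rw [e]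
      apply dvd_add h1
      have e2 : ∑ i, x i ^ 2 = ∑ i, (x i ^ 2 - 1) + 24 := by
        rw [Finset.sum_sub_distrib, Finset.sum_const, card_univ_golay]
        norm_num
      rw [e2]
      apply dvd_add
      · apply Finset.dvd_sum
        intro i _
        have := hxo i
        obtain ⟨a, ha⟩ : ∃ a, x i = 2 * a + 1 := ⟨(x i - 1) / 2, by omega⟩
        rw [ha]
        have h2 : (2 * a + 1) ^ 2 - 1 = 4 * (a * (a + 1)) := by ring
        rw [h2]
        obtain ⟨b, hb⟩ : ∃ b, a * (a + 1) = 2 * b := by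
          rcases Int.emod_two_eq_zero_or_one a with h | h
          · obtain ⟨a', ha'⟩ : ∃ a', a = 2 * a' := ⟨a / 2, by omega⟩
            exact ⟨a' * (a + 1), by rw [ha']; ring⟩
          · obtain ⟨a', ha'⟩ : ∃ a', a = 2 * a' + 1 := ⟨(a - 1) / 2, by omega⟩
            exact ⟨a * (a' + 1), by rw [ha']; ring⟩
        rw [hb]
        exact ⟨b, by ring⟩
      · norm_num

theorem min_census (v : GolayPt → ℤ) (hv : v ∈ leechSet) (hvn : sqNorm v = 32) :
    {w : GolayPt → ℤ | w ∈ leechSet ∧ sqNorm w = 32 ∧ dotInt v w = -16}.ncard = 4600 ∧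
    {w : GolayPt → ℤ | w ∈ leechSet ∧ sqNorm w = 32 ∧ dotInt v w = -8}.ncard = 47104 ∧
    {w : GolayPt → ℤ | w ∈ leechSet ∧ sqNorm w = 32 ∧ dotInt v w = 0}.ncard = 93150 := by
  classical
  obtain ⟨Min, hmem, hcard, hm2, hm4⟩ := min_moments
  have hvM : v ∈ Min := (hmem v).2 ⟨hv, hvn⟩
  have hself : dotInt v v = 32 := by
    rw [← hvn]
    unfold dotInt sqNorm
    exact Finset.sum_congr rfl (fun i _ => (sq (v i)).symm)
  -- the possible values
  have hvals : ∀ w ∈ Min, dotInt v w ∈ ({-32, -16, -8, 0, 8, 16, 32} : Finset ℤ) := by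
    intro w hw
    obtain ⟨hwL, hwn⟩ := (hmem w).1 hw
    obtain ⟨t, ht⟩ := leech_dot8 v w hv hwL
    have h1 := Cfsg.Agent.Lib.Helper9.sqNorm_sub v w
    have h2 := Cfsg.Agent.Lib.Helper9.sqNorm_add v w
    rw [hvn, hwn] at h1 h2
    have hsub : v - w ≠ 0 → 32 ≤ sqNorm (v - w) := fun h =>
      Cfsg.Agent.Lib.Helper9.sqNorm_ge_of_leechCond
        (Cfsg.Agent.Lib.Helper9.leechCond_of_mem (leechSub.sub_mem hv hwL)) h
    have hadd : v + w ≠ 0 → 32 ≤ sqNorm (v + w) := fun h =>
      Cfsg.Agent.Lib.Helper9.sqNorm_ge_of_leechCond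
        (Cfsg.Agent.Lib.Helper9.leechCond_of_mem (leechSub.add_mem hv hwL)) h
    have hnn1 : 0 ≤ sqNorm (v - w) := by
      unfold sqNorm
      exact Finset.sum_nonneg (fun i _ => sq_nonneg _)
    have hnn2 : 0 ≤ sqNorm (v + w) := by
      unfold sqNorm
      exact Finset.sum_nonneg (fun i _ => sq_nonneg _)
    have hle : dotInt v w ≤ 16 ∨ dotInt v w = 32 := by
      by_cases h : v - w = 0
      · right
        rw [sub_eq_zero] at h
        rw [← h]
        exact hself
      · left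
        have := hsub h
        omega
    have hge : -16 ≤ dotInt v w ∨ dotInt v w = -32 := by
      by_cases h : v + w = 0
      · right
        have hw' : w = -v := by
          rw [add_comm] at h
          exact eq_neg_of_add_eq_zero_left h
        rw [hw']
        have : dotInt v (-v) = -dotInt v v := by
          unfold dotInt
          rw [← Finset.sum_neg_distrib]
          exact Finset.sum_congr rfl (fun i _ => by simp)
        rw [this, hself]
      · left
        have := hadd h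
        omega
    have : dotInt v w = -32 ∨ dotInt v w = -16 ∨ dotInt v w = -8 ∨ dotInt v w = 0
        ∨ dotInt v w = 8 ∨ dotInt v w = 16 ∨ dotInt v w = 32 := by omega
    simp only [Finset.mem_insert, Finset.mem_singleton]
    exact this
  obtain ⟨n, hn⟩ : ∃ n : ℤ → ℕ, ∀ d, n d = (Min.filter (fun w => dotInt v w = d)).card :=
    ⟨fun d => (Min.filter (fun w => dotInt v w = d)).card, fun d => rfl⟩
  have hfib : ∀ F : ℤ → ℤ, ∑ w ∈ Min, F (dotInt v w)
      = n (-32) * F (-32) + n (-16) * F (-16) + n (-8) * F (-8) + n 0 * F 0 + n 8 * F 8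
        + n 16 * F 16 + n 32 * F 32 := by
    intro F
    rw [← Finset.sum_fiberwise_of_maps_to' hvals F]
    simp only [Finset.sum_const, nsmul_eq_mul]
    rw [Finset.sum_insert (by decide), Finset.sum_insert (by decide),
      Finset.sum_insert (by decide), Finset.sum_insert (by decide),
      Finset.sum_insert (by decide), Finset.sum_insert (by decide), Finset.sum_singleton]
    simp only [hn]
    ring
  -- n(32) = 1 and n(-32) = 1
  have hdneg : ∀ w : GolayPt → ℤ, dotInt v (-w) = -dotInt v w := by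
    intro w
    unfold dotInt
    rw [← Finset.sum_neg_distrib]
    exact Finset.sum_congr rfl (fun i _ => by simp)
  have hnegM : ∀ w ∈ Min, -w ∈ Min := by
    intro w hw
    obtain ⟨h1, h2⟩ := (hmem w).1 hw
    refine (hmem _).2 ⟨leechSub.neg_mem h1, ?_⟩
    rw [← h2]
    unfold sqNorm
    exact Finset.sum_congr rfl (fun i _ => by simp)
  have hn32 : n 32 = 1 := by
    rw [hn]
    have : Min.filter (fun w => dotInt v w = 32) = {v} := by
      ext w
      rw [Finset.mem_filter, Finset.mem_singleton]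
      constructor
      · rintro ⟨hw, hd⟩
        obtain ⟨hwL, hwn⟩ := (hmem w).1 hw
        by_contra hne
        have h1 := Cfsg.Agent.Lib.Helper9.sqNorm_sub v w
        rw [hvn, hwn, hd] at h1
        have h0 : v - w ≠ 0 := fun h => hne (sub_eq_zero.1 h).symm
        have := Cfsg.Agent.Lib.Helper9.sqNorm_ge_of_leechCond
          (Cfsg.Agent.Lib.Helper9.leechCond_of_mem (leechSub.sub_mem hv hwL)) h0
        omega
      · rintro rfl
        exact ⟨hvM, hself⟩
    rw [this, Finset.card_singleton]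
  have hsymm : ∀ d : ℤ, n (-d) = n d := by
    intro d
    rw [hn, hn]
    apply Finset.card_nbij' (fun w => -w) (fun w => -w)
    · intro w hw
      rw [Finset.mem_coe, Finset.mem_filter] at hw ⊢
      exact ⟨hnegM w hw.1, by rw [hdneg, hw.2, neg_neg]⟩
    · intro w hw
      rw [Finset.mem_coe, Finset.mem_filter] at hw ⊢
      exact ⟨hnegM w hw.1, by rw [hdneg, hw.2]⟩
    · intro w _
      exact neg_neg w
    · intro w _
      exact neg_neg w
  have h0 := hfib (fun _ => 1)
  have h2 := hfib (fun d => d ^ 2)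
  have h4 := hfib (fun d => d ^ 4)
  rw [hm2 v, hvn] at h2
  rw [hm4 v, hvn] at h4
  simp only [Finset.sum_const, nsmul_eq_mul, mul_one] at h0
  rw [hcard] at h0
  have s32 := hsymm 32
  have s16 := hsymm 16
  have s8 := hsymm 8
  rw [s32, s16, s8, hn32] at h0 h2 h4
  push_cast at h0 h2 h4
  have r16 : n 16 = 4600 := by
    have : ((n 16 : ℕ) : ℤ) = 4600 := by linarith
    exact_mod_cast this
  have r8 : n 8 = 47104 := by
    have : ((n 8 : ℕ) : ℤ) = 47104 := by linarith
    exact_mod_cast this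
  have r0 : n 0 = 93150 := by
    have : ((n 0 : ℕ) : ℤ) = 93150 := by
      rw [r16, r8] at h0
      push_cast at h0
      linarith
    exact_mod_cast this
  have hset : ∀ d : ℤ, {w : GolayPt → ℤ | w ∈ leechSet ∧ sqNorm w = 32 ∧ dotInt v w = d}
      = ↑(Min.filter (fun w => dotInt v w = d)) := by
    intro d
    ext w
    rw [Finset.mem_coe, Finset.mem_filter, hmem]
    constructor
    · rintro ⟨h1, h2, h3⟩
      exact ⟨⟨h1, h2⟩, h3⟩
    · rintro ⟨⟨h1, h2⟩, h3⟩
      exact ⟨h1, h2, h3⟩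
  have hnd : ∀ d : ℤ, (Min.filter (fun w => dotInt v w = d)).card = n d := fun d => (hn d).symm
  refine ⟨?_, ?_, ?_⟩
  · rw [hset, Set.ncard_coe_finset, hnd, s16, r16]
  · rw [hset, Set.ncard_coe_finset, hnd, s8, r8]
  · rw [hset, Set.ncard_coe_finset, hnd, r0]

end Cfsg.Agent.Lib.Helper1
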