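import Mathlib
import Cfsg.Prelude.Def_Sporadic_a
import Cfsg.Agent.Lib.Helper1.LeechMin

/-!
The rank-24 lattice is generated by its vectors of sum of squares 32 (helper1).
-/

namespace Cfsg.Agent.Lib.Helper1

open Cfsg

theorem leech_gen_aux4 (x : GolayPt → ℤ) (h4 : ∀ i, x i ≡ 0 [ZMOD 4])
    (h8 : ∑ i, x i ≡ 0 [ZMOD 8]) :
    x ∈ AddSubgroup.closure {x : GolayPt → ℤ | x ∈ leechSet ∧ sqNorm x = 32} := by
  classical
  obtain ⟨M, hM⟩ : ∃ M, M = AddSubgroup.closure {x : GolayPt → ℤ | x ∈ leechSet ∧ sqNorm x = 32} :=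
    ⟨_, rfl⟩
  rw [← hM]
  obtain ⟨p, q, hpq⟩ : ∃ p q : GolayPt, p ≠ q := ⟨none, some 0, by simp⟩
  have hdiff : ∀ i, i ≠ p → (Pi.single i 4 - Pi.single p 4 : GolayPt → ℤ) ∈ M := by
    intro i hi
    have : (Pi.single i 4 - Pi.single p 4 : GolayPt → ℤ) = lEven 4 {i, p} {p} := by
      funext k
      unfold lEven
      by_cases h1 : k = p
      · subst h1
        simp [Pi.single_apply, Ne.symm hi]
      · by_cases h2 : k = i
        · subst h2
          simp [Pi.single_apply, h1]
        · simp [Pi.single_apply, h1, h2]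
    rw [this, hM]
    exact AddSubgroup.subset_closure (lEven4_mem {i, p} {p} (Finset.card_pair hi) (by simp))
  have hsum : (Pi.single q 4 + Pi.single p 4 : GolayPt → ℤ) ∈ M := by
    have : (Pi.single q 4 + Pi.single p 4 : GolayPt → ℤ) = lEven 4 {q, p} ∅ := by
      funext k
      unfold lEven
      by_cases h1 : k = p
      · subst h1
        simp [Pi.single_apply, hpq]
      · by_cases h2 : k = q
        · subst h2
          simp [Pi.single_apply, h1]
        · simp [Pi.single_apply, h1, h2]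
    rw [this, hM]
    exact AddSubgroup.subset_closure (lEven4_mem {q, p} ∅ (Finset.card_pair (Ne.symm hpq)) (by simp))
  have h8p : (Pi.single p 8 : GolayPt → ℤ) ∈ M := by
    have : (Pi.single p 8 : GolayPt → ℤ)
        = (Pi.single q 4 + Pi.single p 4) - (Pi.single q 4 - Pi.single p 4) := by
      funext k
      simp only [Pi.add_apply, Pi.sub_apply, Pi.single_apply]
      split_ifs <;> norm_num
    rw [this]
    exact M.sub_mem hsum (hdiff q (Ne.symm hpq))
  obtain ⟨z, hz⟩ : ∃ z : GolayPt → ℤ, ∀ i, x i = 4 * z i :=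
    ⟨fun i => x i / 4, fun i => by
      have := h4 i
      unfold Int.ModEq at this
      show x i = 4 * (x i / 4)
      omega⟩
  have hsx : ∑ i, x i = 4 * ∑ i, z i := by
    rw [Finset.mul_sum]
    exact Finset.sum_congr rfl (fun i _ => hz i)
  obtain ⟨s, hs⟩ : ∃ s, ∑ i, z i = 2 * s :=
    ⟨(∑ i, z i) / 2, by unfold Int.ModEq at h8; omega⟩
  have hx : x = ∑ i, z i • (Pi.single i 4 - Pi.single p 4 : GolayPt → ℤ)
      + s • (Pi.single p 8 : GolayPt → ℤ) := by
    funext k
    simp only [Pi.add_apply, Finset.sum_apply, Pi.smul_apply, Pi.sub_apply, Pi.single_apply,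
      smul_eq_mul, mul_sub, Finset.sum_sub_distrib, mul_ite, mul_zero, Finset.sum_ite_eq,
      Finset.mem_univ, if_true]
    rw [hz k]
    by_cases h1 : k = p
    · simp only [h1, if_true, Finset.sum_const_zero]
      rw [← Finset.sum_mul, hs]
      ring
    · simp only [h1, if_false, Finset.sum_const_zero]
      ring
  rw [hx]
  refine M.add_mem (sum_mem (fun i _ => M.zsmul_mem ?_ _)) (M.zsmul_mem h8p _)
  by_cases hi : i = p
  · rw [hi, sub_self]
    exact M.zero_mem
  · exact hdiff i hi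

theorem leech_gen (x : GolayPt → ℤ) (hx : x ∈ leechSet) :
    x ∈ AddSubgroup.closure {x : GolayPt → ℤ | x ∈ leechSet ∧ sqNorm x = 32} := by
  classical
  obtain ⟨M, hM⟩ : ∃ M, M = AddSubgroup.closure {x : GolayPt → ℤ | x ∈ leechSet ∧ sqNorm x = 32} :=
    ⟨_, rfl⟩
  rw [← hM]
  have hMle : ∀ y ∈ M, y ∈ leechSet := by
    intro y hy
    have : M ≤ leechSub := by
      rw [hM, AddSubgroup.closure_le]
      exact fun y hy => hy.1
    exact this hy
  have hsub : ∀ y w : GolayPt → ℤ, y ∈ leechSet → w ∈ leechSet → y - w ∈ leechSet :=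
    fun y w hy hw => leechSub.sub_mem hy hw
  obtain ⟨i0⟩ : Nonempty GolayPt := inferInstance
  have step4 : ∀ y ∈ leechSet, (∀ i, y i ≡ 0 [ZMOD 4]) → y ∈ M := by
    intro y hy h4
    obtain ⟨m, h1, h2, -⟩ := hy
    rw [hM]
    apply leech_gen_aux4 y h4
    have := h1 i0
    have := h4 i0
    unfold Int.ModEq at *
    omega
  have step2 : ∀ y ∈ leechSet, (∀ i, y i ≡ 0 [ZMOD 2]) → y ∈ M := by
    intro y hy h2
    obtain ⟨D, hDdef⟩ : ∃ D, D = Finset.univ.filter fun i => y i ≡ 2 [ZMOD 4] := ⟨_, rfl⟩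
    have hD : D ∈ gSupp := by
      obtain ⟨m, -, -, h3⟩ := hy
      rw [hDdef]
      exact h3 2
    have hw : lOdd D i0 - lOdd ∅ i0 ∈ M := by
      rw [hM]
      exact AddSubgroup.sub_mem _ (AddSubgroup.subset_closure (lOdd_mem D hD i0))
        (AddSubgroup.subset_closure (lOdd_mem ∅ gSupp_empty i0))
    have h3 : y - (lOdd D i0 - lOdd ∅ i0) ∈ M := by
      apply step4
      · exact hsub _ _ hy (hMle _ hw)
      · intro i
        have hi : i ∈ D ↔ y i ≡ 2 [ZMOD 4] := by simp [hDdef]
        have h2i := h2 i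
        have hc1 := lOdd_cls D i0 i
        have hc2 := lOdd_cls ∅ i0 i
        simp only [Pi.sub_apply]
        have hc3 : lOdd ∅ i0 i ≡ 3 [ZMOD 4] := hc2.2.1.2 (by simp)
        by_cases hd : i ∈ D
        · have h5 := hi.1 hd
          have h6 := hc1.1.2 hd
          unfold Int.ModEq at *
          omega
        · have h5 : ¬ y i ≡ 2 [ZMOD 4] := fun h => hd (hi.2 h)
          have h6 := hc1.2.1.2 hd
          unfold Int.ModEq at *
          omega
    have := M.add_mem h3 hw
    simpa using this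
  obtain ⟨m, h1, h2, h3⟩ := hx
  rcases Int.emod_two_eq_zero_or_one m with hm | hm
  · exact step2 x ⟨m, h1, h2, h3⟩ (fun i => by have := h1 i; unfold Int.ModEq at *; omega)
  · have hw : lOdd ∅ i0 ∈ M := by
      rw [hM]
      exact AddSubgroup.subset_closure (lOdd_mem ∅ gSupp_empty i0)
    have h4 : x - lOdd ∅ i0 ∈ M := by
      apply step2
      · exact hsub _ _ ⟨m, h1, h2, h3⟩ (hMle _ hw)
      · intro i
        have h5 := h1 i
        have h6 := (lOdd_cls ∅ i0 i).2.2.2.2
        simp only [Pi.sub_apply]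
        unfold Int.ModEq at *
        omega
    have := M.add_mem h4 hw
    simpa using this

end Cfsg.Agent.Lib.Helper1
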