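import Mathlib
import Cfsg.Prelude.Def_Sporadic_a
import Cfsg.Prelude.Def_SporadicCombinatorics
import Cfsg.Agent.Lib.Helper1.LeechMono2
import Cfsg.Agent.S0364

/-!
The stabiliser of the standard cross in the automorphism group of the rank-24 lattice (helper1).
-/

namespace Cfsg.Agent.Lib.Helper1

open Cfsg
open scoped Pointwise

theorem monoCo0_stab (σ : Equiv.Perm GolayPt) (hσ : σ ∈ M24) (c : Finset GolayPt)
    (hc : c ∈ gSupp) (v : ↥leechLattice) (hv : (v : GolayPt → ℤ) ∈ stdCross) :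
    ((monoCo0 σ hσ c hc • v : ↥leechLattice) : GolayPt → ℤ) ∈ stdCross := by
  obtain ⟨i, s, hs, hv⟩ := hv
  rw [monoCo0_smul, hv, signedPerm_single]
  refine ⟨σ i, _, ?_, rfl⟩
  rcases hs with rfl | rfl <;> split_ifs <;> simp

theorem monoCo0_inj (σ σ' : Equiv.Perm GolayPt) (hσ : σ ∈ M24) (hσ' : σ' ∈ M24)
    (c c' : Finset GolayPt) (hc : c ∈ gSupp) (hc' : c' ∈ gSupp)
    (h : ∀ v : ↥leechLattice, signedPerm σ c v.1 = signedPerm σ' c' v.1) : σ = σ' ∧ c = c' := by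
  classical
  have key : ∀ i, σ i = σ' i ∧ (σ i ∈ c ↔ σ i ∈ c') := by
    intro i
    have h1 := h (E8 i)
    rw [E8_val, signedPerm_single, signedPerm_single] at h1
    have h2 := congrFun h1 (σ i)
    rw [Pi.single_apply, Pi.single_apply, if_pos rfl] at h2
    have h3 : σ i = σ' i := by
      by_contra hne
      rw [if_neg hne] at h2
      split_ifs at h2 <;> norm_num at h2
    refine ⟨h3, ?_⟩
    rw [if_pos h3, ← h3] at h2
    by_cases ha : σ i ∈ c <;> by_cases hb : σ i ∈ c' <;> simp only [ha, hb, if_true, if_false] at h2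
      <;> simp only [ha, hb] <;> norm_num at h2
  have hσσ : σ = σ' := Equiv.ext (fun i => (key i).1)
  refine ⟨hσσ, ?_⟩
  ext k
  have := (key (σ.symm k)).2
  rw [Equiv.apply_symm_apply] at this
  exact this

theorem stab_card : Nat.card {g : ↥Co0 // (∀ v : ↥leechLattice, (v : GolayPt → ℤ) ∈ stdCross →
    ((g • v : ↥leechLattice) : GolayPt → ℤ) ∈ stdCross)} = 4096 * 244823040 := by
  classical
  obtain ⟨Ψ, hΨ⟩ : ∃ Ψ : ↥M24 × ↥gSupp → {g : ↥Co0 // (∀ v : ↥leechLattice,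
      (v : GolayPt → ℤ) ∈ stdCross → ((g • v : ↥leechLattice) : GolayPt → ℤ) ∈ stdCross)},
      ∀ p, (Ψ p).1 = monoCo0 p.1.1 p.1.2 p.2.1 p.2.2 :=
    ⟨fun p => ⟨monoCo0 p.1.1 p.1.2 p.2.1 p.2.2, monoCo0_stab p.1.1 p.1.2 p.2.1 p.2.2⟩,
      fun p => rfl⟩
  have hbij : Function.Bijective Ψ := by
    constructor
    · rintro ⟨⟨σ, hσ⟩, ⟨c, hc⟩⟩ ⟨⟨σ', hσ'⟩, ⟨c', hc'⟩⟩ h
      have h1 : monoCo0 σ hσ c hc = monoCo0 σ' hσ' c' hc' := by
        rw [← hΨ ⟨⟨σ, hσ⟩, ⟨c, hc⟩⟩, ← hΨ ⟨⟨σ', hσ'⟩, ⟨c', hc'⟩⟩, h]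
      have h2 : ∀ v : ↥leechLattice, signedPerm σ c v.1 = signedPerm σ' c' v.1 := by
        intro v
        rw [← monoCo0_smul σ hσ c hc v, ← monoCo0_smul σ' hσ' c' hc' v, h1]
      obtain ⟨e1, e2⟩ := monoCo0_inj σ σ' hσ hσ' c c' hc hc' h2
      subst e1
      subst e2
      rfl
    · rintro ⟨g, hg⟩
      obtain ⟨σ, hσ, c, hc, h⟩ := mono_of_stab g.1 g.2 hg
      refine ⟨⟨⟨σ, hσ⟩, ⟨c, hc⟩⟩, ?_⟩
      apply Subtype.ext
      rw [hΨ]
      apply Subtype.ext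
      apply Equiv.ext
      intro v
      apply Subtype.ext
      exact (h v).symm
  rw [← Nat.card_congr (Equiv.ofBijective Ψ hbij), Nat.card_prod, Cfsg.Agent.S0364.result,
    Nat.card_coe_set_eq, gSupp_ncard]

end Cfsg.Agent.Lib.Helper1
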