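import Mathlib
import Cfsg.Prelude.Def_Sporadic_a
import Cfsg.Agent.Lib.Helper1.LeechDesign4
import Cfsg.Agent.Lib.Helper1.LeechN6d

/-!
The relative bound for the minimal vectors at inner product 24 with a vector of
sum of squares 48 of the rank-24 lattice, and the resulting exact count 552 (helper1).
-/

namespace Cfsg.Agent.Lib.Helper1

open Cfsg

theorem gram_sq {κ : Type*} (T : Finset κ) (X : κ → GolayPt → ℤ) :
    ∑ i, ∑ j, (∑ a ∈ T, X a i * X a j) ^ 2 = ∑ a ∈ T, ∑ b ∈ T, (dotInt (X a) (X b)) ^ 2 := by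
  have e1 : ∀ i j, (∑ a ∈ T, X a i * X a j) ^ 2
      = ∑ a ∈ T, ∑ b ∈ T, (X a i * X b i) * (X a j * X b j) := by
    intro i j
    rw [sq, Finset.sum_mul_sum]
    exact Finset.sum_congr rfl (fun a _ => Finset.sum_congr rfl (fun b _ => by ring))
  have e2 : ∀ a b, (dotInt (X a) (X b)) ^ 2 = ∑ i, ∑ j, (X a i * X b i) * (X a j * X b j) := by
    intro a b
    unfold dotInt
    rw [sq, Finset.sum_mul_sum]
  simp only [e1, e2]
  calc ∑ i, ∑ j, ∑ a ∈ T, ∑ b ∈ T, (X a i * X b i) * (X a j * X b j)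
      = ∑ i, ∑ a ∈ T, ∑ j, ∑ b ∈ T, (X a i * X b i) * (X a j * X b j) :=
        Finset.sum_congr rfl (fun i _ => Finset.sum_comm)
    _ = ∑ a ∈ T, ∑ i, ∑ j, ∑ b ∈ T, (X a i * X b i) * (X a j * X b j) := Finset.sum_comm
    _ = ∑ a ∈ T, ∑ i, ∑ b ∈ T, ∑ j, (X a i * X b i) * (X a j * X b j) :=
        Finset.sum_congr rfl (fun a _ => Finset.sum_congr rfl (fun i _ => Finset.sum_comm))
    _ = ∑ a ∈ T, ∑ b ∈ T, ∑ i, ∑ j, (X a i * X b i) * (X a j * X b j) :=
        Finset.sum_congr rfl (fun a _ => Finset.sum_comm)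

theorem gram_cross {κ : Type*} (T : Finset κ) (X : κ → GolayPt → ℤ) (u : GolayPt → ℤ) (U : ℤ) :
    ∑ i, ∑ j, (∑ a ∈ T, X a i * X a j) * ((if i = j then U else 0) - u i * u j)
      = U * ∑ a ∈ T, sqNorm (X a) - ∑ a ∈ T, (dotInt (X a) u) ^ 2 := by
  classical
  have e0 : ∀ i j, (∑ a ∈ T, X a i * X a j) * ((if i = j then U else 0) - u i * u j)
      = (if i = j then (∑ a ∈ T, X a i * X a j) * U else 0)
        - (∑ a ∈ T, X a i * X a j) * (u i * u j) := by
    intro i j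
    split_ifs <;> ring
  simp only [e0, Finset.sum_sub_distrib, Finset.sum_ite_eq, Finset.mem_univ, if_true]
  congr 1
  · rw [← Finset.sum_mul, Finset.sum_comm, mul_comm]
    congr 1
    refine Finset.sum_congr rfl (fun a _ => ?_)
    unfold sqNorm
    exact Finset.sum_congr rfl (fun i _ => (sq (X a i)).symm)
  · have e2 : ∀ a, (dotInt (X a) u) ^ 2 = ∑ i, ∑ j, (X a i * u i) * (X a j * u j) := by
      intro a
      unfold dotInt
      rw [sq, Finset.sum_mul_sum]
    simp only [e2, Finset.sum_mul]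
    calc ∑ i, ∑ j, ∑ a ∈ T, X a i * X a j * (u i * u j)
        = ∑ i, ∑ a ∈ T, ∑ j, X a i * X a j * (u i * u j) :=
          Finset.sum_congr rfl (fun i _ => Finset.sum_comm)
      _ = ∑ a ∈ T, ∑ i, ∑ j, X a i * X a j * (u i * u j) := Finset.sum_comm
      _ = ∑ a ∈ T, ∑ i, ∑ j, (X a i * u i) * (X a j * u j) :=
          Finset.sum_congr rfl (fun a _ => Finset.sum_congr rfl (fun i _ =>
            Finset.sum_congr rfl (fun j _ => by ring)))

theorem gram_proj (u : GolayPt → ℤ) (U : ℤ) :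
    ∑ i : GolayPt, ∑ j : GolayPt, ((if i = j then U else 0) - u i * u j) ^ 2
      = 24 * U ^ 2 - 2 * U * sqNorm u + (sqNorm u) ^ 2 := by
  classical
  have e0 : ∀ i j : GolayPt, ((if i = j then U else 0) - u i * u j) ^ 2
      = (if i = j then U ^ 2 - 2 * U * (u i * u j) else 0) + u i ^ 2 * u j ^ 2 := by
    intro i j
    split_ifs <;> ring
  simp only [e0, Finset.sum_add_distrib, Finset.sum_ite_eq, Finset.mem_univ, if_true,
    Finset.sum_sub_distrib, Finset.sum_const, Finset.card_univ]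
  have h24 : Fintype.card GolayPt = 24 := by decide
  rw [h24]
  unfold sqNorm
  rw [sq (∑ i, u i ^ 2), Finset.sum_mul_sum, Finset.mul_sum]
  have : ∀ i, 2 * U * (u i * u i) = 2 * U * u i ^ 2 := fun i => by ring
  simp only [this]
  simp

theorem sq_expand (A P : GolayPt → GolayPt → ℤ) (c l : ℤ) :
    ∑ i, ∑ j, (c * A i j - l * P i j) ^ 2
      = c ^ 2 * (∑ i, ∑ j, (A i j) ^ 2) - 2 * c * l * (∑ i, ∑ j, A i j * P i j)
        + l ^ 2 * ∑ i, ∑ j, (P i j) ^ 2 := by
  simp only [Finset.mul_sum, ← Finset.sum_add_distrib, ← Finset.sum_sub_distrib]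
  exact Finset.sum_congr rfl (fun i _ => Finset.sum_congr rfl (fun j _ => by ring))

theorem rel_ineq {κ : Type*} (T : Finset κ) (X : κ → GolayPt → ℤ) (u : GolayPt → ℤ)
    (U c l : ℤ) :
    0 ≤ c ^ 2 * (∑ a ∈ T, ∑ b ∈ T, (dotInt (X a) (X b)) ^ 2)
      - 2 * c * l * (U * ∑ a ∈ T, sqNorm (X a) - ∑ a ∈ T, (dotInt (X a) u) ^ 2)
      + l ^ 2 * (24 * U ^ 2 - 2 * U * sqNorm u + (sqNorm u) ^ 2) := by
  classical
  have key : ∑ i, ∑ j, (c * (∑ a ∈ T, X a i * X a j)
      - l * ((if i = j then U else 0) - u i * u j)) ^ 2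
      = c ^ 2 * (∑ a ∈ T, ∑ b ∈ T, (dotInt (X a) (X b)) ^ 2)
      - 2 * c * l * (U * ∑ a ∈ T, sqNorm (X a) - ∑ a ∈ T, (dotInt (X a) u) ^ 2)
      + l ^ 2 * (24 * U ^ 2 - 2 * U * sqNorm u + (sqNorm u) ^ 2) := by
    rw [← gram_sq, ← gram_cross, ← gram_proj]
    exact sq_expand (fun i j => ∑ a ∈ T, X a i * X a j)
      (fun i j => (if i = j then U else 0) - u i * u j) c l
  rw [← key]
  exact Finset.sum_nonneg (fun i _ => Finset.sum_nonneg (fun j _ => sq_nonneg _))

theorem dot_two_sub (a b u : GolayPt → ℤ) :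
    dotInt (fun i => 2 * a i - u i) (fun i => 2 * b i - u i)
      = 4 * dotInt a b - 2 * dotInt a u - 2 * dotInt u b + dotInt u u := by
  unfold dotInt
  rw [Finset.mul_sum, Finset.mul_sum, Finset.mul_sum, ← Finset.sum_sub_distrib,
    ← Finset.sum_sub_distrib, ← Finset.sum_add_distrib]
  exact Finset.sum_congr rfl (fun i _ => by ring)

theorem dotInt_self (x : GolayPt → ℤ) : dotInt x x = sqNorm x := by
  unfold dotInt sqNorm
  exact Finset.sum_congr rfl (fun i _ => (sq (x i)).symm)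

theorem dotInt_sub_right (a b c : GolayPt → ℤ) : dotInt a (b - c) = dotInt a b - dotInt a c := by
  unfold dotInt
  rw [← Finset.sum_sub_distrib]
  exact Finset.sum_congr rfl (fun i _ => by simp [mul_sub])

theorem dotInt_add_right (a b c : GolayPt → ℤ) : dotInt a (b + c) = dotInt a b + dotInt a c := by
  unfold dotInt
  rw [← Finset.sum_add_distrib]
  exact Finset.sum_congr rfl (fun i _ => by simp [mul_add])

theorem min_dot_le (p q : GolayPt → ℤ) (hp : p ∈ leechSet) (hq : q ∈ leechSet)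
    (hpn : sqNorm p = 32) (hqn : sqNorm q = 32) (hne : p ≠ q) : dotInt p q ≤ 16 := by
  have h1 := Cfsg.Agent.Lib.Helper9.sqNorm_sub p q
  rw [hpn, hqn] at h1
  have hsub : 32 ≤ sqNorm (p - q) :=
    Cfsg.Agent.Lib.Helper9.sqNorm_ge_of_leechCond
      (Cfsg.Agent.Lib.Helper9.leechCond_of_mem (leechSub.sub_mem hp hq)) (sub_ne_zero.2 hne)
  omega

theorem type3_le (u : GolayPt → ℤ) (hu : u ∈ leechSet) (hun : sqNorm u = 48)
    (Min : Finset (GolayPt → ℤ)) (hmem : ∀ w, w ∈ Min ↔ w ∈ leechSet ∧ sqNorm w = 32) :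
    (Min.filter (fun v => dotInt u v = 24)).card ≤ 552 := by
  classical
  obtain ⟨T, hT⟩ : ∃ T, T = Min.filter (fun v => dotInt u v = 24) := ⟨_, rfl⟩
  rw [← hT]
  have hTmem : ∀ v, v ∈ T ↔ (v ∈ leechSet ∧ sqNorm v = 32) ∧ dotInt u v = 24 := by
    intro v
    rw [hT, Finset.mem_filter, hmem]
  obtain ⟨X, hX⟩ : ∃ X : (GolayPt → ℤ) → GolayPt → ℤ, X = fun v => fun i => 2 * v i - u i :=
    ⟨_, rfl⟩
  have huu : dotInt u u = 48 := by rw [dotInt_self, hun]
  have hXX : ∀ a b, a ∈ T → b ∈ T → dotInt (X a) (X b) = 4 * dotInt a b - 48 := by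
    intro a b ha hb
    rw [hX]
    show dotInt (fun i => 2 * a i - u i) (fun i => 2 * b i - u i) = _
    rw [dot_two_sub, huu, dotInt_comm' a u, ((hTmem a).1 ha).2, ((hTmem b).1 hb).2]
    ring
  have hcompl : ∀ a ∈ T, u - a ∈ T := by
    intro a ha
    obtain ⟨⟨haL, han⟩, hau⟩ := (hTmem a).1 ha
    rw [hTmem]
    refine ⟨⟨leechSub.sub_mem hu haL, ?_⟩, ?_⟩
    · rw [Cfsg.Agent.Lib.Helper9.sqNorm_sub, hun, han, hau]
      norm_num
    · rw [dotInt_sub_right, huu, hau]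
      norm_num
  have hne : ∀ a ∈ T, a ≠ u - a := by
    intro a ha h
    obtain ⟨⟨haL, han⟩, hau⟩ := (hTmem a).1 ha
    have h2 := congrArg (dotInt a) h
    rw [dotInt_sub_right, dotInt_self, han, dotInt_comm' a u, hau] at h2
    norm_num at h2
  have hval : ∀ a ∈ T, ∀ b ∈ T, (dotInt (X a) (X b)) ^ 2
      = 256 + (if b = a then 6144 else 0) + (if b = u - a then 6144 else 0) := by
    intro a ha b hb
    rw [hXX a b ha hb]
    obtain ⟨⟨haL, han⟩, hau⟩ := (hTmem a).1 ha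
    obtain ⟨⟨hbL, hbn⟩, hbu⟩ := (hTmem b).1 hb
    by_cases h1 : b = a
    · subst h1
      rw [if_pos rfl, if_neg (hne b hb), dotInt_self, hbn]
      norm_num
    · rw [if_neg h1]
      by_cases h2 : b = u - a
      · rw [if_pos h2, h2, dotInt_sub_right, dotInt_comm' a u, hau, dotInt_self, han]
        norm_num
      · rw [if_neg h2]
        obtain ⟨t, ht⟩ := leech_dot8 a b haL hbL
        have hle := min_dot_le a b haL hbL han hbn (fun h => h1 h.symm)
        obtain ⟨⟨hcL, hcn⟩, hcu⟩ := (hTmem (u - a)).1 (hcompl a ha)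
        have hle2 := min_dot_le (u - a) b hcL hbL hcn hbn (fun h => h2 h.symm)
        rw [dotInt_comm', dotInt_sub_right, dotInt_comm' b u, hbu, dotInt_comm' b a] at hle2
        have ht' : t = 1 ∨ t = 2 := by omega
        rcases ht' with rfl | rfl <;> rw [ht] <;> norm_num
  obtain ⟨m, hm⟩ : ∃ m : ℤ, m = T.card := ⟨_, rfl⟩
  have hsum1 : ∑ a ∈ T, ∑ b ∈ T, (dotInt (X a) (X b)) ^ 2 = m * (256 * m + 12288) := by
    have : ∀ a ∈ T, ∑ b ∈ T, (dotInt (X a) (X b)) ^ 2 = 256 * m + 12288 := by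
      intro a ha
      rw [Finset.sum_congr rfl (fun b hb => hval a ha b hb), Finset.sum_add_distrib,
        Finset.sum_add_distrib, Finset.sum_ite_eq', Finset.sum_ite_eq', if_pos ha,
        if_pos (hcompl a ha), Finset.sum_const, hm]
      simp
      ring
    rw [Finset.sum_congr rfl this, Finset.sum_const, hm]
    simp
  have hsum2 : ∑ a ∈ T, sqNorm (X a) = 80 * m := by
    have : ∀ a ∈ T, sqNorm (X a) = 80 := by
      intro a ha
      rw [← dotInt_self, hXX a a ha ha, dotInt_self, ((hTmem a).1 ha).1.2]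
      norm_num
    rw [Finset.sum_congr rfl this, Finset.sum_const, hm]
    simp
    ring
  have hsum3 : ∑ a ∈ T, (dotInt (X a) u) ^ 2 = 0 := by
    apply Finset.sum_eq_zero
    intro a ha
    have : dotInt (X a) u = 0 := by
      rw [hX]
      show dotInt (fun i => 2 * a i - u i) u = 0
      have e : dotInt (fun i => 2 * a i - u i) u = 2 * dotInt a u - dotInt u u := by
        unfold dotInt
        rw [Finset.mul_sum, ← Finset.sum_sub_distrib]
        exact Finset.sum_congr rfl (fun i _ => by ring)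
      rw [e, huu, dotInt_comm' a u, ((hTmem a).1 ha).2]
      norm_num
    rw [this]
    norm_num
  have hineq := rel_ineq T X u 48 69 (5 * m)
  rw [hsum1, hsum2, hsum3, hun] at hineq
  have hm0 : 0 ≤ m := by rw [hm]; exact Int.natCast_nonneg _
  have hfin : m ≤ 552 := by
    by_contra hcon
    push Not at hcon
    nlinarith
  rw [hm] at hfin
  exact_mod_cast hfin

theorem type3_total (Min N6 : Finset (GolayPt → ℤ))
    (hmem : ∀ w, w ∈ Min ↔ w ∈ leechSet ∧ sqNorm w = 32) (hcard : Min.card = 196560)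
    (hmem6 : ∀ w, w ∈ N6 ↔ w ∈ leechSet ∧ sqNorm w = 48) :
    ∑ u ∈ N6, (Min.filter (fun v => dotInt u v = 24)).card = 196560 * 47104 := by
  classical
  have e1 : ∀ u ∈ N6, (Min.filter (fun v => dotInt u v = 24)).card
      = ∑ v ∈ Min, if dotInt u v = 24 then 1 else 0 := fun u _ => Finset.card_filter _ _
  rw [Finset.sum_congr rfl e1, Finset.sum_comm]
  have e2 : ∀ v ∈ Min, ∑ u ∈ N6, (if dotInt u v = 24 then 1 else 0) = 47104 := by
    intro v hv
    obtain ⟨hvL, hvn⟩ := (hmem v).1 hv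
    rw [← Finset.card_filter]
    have hc := (min_census v hvL hvn).2.1
    have hs : {w : GolayPt → ℤ | w ∈ leechSet ∧ sqNorm w = 32 ∧ dotInt v w = -8}
        = ↑(Min.filter (fun w => dotInt v w = -8)) := by
      ext w
      rw [Finset.mem_coe, Finset.mem_filter, hmem]
      exact ⟨fun h => ⟨⟨h.1, h.2.1⟩, h.2.2⟩, fun h => ⟨h.1.1, h.1.2, h.2⟩⟩
    rw [hs, Set.ncard_coe_finset] at hc
    rw [← hc]
    apply Finset.card_nbij' (fun u => u - v) (fun w => w + v)
    · intro u hu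
      rw [Finset.mem_coe, Finset.mem_filter, hmem6] at hu
      obtain ⟨⟨huL, hun⟩, huv⟩ := hu
      rw [Finset.mem_coe, Finset.mem_filter, hmem]
      refine ⟨⟨leechSub.sub_mem huL hvL, ?_⟩, ?_⟩
      · rw [Cfsg.Agent.Lib.Helper9.sqNorm_sub, hun, hvn, huv]
        norm_num
      · rw [dotInt_sub_right, dotInt_comm' v u, huv, dotInt_self, hvn]
        norm_num
    · intro w hw
      rw [Finset.mem_coe, Finset.mem_filter, hmem] at hw
      obtain ⟨⟨hwL, hwn⟩, hvw⟩ := hw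
      rw [Finset.mem_coe, Finset.mem_filter, hmem6]
      refine ⟨⟨leechSub.add_mem hwL hvL, ?_⟩, ?_⟩
      · rw [Cfsg.Agent.Lib.Helper9.sqNorm_add, hwn, hvn, dotInt_comm' w v, hvw]
        norm_num
      · rw [dotInt_comm', dotInt_add_right, hvw, dotInt_self, hvn]
        norm_num
    · intro u _
      exact sub_add_cancel u v
    · intro w _
      exact add_sub_cancel_right w v
  rw [Finset.sum_congr rfl e2, Finset.sum_const, hcard]
  rfl

theorem type3_count (u : GolayPt → ℤ) (hu : u ∈ leechSet) (hun : sqNorm u = 48) :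
    {v : GolayPt → ℤ | v ∈ leechSet ∧ sqNorm v = 32 ∧ sqNorm (u - v) = 32}.ncard = 552 := by
  classical
  obtain ⟨Min, hmem, hcard, -, -⟩ := min_moments
  have h6 := n6_count
  have hfin : {x : GolayPt → ℤ | x ∈ leechSet ∧ sqNorm x = 48}.Finite :=
    Set.finite_of_ncard_ne_zero (by rw [h6]; norm_num)
  obtain ⟨N6, hN6⟩ : ∃ N6 : Finset (GolayPt → ℤ), ∀ w, w ∈ N6 ↔ w ∈ leechSet ∧ sqNorm w = 48 :=
    ⟨hfin.toFinset, fun w => by rw [Set.Finite.mem_toFinset]; rfl⟩
  have hN6c : N6.card = 16773120 := by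
    have : {x : GolayPt → ℤ | x ∈ leechSet ∧ sqNorm x = 48} = ↑N6 := by
      ext w
      rw [Finset.mem_coe, hN6]
      rfl
    rw [this, Set.ncard_coe_finset] at h6
    exact h6
  have htot := type3_total Min N6 hmem hcard hN6
  have hle : ∀ w ∈ N6, (Min.filter (fun v => dotInt w v = 24)).card ≤ 552 := fun w hw =>
    type3_le w ((hN6 w).1 hw).1 ((hN6 w).1 hw).2 Min hmem
  have hsum : ∑ w ∈ N6, (Min.filter (fun v => dotInt w v = 24)).card = ∑ w ∈ N6, 552 := by
    rw [htot, Finset.sum_const, hN6c]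
    rfl
  have hfinal := (Finset.sum_eq_sum_iff_of_le hle).1 hsum u ((hN6 u).2 ⟨hu, hun⟩)
  have hs : {v : GolayPt → ℤ | v ∈ leechSet ∧ sqNorm v = 32 ∧ sqNorm (u - v) = 32}
      = ↑(Min.filter (fun v => dotInt u v = 24)) := by
    ext v
    rw [Finset.mem_coe, Finset.mem_filter, hmem]
    constructor
    · rintro ⟨h1, h2, h3⟩
      refine ⟨⟨h1, h2⟩, ?_⟩
      rw [Cfsg.Agent.Lib.Helper9.sqNorm_sub, hun, h2] at h3
      omega
    · rintro ⟨⟨h1, h2⟩, h3⟩
      refine ⟨h1, h2, ?_⟩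
      rw [Cfsg.Agent.Lib.Helper9.sqNorm_sub, hun, h2, h3]
      norm_num
  rw [hs, Set.ncard_coe_finset]
  exact hfinal

end Cfsg.Agent.Lib.Helper1
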