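import Mathlib
import Cfsg.Prelude.Def_Sporadic_a
import Cfsg.Agent.Lib.Helper1.M24Base

/-!
Stabiliser chains inside the stabiliser of a dodecad, by explicit words (helper1).
-/

namespace Cfsg.Agent.Lib.Helper1

open Cfsg

open scoped Pointwise

/-- Check of a chain certificate: at level `k`, each listed word fixes the masks `fixM` and the
points `fixP`, fixes the first `k` base points and carries the listed point to the `k`-th base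
point; every point of the domain mask other than the first `k` base points is listed. -/
def chainOK (fixM fixP : List ℕ) (dom : ℕ) (base : List ℕ) (lv : List (List (ℕ × List ℕ))) :
    Bool :=
  (List.range base.length).all (fun k =>
    ((lv.getD k []).all (fun e => fixM.all (fun f => mapsTo e.2 f f)
        && fixP.all (fun i => decide (i < 24) && wordIdx e.2 i == i)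
        && decide (e.1 < 24) && wordIdx e.2 e.1 == base.getD k 0
        && (List.range k).all (fun j => wordIdx e.2 (base.getD j 0) == base.getD j 0)))
    && (List.range 24).all (fun i => !dom.testBit i || (base.take k).contains i
        || ((lv.getD k []).map Prod.fst).contains i))
  && base.all (fun b => decide (b < 24))

theorem chain_level {fixM fixP : List ℕ} {dom : ℕ} {base : List ℕ}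
    {lv : List (List (ℕ × List ℕ))} (h : chainOK fixM fixP dom base lv = true) (k : ℕ)
    (hk : k < base.length) (p : GolayPt) (hp : p ∈ S dom)
    (hpk : ∀ j < k, p ≠ pt (base.getD j 0)) :
    ∃ σ ∈ M24, (∀ f ∈ fixM, σ • S f = S f) ∧ (∀ i ∈ fixP, σ (pt i) = pt i)
      ∧ σ p = pt (base.getD k 0) ∧ ∀ j < k, σ (pt (base.getD j 0)) = pt (base.getD j 0) := by
  unfold chainOK at h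
  rw [Bool.and_eq_true] at h
  obtain ⟨h1, hb⟩ := h
  have hb' : ∀ j < base.length, base.getD j 0 < 24 := by
    intro j hj
    have := List.all_eq_true.1 hb (base.getD j 0) (by
      rw [List.getD_eq_getElem _ _ hj]; exact List.getElem_mem hj)
    simpa using this
  have h2 := List.all_eq_true.1 h1 k (List.mem_range.2 hk)
  rw [Bool.and_eq_true] at h2
  obtain ⟨h3, h4⟩ := h2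
  have h5 := List.all_eq_true.1 h4 (gIdx p) (List.mem_range.2 (gIdx_lt p))
  rw [mem_S] at hp
  rw [hp] at h5
  simp only [Bool.not_true, Bool.false_or, Bool.or_eq_true, List.contains_eq_mem,
    decide_eq_true_eq] at h5
  rcases h5 with h5 | h5
  · exfalso
    rw [List.mem_take_iff_getElem] at h5
    obtain ⟨j, hj, hje⟩ := h5
    have hj' : j < k := by omega
    have hjl : j < base.length := by omega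
    apply hpk j hj'
    rw [List.getD_eq_getElem _ _ hjl, hje, pt_gIdx]
  · rw [List.mem_map] at h5
    obtain ⟨e, he, hei⟩ := h5
    have h6 := List.all_eq_true.1 h3 e he
    simp only [Bool.and_eq_true, List.all_eq_true, decide_eq_true_eq, beq_iff_eq,
      List.mem_range] at h6
    obtain ⟨⟨⟨⟨a1, a2⟩, a3⟩, a4⟩, a5⟩ := h6
    refine ⟨wordPerm e.2, wordPerm_mem _, fun f hf => mapsTo_smul (a1 f hf), ?_, ?_, ?_⟩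
    · intro i hi
      obtain ⟨hi24, hw⟩ := a2 i hi
      rw [wordPerm_apply _ i hi24, hw]
    · have hpe : p = pt e.1 := by rw [hei, pt_gIdx]
      rw [hpe, wordPerm_apply _ _ a3, a4]
    · intro j hj
      rw [wordPerm_apply _ _ (hb' j (by omega)), a5 j hj]

theorem chain_to_base_aux {fixM fixP : List ℕ} {dom : ℕ} {base : List ℕ}
    {lv : List (List (ℕ × List ℕ))} (h : chainOK fixM fixP dom base lv = true)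
    (hdom : dom ∈ fixM) {n : ℕ} (hn : n = base.length) (x : Fin n → GolayPt)
    (hx : Function.Injective x) (hxd : ∀ i, x i ∈ S dom) :
    ∀ k ≤ n, ∃ σ ∈ M24, (∀ f ∈ fixM, σ • S f = S f) ∧ (∀ i ∈ fixP, σ (pt i) = pt i)
      ∧ ∀ j : Fin n, j.val < k → σ (x j) = pt (base.getD j.val 0) := by
  intro k
  induction k with
  | zero =>
    intro _
    exact ⟨1, M24.one_mem, fun f _ => one_smul _ _, fun i _ => rfl,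
      fun j hj => absurd hj (Nat.not_lt_zero _)⟩
  | succ k ih =>
    intro hk
    obtain ⟨σ, hσ, hσM, hσP, hσx⟩ := ih (by omega)
    have hkn : k < n := by omega
    have hp : σ (x ⟨k, hkn⟩) ∈ S dom := by
      have h1 : σ • x ⟨k, hkn⟩ ∈ σ • S dom := Finset.smul_mem_smul_finset (hxd _)
      rw [hσM dom hdom] at h1
      exact h1
    have hpk : ∀ j < k, σ (x ⟨k, hkn⟩) ≠ pt (base.getD j 0) := by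
      intro j hj heq
      have h1 := hσx ⟨j, by omega⟩ hj
      simp only at h1
      rw [← h1] at heq
      have h2 := hx (σ.injective heq)
      have h3 := congrArg Fin.val h2
      simp only at h3
      omega
    obtain ⟨τ, hτ, hτM, hτP, hτp, hτj⟩ := chain_level h k (by omega) _ hp hpk
    refine ⟨τ * σ, M24.mul_mem hτ hσ, ?_, ?_, ?_⟩
    · intro f hf
      rw [mul_smul, hσM f hf, hτM f hf]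
    · intro i hi
      rw [Equiv.Perm.mul_apply, hσP i hi, hτP i hi]
    · intro j hj
      rw [Equiv.Perm.mul_apply]
      by_cases hjk : j.val < k
      · rw [hσx j hjk]
        exact hτj _ hjk
      · have : j = ⟨k, hkn⟩ := by
          apply Fin.ext
          simp only
          omega
        rw [this]
        exact hτp

/-- Any injective tuple inside the domain can be moved onto the base tuple. -/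
theorem chain_to_base {fixM fixP : List ℕ} {dom : ℕ} {base : List ℕ}
    {lv : List (List (ℕ × List ℕ))} (h : chainOK fixM fixP dom base lv = true)
    (hdom : dom ∈ fixM) {n : ℕ} (hn : n = base.length) (x : Fin n → GolayPt)
    (hx : Function.Injective x) (hxd : ∀ i, x i ∈ S dom) :
    ∃ σ ∈ M24, (∀ f ∈ fixM, σ • S f = S f) ∧ (∀ i ∈ fixP, σ (pt i) = pt i)
      ∧ ∀ j : Fin n, σ (x j) = pt (base.getD j.val 0) := by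
  obtain ⟨σ, hσ, h1, h2, h3⟩ := chain_to_base_aux h hdom hn x hx hxd n le_rfl
  exact ⟨σ, hσ, h1, h2, fun j => h3 j j.isLt⟩

/-- Transitivity on injective tuples inside the domain. -/
theorem chain_trans {fixM fixP : List ℕ} {dom : ℕ} {base : List ℕ}
    {lv : List (List (ℕ × List ℕ))} (h : chainOK fixM fixP dom base lv = true)
    (hdom : dom ∈ fixM) {n : ℕ} (hn : n = base.length) (x y : Fin n → GolayPt)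
    (hx : Function.Injective x) (hy : Function.Injective y) (hxd : ∀ i, x i ∈ S dom)
    (hyd : ∀ i, y i ∈ S dom) :
    ∃ g ∈ M24, (∀ f ∈ fixM, g • S f = S f) ∧ (∀ i ∈ fixP, g (pt i) = pt i)
      ∧ ∀ j : Fin n, g (x j) = y j := by
  obtain ⟨σ, hσ, h1, h2, h3⟩ := chain_to_base h hdom hn x hx hxd
  obtain ⟨τ, hτ, k1, k2, k3⟩ := chain_to_base h hdom hn y hy hyd
  refine ⟨τ⁻¹ * σ, M24.mul_mem (M24.inv_mem hτ) hσ, ?_, ?_, ?_⟩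
  · intro f hf
    rw [mul_smul, h1 f hf]
    conv_lhs => rw [← k1 f hf]
    rw [inv_smul_smul]
  · intro i hi
    rw [Equiv.Perm.mul_apply, h2 i hi, Equiv.Perm.inv_eq_iff_eq, k2 i hi]
  · intro j
    rw [Equiv.Perm.mul_apply, h3 j, Equiv.Perm.inv_eq_iff_eq, k3 j]

/-- The base dodecad. -/
def D0 : ℕ := 28637

/-- The complement of the base dodecad. -/
def DC : ℕ := 16748578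

/-- Chain in the stabiliser of the base dodecad: five levels on its points. -/
def lv12 : List (List (ℕ × List ℕ)) := [[(0, []),
    (2, [2, 4, 1, 1, 3, 3, 3, 2, 1, 3, 1, 2, 4, 4, 1, 1, 4, 0, 0, 4, 2, 0]),
    (3, [1, 2, 3, 1, 1, 3, 0, 0, 3, 3]),
    (4, [0, 2, 4, 0, 3, 0, 3, 2, 1, 3, 2]),
    (6, [0, 4, 0, 4, 4, 1, 1, 1, 4, 1, 4, 2, 0]),
    (7, [0, 0, 0, 3, 0, 0, 3, 1, 3, 0, 0]),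
    (8, [0, 2, 1, 1, 4, 0, 2, 1, 3, 0]),
    (9, [2, 0, 4, 0, 2, 4, 4, 4, 0, 0, 3, 2]),
    (10, [4, 4, 1, 1, 4, 0, 0, 4, 2, 0]),
    (11, [1, 2, 3, 1, 1, 3, 0, 0, 3, 3, 1, 1, 4, 0, 4, 1, 1, 4, 1, 1, 1]),
    (13, [2, 4, 1, 1, 3, 3, 3, 2, 1, 3, 1, 2]),
    (14, [4, 4, 1, 3, 3, 0, 0, 0, 0, 0, 3, 1, 4])],
  [(2, []),
    (3, [4, 4, 1, 1, 4, 0, 0, 4, 2, 0, 0, 2, 1, 1, 4, 0, 2, 1, 3, 0]),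
    (4, [3, 0, 4, 1, 1, 1, 1, 1, 4, 4, 0, 3, 3, 1, 4, 0, 2, 1, 3, 0, 0, 2, 1]),
    (6, [1, 2, 3, 3, 1, 4, 4, 1, 1, 1, 1, 4, 1, 2, 3, 1, 1, 3, 0, 0, 3, 3]),
    (7, [1, 2, 3, 1, 1, 3, 0, 0, 3, 3, 0, 2, 4, 0, 3, 0, 3, 2, 1, 3, 2]),
    (8, [2, 4, 0, 2, 4, 1, 4, 1, 3, 2, 1, 4, 4, 1, 1, 4, 0, 0, 4, 2, 0]),
    (9, [4, 4, 1, 1, 4, 0, 0, 4, 2, 0, 3, 0, 0, 0, 0, 3, 3, 0, 4, 4, 2, 0]),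
    (10, [1, 4, 0, 2, 1, 3, 0, 0, 2, 1, 1, 2, 3, 1, 1, 3, 0, 0, 3, 3]),
    (11, [1, 2, 3, 3, 1, 4, 4, 1, 1, 1, 1, 4, 0, 2, 1, 1, 4, 0, 2, 1, 3, 0]),
    (13, [4, 4, 1, 1, 4, 0, 0, 4, 2, 0, 3, 1, 4, 0, 2, 0, 0, 0, 3, 0, 0, 0]),
    (14, [4, 4, 1, 1, 4, 0, 0, 4, 2, 0, 3, 0, 3, 3, 1, 3, 3, 1, 4, 4, 1, 1])],
  [(3, []),
    (4, [0, 2, 4, 0, 3, 0, 3, 2, 1, 3, 2, 0, 2, 1, 1, 4, 0, 2, 1, 3, 0, 0, 4, 0, 4, 4, 1, 1, 1, 4, 1, 4, 2, 0]),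
    (6, [1, 1, 4, 0, 4, 1, 1, 4, 1, 1, 1, 4, 4, 1, 1, 4, 0, 0, 4, 2, 0]),
    (7, [2, 4, 1, 1, 3, 3, 3, 2, 1, 3, 1, 2, 0, 0, 3, 3, 0, 4, 4, 0, 4, 4, 1, 4]),
    (8, [1, 1, 1, 4, 1, 1, 1, 2, 1, 3, 0, 4, 0, 2, 1, 1, 4, 0, 2, 1, 3, 0]),
    (9, [1, 2, 3, 1, 1, 3, 0, 0, 3, 3, 0, 0, 0, 3, 0, 0, 3, 1, 3, 0, 0]),
    (10, [3, 0, 0, 0, 0, 3, 3, 0, 4, 4, 2, 0, 1, 4, 0, 2, 1, 3, 0, 0, 2, 1, 4, 4, 1, 1, 4, 0, 0, 4, 2, 0]),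
    (11, [1, 2, 3, 1, 1, 3, 0, 0, 3, 3, 3, 0, 3, 3, 1, 3, 3, 1, 4, 4, 1, 1, 2, 4, 0, 2, 4, 1, 4, 1, 3, 2, 1]),
    (13, [1, 4, 0, 2, 1, 3, 0, 0, 2, 1, 3, 1, 4, 0, 2, 0, 0, 0, 3, 0, 0, 0]),
    (14, [0, 2, 4, 0, 3, 0, 3, 2, 1, 3, 2, 0, 0, 3, 3, 0, 4, 4, 0, 4, 4, 1, 4, 4, 4, 1, 1, 4, 0, 0, 4, 2, 0])],
  [(4, []),
    (6, [1, 4, 0, 2, 1, 3, 0, 0, 2, 1, 4, 4, 1, 3, 3, 0, 0, 0, 0, 0, 3, 1, 4, 3, 0, 0, 0, 0, 3, 3, 0, 4, 4, 2, 0]),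
    (7, [2, 4, 1, 1, 3, 3, 3, 2, 1, 3, 1, 2, 4, 4, 1, 1, 4, 0, 0, 4, 2, 0, 1, 1, 4, 0, 4, 1, 1, 4, 1, 1, 1, 2, 0, 4, 0, 2, 4, 4, 4, 0, 0, 3, 2]),
    (8, [1, 2, 3, 1, 1, 3, 0, 0, 3, 3, 0, 0, 3, 3, 0, 4, 4, 0, 4, 4, 1, 4, 1, 2, 3, 1, 1, 3, 0, 0, 3, 3, 0, 0, 3, 3, 0, 4, 4, 0, 4, 4, 1, 4]),
    (9, [0, 2, 1, 1, 4, 0, 2, 1, 3, 0, 2, 4, 1, 1, 3, 3, 3, 2, 1, 3, 1, 2, 3, 0, 4, 1, 1, 1, 1, 1, 4, 4, 0, 3, 3]),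
    (10, [1, 2, 3, 3, 1, 4, 4, 1, 1, 1, 1, 4, 3, 0, 4, 1, 1, 1, 1, 1, 4, 4, 0, 3, 3, 0, 2, 1, 1, 4, 0, 2, 1, 3, 0]),
    (11, [1, 2, 3, 3, 1, 4, 4, 1, 1, 1, 1, 4, 4, 4, 1, 1, 4, 0, 0, 4, 2, 0, 1, 1, 4, 0, 4, 1, 1, 4, 1, 1, 1, 3, 0, 3, 3, 1, 3, 3, 1, 4, 4, 1, 1]),
    (13, [0, 2, 1, 1, 4, 0, 2, 1, 3, 0, 1, 2, 3, 1, 1, 3, 0, 0, 3, 3, 3, 0, 4, 1, 1, 1, 1, 1, 4, 4, 0, 3, 3]),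
    (14, [4, 4, 1, 3, 3, 0, 0, 0, 0, 0, 3, 1, 4, 4, 4, 1, 1, 4, 0, 0, 4, 2, 0, 1, 4, 0, 2, 1, 3, 0, 0, 2, 1])],
  [(6, []),
    (7, [2, 4, 1, 1, 3, 3, 3, 2, 1, 3, 1, 2, 2, 4, 0, 2, 4, 1, 4, 1, 3, 2, 1, 1, 2, 3, 3, 1, 4, 4, 1, 1, 1, 1, 4, 0, 2, 4, 0, 3, 0, 3, 2, 1, 3, 2]),
    (8, [0, 2, 1, 1, 4, 0, 2, 1, 3, 0, 2, 4, 0, 2, 4, 1, 4, 1, 3, 2, 1, 1, 2, 3, 1, 1, 3, 0, 0, 3, 3, 3, 0, 4, 1, 1, 1, 1, 1, 4, 4, 0, 3, 3, 0, 2, 4, 0, 3, 0, 3, 2, 1, 3, 2]),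
    (9, [0, 2, 1, 1, 4, 0, 2, 1, 3, 0, 3, 1, 4, 0, 2, 0, 0, 0, 3, 0, 0, 0, 1, 2, 3, 1, 1, 3, 0, 0, 3, 3, 3, 0, 4, 1, 1, 1, 1, 1, 4, 4, 0, 3, 3, 3, 0, 4, 1, 1, 1, 1, 1, 4, 4, 0, 3, 3]),
    (10, [4, 4, 1, 1, 4, 0, 0, 4, 2, 0, 0, 2, 1, 1, 4, 0, 2, 1, 3, 0, 2, 4, 1, 1, 3, 3, 3, 2, 1, 3, 1, 2, 0, 4, 0, 4, 4, 1, 1, 1, 4, 1, 4, 2, 0]),
    (11, [0, 2, 1, 1, 4, 0, 2, 1, 3, 0, 0, 4, 0, 4, 4, 1, 1, 1, 4, 1, 4, 2, 0, 3, 1, 4, 0, 2, 0, 0, 0, 3, 0, 0, 0, 3, 0, 3, 3, 1, 3, 3, 1, 4, 4, 1, 1]),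
    (13, [0, 2, 4, 0, 3, 0, 3, 2, 1, 3, 2, 1, 1, 1, 4, 1, 1, 1, 2, 1, 3, 0, 4, 1, 4, 0, 2, 1, 3, 0, 0, 2, 1, 3, 0, 4, 1, 1, 1, 1, 1, 4, 4, 0, 3, 3]),
    (14, [4, 4, 1, 1, 4, 0, 0, 4, 2, 0, 1, 1, 1, 4, 1, 1, 1, 2, 1, 3, 0, 4, 1, 4, 0, 2, 1, 3, 0, 0, 2, 1, 1, 1, 1, 4, 1, 1, 1, 2, 1, 3, 0, 4])]]

/-- Chain in the stabiliser of the base dodecad: the first three levels. -/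
def lv12_3 : List (List (ℕ × List ℕ)) := [[(0, []),
    (2, [2, 4, 1, 1, 3, 3, 3, 2, 1, 3, 1, 2, 4, 4, 1, 1, 4, 0, 0, 4, 2, 0]),
    (3, [1, 2, 3, 1, 1, 3, 0, 0, 3, 3]),
    (4, [0, 2, 4, 0, 3, 0, 3, 2, 1, 3, 2]),
    (6, [0, 4, 0, 4, 4, 1, 1, 1, 4, 1, 4, 2, 0]),
    (7, [0, 0, 0, 3, 0, 0, 3, 1, 3, 0, 0]),
    (8, [0, 2, 1, 1, 4, 0, 2, 1, 3, 0]),
    (9, [2, 0, 4, 0, 2, 4, 4, 4, 0, 0, 3, 2]),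
    (10, [4, 4, 1, 1, 4, 0, 0, 4, 2, 0]),
    (11, [1, 2, 3, 1, 1, 3, 0, 0, 3, 3, 1, 1, 4, 0, 4, 1, 1, 4, 1, 1, 1]),
    (13, [2, 4, 1, 1, 3, 3, 3, 2, 1, 3, 1, 2]),
    (14, [4, 4, 1, 3, 3, 0, 0, 0, 0, 0, 3, 1, 4])],
  [(2, []),
    (3, [4, 4, 1, 1, 4, 0, 0, 4, 2, 0, 0, 2, 1, 1, 4, 0, 2, 1, 3, 0]),
    (4, [3, 0, 4, 1, 1, 1, 1, 1, 4, 4, 0, 3, 3, 1, 4, 0, 2, 1, 3, 0, 0, 2, 1]),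
    (6, [1, 2, 3, 3, 1, 4, 4, 1, 1, 1, 1, 4, 1, 2, 3, 1, 1, 3, 0, 0, 3, 3]),
    (7, [1, 2, 3, 1, 1, 3, 0, 0, 3, 3, 0, 2, 4, 0, 3, 0, 3, 2, 1, 3, 2]),
    (8, [2, 4, 0, 2, 4, 1, 4, 1, 3, 2, 1, 4, 4, 1, 1, 4, 0, 0, 4, 2, 0]),
    (9, [4, 4, 1, 1, 4, 0, 0, 4, 2, 0, 3, 0, 0, 0, 0, 3, 3, 0, 4, 4, 2, 0]),
    (10, [1, 4, 0, 2, 1, 3, 0, 0, 2, 1, 1, 2, 3, 1, 1, 3, 0, 0, 3, 3]),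
    (11, [1, 2, 3, 3, 1, 4, 4, 1, 1, 1, 1, 4, 0, 2, 1, 1, 4, 0, 2, 1, 3, 0]),
    (13, [4, 4, 1, 1, 4, 0, 0, 4, 2, 0, 3, 1, 4, 0, 2, 0, 0, 0, 3, 0, 0, 0]),
    (14, [4, 4, 1, 1, 4, 0, 0, 4, 2, 0, 3, 0, 3, 3, 1, 3, 3, 1, 4, 4, 1, 1])],
  [(3, []),
    (4, [0, 2, 4, 0, 3, 0, 3, 2, 1, 3, 2, 0, 2, 1, 1, 4, 0, 2, 1, 3, 0, 0, 4, 0, 4, 4, 1, 1, 1, 4, 1, 4, 2, 0]),
    (6, [1, 1, 4, 0, 4, 1, 1, 4, 1, 1, 1, 4, 4, 1, 1, 4, 0, 0, 4, 2, 0]),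
    (7, [2, 4, 1, 1, 3, 3, 3, 2, 1, 3, 1, 2, 0, 0, 3, 3, 0, 4, 4, 0, 4, 4, 1, 4]),
    (8, [1, 1, 1, 4, 1, 1, 1, 2, 1, 3, 0, 4, 0, 2, 1, 1, 4, 0, 2, 1, 3, 0]),
    (9, [1, 2, 3, 1, 1, 3, 0, 0, 3, 3, 0, 0, 0, 3, 0, 0, 3, 1, 3, 0, 0]),
    (10, [3, 0, 0, 0, 0, 3, 3, 0, 4, 4, 2, 0, 1, 4, 0, 2, 1, 3, 0, 0, 2, 1, 4, 4, 1, 1, 4, 0, 0, 4, 2, 0]),
    (11, [1, 2, 3, 1, 1, 3, 0, 0, 3, 3, 3, 0, 3, 3, 1, 3, 3, 1, 4, 4, 1, 1, 2, 4, 0, 2, 4, 1, 4, 1, 3, 2, 1]),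
    (13, [1, 4, 0, 2, 1, 3, 0, 0, 2, 1, 3, 1, 4, 0, 2, 0, 0, 0, 3, 0, 0, 0]),
    (14, [0, 2, 4, 0, 3, 0, 3, 2, 1, 3, 2, 0, 0, 3, 3, 0, 4, 4, 0, 4, 4, 1, 4, 4, 4, 1, 1, 4, 0, 0, 4, 2, 0])]]

/-- Chain in the stabiliser of the base dodecad and its first point: three levels on the
complementary dodecad. -/
def lv11 : List (List (ℕ × List ℕ)) := [[(1, []),
    (5, [1, 1, 4, 0, 4, 1, 1, 4, 1, 1, 1, 4, 4, 1, 1, 4, 0, 0, 4, 2, 0]),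
    (12, [4, 4, 1, 1, 4, 0, 0, 4, 2, 0, 3, 0, 0, 0, 0, 3, 3, 0, 4, 4, 2, 0]),
    (15, [0, 2, 1, 1, 4, 0, 2, 1, 3, 0, 1, 2, 3, 1, 1, 3, 0, 0, 3, 3, 3, 0, 4, 1, 1, 1, 1, 1, 4, 4, 0, 3, 3]),
    (16, [0, 2, 1, 1, 4, 0, 2, 1, 3, 0, 1, 2, 3, 0, 3, 0, 0, 0, 3, 3, 1, 3, 1, 1, 2, 3, 1, 1, 3, 0, 0, 3, 3]),
    (17, [0, 0, 0, 3, 0, 0, 3, 1, 3, 0, 0, 1, 2, 3, 1, 1, 3, 0, 0, 3, 3, 1, 1, 4, 0, 4, 1, 1, 4, 1, 1, 1]),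
    (18, [4, 4, 1, 1, 4, 0, 0, 4, 2, 0, 0, 4, 0, 4, 4, 1, 1, 1, 4, 1, 4, 2, 0, 1, 4, 0, 2, 1, 3, 0, 0, 2, 1]),
    (19, [3, 0, 4, 1, 1, 1, 1, 1, 4, 4, 0, 3, 3, 1, 4, 0, 2, 1, 3, 0, 0, 2, 1]),
    (20, [1, 1, 4, 0, 4, 1, 1, 4, 1, 1, 1, 3, 0, 0, 0, 0, 3, 3, 0, 4, 4, 2, 0, 1, 4, 0, 2, 1, 3, 0, 0, 2, 1]),
    (21, [1, 2, 3, 1, 1, 3, 0, 0, 3, 3, 0, 0, 0, 3, 0, 0, 3, 1, 3, 0, 0]),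
    (22, [1, 2, 3, 3, 1, 4, 4, 1, 1, 1, 1, 4, 1, 2, 3, 1, 1, 3, 0, 0, 3, 3, 1, 1, 4, 0, 4, 1, 1, 4, 1, 1, 1, 4, 4, 1, 1, 4, 0, 0, 4, 2, 0]),
    (23, [1, 2, 3, 3, 1, 4, 4, 1, 1, 1, 1, 4, 1, 2, 3, 1, 1, 3, 0, 0, 3, 3])],
  [(5, []),
    (12, [0, 2, 4, 0, 3, 0, 3, 2, 1, 3, 2, 3, 1, 4, 0, 2, 0, 0, 0, 3, 0, 0, 0, 1, 2, 3, 1, 1, 3, 0, 0, 3, 3, 4, 4, 1, 1, 4, 0, 0, 4, 2, 0, 1, 2, 3, 3, 1, 4, 4, 1, 1, 1, 1, 4, 2, 4, 0, 2, 4, 1, 4, 1, 3, 2, 1]),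
    (15, [0, 2, 4, 0, 3, 0, 3, 2, 1, 3, 2, 3, 0, 0, 0, 0, 3, 3, 0, 4, 4, 2, 0, 1, 2, 3, 1, 1, 3, 0, 0, 3, 3]),
    (16, [0, 2, 4, 0, 3, 0, 3, 2, 1, 3, 2, 3, 0, 0, 0, 0, 3, 3, 0, 4, 4, 2, 0, 1, 2, 3, 1, 1, 3, 0, 0, 3, 3, 0, 2, 4, 0, 3, 0, 3, 2, 1, 3, 2, 3, 1, 4, 0, 2, 0, 0, 0, 3, 0, 0, 0, 1, 2, 3, 1, 1, 3, 0, 0, 3, 3]),
    (17, [4, 4, 1, 1, 4, 0, 0, 4, 2, 0, 1, 2, 3, 3, 1, 4, 4, 1, 1, 1, 1, 4, 2, 4, 0, 2, 4, 1, 4, 1, 3, 2, 1]),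
    (18, [4, 4, 1, 1, 4, 0, 0, 4, 2, 0, 1, 1, 1, 4, 1, 1, 1, 2, 1, 3, 0, 4, 2, 4, 0, 2, 4, 1, 4, 1, 3, 2, 1]),
    (19, [1, 2, 3, 1, 1, 3, 0, 0, 3, 3, 0, 0, 0, 3, 0, 0, 3, 1, 3, 0, 0, 3, 0, 4, 1, 1, 1, 1, 1, 4, 4, 0, 3, 3, 1, 4, 0, 2, 1, 3, 0, 0, 2, 1]),
    (20, [0, 2, 4, 0, 3, 0, 3, 2, 1, 3, 2, 3, 1, 4, 0, 2, 0, 0, 0, 3, 0, 0, 0, 1, 2, 3, 1, 1, 3, 0, 0, 3, 3, 0, 2, 4, 0, 3, 0, 3, 2, 1, 3, 2, 3, 1, 4, 0, 2, 0, 0, 0, 3, 0, 0, 0, 1, 2, 3, 1, 1, 3, 0, 0, 3, 3]),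
    (21, [0, 2, 4, 0, 3, 0, 3, 2, 1, 3, 2, 3, 1, 4, 0, 2, 0, 0, 0, 3, 0, 0, 0, 1, 2, 3, 1, 1, 3, 0, 0, 3, 3]),
    (22, [0, 0, 0, 3, 0, 0, 3, 1, 3, 0, 0, 4, 4, 1, 1, 4, 0, 0, 4, 2, 0, 1, 1, 4, 0, 4, 1, 1, 4, 1, 1, 1, 0, 2, 1, 1, 4, 0, 2, 1, 3, 0, 4, 4, 1, 3, 3, 0, 0, 0, 0, 0, 3, 1, 4]),
    (23, [3, 0, 4, 1, 1, 1, 1, 1, 4, 4, 0, 3, 3, 1, 4, 0, 2, 1, 3, 0, 0, 2, 1, 0, 0, 0, 3, 0, 0, 3, 1, 3, 0, 0, 1, 2, 3, 1, 1, 3, 0, 0, 3, 3, 1, 1, 4, 0, 4, 1, 1, 4, 1, 1, 1])],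
  [(12, []),
    (15, [1, 1, 4, 0, 4, 1, 1, 4, 1, 1, 1, 4, 4, 1, 1, 4, 0, 0, 4, 2, 0, 1, 1, 4, 0, 4, 1, 1, 4, 1, 1, 1, 4, 4, 1, 1, 4, 0, 0, 4, 2, 0, 0, 0, 0, 3, 0, 0, 3, 1, 3, 0, 0, 1, 2, 3, 1, 1, 3, 0, 0, 3, 3, 1, 1, 4, 0, 4, 1, 1, 4, 1, 1, 1]),
    (16, [0, 0, 0, 3, 0, 0, 3, 1, 3, 0, 0, 1, 2, 3, 1, 1, 3, 0, 0, 3, 3, 1, 1, 4, 0, 4, 1, 1, 4, 1, 1, 1, 1, 2, 3, 3, 1, 4, 4, 1, 1, 1, 1, 4, 1, 2, 3, 1, 1, 3, 0, 0, 3, 3, 1, 2, 3, 1, 1, 3, 0, 0, 3, 3, 0, 0, 0, 3, 0, 0, 3, 1, 3, 0, 0]),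
    (17, [0, 2, 1, 1, 4, 0, 2, 1, 3, 0, 4, 4, 1, 3, 3, 0, 0, 0, 0, 0, 3, 1, 4, 1, 1, 4, 0, 4, 1, 1, 4, 1, 1, 1, 4, 4, 1, 1, 4, 0, 0, 4, 2, 0, 4, 4, 1, 1, 4, 0, 0, 4, 2, 0, 1, 1, 1, 4, 1, 1, 1, 2, 1, 3, 0, 4, 2, 4, 0, 2, 4, 1, 4, 1, 3, 2, 1]),
    (18, [0, 2, 1, 1, 4, 0, 2, 1, 3, 0, 1, 2, 3, 1, 1, 3, 0, 0, 3, 3, 3, 0, 4, 1, 1, 1, 1, 1, 4, 4, 0, 3, 3, 0, 2, 1, 1, 4, 0, 2, 1, 3, 0, 1, 2, 3, 1, 1, 3, 0, 0, 3, 3, 3, 0, 4, 1, 1, 1, 1, 1, 4, 4, 0, 3, 3, 0, 2, 4, 0, 3, 0, 3, 2, 1, 3, 2, 3, 1, 4, 0, 2, 0, 0, 0, 3, 0, 0, 0, 1, 2, 3, 1, 1, 3, 0, 0, 3, 3]),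
    (19, [1, 1, 4, 0, 4, 1, 1, 4, 1, 1, 1, 4, 4, 1, 1, 4, 0, 0, 4, 2, 0, 4, 4, 1, 1, 4, 0, 0, 4, 2, 0, 3, 0, 0, 0, 0, 3, 3, 0, 4, 4, 2, 0, 0, 0, 0, 3, 0, 0, 3, 1, 3, 0, 0, 4, 4, 1, 1, 4, 0, 0, 4, 2, 0, 1, 1, 4, 0, 4, 1, 1, 4, 1, 1, 1]),
    (20, [0, 2, 1, 1, 4, 0, 2, 1, 3, 0, 1, 2, 3, 3, 1, 4, 4, 1, 1, 1, 1, 4, 0, 0, 0, 3, 0, 0, 3, 1, 3, 0, 0, 3, 0, 4, 1, 1, 1, 1, 1, 4, 4, 0, 3, 3, 1, 4, 0, 2, 1, 3, 0, 0, 2, 1, 4, 4, 1, 3, 3, 0, 0, 0, 0, 0, 3, 1, 4, 4, 4, 1, 1, 4, 0, 0, 4, 2, 0, 1, 4, 0, 2, 1, 3, 0, 0, 2, 1]),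
    (21, [4, 4, 1, 1, 4, 0, 0, 4, 2, 0, 0, 4, 0, 4, 4, 1, 1, 1, 4, 1, 4, 2, 0, 1, 4, 0, 2, 1, 3, 0, 0, 2, 1, 4, 4, 1, 1, 4, 0, 0, 4, 2, 0, 0, 4, 0, 4, 4, 1, 1, 1, 4, 1, 4, 2, 0, 1, 4, 0, 2, 1, 3, 0, 0, 2, 1, 1, 2, 3, 3, 1, 4, 4, 1, 1, 1, 1, 4, 1, 2, 3, 1, 1, 3, 0, 0, 3, 3]),
    (22, [0, 2, 1, 1, 4, 0, 2, 1, 3, 0, 4, 4, 1, 3, 3, 0, 0, 0, 0, 0, 3, 1, 4, 4, 4, 1, 1, 4, 0, 0, 4, 2, 0, 3, 0, 0, 0, 0, 3, 3, 0, 4, 4, 2, 0, 4, 4, 1, 1, 4, 0, 0, 4, 2, 0, 0, 4, 0, 4, 4, 1, 1, 1, 4, 1, 4, 2, 0, 1, 4, 0, 2, 1, 3, 0, 0, 2, 1]),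
    (23, [3, 0, 4, 1, 1, 1, 1, 1, 4, 4, 0, 3, 3, 1, 4, 0, 2, 1, 3, 0, 0, 2, 1, 4, 4, 1, 3, 3, 0, 0, 0, 0, 0, 3, 1, 4, 4, 4, 1, 1, 4, 0, 0, 4, 2, 0, 1, 4, 0, 2, 1, 3, 0, 0, 2, 1, 4, 4, 1, 1, 4, 0, 0, 4, 2, 0, 0, 4, 0, 4, 4, 1, 1, 1, 4, 1, 4, 2, 0, 1, 4, 0, 2, 1, 3, 0, 0, 2, 1])]]

/-- Words stabilising the base dodecad, fixing its first three points and moving the first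
point of the complement to each point of the complement. -/
def cert72 : List (List ℕ × List ℕ) := [([0, 2, 3, 1], []),
  ([0, 2, 3, 5], [1, 2, 3, 1, 1, 3, 0, 0, 3, 3, 1, 4, 0, 2, 1, 3, 0, 0, 2, 1, 4, 4, 1, 3, 3, 0, 0, 0, 0, 0, 3, 1, 4, 1, 2, 3, 1, 1, 3, 0, 0, 3, 3, 0, 4, 0, 4, 4, 1, 1, 1, 4, 1, 4, 2, 0]),
  ([0, 2, 3, 12], [4, 4, 1, 1, 4, 0, 0, 4, 2, 0, 2, 4, 0, 2, 4, 1, 4, 1, 3, 2, 1, 2, 0, 4, 0, 2, 4, 4, 4, 0, 0, 3, 2, 0, 2, 1, 1, 4, 0, 2, 1, 3, 0, 1, 1, 4, 0, 4, 1, 1, 4, 1, 1, 1, 0, 4, 0, 4, 4, 1, 1, 1, 4, 1, 4, 2, 0]),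
  ([0, 2, 3, 15], [1, 1, 4, 0, 4, 1, 1, 4, 1, 1, 1, 2, 0, 4, 0, 2, 4, 4, 4, 0, 0, 3, 2, 0, 4, 0, 4, 4, 1, 1, 1, 4, 1, 4, 2, 0, 1, 4, 0, 2, 1, 3, 0, 0, 2, 1, 1, 1, 4, 0, 4, 1, 1, 4, 1, 1, 1, 1, 2, 3, 1, 1, 3, 0, 0, 3, 3, 1, 2, 3, 1, 1, 3, 0, 0, 3, 3, 1, 4, 0, 2, 1, 3, 0, 0, 2, 1, 4, 4, 1, 3, 3, 0, 0, 0, 0, 0, 3, 1, 4, 1, 2, 3, 1, 1, 3, 0, 0, 3, 3, 0, 4, 0, 4, 4, 1, 1, 1, 4, 1, 4, 2, 0]),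
  ([0, 2, 3, 16], [1, 2, 3, 0, 3, 0, 0, 0, 3, 3, 1, 3, 1, 0, 0, 0, 3, 0, 0, 3, 1, 3, 0, 0, 1, 4, 0, 2, 1, 3, 0, 0, 2, 1, 2, 4, 1, 1, 3, 3, 3, 2, 1, 3, 1, 2, 0, 2, 4, 0, 3, 0, 3, 2, 1, 3, 2, 1, 2, 3, 1, 1, 3, 0, 0, 3, 3, 1, 2, 3, 1, 1, 3, 0, 0, 3, 3, 1, 4, 0, 2, 1, 3, 0, 0, 2, 1, 4, 4, 1, 3, 3, 0, 0, 0, 0, 0, 3, 1, 4, 1, 2, 3, 1, 1, 3, 0, 0, 3, 3, 0, 4, 0, 4, 4, 1, 1, 1, 4, 1, 4, 2, 0]),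
  ([0, 2, 3, 17], [0, 0, 3, 3, 0, 4, 4, 0, 4, 4, 1, 4, 0, 2, 4, 0, 3, 0, 3, 2, 1, 3, 2, 0, 0, 0, 3, 0, 0, 3, 1, 3, 0, 0, 0, 2, 1, 1, 4, 0, 2, 1, 3, 0, 2, 0, 4, 0, 2, 4, 4, 4, 0, 0, 3, 2, 1, 1, 1, 4, 1, 1, 1, 2, 1, 3, 0, 4]),
  ([0, 2, 3, 18], [2, 4, 0, 2, 4, 1, 4, 1, 3, 2, 1, 0, 4, 0, 4, 4, 1, 1, 1, 4, 1, 4, 2, 0, 0, 4, 0, 4, 4, 1, 1, 1, 4, 1, 4, 2, 0, 3, 1, 4, 0, 2, 0, 0, 0, 3, 0, 0, 0, 0, 0, 0, 3, 0, 0, 3, 1, 3, 0, 0]),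
  ([0, 2, 3, 19], [4, 4, 1, 1, 4, 0, 0, 4, 2, 0, 4, 4, 1, 1, 4, 0, 0, 4, 2, 0, 2, 4, 1, 1, 3, 3, 3, 2, 1, 3, 1, 2, 1, 2, 3, 1, 1, 3, 0, 0, 3, 3, 0, 2, 1, 1, 4, 0, 2, 1, 3, 0, 4, 4, 1, 3, 3, 0, 0, 0, 0, 0, 3, 1, 4]),
  ([0, 2, 3, 20], [4, 4, 1, 1, 4, 0, 0, 4, 2, 0, 0, 0, 0, 3, 0, 0, 3, 1, 3, 0, 0, 0, 2, 1, 1, 4, 0, 2, 1, 3, 0, 1, 2, 3, 0, 3, 0, 0, 0, 3, 3, 1, 3, 1, 2, 4, 1, 1, 3, 3, 3, 2, 1, 3, 1, 2, 0, 0, 0, 3, 0, 0, 3, 1, 3, 0, 0]),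
  ([0, 2, 3, 21], [0, 2, 4, 0, 3, 0, 3, 2, 1, 3, 2, 0, 4, 0, 4, 4, 1, 1, 1, 4, 1, 4, 2, 0, 1, 4, 0, 2, 1, 3, 0, 0, 2, 1, 0, 0, 0, 3, 0, 0, 3, 1, 3, 0, 0, 3, 0, 4, 1, 1, 1, 1, 1, 4, 4, 0, 3, 3, 4, 4, 1, 1, 4, 0, 0, 4, 2, 0]),
  ([0, 2, 3, 22], [1, 2, 3, 0, 3, 0, 0, 0, 3, 3, 1, 3, 1, 0, 0, 0, 3, 0, 0, 3, 1, 3, 0, 0, 1, 4, 0, 2, 1, 3, 0, 0, 2, 1, 2, 4, 1, 1, 3, 3, 3, 2, 1, 3, 1, 2, 0, 2, 4, 0, 3, 0, 3, 2, 1, 3, 2, 1, 2, 3, 1, 1, 3, 0, 0, 3, 3]),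
  ([0, 2, 3, 23], [1, 2, 3, 1, 1, 3, 0, 0, 3, 3, 4, 4, 1, 3, 3, 0, 0, 0, 0, 0, 3, 1, 4, 1, 1, 4, 0, 4, 1, 1, 4, 1, 1, 1, 0, 2, 1, 1, 4, 0, 2, 1, 3, 0, 1, 2, 3, 0, 3, 0, 0, 0, 3, 3, 1, 3, 1, 2, 4, 0, 2, 4, 1, 4, 1, 3, 2, 1])]

set_option maxRecDepth 100000 in
theorem lv12_ok : chainOK [D0] [] D0 [0, 2, 3, 4, 6] lv12 = true := by decide +kernel

set_option maxRecDepth 100000 in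
theorem lv12_3_ok : chainOK [D0] [] D0 [0, 2, 3] lv12_3 = true := by decide +kernel

set_option maxRecDepth 100000 in
theorem lv11_ok : chainOK [DC, D0] [0] DC [1, 5, 12] lv11 = true := by decide +kernel

set_option maxRecDepth 100000 in
theorem cert72_ok : pcertOK [D0] [0, 2, 3, 1] cert72 = true := by decide +kernel

set_option maxRecDepth 100000 in
theorem cert72_cover : (List.range 24).all (fun i => D0.testBit i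
    || (cert72.map Prod.fst).contains ([0, 2, 3] ++ [i])) = true := by decide +kernel

theorem mem_S_DC (p : GolayPt) : p ∈ S DC ↔ p ∉ S D0 := by
  rw [mem_S, mem_S]
  have h : ∀ i : Fin 24, DC.testBit i.val = !D0.testBit i.val := by decide +kernel
  have := h ⟨gIdx p, gIdx_lt p⟩
  simp only at this
  rw [this]
  simp

end Cfsg.Agent.Lib.Helper1
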