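import Mathlib

/-!
Simplicity criteria (helper1): a Sylow/Burnside-transfer criterion and a point-stabiliser
criterion for 2-transitive actions.
-/

namespace Cfsg.Agent.Lib.Helper1

open Subgroup

/-- N/C bound for a Sylow subgroup of prime order. -/
theorem card_normalizer_dvd_of_card_eq_prime {G : Type*} [Group G] [Finite G] {p : ℕ}
    [Fact p.Prime] (P : Sylow p G) (hP : Nat.card (P : Subgroup G) = p) :
    Nat.card (normalizer ((P : Subgroup G) : Set G))
      ∣ Nat.card (centralizer ((P : Subgroup G) : Set G)) * (p - 1) := by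
  have hcyc : IsCyclic (P : Subgroup G) := isCyclic_of_prime_card hP
  have key := card_dvd_of_injective _
    (QuotientGroup.kerLift_injective (P : Subgroup G).normalizerMonoidHom)
  rw [normalizerMonoidHom_ker, ← index, hcyc.card_mulAut, hP,
    Nat.totient_prime Fact.out] at key
  have hle : centralizer ((P : Subgroup G) : Set G) ≤ normalizer ((P : Subgroup G) : Set G) :=
    centralizer_le_normalizer _
  have h1 := Subgroup.card_mul_index
    ((centralizer ((P : Subgroup G) : Set G)).subgroupOf (normalizer ((P : Subgroup G) : Set G)))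
  have h2 : Nat.card ((centralizer ((P : Subgroup G) : Set G)).subgroupOf
      (normalizer ((P : Subgroup G) : Set G)))
      = Nat.card (centralizer ((P : Subgroup G) : Set G)) :=
    Nat.card_congr (subgroupOfEquivOfLe hle).toEquiv
  rw [h2] at h1
  rw [← h1]
  exact Nat.mul_dvd_mul_left _ key

/-- Sylow / Burnside-transfer simplicity criterion. -/
theorem simple_of_sylow {G : Type*} [Group G] [Finite G] {p q m : ℕ} [hp : Fact p.Prime]
    (hq : q.Prime) (hcard : Nat.card G = p * m) (hpm : ¬ p ∣ m) (hmq : m ≠ q)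
    (hN : ∀ P : Sylow p G, Nat.card (normalizer ((P : Subgroup G) : Set G)) = p * q)
    (hdiv : ∀ N : Subgroup G, N.Normal → N ≠ ⊥ → p ∣ Nat.card N) : IsSimpleGroup G := by
  have hp1 := hp.out.one_lt
  have hm0 : m ≠ 0 := by
    rintro rfl
    have := Nat.card_pos (α := G)
    omega
  have : Nontrivial G := by
    rw [← Finite.one_lt_card_iff_nontrivial, hcard]
    have := Nat.pos_of_ne_zero hm0
    nlinarith
  have hfac : (Nat.card G).factorization p = 1 := by
    rw [hcard, Nat.factorization_mul hp.out.ne_zero hm0, Finsupp.add_apply,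
      hp.out.factorization_self, Nat.factorization_eq_zero_of_not_dvd hpm]
  refine ⟨fun N hNn => ?_⟩
  by_contra hcon
  push Not at hcon
  obtain ⟨hbot, htop⟩ := hcon
  have := hNn
  have hpN : p ∣ Nat.card N := hdiv N hNn hbot
  have hNG : Nat.card N ∣ p * m := hcard ▸ Subgroup.card_subgroup_dvd_card N
  have hp2 : ¬ p * p ∣ Nat.card N := fun h =>
    hpm ((Nat.mul_dvd_mul_iff_left hp.out.pos).1 (h.trans hNG))
  have hfacN : (Nat.card N).factorization p = 1 := by
    have hn0 : Nat.card N ≠ 0 := Nat.card_pos.ne'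
    have h1 : 1 ≤ (Nat.card N).factorization p :=
      (hp.out.dvd_iff_one_le_factorization hn0).1 hpN
    have h2 : ¬ 2 ≤ (Nat.card N).factorization p := by
      intro h2
      apply hp2
      have := (hp.out.pow_dvd_iff_le_factorization hn0).2 h2
      rwa [pow_two] at this
    omega
  obtain ⟨P'⟩ : Nonempty (Sylow p N) := Sylow.nonempty
  have hP'card : Nat.card (P' : Subgroup N) = p := by
    rw [Sylow.card_eq_multiplicity, hfacN, pow_one]
  obtain ⟨Q, hQ⟩ : ∃ Q : Subgroup G, Q = (P' : Subgroup N).map N.subtype := ⟨_, rfl⟩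
  have hQcard : Nat.card Q = p := by
    rw [hQ, Subgroup.card_map_of_injective N.subtype_injective, hP'card]
  have hNorm : Nat.card (normalizer (Q : Set G)) = p * q :=
    hN (Sylow.ofCard Q (by rw [hQcard, hfac, pow_one]))
  have hfr : normalizer (Q : Set G) ⊔ N = ⊤ := by
    rw [hQ]; exact Sylow.normalizer_sup_eq_top P'
  have hQH : Q ≤ normalizer (Q : Set G) := le_normalizer
  have hQN : Q ≤ N := by rw [hQ]; exact map_subtype_le _
  have h1 : p ∣ Nat.card ((normalizer (Q : Set G)) ⊓ N : Subgroup G) := by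
    have := Subgroup.card_dvd_of_le (le_inf hQH hQN)
    rwa [hQcard] at this
  have h2 : Nat.card ((normalizer (Q : Set G)) ⊓ N : Subgroup G) ∣ p * q := by
    rw [← hNorm]; exact Subgroup.card_dvd_of_le inf_le_left
  obtain ⟨d, hd⟩ := h1
  have hdq : d ∣ q := by
    rw [hd] at h2; exact (Nat.mul_dvd_mul_iff_left hp.out.pos).1 h2
  rcases (Nat.dvd_prime hq).1 hdq with hd1 | hd1
  · rw [hd1, mul_one] at hd
    have hHNQ : Q = normalizer (Q : Set G) ⊓ N :=
      Subgroup.eq_of_le_of_card_ge (le_inf hQH hQN) (by rw [hd, hQcard])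
    have hnP : normalizer ((P' : Subgroup N) : Set N) ≤ (P' : Subgroup N) := by
      intro x hx
      have hxQ : (x : G) ∈ Q := by
        rw [hHNQ]
        refine mem_inf.2 ⟨?_, x.2⟩
        rw [mem_normalizer_iff] at hx ⊢
        intro h
        rw [hQ]
        constructor
        · rintro ⟨h', hh', rfl⟩
          exact ⟨x * h' * x⁻¹, (hx h').1 hh', rfl⟩
        · rintro ⟨y, hy, hyx⟩
          have e : x * (x⁻¹ * y * x) * x⁻¹ = y := by group
          refine ⟨x⁻¹ * y * x, (hx _).2 (by rw [e]; exact hy), ?_⟩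
          have hyx' : (y : G) = (x : G) * h * (x : G)⁻¹ := hyx
          show ((x⁻¹ * y * x : N) : G) = h
          push_cast
          rw [hyx']
          group
      rw [hQ] at hxQ
      obtain ⟨y, hy, hyx⟩ := hxQ
      have : y = x := Subtype.ext hyx
      rwa [← this]
    have hcycP : IsCyclic (P' : Subgroup N) := isCyclic_of_prime_card hP'card
    have hP : normalizer ((P' : Subgroup N) : Set N) ≤ centralizer ((P' : Subgroup N) : Set N) := by
      intro x hx
      have hxP := hnP hx
      rw [mem_centralizer_iff]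
      intro y hy
      obtain ⟨g, hg⟩ := hcycP.exists_generator
      obtain ⟨i, hi⟩ := Subgroup.mem_zpowers_iff.1 (hg ⟨x, hxP⟩)
      obtain ⟨j, hj⟩ := Subgroup.mem_zpowers_iff.1 (hg ⟨y, hy⟩)
      have hc : (⟨y, hy⟩ : (P' : Subgroup N)) * ⟨x, hxP⟩ = ⟨x, hxP⟩ * ⟨y, hy⟩ := by
        rw [← hi, ← hj]; exact zpow_mul_comm g j i
      exact congrArg Subtype.val hc
    have hK : IsComplement' (MonoidHom.transferSylow P' hP).ker (P' : Subgroup N) :=
      MonoidHom.ker_transferSylow_isComplement' P' hP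
    have hKcard : Nat.card (MonoidHom.transferSylow P' hP).ker * p = Nat.card N := by
      have := hK.card_mul_card; rwa [hP'card] at this
    have hKndvd : ¬ p ∣ Nat.card (MonoidHom.transferSylow P' hP).ker :=
      MonoidHom.not_dvd_card_ker_transferSylow P' hP
    obtain ⟨K', hK'⟩ : ∃ K' : Subgroup G,
      K' = (MonoidHom.transferSylow P' hP).ker.map N.subtype := ⟨_, rfl⟩
    have hK'card : Nat.card K' = Nat.card (MonoidHom.transferSylow P' hP).ker := by
      rw [hK']; exact Subgroup.card_map_of_injective N.subtype_injective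
    have hK'normal : K'.Normal := by
      refine ⟨fun k hk g => ?_⟩
      rw [hK'] at hk ⊢
      obtain ⟨k0, hk0, rfl⟩ := hk
      have hxN : g * (k0 : G) * g⁻¹ ∈ N := hNn.conj_mem _ k0.2 g
      refine ⟨⟨g * (k0 : G) * g⁻¹, hxN⟩, MonoidHom.mem_ker.2 ?_, rfl⟩
      have ho : orderOf (⟨g * (k0 : G) * g⁻¹, hxN⟩ : N) = orderOf k0 := by
        rw [← Subgroup.orderOf_coe, ← Subgroup.orderOf_coe k0]
        exact (MulAut.conj g).orderOf_eq (k0 : G)
      have hok : orderOf k0 ∣ Nat.card (MonoidHom.transferSylow P' hP).ker := by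
        have := orderOf_dvd_natCard (⟨k0, hk0⟩ : (MonoidHom.transferSylow P' hP).ker)
        rwa [Subgroup.orderOf_mk] at this
      have hcop : Nat.Coprime (orderOf k0) p := by
        rw [Nat.coprime_comm, hp.out.coprime_iff_not_dvd]
        exact fun h => hKndvd (h.trans hok)
      have h1 : orderOf (MonoidHom.transferSylow P' hP ⟨g * (k0 : G) * g⁻¹, hxN⟩)
          ∣ orderOf k0 := by
        rw [← ho]; exact orderOf_map_dvd _ _
      have h2 : orderOf (MonoidHom.transferSylow P' hP ⟨g * (k0 : G) * g⁻¹, hxN⟩) ∣ p := by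
        have := orderOf_dvd_natCard (MonoidHom.transferSylow P' hP ⟨g * (k0 : G) * g⁻¹, hxN⟩)
        rwa [hP'card] at this
      have h3 : orderOf (MonoidHom.transferSylow P' hP ⟨g * (k0 : G) * g⁻¹, hxN⟩) = 1 :=
        Nat.dvd_one.1 (hcop ▸ Nat.dvd_gcd h1 h2)
      exact orderOf_eq_one_iff.1 h3
    have hK'ne : K' ≠ ⊥ := by
      intro hbot'
      have h1 : Nat.card K' = 1 := by rw [hbot']; exact Subgroup.card_bot
      rw [hK'card] at h1
      rw [h1, one_mul] at hKcard
      have hNQ : Q = N := Subgroup.eq_of_le_of_card_ge hQN (by rw [hQcard, ← hKcard])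
      have hNH : N ≤ normalizer (Q : Set G) := by
        intro x hx; rw [← hNQ] at hx; exact hQH hx
      rw [sup_eq_left.2 hNH] at hfr
      have h2 : Nat.card G = p * q := by
        rw [← hNorm, hfr, Subgroup.card_top]
      rw [hcard] at h2
      exact hmq (Nat.eq_of_mul_eq_mul_left hp.out.pos h2)
    have := hdiv K' hK'normal hK'ne
    rw [hK'card] at this
    exact hKndvd this
  · rw [hd1] at hd
    have hHN : normalizer (Q : Set G) ⊓ N = normalizer (Q : Set G) :=
      Subgroup.eq_of_le_of_card_ge inf_le_left (by rw [hd, hNorm])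
    have hle : normalizer (Q : Set G) ≤ N := inf_eq_left.1 hHN
    rw [sup_eq_right.2 hle] at hfr
    exact htop hfr

/-- A normal subgroup of a group acting 2-transitively on a set `X` that moves a point of `X`
is transitive on `X`. -/
theorem normal_trans {G α : Type*} [Group G] [MulAction G α] (X : Set α)
    (h2 : ∀ a ∈ X, ∀ b ∈ X, ∀ c ∈ X, ∀ d ∈ X, a ≠ b → c ≠ d → ∃ g : G, g • a = c ∧ g • b = d)
    (N : Subgroup G) (hNn : N.Normal) {n : G} (hn : n ∈ N) {a : α} (ha : a ∈ X)
    (hna : n • a ∈ X) (hne : n • a ≠ a) :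
    ∀ c ∈ X, ∀ d ∈ X, ∃ m ∈ N, m • c = d := by
  intro c hc d hd
  by_cases hcd : c = d
  · exact ⟨1, N.one_mem, by rw [one_smul, hcd]⟩
  · obtain ⟨g, hg1, hg2⟩ := h2 a ha (n • a) hna c hc d hd (Ne.symm hne) hcd
    refine ⟨g * n * g⁻¹, hNn.conj_mem n hn g, ?_⟩
    rw [mul_smul, mul_smul, ← hg1, inv_smul_smul, hg2]

/-- The size of a set on which a subgroup is transitive divides the order of the subgroup. -/
theorem ncard_dvd_of_trans {G α : Type*} [Group G] [MulAction G α] (N : Subgroup G)
    (X : Set α) {a : α} (hinv : ∀ m ∈ N, m • a ∈ X) (htr : ∀ d ∈ X, ∃ m ∈ N, m • a = d) :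
    X.ncard ∣ Nat.card N := by
  have hX : X = MulAction.orbit N a := by
    ext d
    constructor
    · intro hd
      obtain ⟨m, hm, rfl⟩ := htr d hd
      exact ⟨⟨m, hm⟩, rfl⟩
    · rintro ⟨m, rfl⟩
      exact hinv m.1 m.2
  rw [hX, ← MulAction.index_stabilizer]
  exact Subgroup.index_dvd_card _

/-- Nontrivial normal subgroups of a faithful 2-transitive group have order divisible by the
degree. -/
theorem ncard_dvd_card_normal {G α : Type*} [Group G] [MulAction G α] (X : Set α)
    (hinv : ∀ g : G, ∀ x ∈ X, g • x ∈ X)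
    (hfaith : ∀ g : G, (∀ x ∈ X, g • x = x) → g = 1)
    (h2 : ∀ a ∈ X, ∀ b ∈ X, ∀ c ∈ X, ∀ d ∈ X, a ≠ b → c ≠ d → ∃ g : G, g • a = c ∧ g • b = d)
    (N : Subgroup G) (hNn : N.Normal) (hN : N ≠ ⊥) : X.ncard ∣ Nat.card N := by
  obtain ⟨n, hn, hn1⟩ := (Subgroup.ne_bot_iff_exists_ne_one (H := N)).1 hN |>.imp
    (fun n h => h) |> fun ⟨n, h⟩ => (⟨n.1, n.2, fun h1 => h (Subtype.ext h1)⟩ :
      ∃ n : G, n ∈ N ∧ n ≠ 1)
  have hmove : ∃ x ∈ X, n • x ≠ x := by
    by_contra hcon
    push Not at hcon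
    exact hn1 (hfaith n hcon)
  obtain ⟨x, hx, hnx⟩ := hmove
  have htr := normal_trans X h2 N hNn hn hx (hinv n x hx) hnx
  exact ncard_dvd_of_trans N X (fun m _ => hinv m x hx) (fun d hd => htr x hx d hd)

/-- An element commuting with `σ` and mapping `b` into the `σ`-orbit of `b`, in a group acting
faithfully on that orbit, is a power of `σ`. -/
theorem mem_zpowers_of_commute {G α : Type*} [Group G] [MulAction G α] (σ c : G)
    (hc : Commute c σ) (b : α)
    (hfaith : ∀ g : G, (∀ k : ℤ, g • (σ ^ k • b) = σ ^ k • b) → g = 1)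
    (hcb : ∃ k : ℤ, c • b = σ ^ k • b) : c ∈ Subgroup.zpowers σ := by
  obtain ⟨k, hk⟩ := hcb
  have h1 : σ ^ (-k) * c = 1 := by
    apply hfaith
    intro j
    have hcomm : Commute (σ ^ (-k) * c) (σ ^ j) :=
      (Commute.zpow_zpow_self σ (-k) j).mul_left (hc.zpow_right j)
    rw [← mul_smul, hcomm.eq, mul_smul, mul_smul, hk, ← mul_smul (σ ^ (-k)), ← zpow_add,
      neg_add_cancel, zpow_zero, one_smul]
  rw [Subgroup.mem_zpowers_iff]
  refine ⟨k, ?_⟩
  have h2 : c = σ ^ k * (σ ^ (-k) * c) := by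
    rw [← mul_assoc, ← zpow_add, add_neg_cancel, zpow_zero, one_mul]
  rw [h2, h1, mul_one]

/-- If `σ` has prime order `p` and moves `b`, and the `σ`-orbit of `b` lies in a set `X` of
size `p`, then the orbit is all of `X`. -/
theorem orbit_zpowers_eq {G α : Type*} [Group G] [MulAction G α] (σ : G) {p : ℕ}
    (hp : p.Prime) (hσ : orderOf σ = p) (b : α) (hb : σ • b ≠ b) (X : Set α) (hXfin : X.Finite)
    (hX : X.ncard = p) (hsub : ∀ k : ℤ, σ ^ k • b ∈ X) : ∀ x ∈ X, ∃ k : ℤ, x = σ ^ k • b := by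
  have hO : MulAction.orbit (Subgroup.zpowers σ) b ⊆ X := by
    rintro _ ⟨⟨g, hg⟩, rfl⟩
    obtain ⟨k, rfl⟩ := Subgroup.mem_zpowers_iff.1 hg
    exact hsub k
  have hdvd : (MulAction.orbit (Subgroup.zpowers σ) b).ncard ∣ p := by
    rw [← MulAction.index_stabilizer, ← hσ, ← Nat.card_zpowers]
    exact Subgroup.index_dvd_card _
  have hne1 : (MulAction.orbit (Subgroup.zpowers σ) b).ncard ≠ 1 := by
    intro h1
    obtain ⟨y, hy⟩ := Set.ncard_eq_one.1 h1
    have hb1 : b ∈ MulAction.orbit (Subgroup.zpowers σ) b := MulAction.mem_orbit_self b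
    have hb2 : σ • b ∈ MulAction.orbit (Subgroup.zpowers σ) b :=
      ⟨⟨σ, Subgroup.mem_zpowers σ⟩, rfl⟩
    rw [hy, Set.mem_singleton_iff] at hb1 hb2
    exact hb (hb2.trans hb1.symm)
  have hcard : (MulAction.orbit (Subgroup.zpowers σ) b).ncard = p := by
    rcases (Nat.dvd_prime hp).1 hdvd with h | h
    · exact absurd h hne1
    · exact h
  have hEq : MulAction.orbit (Subgroup.zpowers σ) b = X :=
    Set.eq_of_subset_of_ncard_le hO (by rw [hcard, hX]) hXfin
  intro x hx
  rw [← hEq] at hx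
  obtain ⟨⟨g, hg⟩, rfl⟩ := hx
  obtain ⟨k, rfl⟩ := Subgroup.mem_zpowers_iff.1 hg
  exact ⟨k, rfl⟩

/-- The order of the normaliser of a Sylow subgroup of prime order, from Sylow's congruence. -/
theorem card_normalizer_of_arith {G : Type*} [Group G] [Finite G] {p m q c : ℕ}
    [hp : Fact p.Prime] (hcard : Nat.card G = p * m) (hm : m ≠ 0) (P : Sylow p G)
    (hP : Nat.card (P : Subgroup G) = p)
    (hcent : Nat.card (centralizer ((P : Subgroup G) : Set G)) ∣ p * c)
    (harith : ∀ e, e ∣ c * (p - 1) → e ∣ m → (m / e) % p = 1 → e = q) :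
    Nat.card (normalizer ((P : Subgroup G) : Set G)) = p * q := by
  have h1 : p ∣ Nat.card (normalizer ((P : Subgroup G) : Set G)) := by
    have := Subgroup.card_dvd_of_le (le_normalizer (H := (P : Subgroup G)))
    rwa [hP] at this
  obtain ⟨e, he⟩ := h1
  have h2 := card_normalizer_dvd_of_card_eq_prime P hP
  have h3 : p * e ∣ p * (c * (p - 1)) := by
    rw [← he, ← mul_assoc]
    exact h2.trans (Nat.mul_dvd_mul_right hcent _)
  have h4 : e ∣ c * (p - 1) := (Nat.mul_dvd_mul_iff_left hp.out.pos).1 h3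
  have h5 : p * e ∣ p * m := by
    rw [← he, ← hcard]; exact Subgroup.card_subgroup_dvd_card _
  have h6 : e ∣ m := (Nat.mul_dvd_mul_iff_left hp.out.pos).1 h5
  have h7 := Subgroup.card_mul_index (normalizer ((P : Subgroup G) : Set G))
  rw [he, hcard] at h7
  have he0 : e ≠ 0 := by
    rintro rfl
    rw [Nat.zero_dvd] at h6
    exact hm h6
  have h8 : (normalizer ((P : Subgroup G) : Set G)).index = m / e := by
    obtain ⟨t, rfl⟩ := h6
    rw [Nat.mul_div_cancel_left _ (Nat.pos_of_ne_zero he0)]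
    have : p * e * (normalizer ((P : Subgroup G) : Set G)).index = p * e * t := by
      rw [h7]; ring
    exact Nat.eq_of_mul_eq_mul_left (Nat.mul_pos hp.out.pos (Nat.pos_of_ne_zero he0)) this
  have h9 : (m / e) % p = 1 := by
    have := card_sylow_modEq_one (p := p) (G := G)
    rw [Sylow.card_eq_index_normalizer P] at this
    have h8' : (normalizer (P : Set G)).index = m / e := h8
    rw [h8'] at this
    rw [this, Nat.mod_eq_of_lt hp.out.one_lt]
  rw [he, harith e h4 h6 h9]

/-- Point-stabiliser criterion: a faithful 2-transitive group on a set whose size is not a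
prime power, with a simple point stabiliser, is simple. -/
theorem simple_of_stab_simple {G α : Type*} [Group G] [Finite G] [MulAction G α] (X : Set α)
    (hinv : ∀ g : G, ∀ x ∈ X, g • x ∈ X)
    (hfaith : ∀ g : G, (∀ x ∈ X, g • x = x) → g = 1)
    (h2 : ∀ a ∈ X, ∀ b ∈ X, ∀ c ∈ X, ∀ d ∈ X, a ≠ b → c ≠ d → ∃ g : G, g • a = c ∧ g • b = d)
    (hpp : ¬ IsPrimePow X.ncard) (a : α) (ha : a ∈ X)
    (hs : IsSimpleGroup (MulAction.stabilizer G a)) : IsSimpleGroup G := by
  have hnt : Nontrivial G := by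
    obtain ⟨x, y, hxy⟩ := hs.exists_pair_ne
    exact ⟨⟨x.1, y.1, fun h => hxy (Subtype.ext h)⟩⟩
  refine ⟨fun N hNn => ?_⟩
  by_contra hcon
  push Not at hcon
  obtain ⟨hbot, htop⟩ := hcon
  obtain ⟨n, hn, hn1⟩ : ∃ n : G, n ∈ N ∧ n ≠ 1 := by
    obtain ⟨n, h⟩ := (Subgroup.ne_bot_iff_exists_ne_one (H := N)).1 hbot
    exact ⟨n.1, n.2, fun h1 => h (Subtype.ext h1)⟩
  obtain ⟨x, hx, hnx⟩ : ∃ x ∈ X, n • x ≠ x := by
    by_contra hcon
    push Not at hcon
    exact hn1 (hfaith n hcon)
  have htr := normal_trans X h2 N hNn hn hx (hinv n x hx) hnx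
  have hM : (N.subgroupOf (MulAction.stabilizer G a)).Normal := hNn.subgroupOf _
  rcases hs.eq_bot_or_eq_top_of_normal _ hM with hMb | hMt
  · have hreg : ∀ m ∈ N, m • a = a → m = 1 := by
      intro m hm hma
      have h1 : (⟨m, hma⟩ : MulAction.stabilizer G a)
          ∈ N.subgroupOf (MulAction.stabilizer G a) := Subgroup.mem_subgroupOf.2 hm
      rw [hMb, Subgroup.mem_bot] at h1
      exact congrArg Subtype.val h1
    have hconj : ∀ n1 ∈ N, ∀ n2 ∈ N, n1 ≠ 1 → n2 ≠ 1 → orderOf n1 = orderOf n2 := by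
      intro n1 h1 n2 h2' hn1' hn2'
      have e1 : n1 • a ≠ a := fun h => hn1' (hreg n1 h1 h)
      have e2 : n2 • a ≠ a := fun h => hn2' (hreg n2 h2' h)
      obtain ⟨g, hg1, hg2⟩ := h2 a ha (n1 • a) (hinv n1 a ha) a ha (n2 • a) (hinv n2 a ha)
        (Ne.symm e1) (Ne.symm e2)
      have hmem : n2⁻¹ * (g * n1 * g⁻¹) ∈ N :=
        N.mul_mem (N.inv_mem h2') (hNn.conj_mem n1 h1 g)
      have hfix : (n2⁻¹ * (g * n1 * g⁻¹)) • a = a := by
        have hga : g⁻¹ • a = a := by rw [inv_smul_eq_iff, hg1]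
        rw [mul_smul, mul_smul, mul_smul, hga, hg2, inv_smul_smul]
      have h3 := hreg _ hmem hfix
      have e : n2 = g * n1 * g⁻¹ := by
        rw [inv_mul_eq_one] at h3; exact h3
      rw [e]; exact ((MulAut.conj g).orderOf_eq n1).symm
    have hcardN : X.ncard = Nat.card N := by
      have hXo : X = MulAction.orbit N a := by
        ext d
        constructor
        · intro hd
          obtain ⟨m, hm, rfl⟩ := htr a ha d hd
          exact ⟨⟨m, hm⟩, rfl⟩
        · rintro ⟨m, rfl⟩
          exact hinv m.1 a ha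
      have hst : MulAction.stabilizer N a = ⊥ := by
        rw [eq_bot_iff]
        intro m hm
        rw [Subgroup.mem_bot]
        exact Subtype.ext (hreg m.1 m.2 hm)
      rw [hXo, ← MulAction.index_stabilizer, hst, Subgroup.index_bot]
    apply hpp
    rw [hcardN]
    have hN1 : 1 < Nat.card N := by
      rw [Subgroup.one_lt_card_iff_ne_bot]; exact hbot
    obtain ⟨p, hp, hpd⟩ := Nat.exists_prime_and_dvd (Nat.ne_of_gt hN1)
    haveI := Fact.mk hp
    obtain ⟨z, hz⟩ := exists_prime_orderOf_dvd_card' p hpd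
    have hall : ∀ y : N, y ^ p = 1 := by
      intro y
      by_cases hy : y = 1
      · rw [hy, one_pow]
      · have hz1 : z ≠ 1 := by
          rintro rfl
          rw [orderOf_one] at hz
          exact hp.ne_one hz.symm
        have h3 := hconj y.1 y.2 z.1 z.2 (fun h => hy (Subtype.ext h))
          (fun h => hz1 (Subtype.ext h))
        rw [Subgroup.orderOf_coe, Subgroup.orderOf_coe, hz] at h3
        rw [← h3]; exact pow_orderOf_eq_one y
    have hpg : IsPGroup p N := fun y => ⟨1, by rw [pow_one]; exact hall y⟩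
    obtain ⟨k, hk⟩ := IsPGroup.iff_card.1 hpg
    rw [hk]
    have hk0 : k ≠ 0 := by
      rintro rfl
      rw [pow_zero] at hk
      omega
    exact hp.isPrimePow.pow hk0
  · apply htop
    rw [eq_top_iff]
    intro g _
    obtain ⟨m, hm, hma⟩ := htr a ha (g • a) (hinv g a ha)
    have hst : m⁻¹ * g ∈ MulAction.stabilizer G a := by
      rw [MulAction.mem_stabilizer_iff, mul_smul, ← hma, inv_smul_smul]
    have hin : (⟨m⁻¹ * g, hst⟩ : MulAction.stabilizer G a)
        ∈ N.subgroupOf (MulAction.stabilizer G a) := by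
      rw [hMt]; exact Subgroup.mem_top _
    have hmg : m⁻¹ * g ∈ N := Subgroup.mem_subgroupOf.1 hin
    have e : g = m * (m⁻¹ * g) := by group
    rw [e]; exact N.mul_mem hm hmg

/-- If every element commuting with an element of order `p` is a power of it, the centraliser
of a Sylow subgroup of order `p` has order `p`. -/
theorem card_centralizer_sylow {G : Type*} [Group G] [Finite G] {p : ℕ} [hp : Fact p.Prime]
    (P : Sylow p G) (hP : Nat.card (P : Subgroup G) = p)
    (h : ∀ σ : G, orderOf σ = p → ∀ c : G, Commute c σ → c ∈ Subgroup.zpowers σ) :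
    Nat.card (centralizer ((P : Subgroup G) : Set G)) ∣ p * 1 := by
  have h1 : 1 < Nat.card (P : Subgroup G) := by rw [hP]; exact hp.out.one_lt
  rw [Subgroup.one_lt_card_iff_ne_bot] at h1
  obtain ⟨σ, hσ⟩ := (Subgroup.ne_bot_iff_exists_ne_one (H := (P : Subgroup G))).1 h1
  have ho : orderOf (σ : G) = p := by
    have hd : orderOf σ ∣ p := by
      have := orderOf_dvd_natCard σ
      rwa [hP] at this
    rw [Subgroup.orderOf_coe]
    rcases (Nat.dvd_prime hp.out).1 hd with h0 | h0
    · exact absurd (orderOf_eq_one_iff.1 h0) hσ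
    · exact h0
  have hle : centralizer ((P : Subgroup G) : Set G) ≤ Subgroup.zpowers (σ : G) := by
    intro c hc
    exact h σ ho c ((mem_centralizer_iff.1 hc) σ σ.2).symm
  have hcard := Subgroup.card_dvd_of_le hle
  rw [Nat.card_zpowers, ho] at hcard
  rw [mul_one]; exact hcard

/-- Simplicity of a faithful 2-transitive group of prime degree `p` with `p ∥ |G|`, given
Sylow arithmetic. -/
theorem simple_of_sylow_action {G α : Type*} [Group G] [Finite G] [MulAction G α] {p q m : ℕ}
    [hp : Fact p.Prime] (hq : q.Prime) (hcard : Nat.card G = p * m) (hpm : ¬ p ∣ m)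
    (hmq : m ≠ q) (X : Set α) (hXfin : X.Finite) (hXn : X.ncard = p)
    (hinv : ∀ g : G, ∀ x ∈ X, g • x ∈ X)
    (hfaith : ∀ g : G, (∀ x ∈ X, g • x = x) → g = 1)
    (h2 : ∀ a ∈ X, ∀ b ∈ X, ∀ c ∈ X, ∀ d ∈ X, a ≠ b → c ≠ d → ∃ g : G, g • a = c ∧ g • b = d)
    (harith : ∀ e, e ∣ 1 * (p - 1) → e ∣ m → (m / e) % p = 1 → e = q) : IsSimpleGroup G := by
  have hm0 : m ≠ 0 := by
    rintro rfl
    have := Nat.card_pos (α := G)
    omega
  have hdiv : ∀ N : Subgroup G, N.Normal → N ≠ ⊥ → p ∣ Nat.card N := by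
    intro N hN hne
    have h := ncard_dvd_card_normal X hinv hfaith h2 N hN hne
    rwa [hXn] at h
  have hcent : ∀ σ : G, orderOf σ = p → ∀ c : G, Commute c σ → c ∈ Subgroup.zpowers σ := by
    intro σ hσ c hc
    have hσ1 : σ ≠ 1 := by
      rintro rfl
      rw [orderOf_one] at hσ
      exact hp.out.ne_one hσ.symm
    obtain ⟨b, hb, hσb⟩ : ∃ b ∈ X, σ • b ≠ b := by
      by_contra hcon
      push Not at hcon
      exact hσ1 (hfaith σ hcon)
    have hsub : ∀ k : ℤ, σ ^ k • b ∈ X := fun k => hinv _ b hb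
    have horb := orbit_zpowers_eq σ hp.out hσ b hσb X hXfin hXn hsub
    apply mem_zpowers_of_commute σ c hc b
    · intro g hg
      apply hfaith
      intro x hx
      obtain ⟨k, rfl⟩ := horb x hx
      exact hg k
    · exact horb (c • b) (hinv c b hb)
  have hNorm : ∀ P : Sylow p G,
      Nat.card (Subgroup.normalizer ((P : Subgroup G) : Set G)) = p * q := by
    intro P
    have hP : Nat.card (P : Subgroup G) = p := by
      rw [Sylow.card_eq_multiplicity, hcard]
      have h1 : (p * m).factorization p = 1 := by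
        rw [Nat.factorization_mul hp.out.ne_zero hm0, Finsupp.add_apply,
          hp.out.factorization_self, Nat.factorization_eq_zero_of_not_dvd hpm]
      rw [h1, pow_one]
    exact card_normalizer_of_arith hcard hm0 P hP (card_centralizer_sylow P hP hcent) harith
  exact simple_of_sylow hq hcard hpm hmq hNorm hdiv

end Cfsg.Agent.Lib.Helper1
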