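import Mathlib
import Cfsg.Prelude.Def_Sporadic_a
import Cfsg.Agent.Lib.Helper1.Simple
import Cfsg.Agent.Lib.Helper1.M24Fix5
import Cfsg.Agent.S0384

/-!
Transitivity facts for the dodecad stabiliser (helper1).
-/

namespace Cfsg.Agent.Lib.Helper1

open Cfsg
open scoped Pointwise

/-- Extend three distinct points of a dodecad to an embedding of five points. -/
theorem extend3 (d : Finset GolayPt) (hd12 : d.card = 12) (a b c : GolayPt) (ha : a ∈ d)
    (hb : b ∈ d) (hc : c ∈ d) (hab : a ≠ b) (hac : a ≠ c) (hbc : b ≠ c) :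
    ∃ x : Fin 5 ↪ GolayPt, (∀ i, x i ∈ d) ∧ x 0 = a ∧ x 1 = b ∧ x 2 = c := by
  classical
  have h1 : (d.erase a).card = 11 := by rw [Finset.card_erase_of_mem ha, hd12]
  have hb' : b ∈ d.erase a := Finset.mem_erase.2 ⟨Ne.symm hab, hb⟩
  have h2 : ((d.erase a).erase b).card = 10 := by rw [Finset.card_erase_of_mem hb', h1]
  have hc' : c ∈ (d.erase a).erase b :=
    Finset.mem_erase.2 ⟨Ne.symm hbc, Finset.mem_erase.2 ⟨Ne.symm hac, hc⟩⟩
  have h3 : (((d.erase a).erase b).erase c).card = 9 := by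
    rw [Finset.card_erase_of_mem hc', h2]
  obtain ⟨t, ht, ht2⟩ := Finset.exists_subset_card_eq
    (s := ((d.erase a).erase b).erase c) (n := 2) (by omega)
  obtain ⟨u, v, huv, rfl⟩ := Finset.card_eq_two.1 ht2
  have hu := ht (Finset.mem_insert_self u {v})
  have hv := ht (Finset.mem_insert_of_mem (Finset.mem_singleton_self v))
  simp only [Finset.mem_erase] at hu hv
  obtain ⟨huc, hub, hua, hud⟩ := hu
  obtain ⟨hvc, hvb, hva, hvd⟩ := hv
  refine ⟨⟨![a, b, c, u, v], inj_of_nodup5 a b c u v (by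
    simp [hab, hac, hbc, Ne.symm hua, Ne.symm hva, Ne.symm hub, Ne.symm hvb, Ne.symm huc,
      Ne.symm hvc, huv])⟩, ?_, rfl, rfl, rfl⟩
  intro i
  fin_cases i <;> simp [ha, hb, hc, hud, hvd]

/-- Extend two distinct points of a dodecad to an embedding of five points. -/
theorem extend2 (d : Finset GolayPt) (hd12 : d.card = 12) (a b : GolayPt) (ha : a ∈ d)
    (hb : b ∈ d) (hab : a ≠ b) :
    ∃ x : Fin 5 ↪ GolayPt, (∀ i, x i ∈ d) ∧ x 0 = a ∧ x 1 = b := by
  classical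
  have h1 : (d.erase a).card = 11 := by rw [Finset.card_erase_of_mem ha, hd12]
  have hb' : b ∈ d.erase a := Finset.mem_erase.2 ⟨Ne.symm hab, hb⟩
  have h2 : ((d.erase a).erase b).card = 10 := by rw [Finset.card_erase_of_mem hb', h1]
  obtain ⟨c, hc⟩ : ((d.erase a).erase b).Nonempty := Finset.card_pos.1 (by omega)
  simp only [Finset.mem_erase] at hc
  obtain ⟨hcb, hca, hcd⟩ := hc
  obtain ⟨x, hx, h0, h1', -⟩ := extend3 d hd12 a b c ha hb hcd hab (Ne.symm hca) (Ne.symm hcb)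
  exact ⟨x, hx, h0, h1'⟩

/-- The dodecad stabiliser acts faithfully on the dodecad. -/
theorem faithful_dodecad (d : Finset GolayPt) (hd : d ∈ dodecads) (g : Equiv.Perm GolayPt)
    (hg : g ∈ M24) (hgd : g • d = d) (hfix : ∀ x ∈ d, g x = x) : g = 1 := by
  classical
  obtain ⟨a, ha⟩ : d.Nonempty := Finset.card_pos.1 (by rw [hd.2]; norm_num)
  obtain ⟨b, hb⟩ : (d.erase a).Nonempty :=
    Finset.card_pos.1 (by rw [Finset.card_erase_of_mem ha, hd.2]; norm_num)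
  obtain ⟨x, hx, -, -⟩ := extend2 d hd.2 a b ha (Finset.mem_of_mem_erase hb)
    (Ne.symm (Finset.ne_of_mem_erase hb))
  have h := Cfsg.Agent.S0384.stab_trivial d hd x hx ⟨⟨g, hg⟩, hgd⟩ (fun i => hfix _ (hx i))
  exact congrArg (fun k : MulAction.stabilizer M24 d => ((k : M24) : Equiv.Perm GolayPt)) h

/-- The dodecad stabiliser is 2-transitive on the dodecad. -/
theorem M12_2trans (d : Finset GolayPt) (hd : d ∈ dodecads) (a b c e : GolayPt) (ha : a ∈ d)
    (hb : b ∈ d) (hc : c ∈ d) (he : e ∈ d) (hab : a ≠ b) (hce : c ≠ e) :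
    ∃ g ∈ M24, g • d = d ∧ g a = c ∧ g b = e := by
  obtain ⟨x, hx, hx0, hx1⟩ := extend2 d hd.2 a b ha hb hab
  obtain ⟨y, hy, hy0, hy1⟩ := extend2 d hd.2 c e hc he hce
  obtain ⟨g, hg, hgd, hgx⟩ := Cfsg.Agent.S0384.exists5 d hd x y hx hy
  refine ⟨g, hg, hgd, ?_, ?_⟩
  · have h := hgx 0; rwa [hx0, hy0] at h
  · have h := hgx 1; rwa [hx1, hy1] at h

/-- The stabiliser of a dodecad and one of its points is 2-transitive on the other points. -/
theorem M11_2trans (d : Finset GolayPt) (hd : d ∈ dodecads) (p : GolayPt) (hp : p ∈ d)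
    (a b c e : GolayPt) (ha : a ∈ d) (hb : b ∈ d) (hc : c ∈ d) (he : e ∈ d) (hap : a ≠ p)
    (hbp : b ≠ p) (hcp : c ≠ p) (hep : e ≠ p) (hab : a ≠ b) (hce : c ≠ e) :
    ∃ g ∈ M24, g • d = d ∧ g p = p ∧ g a = c ∧ g b = e := by
  obtain ⟨x, hx, hx0, hx1, hx2⟩ := extend3 d hd.2 p a b hp ha hb (Ne.symm hap) (Ne.symm hbp) hab
  obtain ⟨y, hy, hy0, hy1, hy2⟩ := extend3 d hd.2 p c e hp hc he (Ne.symm hcp) (Ne.symm hep) hce
  obtain ⟨g, hg, hgd, hgx⟩ := Cfsg.Agent.S0384.exists5 d hd x y hx hy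
  refine ⟨g, hg, hgd, ?_, ?_, ?_⟩
  · have h := hgx 0; rwa [hx0, hy0] at h
  · have h := hgx 1; rwa [hx1, hy1] at h
  · have h := hgx 2; rwa [hx2, hy2] at h

theorem arith11 : ∀ e ≤ 10, e ∣ 10 → 720 / e % 11 = 1 → e = 5 := by decide

theorem not_pp12 : ¬ IsPrimePow 12 := by
  rw [isPrimePow_iff_unique_prime_dvd]
  rintro ⟨p, _, hu⟩
  have h2 := hu 2 ⟨by norm_num, by norm_num⟩
  have h3 := hu 3 ⟨by norm_num, by norm_num⟩
  omega

/-- The point stabiliser inside the dodecad stabiliser, as a subgroup of the whole group. -/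
def stabEquiv (d : Finset GolayPt) (a : GolayPt) :
    MulAction.stabilizer (MulAction.stabilizer M24 d) a
      ≃* ↥(MulAction.stabilizer M24 d ⊓ MulAction.stabilizer M24 a) where
  toFun g := ⟨g.1.1, Subgroup.mem_inf.2 ⟨g.1.2, g.2⟩⟩
  invFun g := ⟨⟨g.1, (Subgroup.mem_inf.1 g.2).1⟩, (Subgroup.mem_inf.1 g.2).2⟩
  left_inv _ := rfl
  right_inv _ := rfl
  map_mul' _ _ := rfl

end Cfsg.Agent.Lib.Helper1
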