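import Mathlib
import Cfsg.Prelude.Def_Sporadic_a
import Cfsg.Agent.Lib.Helper1.M24Base

/-!
Class certificates with a linear-time coverage check (helper1).
-/

namespace Cfsg.Agent.Lib.Helper1

open Cfsg

open scoped Pointwise

/-- Class certificates: transitivity inside classes of enumerated words with equal invariant;
the certificate of each class lists exactly the enumerated words with that invariant value. -/
theorem classes_trans' (P : ℕ → Bool) (inv : ℕ → ℕ) (fixM fixP : List ℕ)
    (cls : List (ℕ × ℕ × List (ℕ × List ℕ)))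
    (hOK : cls.all (fun c => certOK fixM fixP c.2.1 c.2.2) = true)
    (hkeys : ((allWords gbasis).filter P).all
      (fun n => (cls.map (fun c => c.1)).contains (inv n)) = true)
    (hlists : cls.all (fun c => c.2.2.map Prod.fst
      == (allWords gbasis).filter (fun n => P n && inv n == c.1)) = true)
    (n n' : ℕ) (hn : n ∈ allWords gbasis) (hP : P n = true) (hn' : n' ∈ allWords gbasis)
    (hP' : P n' = true) (hinv : inv n = inv n') :
    ∃ g ∈ M24, g • S n = S n' ∧ (∀ f ∈ fixM, g • S f = S f) ∧ (∀ i ∈ fixP, g (pt i) = pt i) := by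
  have h1 := List.all_eq_true.1 hkeys n (List.mem_filter.2 ⟨hn, hP⟩)
  simp only [List.contains_eq_mem, decide_eq_true_eq, List.mem_map] at h1
  obtain ⟨c, hc, hck⟩ := h1
  have h2 := List.all_eq_true.1 hlists c hc
  rw [beq_iff_eq] at h2
  have hmem : n ∈ c.2.2.map Prod.fst := by
    rw [h2, List.mem_filter]
    exact ⟨hn, by simp [hP, hck]⟩
  have hmem' : n' ∈ c.2.2.map Prod.fst := by
    rw [h2, List.mem_filter]
    exact ⟨hn', by simp [hP', hck, hinv]⟩
  rw [List.mem_map] at hmem hmem'
  obtain ⟨e, he, rfl⟩ := hmem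
  obtain ⟨e', he', rfl⟩ := hmem'
  exact cert_trans (List.all_eq_true.1 hOK c hc) he he'

end Cfsg.Agent.Lib.Helper1
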