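import Mathlib
import Cfsg.Prelude.Def_Sporadic_a
import Cfsg.Agent.Lib.Helper1.M24Cfg
import Cfsg.Agent.S0352
import Cfsg.Agent.S0363
import Cfsg.Agent.S1554

/-!
A non-identity element of the group of the length-24 code fixes fewer than ten points (helper1).
-/

namespace Cfsg.Agent.Lib.Helper1

open Cfsg
open scoped Pointwise

theorem card_golayPt_fin : Fintype.card GolayPt = 24 := by decide

/-- Two octads sharing five points are equal. -/
theorem octad_eq_of_five {O1 O2 : Finset GolayPt} (h1 : O1 ∈ octads) (h2 : O2 ∈ octads)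
    (s : Finset GolayPt) (hs : s.card = 5) (hs1 : s ⊆ O1) (hs2 : s ⊆ O2) : O1 = O2 := by
  obtain ⟨O, -, hu⟩ := Cfsg.Agent.S0363.result.2 s hs
  rw [hu O1 ⟨h1, hs1⟩, hu O2 ⟨h2, hs2⟩]

/-- An octad through five fixed points is invariant. -/
theorem octad_invariant (g : Equiv.Perm GolayPt) (hg : g ∈ M24) {O : Finset GolayPt}
    (hO : O ∈ octads) (s : Finset GolayPt) (hs : s.card = 5) (hsO : s ⊆ O)
    (hfix : ∀ x ∈ s, g x = x) : g • O = O := by
  apply octad_eq_of_five ((smul_mem_octads_iff g hg O).2 hO) hO s hs _ hsO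
  intro x hx
  have h : g • x ∈ g • O := Finset.smul_mem_smul_finset (hsO hx)
  rw [Equiv.Perm.smul_def, hfix x hx] at h
  exact h

theorem card5 {a b c z z' : GolayPt} (hab : a ≠ b) (hac : a ≠ c) (hbc : b ≠ c) (haz : a ≠ z)
    (haz' : a ≠ z') (hbz : b ≠ z) (hbz' : b ≠ z') (hcz : c ≠ z) (hcz' : c ≠ z') (hzz : z ≠ z') :
    ({a, b, c, z, z'} : Finset GolayPt).card = 5 := by
  classical
  have hnd : [a, b, c, z, z'].Nodup := by simp [*]
  have h := List.toFinset_card_of_nodup hnd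
  simpa using h

theorem octad_unique3 {o O1 O2 : Finset GolayPt} (hO1 : O1 ∈ octads) (hO2 : O2 ∈ octads)
    {z z' a b c : GolayPt} (hz : z ∉ o) (hz' : z' ∉ o) (hzz : z ≠ z') (ha : a ∈ o) (hb : b ∈ o)
    (hc : c ∈ o) (hab : a ≠ b) (hac : a ≠ c) (hbc : b ≠ c)
    (h1 : a ∈ O1 ∧ b ∈ O1 ∧ c ∈ O1 ∧ z ∈ O1 ∧ z' ∈ O1)
    (h2 : a ∈ O2 ∧ b ∈ O2 ∧ c ∈ O2 ∧ z ∈ O2 ∧ z' ∈ O2) : O1 = O2 := by
  classical
  have hs5 : ({a, b, c, z, z'} : Finset GolayPt).card = 5 :=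
    card5 hab hac hbc (fun h => hz (h ▸ ha)) (fun h => hz' (h ▸ ha)) (fun h => hz (h ▸ hb))
      (fun h => hz' (h ▸ hb)) (fun h => hz (h ▸ hc)) (fun h => hz' (h ▸ hc)) hzz
  apply octad_eq_of_five hO1 hO2 _ hs5
  · intro x hx
    simp only [Finset.mem_insert, Finset.mem_singleton] at hx
    rcases hx with h | h | h | h | h <;> rw [h]
    exacts [h1.1, h1.2.1, h1.2.2.1, h1.2.2.2.1, h1.2.2.2.2]
  · intro x hx
    simp only [Finset.mem_insert, Finset.mem_singleton] at hx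
    rcases hx with h | h | h | h | h <;> rw [h]
    exacts [h2.1, h2.2.1, h2.2.2.1, h2.2.2.2.1, h2.2.2.2.2]

theorem fourth_point (g : Equiv.Perm GolayPt) (hg : g ∈ M24) {o : Finset GolayPt}
    (ho : o ∈ octads) (hgo : g • o = o) {z z' : GolayPt} (hz : z ∉ o) (hz' : z' ∉ o)
    (hzz : z ≠ z') (hgz : g z = z) (hgz' : g z' = z') {a b c : GolayPt} (ha : a ∈ o)
    (hb : b ∈ o) (hc : c ∈ o) (hab : a ≠ b) (hac : a ≠ c) (hbc : b ≠ c) (hga : g a = a)
    (hgb : g b = b) (hgc : g c = c) :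
    ∃ w ∈ o, g w = w ∧ w ≠ a ∧ w ≠ b ∧ w ≠ c ∧ ∃ O ∈ octads, a ∈ O ∧ b ∈ O ∧ c ∈ O ∧ w ∈ O ∧
      z ∈ O ∧ z' ∈ O ∧ ∀ y ∈ o, y ∈ O → (y = a ∨ y = b ∨ y = c ∨ y = w) := by
  classical
  have hs5 : ({a, b, c, z, z'} : Finset GolayPt).card = 5 :=
    card5 hab hac hbc (fun h => hz (h ▸ ha)) (fun h => hz' (h ▸ ha)) (fun h => hz (h ▸ hb))
      (fun h => hz' (h ▸ hb)) (fun h => hz (h ▸ hc)) (fun h => hz' (h ▸ hc)) hzz
  obtain ⟨O, ⟨hO, hsO⟩, -⟩ := Cfsg.Agent.S0363.result.2 _ hs5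
  have haO : a ∈ O := hsO (by simp)
  have hbO : b ∈ O := hsO (by simp)
  have hcO : c ∈ O := hsO (by simp)
  have hzO : z ∈ O := hsO (by simp)
  have hz'O : z' ∈ O := hsO (by simp)
  have hOo : O ≠ o := fun h => hz (h ▸ hzO)
  have hT : ({a, b, c} : Finset GolayPt) ⊆ O ∩ o := by
    intro x hx
    simp only [Finset.mem_insert, Finset.mem_singleton] at hx
    rcases hx with h | h | h <;> rw [h]
    exacts [Finset.mem_inter.2 ⟨haO, ha⟩, Finset.mem_inter.2 ⟨hbO, hb⟩,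
      Finset.mem_inter.2 ⟨hcO, hc⟩]
  have hT3 : ({a, b, c} : Finset GolayPt).card = 3 :=
    Finset.card_eq_three.2 ⟨a, b, c, hab, hac, hbc, rfl⟩
  have h4 : (O ∩ o).card = 4 := by
    have hle := Finset.card_le_card hT
    rcases Cfsg.Agent.S0352.result card_golayPt_fin Cfsg.Agent.S0363.result hO ho hOo
      with h | h | h <;> omega
  have h1 : ((O ∩ o) \ {a, b, c}).card = 1 := by
    rw [Finset.card_sdiff_of_subset hT, h4, hT3]
  obtain ⟨w, hw⟩ := Finset.card_eq_one.1 h1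
  have hwmem : w ∈ (O ∩ o) \ {a, b, c} := by rw [hw]; exact Finset.mem_singleton_self w
  rw [Finset.mem_sdiff, Finset.mem_inter] at hwmem
  obtain ⟨⟨hwO, hwo⟩, hwT⟩ := hwmem
  simp only [Finset.mem_insert, Finset.mem_singleton, not_or] at hwT
  obtain ⟨hwa, hwb, hwc⟩ := hwT
  have hall : ∀ y ∈ o, y ∈ O → (y = a ∨ y = b ∨ y = c ∨ y = w) := by
    intro y hyo hyO
    by_cases hyT : y ∈ ({a, b, c} : Finset GolayPt)
    · simp only [Finset.mem_insert, Finset.mem_singleton] at hyT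
      rcases hyT with h | h | h
      · exact Or.inl h
      · exact Or.inr (Or.inl h)
      · exact Or.inr (Or.inr (Or.inl h))
    · have h : y ∈ (O ∩ o) \ {a, b, c} :=
        Finset.mem_sdiff.2 ⟨Finset.mem_inter.2 ⟨hyO, hyo⟩, hyT⟩
      rw [hw, Finset.mem_singleton] at h
      exact Or.inr (Or.inr (Or.inr h))
  have hgO : g • O = O := octad_invariant g hg hO _ hs5 hsO (by
    intro x hx
    simp only [Finset.mem_insert, Finset.mem_singleton] at hx
    rcases hx with h | h | h | h | h <;> rw [h] <;> assumption)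
  have hgwO : g w ∈ O := by
    have h : g • w ∈ g • O := Finset.smul_mem_smul_finset hwO
    rw [hgO] at h
    exact h
  have hgwo : g w ∈ o := by
    have h : g • w ∈ g • o := Finset.smul_mem_smul_finset hwo
    rw [hgo] at h
    exact h
  have hgw : g w = w := by
    rcases hall (g w) hgwo hgwO with h | h | h | h
    · exact absurd (g.injective (h.trans hga.symm)) hwa
    · exact absurd (g.injective (h.trans hgb.symm)) hwb
    · exact absurd (g.injective (h.trans hgc.symm)) hwc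
    · exact h
  exact ⟨w, hwo, hgw, hwa, hwb, hwc, O, hO, haO, hbO, hcO, hwO, hzO, hz'O, hall⟩

/-- An element fixing five points of an octad and two points outside it fixes the octad
pointwise. -/
theorem fix_octad_of_five (g : Equiv.Perm GolayPt) (hg : g ∈ M24) {o : Finset GolayPt}
    (ho : o ∈ octads) (F : Finset GolayPt) (hF : F ⊆ o) (hF5 : 5 ≤ F.card)
    (hfix : ∀ x ∈ F, g x = x) {z z' : GolayPt} (hz : z ∉ o) (hz' : z' ∉ o) (hzz : z ≠ z')
    (hgz : g z = z) (hgz' : g z' = z') : ∀ y ∈ o, g y = y := by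
  classical
  obtain ⟨s, hsF, hs5⟩ := Finset.exists_subset_card_eq hF5
  have hgo : g • o = o :=
    octad_invariant g hg ho s hs5 (hsF.trans hF) (fun x hx => hfix x (hsF hx))
  obtain ⟨t, htF, ht3⟩ := Finset.exists_subset_card_eq (show 3 ≤ F.card by omega)
  obtain ⟨x1, x2, x3, h12, h13, h23, rfl⟩ := Finset.card_eq_three.1 ht3
  have hx1 : x1 ∈ F := htF (by simp)
  have hx2 : x2 ∈ F := htF (by simp)
  have hx3 : x3 ∈ F := htF (by simp)
  have hg1 := hfix x1 hx1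
  have hg2 := hfix x2 hx2
  have hg3 := hfix x3 hx3
  obtain ⟨x4, hx4o, hg4, h41, h42, h43, O1, hO1, h1a, h1b, h1c, h1w, h1z, h1z', hall1⟩ :=
    fourth_point g hg ho hgo hz hz' hzz hgz hgz' (hF hx1) (hF hx2) (hF hx3) h12 h13 h23
      hg1 hg2 hg3
  obtain ⟨x5, hx5⟩ : (F \ {x1, x2, x3, x4}).Nonempty := by
    apply Finset.card_pos.1
    have h1 := Finset.le_card_sdiff ({x1, x2, x3, x4} : Finset GolayPt) F
    have h2 : ({x1, x2, x3, x4} : Finset GolayPt).card ≤ 4 := Finset.card_le_four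
    omega
  rw [Finset.mem_sdiff] at hx5
  simp only [Finset.mem_insert, Finset.mem_singleton, not_or] at hx5
  obtain ⟨hx5F, h51, h52, h53, h54⟩ := hx5
  have hg5 := hfix x5 hx5F
  have hx5O1 : x5 ∉ O1 := by
    intro h
    rcases hall1 x5 (hF hx5F) h with h | h | h | h <;> contradiction
  obtain ⟨x6, hx6o, hg6, h61, h62, h65, O2, hO2, h2a, h2b, h2c, h2w, h2z, h2z', hall2⟩ :=
    fourth_point g hg ho hgo hz hz' hzz hgz hgz' (hF hx1) (hF hx2) (hF hx5F) h12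
      (Ne.symm h51) (Ne.symm h52) hg1 hg2 hg5
  have h63 : x6 ≠ x3 := by
    intro h
    have e : O2 = O1 := octad_unique3 hO2 hO1 hz hz' hzz (hF hx1) (hF hx2) (hF hx3) h12 h13 h23
      ⟨h2a, h2b, h ▸ h2w, h2z, h2z'⟩ ⟨h1a, h1b, h1c, h1z, h1z'⟩
    exact hx5O1 (e ▸ h2c)
  have h64 : x6 ≠ x4 := by
    intro h
    have e : O2 = O1 := octad_unique3 hO2 hO1 hz hz' hzz (hF hx1) (hF hx2) hx4o h12
      (Ne.symm h41) (Ne.symm h42) ⟨h2a, h2b, h ▸ h2w, h2z, h2z'⟩ ⟨h1a, h1b, h1w, h1z, h1z'⟩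
    exact hx5O1 (e ▸ h2c)
  have hx3O2 : x3 ∉ O2 := by
    intro h
    rcases hall2 x3 (hF hx3) h with h | h | h | h
    · exact h13 h.symm
    · exact h23 h.symm
    · exact h53 h.symm
    · exact h63 h.symm
  have hx6O1 : x6 ∉ O1 := by
    intro h
    rcases hall1 x6 hx6o h with h | h | h | h
    · exact h61 h
    · exact h62 h
    · exact h63 h
    · exact h64 h
  obtain ⟨x7, hx7o, hg7, h71, h73, h75, O3, hO3, h3a, h3b, h3c, h3w, h3z, h3z', hall3⟩ :=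
    fourth_point g hg ho hgo hz hz' hzz hgz hgz' (hF hx1) (hF hx3) (hF hx5F) h13
      (Ne.symm h51) (Ne.symm h53) hg1 hg3 hg5
  have h72 : x7 ≠ x2 := by
    intro h
    have e : O3 = O1 := octad_unique3 hO3 hO1 hz hz' hzz (hF hx1) (hF hx2) (hF hx3) h12 h13 h23
      ⟨h3a, h ▸ h3w, h3b, h3z, h3z'⟩ ⟨h1a, h1b, h1c, h1z, h1z'⟩
    exact hx5O1 (e ▸ h3c)
  have h74 : x7 ≠ x4 := by
    intro h
    have e : O3 = O1 := octad_unique3 hO3 hO1 hz hz' hzz (hF hx1) (hF hx3) hx4o h13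
      (Ne.symm h41) (Ne.symm h43) ⟨h3a, h3b, h ▸ h3w, h3z, h3z'⟩ ⟨h1a, h1c, h1w, h1z, h1z'⟩
    exact hx5O1 (e ▸ h3c)
  have h76 : x7 ≠ x6 := by
    intro h
    have e : O3 = O2 := octad_unique3 hO3 hO2 hz hz' hzz (hF hx1) (hF hx5F) hx6o
      (Ne.symm h51) (Ne.symm h61) (Ne.symm h65) ⟨h3a, h3c, h ▸ h3w, h3z, h3z'⟩
      ⟨h2a, h2c, h2w, h2z, h2z'⟩
    exact hx3O2 (e ▸ h3b)
  have hx6O3 : x6 ∉ O3 := by
    intro h
    rcases hall3 x6 hx6o h with h | h | h | h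
    · exact h61 h
    · exact h63 h
    · exact h65 h
    · exact h76 h.symm
  obtain ⟨x8, hx8o, hg8, h81, h83, h86, O4, hO4, h4a, h4b, h4c, h4w, h4z, h4z', hall4⟩ :=
    fourth_point g hg ho hgo hz hz' hzz hgz hgz' (hF hx1) (hF hx3) hx6o h13
      (Ne.symm h61) (Ne.symm h63) hg1 hg3 hg6
  have h82 : x8 ≠ x2 := by
    intro h
    have e : O4 = O1 := octad_unique3 hO4 hO1 hz hz' hzz (hF hx1) (hF hx2) (hF hx3) h12 h13 h23
      ⟨h4a, h ▸ h4w, h4b, h4z, h4z'⟩ ⟨h1a, h1b, h1c, h1z, h1z'⟩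
    exact hx6O1 (e ▸ h4c)
  have h84 : x8 ≠ x4 := by
    intro h
    have e : O4 = O1 := octad_unique3 hO4 hO1 hz hz' hzz (hF hx1) (hF hx3) hx4o h13
      (Ne.symm h41) (Ne.symm h43) ⟨h4a, h4b, h ▸ h4w, h4z, h4z'⟩ ⟨h1a, h1c, h1w, h1z, h1z'⟩
    exact hx6O1 (e ▸ h4c)
  have h85 : x8 ≠ x5 := by
    intro h
    have e : O4 = O2 := octad_unique3 hO4 hO2 hz hz' hzz (hF hx1) (hF hx5F) hx6o
      (Ne.symm h51) (Ne.symm h61) (Ne.symm h65) ⟨h4a, h ▸ h4w, h4c, h4z, h4z'⟩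
      ⟨h2a, h2c, h2w, h2z, h2z'⟩
    exact hx3O2 (e ▸ h4b)
  have h87 : x8 ≠ x7 := by
    intro h
    have e : O4 = O3 := octad_unique3 hO4 hO3 hz hz' hzz (hF hx1) (hF hx3) hx7o h13
      (Ne.symm h71) (Ne.symm h73) ⟨h4a, h4b, h ▸ h4w, h4z, h4z'⟩ ⟨h3a, h3b, h3w, h3z, h3z'⟩
    exact hx6O3 (e ▸ h4c)
  have hnd : [x1, x2, x3, x4, x5, x6, x7, x8].Nodup := by
    simp [h12, h13, Ne.symm h41, Ne.symm h51, Ne.symm h61, Ne.symm h71, Ne.symm h81, h23,
      Ne.symm h42, Ne.symm h52, Ne.symm h62, Ne.symm h72, Ne.symm h82, Ne.symm h43,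
      Ne.symm h53, Ne.symm h63, Ne.symm h73, Ne.symm h83, Ne.symm h54, Ne.symm h64,
      Ne.symm h74, Ne.symm h84, Ne.symm h65, Ne.symm h75, Ne.symm h85, Ne.symm h76,
      Ne.symm h86, Ne.symm h87]
  have hsub : [x1, x2, x3, x4, x5, x6, x7, x8].toFinset ⊆ o := by
    intro y hy
    simp only [List.toFinset_cons, List.toFinset_nil, Finset.mem_insert, Finset.mem_singleton,
      insert_empty_eq] at hy
    rcases hy with h | h | h | h | h | h | h | h <;> rw [h]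
    exacts [hF hx1, hF hx2, hF hx3, hx4o, hF hx5F, hx6o, hx7o, hx8o]
  have heq : [x1, x2, x3, x4, x5, x6, x7, x8].toFinset = o :=
    Finset.eq_of_subset_of_card_le hsub (by
      rw [List.toFinset_card_of_nodup hnd, ho.2]; rfl)
  intro y hy
  rw [← heq] at hy
  simp only [List.toFinset_cons, List.toFinset_nil, Finset.mem_insert, Finset.mem_singleton,
    insert_empty_eq] at hy
  rcases hy with h | h | h | h | h | h | h | h <;> rw [h] <;> assumption

/-- An element of the group fixing at least ten points is the identity. -/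
theorem eq_one_of_fix10 (g : Equiv.Perm GolayPt) (hg : g ∈ M24) (Fx : Finset GolayPt)
    (hFx : 10 ≤ Fx.card) (hfix : ∀ x ∈ Fx, g x = x) : g = 1 := by
  classical
  obtain ⟨s, hs, hs5⟩ := Finset.exists_subset_card_eq (show 5 ≤ Fx.card by omega)
  obtain ⟨o, ⟨ho, hso⟩, -⟩ := Cfsg.Agent.S0363.result.2 s hs5
  have h2 : 2 ≤ (Fx \ o).card := by
    have h := Finset.le_card_sdiff o Fx
    rw [ho.2] at h
    omega
  obtain ⟨t, ht, ht2⟩ := Finset.exists_subset_card_eq h2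
  obtain ⟨z, z', hzz, rfl⟩ := Finset.card_eq_two.1 ht2
  have hz := ht (Finset.mem_insert_self z {z'})
  have hz' := ht (Finset.mem_insert_of_mem (Finset.mem_singleton_self z'))
  rw [Finset.mem_sdiff] at hz hz'
  have hall := fix_octad_of_five g hg ho (Fx ∩ o) Finset.inter_subset_right (by
      have h1 : s ⊆ Fx ∩ o := Finset.subset_inter hs hso
      have h3 := Finset.card_le_card h1
      omega) (fun x hx => hfix x (Finset.mem_inter.1 hx).1) hz.2 hz'.2 hzz (hfix z hz.1)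
    (hfix z' hz'.1)
  exact Cfsg.Agent.S1554.fix_octad_pt o ho z hz.2 g hg hall (hfix z hz.1)

end Cfsg.Agent.Lib.Helper1
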