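import Mathlib
import Cfsg.Prelude.Def_Sporadic_a
import Cfsg.Agent.Lib.Helper1.M24Cfg

/-!
Sets of points as bit masks: injectivity and transport of intersection conditions (helper1).
-/

namespace Cfsg.Agent.Lib.Helper1

open Cfsg

open scoped Pointwise

theorem S_inj_lt {m n : ℕ} (hm : m < 2 ^ 24) (hn : n < 2 ^ 24) (h : S m = S n) : m = n := by
  apply Nat.eq_of_testBit_eq
  intro i
  by_cases hi : i < 24
  · have h1 := pt_mem_S m i hi
    have h2 := pt_mem_S n i hi
    rw [h] at h1
    have h3 : m.testBit i = true ↔ n.testBit i = true := h1.symm.trans h2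
    exact Bool.eq_iff_iff.2 h3
  · have hm' : m < 2 ^ i := lt_of_lt_of_le hm (Nat.pow_le_pow_right (by norm_num) (by omega))
    have hn' : n < 2 ^ i := lt_of_lt_of_le hn (Nat.pow_le_pow_right (by norm_num) (by omega))
    rw [Nat.testBit_lt_two_pow hm', Nat.testBit_lt_two_pow hn']

theorem S_three : S 3 = {pt 0, pt 1} := by
  ext q
  rw [mem_S, Finset.mem_insert, Finset.mem_singleton]
  have h : ∀ i : Fin 24, (3 : ℕ).testBit i.val = true ↔ (i.val = 0 ∨ i.val = 1) := by decide
  have h2 := h ⟨gIdx q, gIdx_lt q⟩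
  simp only at h2
  rw [h2]
  constructor
  · rintro (h3 | h3)
    · left; rw [← pt_gIdx q, h3]
    · right; rw [← pt_gIdx q, h3]
  · rintro (rfl | rfl)
    · left; exact gIdx_pt (by norm_num)
    · right; exact gIdx_pt (by norm_num)

/-- Transport of the condition "meets the octad exactly in a prescribed set". -/
theorem transport_inter (g : Equiv.Perm GolayPt) (hg : g ∈ M24) (a m : ℕ) :
    {o' : Finset GolayPt | o' ∈ octads ∧ g • S a ∩ o' = g • S m}.ncard
      = {b : Finset GolayPt | b ∈ octads ∧ S a ∩ b = S m}.ncard := by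
  apply ncard_transport g
  intro b
  simp only [Set.mem_setOf_eq]
  rw [smul_mem_octads_iff g⁻¹ (M24.inv_mem hg)]
  have h1 : g • S a ∩ b = g • (S a ∩ g⁻¹ • b) := by
    rw [Finset.smul_finset_inter, smul_inv_smul]
  rw [h1]
  constructor
  · rintro ⟨h2, h3⟩
    exact ⟨h2, smul_left_cancel g h3⟩
  · rintro ⟨h2, h3⟩
    exact ⟨h2, by rw [h3]⟩

end Cfsg.Agent.Lib.Helper1
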