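import Mathlib
import Cfsg.Prelude.Def_Sporadic_a
import Cfsg.Agent.Lib.Helper1.Simple
import Cfsg.Agent.Lib.Helper1.M24Sets

/-!
Transitivity facts for point stabilisers in the group of the length-24 code (helper1).
-/

namespace Cfsg.Agent.Lib.Helper1

open Cfsg

/-- Pointwise stabilisers of at most 3 points are 2-transitive on the remaining points. -/
theorem M24_fix_2trans (F : Finset GolayPt) (hF : F.card ≤ 3) (a b c d : GolayPt)
    (ha : a ∉ F) (hb : b ∉ F) (hc : c ∉ F) (hd : d ∉ F) (hab : a ≠ b) (hcd : c ≠ d) :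
    ∃ g ∈ M24, (∀ x ∈ F, g x = x) ∧ g a = c ∧ g b = d := by
  classical
  have e1 : ∀ x, x = a → (if x = a then c else if x = b then d else x) = c := by
    intro x hx; rw [if_pos hx]
  have e2 : ∀ x, x = b → (if x = a then c else if x = b then d else x) = d := by
    intro x hx; rw [if_neg (by rw [hx]; exact Ne.symm hab), if_pos hx]
  have e3 : ∀ x ∈ F, (if x = a then c else if x = b then d else x) = x := by
    intro x hx
    rw [if_neg (fun h : x = a => ha (h ▸ hx)), if_neg (fun h : x = b => hb (h ▸ hx))]
  obtain ⟨g, hg, hgA⟩ := M24_extend (insert a (insert b F)) (by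
      have := Finset.card_insert_le a (insert b F)
      have := Finset.card_insert_le b F
      omega)
    (fun x => if x = a then c else if x = b then d else x) (by
      intro x hx y hy hxy
      simp only [Finset.coe_insert, Set.mem_insert_iff, Finset.mem_coe] at hx hy
      simp only at hxy
      rcases hx with hx | hx | hx <;> rcases hy with hy | hy | hy
      · rw [hx, hy]
      · rw [e1 x hx, e2 y hy] at hxy; exact absurd hxy hcd
      · rw [e1 x hx, e3 y hy] at hxy; exact absurd (hxy ▸ hy) hc
      · rw [e2 x hx, e1 y hy] at hxy; exact absurd hxy.symm hcd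
      · rw [hx, hy]
      · rw [e2 x hx, e3 y hy] at hxy; exact absurd (hxy ▸ hy) hd
      · rw [e3 x hx, e1 y hy] at hxy; exact absurd (hxy ▸ hx) hc
      · rw [e3 x hx, e2 y hy] at hxy; exact absurd (hxy ▸ hx) hd
      · rw [e3 x hx, e3 y hy] at hxy; exact hxy)
  refine ⟨g, hg, fun x hx => ?_, ?_, ?_⟩
  · rw [hgA x (Finset.mem_insert_of_mem (Finset.mem_insert_of_mem hx))]; exact e3 x hx
  · rw [hgA a (Finset.mem_insert_self _ _)]; exact e1 a rfl
  · rw [hgA b (Finset.mem_insert_of_mem (Finset.mem_insert_self _ _))]; exact e2 b rfl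

theorem arith23 : ∀ e ≤ 22, e ∣ 22 → 443520 / e % 23 = 1 → e = 11 := by decide

end Cfsg.Agent.Lib.Helper1
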