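import Mathlib
import Cfsg.Agent.Lib.Helper1.SS

set_option autoImplicit false

namespace Cfsg.Agent.Lib.Helper1

universe u

theorem exists_max_prime {n : ℕ} (hn : 1 < n) : ∃ p : ℕ, p.Prime ∧ p ∣ n ∧
    ∀ q : ℕ, q.Prime → q ∣ n → q ≤ p := by
  have hne : n.primeFactors.Nonempty := Nat.nonempty_primeFactors.2 hn
  have hmem := Finset.max'_mem _ hne
  rw [Nat.mem_primeFactors] at hmem
  refine ⟨_, hmem.1, hmem.2.1, fun q hq hqd => ?_⟩
  exact Finset.le_max' _ q (Nat.mem_primeFactors.2 ⟨hq, hqd, hmem.2.2⟩)

/-- if every maximal subgroup has prime index, the Sylow subgroups for the largest prime are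
normal -/
theorem sylow_normal_of_max_prime_index {G : Type*} [Group G] [Finite G]
    (h : ∀ M : Subgroup G, IsCoatom M → M.index.Prime) (p : ℕ) [Fact p.Prime]
    (hmax : ∀ q : ℕ, q.Prime → q ∣ Nat.card G → q ≤ p) (P : Sylow p G) :
    (P : Subgroup G).Normal := by
  have hp := Fact.out (p := p.Prime)
  rw [← Subgroup.normalizer_eq_top_iff]
  rcases eq_top_or_exists_le_coatom (Subgroup.normalizer ((P : Subgroup G) : Set G)) with h1 | h1
  · exact h1
  · exfalso
    obtain ⟨M, hM, hNM⟩ := h1
    have hq := h M hM
    have hPM : (P : Subgroup G) ≤ M := Subgroup.le_normalizer.trans hNM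
    have e1 := Sylow.card_eq_index_normalizer P
    have e2 := Sylow.card_eq_index_normalizer (P.subtype hPM)
    have m1 := card_sylow_modEq_one p G
    have m2 := card_sylow_modEq_one p M
    rw [e1] at m1
    rw [e2] at m2
    have m2' : (Subgroup.normalizer
        (((P.subtype hPM : Sylow p M) : Subgroup M) : Set M)).index ≡ 1 [MOD p] := m2
    rw [Sylow.coe_subtype, ← Subgroup.subgroupOf_normalizer_eq hPM] at m2'
    have m2'' : (Subgroup.normalizer ((P : Subgroup G) : Set G)).relIndex M ≡ 1 [MOD p] := m2'
    have e3 := Subgroup.relIndex_mul_index hNM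
    have m3 : (Subgroup.normalizer ((P : Subgroup G) : Set G)).relIndex M * M.index ≡
        1 * M.index [MOD p] := Nat.ModEq.mul_right _ m2''
    rw [e3, one_mul] at m3
    have m4 : M.index ≡ 1 [MOD p] := m3.symm.trans m1
    have hle := hmax _ hq (Subgroup.index_dvd_card M)
    have h2 : p ∣ M.index - 1 := (Nat.modEq_iff_dvd' hq.one_lt.le).1 m4.symm
    have h4 := hq.two_le
    have h3 := Nat.le_of_dvd (by omega) h2
    omega

/-- if every maximal subgroup has prime index, the group is solvable -/
theorem solvable_of_max_prime_index : ∀ n : ℕ, ∀ (G : Type u) [Group G] [Finite G],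
    Nat.card G = n → (∀ M : Subgroup G, IsCoatom M → M.index.Prime) → Group.IsSolvable G := by
  intro n
  induction n using Nat.strong_induction_on with
  | _ n ih =>
    intro G _ _ hn h
    by_cases hnt : Nontrivial G
    · haveI := hnt
      obtain ⟨p, hp, hpd, hmax⟩ := exists_max_prime (n := Nat.card G) Finite.one_lt_card
      haveI : Fact p.Prime := ⟨hp⟩
      obtain P : Sylow p G := default
      haveI hPn := sylow_normal_of_max_prime_index h p hmax P
      have hf := QuotientGroup.mk'_surjective (P : Subgroup G)
      have hlt : Nat.card (G ⧸ (P : Subgroup G)) < n := by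
        have h1 := card_quotient_mul (P : Subgroup G)
        have h2 : p ∣ Nat.card (P : Subgroup G) := P.dvd_card_of_dvd_card hpd
        have h3 := Nat.le_of_dvd Nat.card_pos h2
        have h4 := hp.two_le
        have h5 : 0 < Nat.card (G ⧸ (P : Subgroup G)) := Nat.card_pos
        rw [← hn, ← h1]
        nlinarith
      haveI : Group.IsSolvable (G ⧸ (P : Subgroup G)) := by
        apply ih _ hlt _ rfl
        intro M hM
        have h1 := h _ (Subgroup.isCoatom_comap_of_surjective hf hM)
        rwa [Subgroup.index_comap_of_surjective _ hf] at h1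
      haveI : Group.IsNilpotent (P : Subgroup G) := P.isPGroup'.isNilpotent
      exact solvable_of_ker_le_range (P : Subgroup G).subtype
        (QuotientGroup.mk' (P : Subgroup G)) (by
          rw [QuotientGroup.ker_mk', Subgroup.range_subtype])
    · rw [not_nontrivial_iff_subsingleton] at hnt
      haveI := hnt
      exact inferInstance

end Cfsg.Agent.Lib.Helper1
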