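import Mathlib

/-!
A group acting on a p-group through a p-group acts nilpotently (helper1).
-/

namespace Cfsg.Agent.Lib.Helper1

open scoped commutatorElement

theorem eq_bot_of_le_commutator_of_pAct {G : Type*} [Group G] [Finite G] {p : ℕ} [Fact p.Prime]
    {V A W : Subgroup G}
    (hV : IsPGroup p V) (hAV : A ≤ Subgroup.normalizer (V : Set G))
    (hp : ∀ a ∈ A, a ^ p ∈ Subgroup.centralizer (V : Set G)) (hWV : W ≤ V)
    (hW : W ≤ ⁅W, A⁆) : W = ⊥ := by
  have hKn : ((Subgroup.centralizer (V : Set G)).subgroupOf A).Normal := by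
    constructor
    intro k hk a
    rw [Subgroup.mem_subgroupOf] at hk ⊢
    rw [Subgroup.mem_centralizer_iff] at hk ⊢
    intro v hv
    have hv' : (a : G)⁻¹ * v * a ∈ V := by
      have := (Subgroup.mem_normalizer_iff.1 (hAV (A.inv_mem a.2)) v).1 hv
      simpa using this
    have := hk _ hv'
    simp only [Subgroup.coe_mul, Subgroup.coe_inv]
    calc v * ((a : G) * k * (a : G)⁻¹) = a * (((a : G)⁻¹ * v * a) * k) * (a : G)⁻¹ := by group
      _ = a * (k * ((a : G)⁻¹ * v * a)) * (a : G)⁻¹ := by rw [this]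
      _ = _ := by group
  obtain ⟨P⟩ : Nonempty (Sylow p A) := inferInstance
  have hQp : IsPGroup p (A ⧸ (Subgroup.centralizer (V : Set G)).subgroupOf A) := by
    intro x
    obtain ⟨a, rfl⟩ := QuotientGroup.mk_surjective x
    refine ⟨1, ?_⟩
    rw [pow_one, ← QuotientGroup.mk_pow, QuotientGroup.eq_one_iff, Subgroup.mem_subgroupOf]
    simpa using hp a a.2
  have htop : (P : Subgroup A) ⊔ (Subgroup.centralizer (V : Set G)).subgroupOf A = ⊤ := by
    rw [← Subgroup.index_eq_one]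
    have h1 : ((P : Subgroup A) ⊔ (Subgroup.centralizer (V : Set G)).subgroupOf A).index ∣
        (P : Subgroup A).index := Subgroup.index_dvd_of_le le_sup_left
    have h2 : ((P : Subgroup A) ⊔ (Subgroup.centralizer (V : Set G)).subgroupOf A).index ∣
        ((Subgroup.centralizer (V : Set G)).subgroupOf A).index :=
      Subgroup.index_dvd_of_le le_sup_right
    obtain ⟨n, hn⟩ := IsPGroup.iff_card.1 hQp
    have hn' : ((Subgroup.centralizer (V : Set G)).subgroupOf A).index = p ^ n := hn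
    have h3 : (P : Subgroup A).index.Coprime p :=
      ((Nat.Prime.coprime_iff_not_dvd Fact.out).2 P.not_dvd_index).symm
    have h4 := Nat.Coprime.coprime_dvd_left h1 h3
    exact Nat.Coprime.eq_one_of_dvd (Nat.Coprime.pow_right n h4) (hn' ▸ h2)
  obtain ⟨P₀, hP₀⟩ : ∃ P₀ : Subgroup G, P₀ = (P : Subgroup A).map A.subtype := ⟨_, rfl⟩
  have hP₀A : P₀ ≤ A := hP₀ ▸ Subgroup.map_subtype_le _
  have hP₀p : IsPGroup p P₀ := hP₀ ▸ P.2.map A.subtype
  have hdec : ∀ a ∈ A, ∃ x ∈ P₀, ∃ k ∈ Subgroup.centralizer (V : Set G), a = x * k := by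
    intro a ha
    have : (⟨a, ha⟩ : A) ∈ (P : Subgroup A) ⊔ (Subgroup.centralizer (V : Set G)).subgroupOf A :=
      htop ▸ Subgroup.mem_top _
    rw [← SetLike.mem_coe, Subgroup.mul_normal, Set.mem_mul] at this
    obtain ⟨x, hx, k, hk, hxk⟩ := this
    refine ⟨x, hP₀ ▸ Subgroup.mem_map_of_mem _ hx, k, Subgroup.mem_subgroupOf.1 hk, ?_⟩
    exact (congrArg Subtype.val hxk).symm
  have hWP : ⁅W, A⁆ ≤ ⁅W, P₀⁆ := by
    rw [Subgroup.commutator_le]
    intro w hw a ha
    obtain ⟨x, hx, k, hk, rfl⟩ := hdec a ha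
    rw [Subgroup.mem_centralizer_iff] at hk
    have h1 := hk w⁻¹ (V.inv_mem (hWV hw))
    have : ⁅w, x * k⁆ = ⁅w, x⁆ := by
      simp only [commutatorElement_def]
      calc w * (x * k) * w⁻¹ * (x * k)⁻¹ = w * x * (k * w⁻¹) * k⁻¹ * x⁻¹ := by group
        _ = w * x * (w⁻¹ * k) * k⁻¹ * x⁻¹ := by rw [h1]
        _ = _ := by group
    rw [this]
    exact Subgroup.commutator_mem_commutator hw hx
  obtain ⟨N, hN⟩ : ∃ N : Subgroup G, N = P₀ ⊔ V := ⟨_, rfl⟩
  have hNp : IsPGroup p N := hN ▸ IsPGroup.to_sup_of_normal_right' hP₀p hV (hP₀A.trans hAV)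
  have hNn : Group.IsNilpotent N := hNp.isNilpotent
  have hWN : W ≤ N := hN ▸ hWV.trans le_sup_right
  have hPN : P₀ ≤ N := hN ▸ le_sup_left
  have hstep : ∀ n, W ≤ N.lowerCentralSeries n := by
    intro n
    induction n with
    | zero => exact hWN
    | succ n ih =>
      rw [Subgroup.lowerCentralSeries_succ]
      exact hW.trans (hWP.trans (Subgroup.commutator_mono ih hPN))
  obtain ⟨n, hn⟩ := (Subgroup.isNilpotent_iff_lowerCentralSeries N).1 hNn
  have := hstep n
  rw [hn] at this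
  exact le_bot_iff.1 this

end Cfsg.Agent.Lib.Helper1
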