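import Mathlib
import Cfsg.Agent.Lib.Helper1.ThompsonJ
import Cfsg.Agent.Lib.Helper1.HallSys

/-!
Miscellaneous p-local lemmas (helper1).
-/

namespace Cfsg.Agent.Lib.Helper1

section PLM

variable {G : Type*} [Group G]

theorem le_inf_sylow_sup_of_relIndex_pow [Finite G] {p : ℕ} [Fact p.Prime] (C D : Subgroup G)
    [D.Normal] {k : ℕ} (hk : C.relIndex D = p ^ k) (S : Sylow p G) :
    D ≤ ((S : Subgroup G) ⊓ D) ⊔ C := by
  rw [← Subgroup.relIndex_eq_one]
  have h1 : (((S : Subgroup G) ⊓ D) ⊔ C).relIndex D ∣ C.relIndex D :=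
    Subgroup.relIndex_dvd_of_le_left D le_sup_right
  have h2 : (((S : Subgroup G) ⊓ D) ⊔ C).relIndex D ∣ ((S : Subgroup G) ⊓ D).relIndex D :=
    Subgroup.relIndex_dvd_of_le_left D le_sup_left
  rw [Subgroup.inf_relIndex_right] at h2
  have h3 : (S : Subgroup G).relIndex D ∣ (S : Subgroup G).index :=
    relIndex_dvd_index_of_normal_right _ D
  have h4 : ((S : Subgroup G).index).Coprime p :=
    ((Nat.Prime.coprime_iff_not_dvd Fact.out).2 S.not_dvd_index).symm
  have h5 := Nat.Coprime.coprime_dvd_left (h2.trans h3) h4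
  rw [hk] at h1
  exact Nat.Coprime.eq_one_of_dvd (Nat.Coprime.pow_right k h5) h1

theorem le_centralizer_iSup_of_sylow [Finite G] {p : ℕ} [Fact p.Prime]
    (X : Sylow p G → Subgroup G)
    (hX : ∀ S : Sylow p G, (S : Subgroup G) ≤ Subgroup.centralizer (X S : Set G))
    (C D : Subgroup G) [D.Normal] {k : ℕ} (hk : C.relIndex D = p ^ k)
    (hC : C ≤ Subgroup.centralizer ((⨆ S, X S : Subgroup G) : Set G)) :
    D ≤ Subgroup.centralizer ((⨆ S, X S : Subgroup G) : Set G) := by
  rw [Subgroup.le_centralizer_iff]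
  apply iSup_le
  intro S
  rw [← Subgroup.le_centralizer_iff]
  refine (le_inf_sylow_sup_of_relIndex_pow C D hk S).trans
    (sup_le (inf_le_left.trans (hX S)) ?_)
  exact hC.trans (Subgroup.centralizer_le (le_iSup X S))

theorem ea_closure {G : Type*} [Group G] {p : ℕ} (s : Set G)
    (hc : ∀ a ∈ s, ∀ b ∈ s, a * b = b * a)
    (hp : ∀ a ∈ s, a ^ p = 1) : Cfsg.IsElementaryAbelian p (Subgroup.closure s) := by
  have h1 : Subgroup.closure s ≤ Subgroup.centralizer s := by
    rw [Subgroup.closure_le]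
    intro a ha
    rw [SetLike.mem_coe, Subgroup.mem_centralizer_iff]
    intro b hb
    exact hc b hb a ha
  have hcomm : ∀ a ∈ Subgroup.closure s, ∀ b ∈ Subgroup.closure s, a * b = b * a := by
    intro a ha b hb
    have h2 : b ∈ Subgroup.centralizer ((Subgroup.closure s : Subgroup G) : Set G) := by
      rw [Subgroup.centralizer_closure]; exact h1 hb
    rw [Subgroup.mem_centralizer_iff] at h2
    exact h2 a ha
  refine ea_of_comm hcomm ?_
  intro x hx
  induction hx using Subgroup.closure_induction with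
  | mem y hy => exact hp y hy
  | one => exact one_pow p
  | mul y z hy hz ihy ihz =>
    have hyz : Commute y z := hcomm y hy z hz
    rw [hyz.mul_pow, ihy, ihz, one_mul]
  | inv y hy ihy => rw [inv_pow, ihy, inv_one]

end PLM

end Cfsg.Agent.Lib.Helper1
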