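import Mathlib
import Cfsg.Agent.Lib.Helper1.Basic

set_option autoImplicit false

namespace Cfsg.Agent.Lib.Helper1

/-- an element centralizing a transitive permutation group and fixing a point is trivial -/
theorem perm_eq_one_of_centralizes {α : Type*} (T : Subgroup (Equiv.Perm α))
    (hT : ∀ a b : α, ∃ t ∈ T, t a = b) (c : Equiv.Perm α) (hc : ∀ t ∈ T, t * c = c * t) (a : α)
    (hca : c a = a) : c = 1 := by
  ext b
  obtain ⟨t, ht, rfl⟩ := hT a b
  have h1 := congrArg (fun f : Equiv.Perm α => f a) (hc t ht)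
  simp only [Equiv.Perm.mul_apply] at h1
  rw [hca] at h1
  simpa using h1.symm

/-- a transitive subgroup of the centralizer of a transitive group is the whole centralizer -/
theorem centralizer_eq_of_transitive {α : Type*} (T N : Subgroup (Equiv.Perm α))
    (hT : ∀ a b : α, ∃ t ∈ T, t a = b) (hN : ∀ a b : α, ∃ t ∈ N, t a = b)
    (hNT : N ≤ Subgroup.centralizer (T : Set (Equiv.Perm α))) [Nonempty α] :
    Subgroup.centralizer (T : Set (Equiv.Perm α)) = N := by
  apply le_antisymm _ hNT
  intro c hc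
  obtain ⟨a⟩ := ‹Nonempty α›
  obtain ⟨n, hn, hna⟩ := hN a (c a)
  have h1 : n⁻¹ * c ∈ Subgroup.centralizer (T : Set (Equiv.Perm α)) :=
    Subgroup.mul_mem _ (Subgroup.inv_mem _ (hNT hn)) hc
  have h2 : n⁻¹ * c = 1 := by
    apply perm_eq_one_of_centralizes T hT _ (fun t ht => Subgroup.mem_centralizer_iff.1 h1 t ht) a
    rw [Equiv.Perm.mul_apply, ← hna]
    simp
  have h3 : c = n := by
    rw [inv_mul_eq_one] at h2
    exact h2.symm
  rw [h3]
  exact hn

/-- the elementwise form of transitivity for a subgroup of a permutation group -/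
theorem trans_map_subtype {α : Type*} (G : Subgroup (Equiv.Perm α)) (M : Subgroup G)
    (h : MulAction.IsPretransitive M α) :
    ∀ a b : α, ∃ t ∈ M.map G.subtype, t a = b := by
  intro a b
  obtain ⟨m, hm⟩ := MulAction.exists_smul_eq M a b
  exact ⟨((m : G) : Equiv.Perm α), ⟨(m : G), m.2, rfl⟩, hm⟩

end Cfsg.Agent.Lib.Helper1
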