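import Mathlib
import Cfsg.Prelude.Def_ClassicalGeometry

set_option autoImplicit false

namespace Cfsg.Agent.Lib.Helper1

open Matrix

/-- the polar vector represents the polar form -/
theorem polarVec_dot {ι : Type} [Fintype ι] [DecidableEq ι] {F : Type*} [CommRing F]
    (Q : QuadraticForm F (ι → F)) (v x : ι → F) :
    Cfsg.polarVec ⇑Q v ⬝ᵥ x = QuadraticMap.polar ⇑Q v x := by
  have h := LinearMap.pi_apply_eq_sum_univ (QuadraticMap.polarBilin Q v) x
  rw [QuadraticMap.polarBilin_apply_apply] at h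
  rw [h, dotProduct]
  apply Finset.sum_congr rfl
  intro i _
  unfold Cfsg.polarVec
  rw [smul_eq_mul, mul_comm, QuadraticMap.polarBilin_apply_apply]
  congr 2
  funext j
  simp [Pi.single_apply, eq_comm]

theorem vecMulVec_polarVec_mulVec {ι : Type} [Fintype ι] [DecidableEq ι] {F : Type*} [CommRing F]
    (Q : QuadraticForm F (ι → F)) (w v x : ι → F) :
    (Matrix.vecMulVec w (Cfsg.polarVec ⇑Q v)).mulVec x = QuadraticMap.polar ⇑Q v x • w := by
  rw [Matrix.vecMulVec_mulVec, polarVec_dot, op_smul_eq_smul]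

theorem reflection_mulVec {ι : Type} [Fintype ι] [DecidableEq ι] {F : Type*} [Field F]
    (Q : QuadraticForm F (ι → F)) (v x : ι → F) :
    (Cfsg.reflectionMatrix ⇑Q v).mulVec x = x - ((Q v)⁻¹ * QuadraticMap.polar ⇑Q v x) • v := by
  unfold Cfsg.reflectionMatrix
  rw [Matrix.sub_mulVec, Matrix.one_mulVec, Matrix.smul_mulVec, vecMulVec_polarVec_mulVec,
    smul_smul]

theorem siegel_mulVec {ι : Type} [Fintype ι] [DecidableEq ι] {F : Type*} [CommRing F]
    (Q : QuadraticForm F (ι → F)) (u v : ι → F) (c : F) (x : ι → F) :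
    (Cfsg.siegelMatrix ⇑Q u v c).mulVec x =
      x + (c * QuadraticMap.polar ⇑Q u x) • v - (c * QuadraticMap.polar ⇑Q v x) • u := by
  unfold Cfsg.siegelMatrix
  rw [Matrix.add_mulVec, Matrix.one_mulVec, Matrix.smul_mulVec, Matrix.sub_mulVec,
    vecMulVec_polarVec_mulVec, vecMulVec_polarVec_mulVec, smul_sub, smul_smul, smul_smul]
  abel

end Cfsg.Agent.Lib.Helper1
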