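import Mathlib
import Cfsg.Agent.Lib.Helper1.Basic
import Cfsg.Agent.Lib.Helper1.MinNormal

set_option autoImplicit false

namespace Cfsg.Agent.Lib.Helper1

open scoped Pointwise

universe u

/-- an abelian nontrivial normal subgroup of a faithful primitive group is regular -/
theorem prim_regular {G : Type*} [Group G] {Ω : Type*} [MulAction G Ω] [FaithfulSMul G Ω]
    (hprim : MulAction.IsPreprimitive G Ω) (M : Subgroup G) [M.Normal] (hM : M ≠ ⊥)
    (hcomm : ∀ x ∈ M, ∀ y ∈ M, x * y = y * x) :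
    MulAction.IsPretransitive M Ω ∧ ∀ ω : Ω, ∀ m ∈ M, m • ω = ω → m = 1 := by
  have hfix : MulAction.fixedPoints M Ω ≠ Set.univ := by
    intro h
    apply hM
    rw [eq_bot_iff]
    intro m hm
    rw [Subgroup.mem_bot]
    apply FaithfulSMul.eq_of_smul_eq_smul (α := Ω)
    intro a
    have ha : a ∈ MulAction.fixedPoints M Ω := by rw [h]; trivial
    have h1 := ha ⟨m, hm⟩
    rw [one_smul]
    exact h1
  haveI htr : MulAction.IsPretransitive M Ω :=
    MulAction.IsQuasiPreprimitive.isPretransitive_of_normal hfix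
  refine ⟨htr, ?_⟩
  intro ω m hm hfixω
  apply FaithfulSMul.eq_of_smul_eq_smul (α := Ω)
  intro a
  obtain ⟨x, hx⟩ := MulAction.exists_smul_eq M ω a
  have hx' : (x : G) • ω = a := hx
  rw [one_smul, ← hx', ← mul_smul, hcomm m hm x x.2, mul_smul, hfixω]

theorem prim_solv_regular {G : Type*} [Group G] [Finite G] [Group.IsSolvable G] {Ω : Type*}
    [MulAction G Ω] [FaithfulSMul G Ω] (hprim : MulAction.IsPreprimitive G Ω) (M : Subgroup G)
    [M.Normal] (hM : M ≠ ⊥) (hmin : ∀ K : Subgroup G, K.Normal → K ≤ M → K = ⊥ ∨ K = M) :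
    MulAction.IsPretransitive M Ω ∧ ∀ ω : Ω, ∀ m ∈ M, m • ω = ω → m = 1 :=
  prim_regular hprim M hM (minNormal_comm M hM hmin)

end Cfsg.Agent.Lib.Helper1
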