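import Mathlib
import Cfsg.Agent.Lib.Helper1.ThompsonJ

/-!
Replacement theorems (Thompson / Timmesfeld) for a group acting on an elementary abelian
subgroup (helper1).
-/

namespace Cfsg.Agent.Lib.Helper1

open scoped commutatorElement

section Repl

variable {G : Type*} [Group G]

theorem card_mul_card_le_sup_inf [Finite G] (B₁ B₂ : Subgroup G) :
    Nat.card B₁ * Nat.card B₂ ≤ Nat.card ↥(B₁ ⊔ B₂) * Nat.card ↥(B₁ ⊓ B₂) := by
  have h1 : Nat.card ↥(B₁ ⊓ B₂) * (B₁ ⊓ B₂).relIndex B₁ = Nat.card B₁ := by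
    have := Subgroup.relIndex_mul_relIndex ⊥ (B₁ ⊓ B₂) B₁ bot_le inf_le_left
    rwa [Subgroup.relIndex_bot_left, Subgroup.relIndex_bot_left] at this
  have h2 : Nat.card B₂ * B₂.relIndex (B₁ ⊔ B₂) = Nat.card ↥(B₁ ⊔ B₂) := by
    have := Subgroup.relIndex_mul_relIndex ⊥ B₂ (B₁ ⊔ B₂) bot_le le_sup_right
    rwa [Subgroup.relIndex_bot_left, Subgroup.relIndex_bot_left] at this
  have h3 : (B₁ ⊓ B₂).relIndex B₁ = B₂.relIndex B₁ := Subgroup.inf_relIndex_left B₁ B₂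
  have h4 : B₂.relIndex B₁ ≤ B₂.relIndex (B₁ ⊔ B₂) :=
    Subgroup.relIndex_le_of_le_right le_sup_left Subgroup.index_ne_zero_of_finite
  rw [← h1, ← h2, h3]
  calc Nat.card ↥(B₁ ⊓ B₂) * B₂.relIndex B₁ * Nat.card B₂
      ≤ Nat.card ↥(B₁ ⊓ B₂) * B₂.relIndex (B₁ ⊔ B₂) * Nat.card B₂ :=
        Nat.mul_le_mul_right _ (Nat.mul_le_mul_left _ h4)
    _ = _ := by ring

theorem comm_mem_of_normalizer {V : Subgroup G} {a u : G}
    (ha : a ∈ Subgroup.normalizer (V : Set G)) (hu : u ∈ V) : ⁅u, a⁆ ∈ V := by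
  have h1 : a * u⁻¹ * a⁻¹ ∈ V := (Subgroup.mem_normalizer_iff.1 ha u⁻¹).1 (V.inv_mem hu)
  have : ⁅u, a⁆ = u * (a * u⁻¹ * a⁻¹) := by rw [commutatorElement_def]; group
  rw [this]; exact V.mul_mem hu h1

theorem act_comm {V A : Subgroup G} (hAV : A ≤ Subgroup.normalizer (V : Set G))
    (hab : ⁅A, A⁆ ≤ Subgroup.centralizer (V : Set G)) {v x y : G} (hv : v ∈ V) (hx : x ∈ A)
    (hy : y ∈ A) : x * (y * v * y⁻¹) * x⁻¹ = y * (x * v * x⁻¹) * y⁻¹ := by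
  have hw : y * (x * v * x⁻¹) * y⁻¹ ∈ V := by
    have h1 : x * v * x⁻¹ ∈ V := (Subgroup.mem_normalizer_iff.1 (hAV hx) v).1 hv
    exact (Subgroup.mem_normalizer_iff.1 (hAV hy) _).1 h1
  have hc : ⁅x, y⁆ ∈ Subgroup.centralizer (V : Set G) :=
    hab (Subgroup.commutator_mem_commutator hx hy)
  rw [Subgroup.mem_centralizer_iff] at hc
  have h2 := hc _ hw
  calc x * (y * v * y⁻¹) * x⁻¹ = ⁅x, y⁆ * (y * (x * v * x⁻¹) * y⁻¹) * ⁅x, y⁆⁻¹ := by
        rw [commutatorElement_def]; group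
    _ = (y * (x * v * x⁻¹) * y⁻¹) * ⁅x, y⁆ * ⁅x, y⁆⁻¹ := by rw [h2]
    _ = _ := by group

theorem repl_key {p : ℕ} {V A : Subgroup G} (hV : Cfsg.IsElementaryAbelian p V)
    (hAV : A ≤ Subgroup.normalizer (V : Set G))
    (hab : ⁅A, A⁆ ≤ Subgroup.centralizer (V : Set G)) {u : G} (hu : u ∈ V) {a a' : G}
    (ha : a ∈ A) (ha' : a' ∈ A)
    (hc : ⁅u, a⁆⁻¹ * ⁅u, a'⁆ ∈ V ⊓ Subgroup.centralizer (A : Set G)) :
    a⁻¹ * a' ∈ Subgroup.centralizer {x | ∃ b ∈ A, ⁅u, b⁆ = x} := by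
  obtain ⟨c, hcdef⟩ : ∃ c, c = ⁅u, a⁆⁻¹ * ⁅u, a'⁆ := ⟨_, rfl⟩
  rw [← hcdef] at hc
  have hcV : c ∈ V := (Subgroup.mem_inf.1 hc).1
  have hcA := (Subgroup.mem_inf.1 hc).2
  rw [Subgroup.mem_centralizer_iff] at hcA
  obtain ⟨d, hd⟩ : ∃ d, d = a⁻¹ * a' := ⟨_, rfl⟩
  rw [← hd]
  have hdA : d ∈ A := hd ▸ A.mul_mem (A.inv_mem ha) ha'
  have h1 : a' * u * a'⁻¹ = c⁻¹ * (a * u * a⁻¹) := by
    rw [hcdef]; simp only [commutatorElement_def]; group
  have h2 : a⁻¹ * c⁻¹ * a = c⁻¹ := by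
    have := hcA a ha
    calc a⁻¹ * c⁻¹ * a = a⁻¹ * c⁻¹ * (a * c) * c⁻¹ := by group
      _ = a⁻¹ * c⁻¹ * (c * a) * c⁻¹ := by rw [this]
      _ = c⁻¹ := by group
  have hdu : d * u * d⁻¹ = c⁻¹ * u := by
    calc d * u * d⁻¹ = a⁻¹ * (a' * u * a'⁻¹) * a := by rw [hd]; group
      _ = a⁻¹ * (c⁻¹ * (a * u * a⁻¹)) * a := by rw [h1]
      _ = (a⁻¹ * c⁻¹ * a) * u := by group
      _ = c⁻¹ * u := by rw [h2]
  rw [Subgroup.mem_centralizer_iff]
  rintro _ ⟨b, hb, rfl⟩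
  have h3 : d * (b * u⁻¹ * b⁻¹) * d⁻¹ = b * (d * u⁻¹ * d⁻¹) * b⁻¹ :=
    act_comm hAV hab (V.inv_mem hu) hdA hb
  have h4 : d * u⁻¹ * d⁻¹ = u⁻¹ * c := by
    have : d * u⁻¹ * d⁻¹ = (d * u * d⁻¹)⁻¹ := by group
    rw [this, hdu]; group
  have h5 : b * c * b⁻¹ = c := by rw [hcA b hb]; group
  have h6 : ⁅u, b⁆ ∈ V := comm_mem_of_normalizer (hAV hb) hu
  have h7 : d * ⁅u, b⁆ * d⁻¹ = ⁅u, b⁆ := by
    calc d * ⁅u, b⁆ * d⁻¹ = (d * u * d⁻¹) * (d * (b * u⁻¹ * b⁻¹) * d⁻¹) := by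
          rw [commutatorElement_def]; group
      _ = (c⁻¹ * u) * (b * (u⁻¹ * c) * b⁻¹) := by rw [hdu, h3, h4]
      _ = c⁻¹ * (u * b * u⁻¹ * b⁻¹) * (b * c * b⁻¹) := by group
      _ = c⁻¹ * ⁅u, b⁆ * c := by rw [h5]; rfl
      _ = c⁻¹ * (c * ⁅u, b⁆) := by rw [mul_assoc, ea_comm hV h6 hcV]
      _ = ⁅u, b⁆ := by group
  calc ⁅u, b⁆ * d = (d * ⁅u, b⁆ * d⁻¹) * d := by rw [h7]
    _ = d * ⁅u, b⁆ := by group

theorem repl_count [Finite G] {p : ℕ} {V A : Subgroup G} (hV : Cfsg.IsElementaryAbelian p V)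
    (hAV : A ≤ Subgroup.normalizer (V : Set G))
    (hab : ⁅A, A⁆ ≤ Subgroup.centralizer (V : Set G)) {u : G} (hu : u ∈ V) :
    Nat.card A * Nat.card ↥(V ⊓ Subgroup.centralizer (A : Set G)) ≤
      Nat.card ↥(A ⊓ Subgroup.centralizer {x | ∃ b ∈ A, ⁅u, b⁆ = x}) *
        Nat.card ↥(Subgroup.closure {x | ∃ b ∈ A, ⁅u, b⁆ = x} ⊔
          (V ⊓ Subgroup.centralizer (A : Set G))) := by
  classical
  obtain ⟨C, hC⟩ : ∃ C, C = V ⊓ Subgroup.centralizer (A : Set G) := ⟨_, rfl⟩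
  obtain ⟨W, hW⟩ : ∃ W, W = Subgroup.closure {x | ∃ b ∈ A, ⁅u, b⁆ = x} ⊔ C := ⟨_, rfl⟩
  obtain ⟨B, hB⟩ : ∃ B, B = A ⊓ Subgroup.centralizer {x | ∃ b ∈ A, ⁅u, b⁆ = x} := ⟨_, rfl⟩
  rw [← hC, ← hW, ← hB]
  have hmemW : ∀ a ∈ A, ⁅u, a⁆ ∈ W := by
    intro a ha
    rw [hW]
    exact Subgroup.mem_sup_left (Subgroup.subset_closure ⟨a, ha, rfl⟩)
  let f : A → W ⧸ C.subgroupOf W := fun a => QuotientGroup.mk ⟨⁅u, (a : G)⁆, hmemW a a.2⟩
  have hf : ∀ a a' : A, f a = f a' → (a : G)⁻¹ * a' ∈ B := by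
    intro a a' h
    rw [QuotientGroup.eq, Subgroup.mem_subgroupOf] at h
    have h' : ⁅u, (a : G)⁆⁻¹ * ⁅u, (a' : G)⁆ ∈ C := h
    rw [hB]
    exact Subgroup.mem_inf.2 ⟨A.mul_mem (A.inv_mem a.2) a'.2,
      repl_key hV hAV hab hu a.2 a'.2 (hC ▸ h')⟩
  let g : W ⧸ C.subgroupOf W → A := fun q => if h : ∃ a, f a = q then h.choose else 1
  have hg : ∀ a, f (g (f a)) = f a := by
    intro a
    have h : ∃ a', f a' = f a := ⟨a, rfl⟩
    simp only [g, dif_pos h]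
    exact h.choose_spec
  let F : A → B × (W ⧸ C.subgroupOf W) := fun a =>
    (⟨((g (f a) : A) : G)⁻¹ * a, hf _ _ (hg a)⟩, f a)
  have hF : Function.Injective F := by
    intro a a' h
    have h1 : f a = f a' := congrArg Prod.snd h
    have h2 : ((g (f a) : A) : G)⁻¹ * a = ((g (f a') : A) : G)⁻¹ * a' :=
      congrArg (fun z => ((z.1 : B) : G)) h
    rw [h1] at h2
    exact Subtype.ext (mul_left_cancel h2)
  have h1 := Nat.card_le_card_of_injective F hF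
  rw [Nat.card_prod] at h1
  have h2 := Subgroup.card_eq_card_quotient_mul_card_subgroup (C.subgroupOf W)
  have h3 : Nat.card (C.subgroupOf W) = Nat.card C :=
    Nat.card_congr (Subgroup.subgroupOfEquivOfLe (hW ▸ le_sup_right)).toEquiv
  rw [h3] at h2
  calc Nat.card A * Nat.card C ≤ Nat.card B * Nat.card (W ⧸ C.subgroupOf W) * Nat.card C :=
        Nat.mul_le_mul_right _ h1
    _ = Nat.card B * Nat.card W := by rw [h2]; ring

theorem repl_cyc [Finite G] {p : ℕ} {V A : Subgroup G} (hV : Cfsg.IsElementaryAbelian p V)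
    (hAV : A ≤ Subgroup.normalizer (V : Set G))
    (hab : ⁅A, A⁆ ≤ Subgroup.centralizer (V : Set G))
    (hmax : ∀ B : Subgroup G, B ≤ A →
      Nat.card B * Nat.card ↥(V ⊓ Subgroup.centralizer (B : Set G)) ≤
        Nat.card A * Nat.card ↥(V ⊓ Subgroup.centralizer (A : Set G)))
    {u : G} (hu : u ∈ V) :
    Nat.card ↥(A ⊓ Subgroup.centralizer {x | ∃ b ∈ A, ⁅u, b⁆ = x}) *
        Nat.card ↥(V ⊓ Subgroup.centralizer
          ((A ⊓ Subgroup.centralizer {x | ∃ b ∈ A, ⁅u, b⁆ = x} : Subgroup G) : Set G))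
      = Nat.card A * Nat.card ↥(V ⊓ Subgroup.centralizer (A : Set G)) ∧
    V ⊓ Subgroup.centralizer
          ((A ⊓ Subgroup.centralizer {x | ∃ b ∈ A, ⁅u, b⁆ = x} : Subgroup G) : Set G)
      = Subgroup.closure {x | ∃ b ∈ A, ⁅u, b⁆ = x} ⊔ (V ⊓ Subgroup.centralizer (A : Set G)) := by
  have hc := repl_count hV hAV hab hu
  obtain ⟨B, hB⟩ : ∃ B, B = A ⊓ Subgroup.centralizer {x | ∃ b ∈ A, ⁅u, b⁆ = x} := ⟨_, rfl⟩
  rw [← hB] at hc ⊢
  have hBA : B ≤ A := hB ▸ inf_le_left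
  have hle : Subgroup.closure {x | ∃ b ∈ A, ⁅u, b⁆ = x} ⊔ (V ⊓ Subgroup.centralizer (A : Set G))
      ≤ V ⊓ Subgroup.centralizer (B : Set G) := by
    refine sup_le (le_inf ?_ ?_) (inf_le_inf_left _ (Subgroup.centralizer_le hBA))
    · rw [Subgroup.closure_le]
      rintro _ ⟨b, hb, rfl⟩
      exact comm_mem_of_normalizer (hAV hb) hu
    · rw [← Subgroup.le_centralizer_iff, Subgroup.centralizer_closure, hB]
      exact inf_le_right
  have h1 := Subgroup.card_le_of_le hle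
  have h2 := hmax B hBA
  have h3 : Nat.card B * Nat.card ↥(V ⊓ Subgroup.centralizer (B : Set G))
      = Nat.card A * Nat.card ↥(V ⊓ Subgroup.centralizer (A : Set G)) :=
    le_antisymm h2 (hc.trans (Nat.mul_le_mul_left _ h1))
  refine ⟨h3, ?_⟩
  have h4 : Nat.card B * Nat.card ↥(V ⊓ Subgroup.centralizer (B : Set G)) ≤ Nat.card B *
      Nat.card ↥(Subgroup.closure {x | ∃ b ∈ A, ⁅u, b⁆ = x} ⊔
          (V ⊓ Subgroup.centralizer (A : Set G))) := h3.le.trans hc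
  have h5 := Nat.le_of_mul_le_mul_left h4 Nat.card_pos
  exact (Subgroup.eq_of_le_of_card_ge hle h5).symm

theorem repl_inter [Finite G] {p : ℕ} {V A : Subgroup G} (hV : Cfsg.IsElementaryAbelian p V)
    (hmax : ∀ B : Subgroup G, B ≤ A →
      Nat.card B * Nat.card ↥(V ⊓ Subgroup.centralizer (B : Set G)) ≤
        Nat.card A * Nat.card ↥(V ⊓ Subgroup.centralizer (A : Set G)))
    {B₁ B₂ : Subgroup G} (h₁ : B₁ ≤ A) (h₂ : B₂ ≤ A)
    (e₁ : Nat.card B₁ * Nat.card ↥(V ⊓ Subgroup.centralizer (B₁ : Set G))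
      = Nat.card A * Nat.card ↥(V ⊓ Subgroup.centralizer (A : Set G)))
    (e₂ : Nat.card B₂ * Nat.card ↥(V ⊓ Subgroup.centralizer (B₂ : Set G))
      = Nat.card A * Nat.card ↥(V ⊓ Subgroup.centralizer (A : Set G))) :
    Nat.card ↥(B₁ ⊓ B₂) * Nat.card ↥(V ⊓ Subgroup.centralizer ((B₁ ⊓ B₂ : Subgroup G) : Set G))
      = Nat.card A * Nat.card ↥(V ⊓ Subgroup.centralizer (A : Set G)) ∧
    V ⊓ Subgroup.centralizer ((B₁ ⊓ B₂ : Subgroup G) : Set G)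
      = (V ⊓ Subgroup.centralizer (B₁ : Set G)) ⊔ (V ⊓ Subgroup.centralizer (B₂ : Set G)) := by
  obtain ⟨m, hm⟩ : ∃ m, m = Nat.card A * Nat.card ↥(V ⊓ Subgroup.centralizer (A : Set G)) :=
    ⟨_, rfl⟩
  rw [← hm] at e₁ e₂ hmax ⊢
  obtain ⟨C₁, hC₁⟩ : ∃ C₁, C₁ = V ⊓ Subgroup.centralizer (B₁ : Set G) := ⟨_, rfl⟩
  obtain ⟨C₂, hC₂⟩ : ∃ C₂, C₂ = V ⊓ Subgroup.centralizer (B₂ : Set G) := ⟨_, rfl⟩
  rw [← hC₁] at e₁
  rw [← hC₂] at e₂
  rw [← hC₁, ← hC₂]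
  have hmpos : 0 < m := by rw [hm]; exact Nat.mul_pos Nat.card_pos Nat.card_pos
  have hi := card_mul_card_le_sup_inf B₁ B₂
  have hC₁V : C₁ ≤ V := hC₁ ▸ inf_le_left
  have hC₂V : C₂ ≤ V := hC₂ ▸ inf_le_left
  have hn : C₁ ≤ Subgroup.normalizer (C₂ : Set G) := by
    intro x hx
    rw [Subgroup.mem_normalizer_iff]
    intro y
    have hxV : x ∈ V := hC₁V hx
    constructor
    · intro hy
      have : x * y * x⁻¹ = y := by rw [ea_comm hV hxV (hC₂V hy)]; group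
      rw [this]; exact hy
    · intro hy
      have hyV : x * y * x⁻¹ ∈ V := hC₂V hy
      have hyV' : y ∈ V := by
        have := V.mul_mem (V.mul_mem (V.inv_mem hxV) hyV) hxV
        have e : x⁻¹ * (x * y * x⁻¹) * x = y := by group
        rwa [e] at this
      have : x * y * x⁻¹ = y := by rw [ea_comm hV hxV hyV']; group
      rwa [this] at hy
  have hj := card_sup_mul_card_inf C₁ C₂ hn
  have hcj : C₁ ⊓ C₂ = V ⊓ Subgroup.centralizer ((B₁ ⊔ B₂ : Subgroup G) : Set G) := by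
    rw [hC₁, hC₂]
    ext x
    simp only [Subgroup.mem_inf, Subgroup.mem_centralizer_iff]
    constructor
    · rintro ⟨⟨hxV, h1⟩, -, h2⟩
      refine ⟨hxV, ?_⟩
      have hle : B₁ ⊔ B₂ ≤ Subgroup.centralizer {x} := by
        refine sup_le ?_ ?_
        · intro b hb
          rw [Subgroup.mem_centralizer_iff]
          rintro _ rfl
          exact (h1 b hb).symm
        · intro b hb
          rw [Subgroup.mem_centralizer_iff]
          rintro _ rfl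
          exact (h2 b hb).symm
      intro h hh
      have := hle hh
      rw [Subgroup.mem_centralizer_iff] at this
      exact (this x rfl).symm
    · rintro ⟨hxV, h⟩
      exact ⟨⟨hxV, fun b hb => h b ((le_sup_left : B₁ ≤ B₁ ⊔ B₂) hb)⟩, hxV,
        fun b hb => h b ((le_sup_right : B₂ ≤ B₁ ⊔ B₂) hb)⟩
  have hle : C₁ ⊔ C₂ ≤ V ⊓ Subgroup.centralizer ((B₁ ⊓ B₂ : Subgroup G) : Set G) := by
    rw [hC₁, hC₂]
    exact sup_le (inf_le_inf_left _ (Subgroup.centralizer_le (inf_le_left : B₁ ⊓ B₂ ≤ B₁)))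
      (inf_le_inf_left _ (Subgroup.centralizer_le (inf_le_right : B₁ ⊓ B₂ ≤ B₂)))
  have hJ := hmax (B₁ ⊔ B₂) (sup_le h₁ h₂)
  have hI := hmax (B₁ ⊓ B₂) (inf_le_left.trans h₁)
  rw [← hcj] at hJ
  have hz := Subgroup.card_le_of_le hle
  have hmm : m * m ≤ m * (Nat.card ↥(B₁ ⊓ B₂) * Nat.card ↥(C₁ ⊔ C₂)) := by
    calc m * m = (Nat.card B₁ * Nat.card C₁) * (Nat.card B₂ * Nat.card C₂) := by rw [e₁, e₂]
      _ = (Nat.card B₁ * Nat.card B₂) * (Nat.card C₁ * Nat.card C₂) := by ring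
      _ ≤ (Nat.card ↥(B₁ ⊔ B₂) * Nat.card ↥(B₁ ⊓ B₂)) *
            (Nat.card ↥(C₁ ⊔ C₂) * Nat.card ↥(C₁ ⊓ C₂)) := Nat.mul_le_mul hi hj.ge
      _ = (Nat.card ↥(B₁ ⊔ B₂) * Nat.card ↥(C₁ ⊓ C₂)) *
            (Nat.card ↥(B₁ ⊓ B₂) * Nat.card ↥(C₁ ⊔ C₂)) := by ring
      _ ≤ m * (Nat.card ↥(B₁ ⊓ B₂) * Nat.card ↥(C₁ ⊔ C₂)) := Nat.mul_le_mul_right _ hJ
  have hxy := Nat.le_of_mul_le_mul_left hmm hmpos
  have hxz := Nat.mul_le_mul_left (Nat.card ↥(B₁ ⊓ B₂)) hz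
  have hxz' := le_antisymm hI (hxy.trans hxz)
  have hxy' := le_antisymm hxz (hxz'.le.trans hxy)
  have hyz := Nat.eq_of_mul_eq_mul_left Nat.card_pos hxy'
  exact ⟨hxz', (Subgroup.eq_of_le_of_card_ge hle hyz.ge).symm⟩

/-- The set of commutators `⁅u, a⁆`, `u ∈ s`, `a ∈ A`. -/
def commSet (A : Subgroup G) (s : Set G) : Set G := {x | ∃ u ∈ s, ∃ a ∈ A, ⁅u, a⁆ = x}

theorem commSet_empty (A : Subgroup G) : commSet A ∅ = ∅ := by
  ext x; simp [commSet]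

theorem commSet_insert (A : Subgroup G) (u : G) (s : Set G) :
    commSet A (insert u s) = {x | ∃ b ∈ A, ⁅u, b⁆ = x} ∪ commSet A s := by
  ext x; simp [commSet]

theorem centralizer_union' (s t : Set G) :
    Subgroup.centralizer (s ∪ t) = Subgroup.centralizer s ⊓ Subgroup.centralizer t := by
  ext x
  simp only [Subgroup.mem_inf, Subgroup.mem_centralizer_iff, Set.mem_union]
  constructor
  · intro h; exact ⟨fun y hy => h y (Or.inl hy), fun y hy => h y (Or.inr hy)⟩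
  · rintro ⟨h1, h2⟩ y (hy | hy)
    · exact h1 y hy
    · exact h2 y hy

theorem repl_finset [Finite G] {p : ℕ} {V A : Subgroup G} (hV : Cfsg.IsElementaryAbelian p V)
    (hAV : A ≤ Subgroup.normalizer (V : Set G))
    (hab : ⁅A, A⁆ ≤ Subgroup.centralizer (V : Set G))
    (hmax : ∀ B : Subgroup G, B ≤ A →
      Nat.card B * Nat.card ↥(V ⊓ Subgroup.centralizer (B : Set G)) ≤
        Nat.card A * Nat.card ↥(V ⊓ Subgroup.centralizer (A : Set G))) :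
    ∀ s : Finset G, (∀ u ∈ s, u ∈ V) →
      Nat.card ↥(A ⊓ Subgroup.centralizer (commSet A (s : Set G))) *
          Nat.card ↥(V ⊓ Subgroup.centralizer
            ((A ⊓ Subgroup.centralizer (commSet A (s : Set G)) : Subgroup G) : Set G))
        = Nat.card A * Nat.card ↥(V ⊓ Subgroup.centralizer (A : Set G)) ∧
      V ⊓ Subgroup.centralizer
            ((A ⊓ Subgroup.centralizer (commSet A (s : Set G)) : Subgroup G) : Set G)
        = Subgroup.closure (commSet A (s : Set G)) ⊔ (V ⊓ Subgroup.centralizer (A : Set G)) := by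
  classical
  intro s
  induction s using Finset.induction_on with
  | empty =>
    intro _
    have h1 : A ⊓ Subgroup.centralizer (commSet A ((∅ : Finset G) : Set G)) = A := by
      rw [Finset.coe_empty, commSet_empty]
      refine inf_eq_left.2 (fun a _ => ?_)
      rw [Subgroup.mem_centralizer_iff]
      intro h hh
      exact (Set.notMem_empty _ hh).elim
    rw [h1, Finset.coe_empty, commSet_empty, Subgroup.closure_empty, bot_sup_eq]
    exact ⟨rfl, rfl⟩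
  | insert u s hus ih =>
    intro hs
    have hu : u ∈ V := hs u (Finset.mem_insert_self u s)
    have ih' := ih (fun v hv => hs v (Finset.mem_insert_of_mem hv))
    have hc := repl_cyc hV hAV hab hmax hu
    have h1 : A ⊓ Subgroup.centralizer (commSet A ((insert u s : Finset G) : Set G))
        = (A ⊓ Subgroup.centralizer {x | ∃ b ∈ A, ⁅u, b⁆ = x}) ⊓
          (A ⊓ Subgroup.centralizer (commSet A (s : Set G))) := by
      rw [Finset.coe_insert, commSet_insert, centralizer_union']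
      rw [inf_inf_distrib_left]
    have hi := repl_inter hV hmax (inf_le_left : A ⊓ Subgroup.centralizer {x | ∃ b ∈ A, ⁅u, b⁆ = x} ≤ A)
      (inf_le_left : A ⊓ Subgroup.centralizer (commSet A (s : Set G)) ≤ A) hc.1 ih'.1
    rw [h1]
    refine ⟨hi.1, ?_⟩
    rw [hi.2, hc.2, ih'.2, Finset.coe_insert, commSet_insert, Subgroup.closure_union]
    exact (sup_sup_distrib_right _ _ _).symm

theorem repl_main [Finite G] {p : ℕ} {V A : Subgroup G} (hV : Cfsg.IsElementaryAbelian p V)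
    (hAV : A ≤ Subgroup.normalizer (V : Set G))
    (hab : ⁅A, A⁆ ≤ Subgroup.centralizer (V : Set G))
    (hmax : ∀ B : Subgroup G, B ≤ A →
      Nat.card B * Nat.card ↥(V ⊓ Subgroup.centralizer (B : Set G)) ≤
        Nat.card A * Nat.card ↥(V ⊓ Subgroup.centralizer (A : Set G)))
    (U : Subgroup G) (hU : U ≤ V) :
    V ⊓ Subgroup.centralizer
        ((A ⊓ Subgroup.centralizer ((⁅U, A⁆ : Subgroup G) : Set G) : Subgroup G) : Set G)
      = ⁅U, A⁆ ⊔ (V ⊓ Subgroup.centralizer (A : Set G)) ∧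
    Nat.card A * Nat.card ↥(V ⊓ Subgroup.centralizer (A : Set G))
      = Nat.card ↥(A ⊓ Subgroup.centralizer ((⁅U, A⁆ : Subgroup G) : Set G)) *
        Nat.card ↥(V ⊓ Subgroup.centralizer
          ((A ⊓ Subgroup.centralizer ((⁅U, A⁆ : Subgroup G) : Set G) : Subgroup G) : Set G)) := by
  classical
  have hfin : (U : Set G).Finite := Set.toFinite _
  have h := repl_finset hV hAV hab hmax hfin.toFinset (fun u hu => hU (by simpa using hu))
  rw [Set.Finite.coe_toFinset] at h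
  have h1 : Subgroup.closure (commSet A (U : Set G)) = ⁅U, A⁆ := by
    rw [Subgroup.commutator_def]; rfl
  have h2 : Subgroup.centralizer (commSet A (U : Set G))
      = Subgroup.centralizer ((⁅U, A⁆ : Subgroup G) : Set G) := by
    rw [← h1, Subgroup.centralizer_closure]
  rw [h2, h1] at h
  exact ⟨h.2, h.1.symm⟩

end Repl

end Cfsg.Agent.Lib.Helper1
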