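import Mathlib
import Cfsg.Agent.Lib.Helper1.Replace
import Cfsg.Agent.Lib.Helper1.NilpAct

/-!
Replacement theorems, continued: nontriviality of the replaced offender (helper1).
-/

namespace Cfsg.Agent.Lib.Helper1

open scoped commutatorElement

section Repl2

variable {G : Type*} [Group G]

theorem le_normalizer_of_ea {p : ℕ} {V X Y : Subgroup G} (hV : Cfsg.IsElementaryAbelian p V)
    (hX : X ≤ V) (hY : Y ≤ V) : X ≤ Subgroup.normalizer (Y : Set G) := by
  intro x hx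
  rw [Subgroup.mem_normalizer_iff]
  intro y
  have hxV : x ∈ V := hX hx
  constructor
  · intro hy
    have : x * y * x⁻¹ = y := by rw [ea_comm hV hxV (hY hy)]; group
    rw [this]; exact hy
  · intro hy
    have hyV : x * y * x⁻¹ ∈ V := hY hy
    have hyV' : y ∈ V := by
      have := V.mul_mem (V.mul_mem (V.inv_mem hxV) hyV) hxV
      have e : x⁻¹ * (x * y * x⁻¹) * x = y := by group
      rwa [e] at this
    have : x * y * x⁻¹ = y := by rw [ea_comm hV hxV hyV']; group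
    rwa [this] at hy

theorem mem_sup_of_ea {p : ℕ} {V X Y : Subgroup G} (hV : Cfsg.IsElementaryAbelian p V)
    (hX : X ≤ V) (hY : Y ≤ V) {v : G} (hv : v ∈ X ⊔ Y) : ∃ x ∈ X, ∃ y ∈ Y, v = x * y := by
  have := Subgroup.coe_mul_of_left_le_normalizer_right X Y (le_normalizer_of_ea hV hX hY)
  rw [← SetLike.mem_coe, this, Set.mem_mul] at hv
  obtain ⟨x, hx, y, hy, rfl⟩ := hv
  exact ⟨x, hx, y, hy, rfl⟩

theorem commutator_le_of_normalizer {V A : Subgroup G}
    (hAV : A ≤ Subgroup.normalizer (V : Set G)) : ⁅V, A⁆ ≤ V := by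
  rw [Subgroup.commutator_le]
  intro v hv a ha
  exact comm_mem_of_normalizer (hAV ha) hv

/-- Nontriviality in the Timmesfeld replacement theorem. -/
theorem repl_nontrivial [Finite G] {p : ℕ} [Fact p.Prime] {V A : Subgroup G}
    (hV : Cfsg.IsElementaryAbelian p V) (hAV : A ≤ Subgroup.normalizer (V : Set G))
    (hpw : ∀ a ∈ A, a ^ p ∈ Subgroup.centralizer (V : Set G)) (U : Subgroup G) (hU : U ≤ V)
    {B₀ : Subgroup G}
    (hcv : V ⊓ Subgroup.centralizer (B₀ : Set G)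
      = ⁅U, A⁆ ⊔ (V ⊓ Subgroup.centralizer (A : Set G)))
    (hne : ⁅V, A⁆ ≠ ⊥) : ⁅V, B₀⁆ ≠ ⊥ := by
  intro hbot
  apply hne
  have h1 : V ≤ Subgroup.centralizer (B₀ : Set G) :=
    Subgroup.commutator_eq_bot_iff_le_centralizer.1 hbot
  have h2 : V = ⁅U, A⁆ ⊔ (V ⊓ Subgroup.centralizer (A : Set G)) := by
    rw [← hcv]; exact (inf_eq_left.2 h1).symm
  have hWV : ⁅V, A⁆ ≤ V := commutator_le_of_normalizer hAV
  have hUA : ⁅U, A⁆ ≤ ⁅V, A⁆ := Subgroup.commutator_mono hU le_rfl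
  have hW : ⁅V, A⁆ ≤ ⁅⁅V, A⁆, A⁆ := by
    rw [Subgroup.commutator_le]
    intro v hv a ha
    rw [h2] at hv
    obtain ⟨x, hx, c, hc, rfl⟩ := mem_sup_of_ea hV (hUA.trans hWV) inf_le_left hv
    have hca := (Subgroup.mem_inf.1 hc).2
    rw [Subgroup.mem_centralizer_iff] at hca
    have h3 := hca a ha
    have : ⁅x * c, a⁆ = ⁅x, a⁆ := by
      simp only [commutatorElement_def]
      calc x * c * a * (x * c)⁻¹ * a⁻¹ = x * (c * a) * c⁻¹ * x⁻¹ * a⁻¹ := by group
        _ = x * (a * c) * c⁻¹ * x⁻¹ * a⁻¹ := by rw [h3]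
        _ = _ := by group
    rw [this]
    exact Subgroup.commutator_mem_commutator (hUA hx) ha
  exact eq_bot_of_le_commutator_of_pAct (ea_isPGroup hV) hAV hpw hWV hW

end Repl2

end Cfsg.Agent.Lib.Helper1
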