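import Mathlib
import Cfsg.Prelude.Def_Sporadic_a
import Cfsg.Agent.Lib.Helper1.Steiner

/-!
Counting in an abstract Steiner system S(3, 6, 22) (helper1).
-/

namespace Cfsg.Agent.Lib.Helper1

open Cfsg

theorem card_inter_eq_sum {α : Type*} [DecidableEq α] (b d : Finset α) :
    (b ∩ d).card = ∑ p ∈ b, if p ∈ d then 1 else 0 := by
  rw [← Finset.filter_mem_eq_inter, Finset.card_filter]

/-- Double counting of incident (point, point, block) triples. -/
theorem sum_inter_mul {α : Type*} [DecidableEq α] (Bf : Finset (Finset α)) (b c : Finset α) :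
    ∑ d ∈ Bf, (b ∩ d).card * (c ∩ d).card
      = ∑ p ∈ b, ∑ q ∈ c, (Bf.filter (fun d => p ∈ d ∧ q ∈ d)).card := by
  have h1 : ∀ d ∈ Bf, (b ∩ d).card * (c ∩ d).card
      = ∑ p ∈ b, ∑ q ∈ c, if p ∈ d ∧ q ∈ d then 1 else 0 := by
    intro d _
    rw [card_inter_eq_sum, card_inter_eq_sum, Finset.sum_mul_sum]
    refine Finset.sum_congr rfl (fun p _ => Finset.sum_congr rfl (fun q _ => ?_))
    by_cases hp : p ∈ d <;> by_cases hq : q ∈ d <;> simp [hp, hq]
  rw [Finset.sum_congr rfl h1, Finset.sum_comm]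
  refine Finset.sum_congr rfl (fun p _ => ?_)
  rw [Finset.sum_comm]
  refine Finset.sum_congr rfl (fun q _ => ?_)
  rw [Finset.card_filter]

theorem s22_key : ∀ m < 3, 2 * Nat.choose m 2 ≤ m ∧ (2 * Nat.choose m 2 = m → m = 0 ∨ m = 2) := by
  decide

theorem s22_pt : ∀ f g : ℕ, (f = 0 ∨ f = 2) → (g = 0 ∨ g = 2) →
    4 * (if f = 0 ∧ g = 0 then 1 else 0) + 2 * f + 2 * g = 4 + f * g := by
  rintro f g (rfl | rfl) (rfl | rfl) <;> simp

section
variable {α : Type*} [Fintype α] [DecidableEq α] (hα : Fintype.card α = 22)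
  {B : Set (Finset α)} (hB : IsSteinerSystem 3 6 B) (Bf : Finset (Finset α))
  (hBf : ∀ c, c ∈ Bf ↔ c ∈ B)
include hα hB hBf

theorem s22_card : Bf.card = 77 := by
  have h := steiner_count_super hB Bf hBf ∅ (by simp)
  rw [Finset.card_empty, hα] at h
  have h1 : Bf.filter (fun c => ∅ ⊆ c) = Bf :=
    Finset.filter_true_of_mem (fun c _ => Finset.empty_subset c)
  rw [h1] at h
  have c1 : Nat.choose (6 - 0) (3 - 0) = 20 := by decide
  have c2 : Nat.choose (22 - 0) (3 - 0) = 1540 := by decide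
  rw [c1, c2] at h
  omega

theorem s22_count1 (p : α) : (Bf.filter (fun c => p ∈ c)).card = 21 := by
  have h := steiner_count_super hB Bf hBf {p} (by simp)
  rw [Finset.card_singleton, hα] at h
  have c1 : Nat.choose (6 - 1) (3 - 1) = 10 := by decide
  have c2 : Nat.choose (22 - 1) (3 - 1) = 210 := by decide
  rw [c1, c2] at h
  have h1 : Bf.filter (fun c => {p} ⊆ c) = Bf.filter (fun c => p ∈ c) := by
    apply Finset.filter_congr
    intro c _
    exact Finset.singleton_subset_iff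
  rw [h1] at h
  omega

theorem s22_count2 (p q : α) (hpq : p ≠ q) :
    (Bf.filter (fun c => p ∈ c ∧ q ∈ c)).card = 5 := by
  have h := steiner_count_super hB Bf hBf {p, q} (by rw [Finset.card_pair hpq]; norm_num)
  rw [Finset.card_pair hpq, hα] at h
  have c1 : Nat.choose (6 - 2) (3 - 2) = 4 := by decide
  have c2 : Nat.choose (22 - 2) (3 - 2) = 20 := by decide
  rw [c1, c2] at h
  have h1 : Bf.filter (fun c => {p, q} ⊆ c) = Bf.filter (fun c => p ∈ c ∧ q ∈ c) := by
    apply Finset.filter_congr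
    intro c _
    rw [Finset.insert_subset_iff, Finset.singleton_subset_iff]
  rw [h1] at h
  omega

/-- The sum of products of intersection sizes. -/
theorem s22_T (b c : Finset α) (hb : b ∈ B) (hc : c ∈ B) :
    ∑ d ∈ Bf, (b ∩ d).card * (c ∩ d).card = 180 + 16 * (b ∩ c).card := by
  rw [sum_inter_mul]
  have h1 : ∀ p ∈ b, ∀ q ∈ c, (Bf.filter (fun d => p ∈ d ∧ q ∈ d)).card
      = 5 + if p = q then 16 else 0 := by
    intro p _ q _
    by_cases hpq : p = q
    · subst hpq
      rw [if_pos rfl]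
      have h2 : Bf.filter (fun d => p ∈ d ∧ p ∈ d) = Bf.filter (fun d => p ∈ d) := by
        apply Finset.filter_congr
        intro d _
        exact and_self_iff
      rw [h2, s22_count1 hα hB Bf hBf p]
    · rw [if_neg hpq, s22_count2 hα hB Bf hBf p q hpq]
  rw [Finset.sum_congr rfl (fun p hp => Finset.sum_congr rfl (fun q hq => h1 p hp q hq))]
  simp only [Finset.sum_add_distrib, Finset.sum_const, Finset.sum_ite_eq, smul_eq_mul]
  rw [hB.1 b hb, hB.1 c hc, card_inter_eq_sum b c, Finset.mul_sum]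
  have h3 : ∀ p ∈ b, (if p ∈ c then 16 else 0) = 16 * (if p ∈ c then 1 else 0) := by
    intro p _
    split_ifs <;> rfl
  rw [Finset.sum_congr rfl h3]

theorem s22_moments (b : Finset α) (hb : b ∈ B) :
    (Bf.erase b).card = 76 ∧ ∑ c ∈ Bf.erase b, (b ∩ c).card = 120
      ∧ ∑ c ∈ Bf.erase b, Nat.choose (b ∩ c).card 2 = 60 := by
  have e0 : (Bf.erase b).card = 76 := by
    rw [Finset.card_erase_of_mem ((hBf b).2 hb), s22_card hα hB Bf hBf]
  have e1 := steiner_inter_sum_erase hB Bf hBf b hb 1 (by norm_num)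
  have e2 := steiner_inter_sum_erase hB Bf hBf b hb 2 (by norm_num)
  simp only [Nat.choose_one_right] at e1
  obtain ⟨S1, hS1⟩ : ∃ S, S = ∑ c ∈ Bf.erase b, (b ∩ c).card := ⟨_, rfl⟩
  rw [← hS1, hα] at e1
  norm_num [Nat.choose] at e1
  obtain ⟨S2, hS2⟩ : ∃ S, S = ∑ c ∈ Bf.erase b, Nat.choose (b ∩ c).card 2 := ⟨_, rfl⟩
  rw [← hS2, hα] at e2
  norm_num [Nat.choose] at e2
  rw [← hS1, ← hS2]
  exact ⟨e0, by omega, by omega⟩

/-- Distinct blocks meet in 0 or 2 points. -/
theorem s22_inter (b c : Finset α) (hb : b ∈ B) (hc : c ∈ B) (hbc : c ≠ b) :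
    (b ∩ c).card = 0 ∨ (b ∩ c).card = 2 := by
  obtain ⟨-, m1, m2⟩ := s22_moments hα hB Bf hBf b hb
  have hsum : ∑ c ∈ Bf.erase b, 2 * Nat.choose (b ∩ c).card 2 = ∑ c ∈ Bf.erase b, (b ∩ c).card := by
    rw [← Finset.mul_sum, m1, m2]; norm_num
  have hle : ∀ c ∈ Bf.erase b, 2 * Nat.choose (b ∩ c).card 2 ≤ (b ∩ c).card := by
    intro c hc
    obtain ⟨hcb, hcB⟩ := Finset.mem_erase.1 hc
    have hlt := steiner_inter_lt hB hb ((hBf c).1 hcB) (Ne.symm hcb)
    exact (s22_key _ hlt).1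
  have heq := (Finset.sum_eq_sum_iff_of_le hle).1 hsum c
    (Finset.mem_erase.2 ⟨hbc, (hBf c).2 hc⟩)
  have hlt := steiner_inter_lt hB hb hc (Ne.symm hbc)
  exact (s22_key _ hlt).2 heq

/-- Each block is disjoint from exactly 16 blocks. -/
theorem s22_disjoint (b : Finset α) (hb : b ∈ B) :
    (Bf.filter (fun c => Disjoint b c)).card = 16 := by
  obtain ⟨m0, m1, -⟩ := s22_moments hα hB Bf hBf b hb
  have h1 : ∀ c ∈ Bf.erase b, (b ∩ c).card = if (b ∩ c).card = 0 then 0 else 2 := by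
    intro c hc
    obtain ⟨hcb, hcB⟩ := Finset.mem_erase.1 hc
    rcases s22_inter hα hB Bf hBf b c hb ((hBf c).1 hcB) hcb with h | h
    · rw [if_pos h, h]
    · rw [if_neg (by omega), h]
  rw [Finset.sum_congr rfl h1, Finset.sum_ite, Finset.sum_const_zero, Finset.sum_const,
    smul_eq_mul, zero_add] at m1
  have h2 := Finset.card_filter_add_card_filter_not (s := Bf.erase b)
    (fun c => (b ∩ c).card = 0)
  have h3 : Bf.filter (fun c => Disjoint b c) = (Bf.erase b).filter (fun c => (b ∩ c).card = 0) := by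
    ext c
    simp only [Finset.mem_filter, Finset.mem_erase, Finset.card_eq_zero,
      ← Finset.disjoint_iff_inter_eq_empty]
    constructor
    · rintro ⟨hc, hd⟩
      refine ⟨⟨?_, hc⟩, hd⟩
      rintro rfl
      have h6 := hB.1 c hb
      rw [Finset.disjoint_self_iff_empty] at hd
      rw [hd, Finset.card_empty] at h6
      omega
    · rintro ⟨⟨-, hc⟩, hd⟩
      exact ⟨hc, hd⟩
  rw [h3]
  omega

/-- The number of blocks disjoint from two distinct blocks. -/
theorem s22_common (b c : Finset α) (hb : b ∈ B) (hc : c ∈ B) (hbc : c ≠ b) :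
    (Bf.filter (fun d => Disjoint b d ∧ Disjoint c d)).card = 2 * (b ∩ c).card := by
  obtain ⟨mb0, mb1, -⟩ := s22_moments hα hB Bf hBf b hb
  obtain ⟨mc0, mc1, -⟩ := s22_moments hα hB Bf hBf c hc
  have hT := s22_T hα hB Bf hBf b c hb hc
  have hbBf := (hBf b).2 hb
  have hcBf := (hBf c).2 hc
  have hcE : c ∈ Bf.erase b := Finset.mem_erase.2 ⟨hbc, hcBf⟩
  have hbE : b ∈ Bf.erase c := Finset.mem_erase.2 ⟨Ne.symm hbc, hbBf⟩
  have hE : (Bf.erase c).erase b = (Bf.erase b).erase c := Finset.erase_right_comm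
  -- sums over E2
  rw [← Finset.add_sum_erase _ _ hcE] at mb1
  rw [← Finset.add_sum_erase _ _ hbE, hE] at mc1
  rw [← Finset.add_sum_erase _ _ hbBf, ← Finset.add_sum_erase _ _ hcE, Finset.inter_self,
    Finset.inter_self, hB.1 b hb, hB.1 c hc, Finset.inter_comm c b] at hT
  have hE2 : ((Bf.erase b).erase c).card = 75 := by
    rw [Finset.card_erase_of_mem hcE, mb0]
  have hpt : ∀ d ∈ (Bf.erase b).erase c,
      4 * (if (b ∩ d).card = 0 ∧ (c ∩ d).card = 0 then 1 else 0) + 2 * (b ∩ d).card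
        + 2 * (c ∩ d).card = 4 + (b ∩ d).card * (c ∩ d).card := by
    intro d hd
    obtain ⟨hdc, hd'⟩ := Finset.mem_erase.1 hd
    obtain ⟨hdb, hdBf⟩ := Finset.mem_erase.1 hd'
    exact s22_pt _ _ (s22_inter hα hB Bf hBf b d hb ((hBf d).1 hdBf) hdb)
      (s22_inter hα hB Bf hBf c d hc ((hBf d).1 hdBf) hdc)
  have hsum := Finset.sum_congr rfl hpt
  simp only [Finset.sum_add_distrib, ← Finset.mul_sum, Finset.sum_const, smul_eq_mul] at hsum
  rw [← Finset.card_filter, hE2] at hsum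
  have h3 : Bf.filter (fun d => Disjoint b d ∧ Disjoint c d)
      = ((Bf.erase b).erase c).filter (fun d => (b ∩ d).card = 0 ∧ (c ∩ d).card = 0) := by
    ext d
    simp only [Finset.mem_filter, Finset.mem_erase, Finset.card_eq_zero,
      ← Finset.disjoint_iff_inter_eq_empty]
    constructor
    · rintro ⟨hd, hdb, hdc⟩
      refine ⟨⟨?_, ?_, hd⟩, hdb, hdc⟩
      · rintro rfl
        have h6 := hB.1 d hc
        rw [Finset.disjoint_self_iff_empty] at hdc
        rw [hdc, Finset.card_empty] at h6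
        omega
      · rintro rfl
        have h6 := hB.1 d hb
        rw [Finset.disjoint_self_iff_empty] at hdb
        rw [hdb, Finset.card_empty] at h6
        omega
    · rintro ⟨⟨-, -, hd⟩, hdb, hdc⟩
      exact ⟨hd, hdb, hdc⟩
  rw [h3]
  rw [Finset.inter_comm c b] at mc1
  omega

end

end Cfsg.Agent.Lib.Helper1
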