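import Mathlib
import Cfsg.Prelude.Def_Sporadic_a
import Cfsg.Agent.Lib.Helper1.SRG22

/-!
More counting in an abstract Steiner system S(3, 6, 22), and a counting lemma (helper1).
-/

namespace Cfsg.Agent.Lib.Helper1

open Cfsg

open Classical in
theorem card_optsum {α β : Type*} [Fintype α] [Fintype β] (S : Set (Option (α ⊕ β))) :
    Nat.card ↥S = (if none ∈ S then 1 else 0) + Nat.card {a : α // some (Sum.inl a) ∈ S}
      + Nat.card {b : β // some (Sum.inr b) ∈ S} := by
  classical
  rw [Nat.card_eq_fintype_card, Nat.card_eq_fintype_card, Nat.card_eq_fintype_card,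
    Fintype.card_subtype, Fintype.card_subtype, Fintype.card_subtype, Finset.card_filter,
    Fintype.sum_option, Fintype.sum_sum_type, Finset.card_filter, Finset.card_filter, add_assoc]

section
variable {α : Type*} [Fintype α] [DecidableEq α] (hα : Fintype.card α = 22)
  {B : Set (Finset α)} (hB : IsSteinerSystem 3 6 B) (Bf : Finset (Finset α))
  (hBf : ∀ c, c ∈ Bf ↔ c ∈ B)
include hα hB hBf

theorem s22_pt_block (p : α) (b : Finset α) (hb : b ∈ B) (hp : p ∉ b) :
    (Bf.filter (fun c => p ∈ c ∧ Disjoint b c)).card = 6 := by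
  have h1 : ∑ c ∈ Bf.filter (fun c => p ∈ c), (b ∩ c).card = 30 := by
    have h0 : ∀ c ∈ Bf.filter (fun c => p ∈ c), (b ∩ c).card = ∑ q ∈ b, if q ∈ c then 1 else 0 :=
      fun c _ => card_inter_eq_sum b c
    rw [Finset.sum_congr rfl h0, Finset.sum_comm]
    have h2 : ∀ q ∈ b, ∑ c ∈ Bf.filter (fun c => p ∈ c), (if q ∈ c then 1 else 0) = 5 := by
      intro q hq
      rw [← Finset.card_filter, Finset.filter_filter]
      exact s22_count2 hα hB Bf hBf p q (by rintro rfl; exact hp hq)
    rw [Finset.sum_congr rfl h2, Finset.sum_const, hB.1 b hb]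
    rfl
  have h3 : ∀ c ∈ Bf.filter (fun c => p ∈ c),
      (b ∩ c).card = if (b ∩ c).card = 0 then 0 else 2 := by
    intro c hc
    obtain ⟨hcBf, hpc⟩ := Finset.mem_filter.1 hc
    have hcb : c ≠ b := by rintro rfl; exact hp hpc
    rcases s22_inter hα hB Bf hBf b c hb ((hBf c).1 hcBf) hcb with h | h
    · rw [if_pos h, h]
    · rw [if_neg (by omega), h]
  rw [Finset.sum_congr rfl h3, Finset.sum_ite, Finset.sum_const_zero, Finset.sum_const,
    smul_eq_mul, zero_add] at h1
  have h4 := Finset.card_filter_add_card_filter_not (s := Bf.filter (fun c => p ∈ c))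
    (fun c => (b ∩ c).card = 0)
  rw [s22_count1 hα hB Bf hBf p] at h4
  have h5 : Bf.filter (fun c => p ∈ c ∧ Disjoint b c)
      = (Bf.filter (fun c => p ∈ c)).filter (fun c => (b ∩ c).card = 0) := by
    ext c
    simp only [Finset.mem_filter, Finset.card_eq_zero, ← Finset.disjoint_iff_inter_eq_empty]
    tauto
  rw [h5]
  omega

end

end Cfsg.Agent.Lib.Helper1
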