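import Mathlib
import Cfsg.Prelude.Def_SolvableStructure
import Cfsg.Agent.Lib.Helper1.SS
import Cfsg.Agent.Lib.Helper1.CLT

set_option autoImplicit false

namespace Cfsg.Agent.Lib.Helper1

universe u

/-- a finite supersolvable group has a normal subgroup whose order is the largest prime divisor -/
theorem exists_normal_card_maxprime : ∀ n : ℕ, ∀ (G : Type u) [Group G] [Finite G],
    Nat.card G = n → Cfsg.IsSupersolvable G → ∀ p : ℕ, p.Prime → p ∣ Nat.card G →
    (∀ q : ℕ, q.Prime → q ∣ Nat.card G → q ≤ p) →
    ∃ N : Subgroup G, N.Normal ∧ Nat.card N = p := by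
  intro n
  induction n using Nat.strong_induction_on with
  | _ n ih =>
    intro G _ _ hn hG p hp hdvd hmax
    haveI : Fact p.Prime := ⟨hp⟩
    haveI : Nontrivial G := by
      rw [← Finite.one_lt_card_iff_nontrivial]
      exact lt_of_lt_of_le hp.one_lt (Nat.le_of_dvd Nat.card_pos hdvd)
    obtain ⟨N1, hN1, hq⟩ := exists_normal_prime_card hG
    haveI := hN1
    have hqp := hmax _ hq (Subgroup.card_subgroup_dvd_card N1)
    rcases hqp.lt_or_eq with hlt | heq
    · have hcard := card_quotient_mul N1
      have hpQ : p ∣ Nat.card (G ⧸ N1) := by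
        rw [← hcard] at hdvd
        rcases (Nat.Prime.dvd_mul hp).1 hdvd with h1 | h1
        · exact h1
        · have := (Nat.prime_dvd_prime_iff_eq hp hq).1 h1
          omega
      have hQmax : ∀ r : ℕ, r.Prime → r ∣ Nat.card (G ⧸ N1) → r ≤ p := fun r hr hrd =>
        hmax r hr (hrd.trans (Dvd.intro _ hcard))
      obtain ⟨M', hM'n, hM'c⟩ := ih _ (hn ▸ card_quotient_lt N1 hq) (G ⧸ N1) rfl
        (ss_quotient hG N1) p hp hpQ hQmax
      haveI hMn : (M'.comap (QuotientGroup.mk' N1)).Normal := hM'n.comap _
      have hMc : Nat.card (M'.comap (QuotientGroup.mk' N1)) = p * Nat.card N1 := by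
        rw [card_comap_mk', hM'c]
      obtain Q : Sylow p (M'.comap (QuotientGroup.mk' N1)) := default
      have hnd : ¬ p ∣ Nat.card N1 := by
        intro h
        have := (Nat.prime_dvd_prime_iff_eq hp hq).1 h
        omega
      have hQc : Nat.card Q = p := by
        rw [Sylow.card_eq_multiplicity, hMc, Nat.factorization_mul hp.ne_zero hq.ne_zero]
        simp [Nat.factorization_eq_zero_of_not_dvd hnd, Nat.Prime.factorization_self hp]
      have hQi : (Q : Subgroup (M'.comap (QuotientGroup.mk' N1))).index = Nat.card N1 := by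
        have h1 := Subgroup.card_mul_index (Q : Subgroup (M'.comap (QuotientGroup.mk' N1)))
        rw [hQc, hMc] at h1
        exact Nat.eq_of_mul_eq_mul_left hp.pos h1
      have hmin : (Nat.card (M'.comap (QuotientGroup.mk' N1))).minFac = Nat.card N1 := by
        rw [hMc]
        apply le_antisymm
        · exact Nat.minFac_le_of_dvd hq.two_le (Dvd.intro_left _ rfl)
        · have hne1 : p * Nat.card N1 ≠ 1 := by
            have h2 := hp.two_le
            have h3 := hq.two_le
            nlinarith
          have h1 := Nat.minFac_prime hne1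
          have h2 := Nat.minFac_dvd (p * Nat.card N1)
          rcases (Nat.Prime.dvd_mul h1).1 h2 with h3 | h3
          · rw [(Nat.prime_dvd_prime_iff_eq h1 hp).1 h3]
            exact hlt.le
          · rw [(Nat.prime_dvd_prime_iff_eq h1 hq).1 h3]
      have hQn : (Q : Subgroup (M'.comap (QuotientGroup.mk' N1))).Normal :=
        Subgroup.normal_of_index_eq_minFac_card (by rw [hQi, hmin])
      refine ⟨(Q : Subgroup (M'.comap (QuotientGroup.mk' N1))).map (Subgroup.subtype _),
        sylow_map_normal _ Q hQn, ?_⟩
      rw [Subgroup.card_map_of_injective (Subgroup.subtype_injective _)]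
      exact hQc
    · exact ⟨N1, hN1, heq⟩

/-- chain of normal subgroups with prime steps, primes non-increasing going up -/
theorem ss_prime_chain : ∀ n : ℕ, ∀ (G : Type u) [Group G] [Finite G], Nat.card G = n →
    Cfsg.IsSupersolvable G → ∃ (m : ℕ) (H : Fin (m + 1) → Subgroup G), H 0 = ⊥ ∧
      H (Fin.last m) = ⊤ ∧ (∀ i, (H i).Normal) ∧
      (∀ i : Fin m, H i.castSucc ≤ H i.succ ∧ ((H i.castSucc).relIndex (H i.succ)).Prime) ∧
      ∀ i j : Fin m, i ≤ j →
        (H j.castSucc).relIndex (H j.succ) ≤ (H i.castSucc).relIndex (H i.succ) := by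
  intro n
  induction n using Nat.strong_induction_on with
  | _ n ih =>
    intro G _ _ hn hG
    by_cases hnt : Nontrivial G
    · haveI := hnt
      have hne : (Nat.card G).primeFactors.Nonempty :=
        Nat.nonempty_primeFactors.2 Finite.one_lt_card
      obtain ⟨p, hp, hpd, hmax⟩ : ∃ p : ℕ, p.Prime ∧ p ∣ Nat.card G ∧
          ∀ q : ℕ, q.Prime → q ∣ Nat.card G → q ≤ p := by
        have hmem := Finset.max'_mem _ hne
        rw [Nat.mem_primeFactors] at hmem
        refine ⟨_, hmem.1, hmem.2.1, fun q hq hqd => ?_⟩
        exact Finset.le_max' _ q (Nat.mem_primeFactors.2 ⟨hq, hqd, hmem.2.2⟩)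
      obtain ⟨N, hN, hNc⟩ := exists_normal_card_maxprime _ G rfl hG p hp hpd hmax
      haveI := hN
      have hNp : (Nat.card N).Prime := hNc ▸ hp
      have hf := QuotientGroup.mk'_surjective N
      obtain ⟨m, H', h0, hlast, hnorm, hstep, hmono⟩ :=
        ih _ (hn ▸ card_quotient_lt N hNp) (G ⧸ N) rfl (ss_quotient hG N)
      have hrel : ∀ A B : Subgroup (G ⧸ N), (A.comap (QuotientGroup.mk' N)).relIndex
          (B.comap (QuotientGroup.mk' N)) = A.relIndex B := by
        intro A B
        rw [Subgroup.relIndex_comap, Subgroup.map_comap_eq_self_of_surjective hf]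
      have hle : ∀ j : Fin m, (H' j.castSucc).relIndex (H' j.succ) ≤ p := by
        intro j
        apply hmax _ (hstep j).2
        refine (Subgroup.relIndex_dvd_card _ _).trans ?_
        refine (Subgroup.card_subgroup_dvd_card _).trans ?_
        exact Dvd.intro _ (card_quotient_mul N)
      refine ⟨m + 1, Fin.cons ⊥ (fun i => (H' i).comap (QuotientGroup.mk' N)), rfl, ?_, ?_,
        ?_, ?_⟩
      · rw [← Fin.succ_last, Fin.cons_succ, hlast, Subgroup.comap_top]
      · intro i
        cases i using Fin.cases with
        | zero => exact Subgroup.normal_bot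
        | succ j =>
          rw [Fin.cons_succ]
          exact (hnorm j).comap _
      · intro i
        cases i using Fin.cases with
        | zero =>
          rw [Fin.cons_succ, h0, MonoidHom.comap_bot, QuotientGroup.ker_mk']
          refine ⟨bot_le, ?_⟩
          show ((⊥ : Subgroup G).relIndex N).Prime
          rw [Subgroup.relIndex_bot_left]
          exact hNp
        | succ j =>
          rw [← Fin.succ_castSucc, Fin.cons_succ, Fin.cons_succ, hrel]
          exact ⟨Subgroup.comap_mono (hstep j).1, (hstep j).2⟩
      · intro i j hij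
        cases j using Fin.cases with
        | zero =>
          have hi : i = 0 := Fin.le_zero_iff.1 hij
          rw [hi]
        | succ j' =>
          cases i using Fin.cases with
          | zero =>
            rw [← Fin.succ_castSucc, Fin.cons_succ, Fin.cons_succ, hrel, Fin.cons_succ, h0,
              MonoidHom.comap_bot, QuotientGroup.ker_mk']
            show _ ≤ (⊥ : Subgroup G).relIndex N
            rw [Subgroup.relIndex_bot_left, hNc]
            exact hle j'
          | succ i' =>
            rw [← Fin.succ_castSucc, Fin.cons_succ, Fin.cons_succ, hrel, ← Fin.succ_castSucc,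
              Fin.cons_succ, Fin.cons_succ, hrel]
            exact hmono i' j' (Fin.succ_le_succ_iff.1 hij)
    · rw [not_nontrivial_iff_subsingleton] at hnt
      haveI := hnt
      refine ⟨0, fun _ => ⊥, rfl, Subsingleton.elim _ _, fun _ => Subgroup.normal_bot,
        fun i => i.elim0, fun i => i.elim0⟩

end Cfsg.Agent.Lib.Helper1
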