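import Mathlib
import Cfsg.Agent.Lib.Helper1.Simple

/-!
Multiply transitive permutation groups: elementary forms of 2- and 3-transitivity and the order
of a sharply `k`-transitive group (helper1).
-/

namespace Cfsg.Agent.Lib.Helper1

theorem inj_of_nodup2 {α : Type*} (a b : α) (h : [a, b].Nodup) :
    Function.Injective ![a, b] := by
  rw [← List.nodup_ofFn]
  exact h

theorem inj_of_nodup3 {α : Type*} (a b c : α) (h : [a, b, c].Nodup) :
    Function.Injective ![a, b, c] := by
  rw [← List.nodup_ofFn]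
  exact h

theorem two_trans_of_multiply {G α : Type*} [Group G] [MulAction G α] [Finite α] {k : ℕ}
    [MulAction.IsMultiplyPretransitive G α k] (hk : 2 ≤ k) (hkα : k ≤ Nat.card α)
    (a b c d : α) (hab : a ≠ b) (hcd : c ≠ d) : ∃ g : G, g • a = c ∧ g • b = d := by
  have h2 : MulAction.IsMultiplyPretransitive G α 2 :=
    MulAction.isMultiplyPretransitive_of_le (n := k) hk hkα
  obtain ⟨g, hg⟩ := MulAction.exists_smul_eq G
    (⟨![a, b], inj_of_nodup2 a b (by simp [hab])⟩ : Fin 2 ↪ α)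
    (⟨![c, d], inj_of_nodup2 c d (by simp [hcd])⟩ : Fin 2 ↪ α)
  refine ⟨g, ?_, ?_⟩
  · exact congrArg (fun f : Fin 2 ↪ α => f 0) hg
  · exact congrArg (fun f : Fin 2 ↪ α => f 1) hg

theorem three_trans_of_multiply {G α : Type*} [Group G] [MulAction G α] [Finite α] {k : ℕ}
    [MulAction.IsMultiplyPretransitive G α k] (hk : 3 ≤ k) (hkα : k ≤ Nat.card α)
    (a b c d e f : α) (hab : a ≠ b) (hac : a ≠ c) (hbc : b ≠ c) (hde : d ≠ e) (hdf : d ≠ f)
    (hef : e ≠ f) : ∃ g : G, g • a = d ∧ g • b = e ∧ g • c = f := by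
  have h3 : MulAction.IsMultiplyPretransitive G α 3 :=
    MulAction.isMultiplyPretransitive_of_le (n := k) hk hkα
  obtain ⟨g, hg⟩ := MulAction.exists_smul_eq G
    (⟨![a, b, c], inj_of_nodup3 a b c (by simp [hab, hac, hbc])⟩ : Fin 3 ↪ α)
    (⟨![d, e, f], inj_of_nodup3 d e f (by simp [hde, hdf, hef])⟩ : Fin 3 ↪ α)
  refine ⟨g, ?_, ?_, ?_⟩
  · exact congrArg (fun f : Fin 3 ↪ α => f 0) hg
  · exact congrArg (fun f : Fin 3 ↪ α => f 1) hg
  · exact congrArg (fun f : Fin 3 ↪ α => f 2) hg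

/-- The order of a sharply `k`-transitive group. -/
theorem card_of_sharp {G α : Type*} [Group G] [MulAction G α] [Fintype α] {k : ℕ}
    [MulAction.IsMultiplyPretransitive G α k]
    (hsharp : ∀ x : Fin k ↪ α, MulAction.stabilizer G x = ⊥) (hk : k ≤ Fintype.card α) :
    Nat.card G = (Fintype.card α).descFactorial k := by
  classical
  obtain ⟨x⟩ : Nonempty (Fin k ↪ α) :=
    Function.Embedding.nonempty_of_card_le (by rw [Fintype.card_fin]; exact hk)
  have hidx := MulAction.index_stabilizer (G := G) (x := x)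
  rw [hsharp x, Subgroup.index_bot, MulAction.orbit_eq_univ, Set.ncard_univ] at hidx
  rw [hidx, Nat.card_eq_fintype_card, Fintype.card_embedding_eq, Fintype.card_fin]

theorem arith_11_720 : ∀ e ≤ 10, e ∣ 10 → 720 / e % 11 = 1 → e = 5 := by decide

theorem not_isPrimePow_12 : ¬ IsPrimePow 12 := by
  rw [isPrimePow_iff_unique_prime_dvd]
  rintro ⟨p, _, hu⟩
  have h2 := hu 2 ⟨by norm_num, by norm_num⟩
  have h3 := hu 3 ⟨by norm_num, by norm_num⟩
  omega

end Cfsg.Agent.Lib.Helper1
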