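import Mathlib
import Cfsg.Agent.Lib.Helper6.Sharp2

/-!
The degree of a sharply 4-transitive finite group action (helper1).
-/

namespace Cfsg.Agent.Lib.Helper1

open Cfsg

section
variable {G Ω : Type*} [Group G] [MulAction G Ω]

/-- The complement of a pair of points, as a sub-action of the pointwise stabiliser. -/
def pairCompl (a b : Ω) :
    SubMulAction ↥(MulAction.stabilizer G a ⊓ MulAction.stabilizer G b) Ω where
  carrier := {ω | ω ≠ a ∧ ω ≠ b}
  smul_mem' := by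
    rintro ⟨h, hh⟩ ω ⟨h1, h2⟩
    have ha : h • a = a := (Subgroup.mem_inf.1 hh).1
    have hb : h • b = b := (Subgroup.mem_inf.1 hh).2
    constructor
    · intro e
      apply h1
      have e' : h • ω = h • a := by rw [ha]; exact e
      exact MulAction.injective h e'
    · intro e
      apply h2
      have e' : h • ω = h • b := by rw [hb]; exact e
      exact MulAction.injective h e'

theorem mem_pairCompl (a b ω : Ω) : ω ∈ pairCompl (G := G) a b ↔ ω ≠ a ∧ ω ≠ b := Iff.rfl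

theorem nodup4 {a b c d : Ω} (hab : a ≠ b) (hac : a ≠ c) (had : a ≠ d) (hbc : b ≠ c)
    (hbd : b ≠ d) (hcd : c ≠ d) : [a, b, c, d].Nodup := by
  simp [hab, hac, had, hbc, hbd, hcd]

theorem exists_four [DecidableEq Ω] {s : Finset Ω} (h : 4 ≤ s.card) :
    ∃ a ∈ s, ∃ b ∈ s, ∃ c ∈ s, ∃ d ∈ s, [a, b, c, d].Nodup := by
  obtain ⟨a, ha⟩ : s.Nonempty := Finset.card_pos.1 (by omega)
  have h1 : 3 ≤ (s.erase a).card := by rw [Finset.card_erase_of_mem ha]; omega
  obtain ⟨b, hb⟩ : (s.erase a).Nonempty := Finset.card_pos.1 (by omega)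
  have h2 : 2 ≤ ((s.erase a).erase b).card := by rw [Finset.card_erase_of_mem hb]; omega
  obtain ⟨c, hc⟩ : ((s.erase a).erase b).Nonempty := Finset.card_pos.1 (by omega)
  have h3 : 1 ≤ (((s.erase a).erase b).erase c).card := by
    rw [Finset.card_erase_of_mem hc]; omega
  obtain ⟨d, hd⟩ : (((s.erase a).erase b).erase c).Nonempty := Finset.card_pos.1 (by omega)
  rw [Finset.mem_erase] at hb
  rw [Finset.mem_erase, Finset.mem_erase] at hc
  rw [Finset.mem_erase, Finset.mem_erase, Finset.mem_erase] at hd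
  exact ⟨a, ha, b, hb.2, c, hc.2.2, d, hd.2.2.2,
    nodup4 (Ne.symm hb.1) (Ne.symm hc.2.1) (Ne.symm hd.2.2.1) (Ne.symm hc.1) (Ne.symm hd.2.1)
      (Ne.symm hd.1)⟩

/-- An element squaring to the identity has a number of fixed points of the parity of the
degree. -/
theorem invol_fixed [Fintype Ω] [DecidableEq Ω] (t : G) (ht : t * t = 1) :
    Fintype.card Ω ≡ (Finset.univ.filter (fun ω : Ω => t • ω = ω)).card [MOD 2] := by
  have : Fact (Nat.Prime 2) := ⟨Nat.prime_two⟩
  obtain ⟨f, hfdef⟩ : ∃ f : Function.End Ω, ∀ ω, f ω = t • ω := ⟨fun ω => t • ω, fun _ => rfl⟩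
  have hf : f ^ 2 ^ 1 = 1 := by
    rw [pow_one, pow_two]
    funext ω
    show f (f ω) = ω
    rw [hfdef, hfdef, ← mul_smul, ht, one_smul]
  have h := Equiv.Perm.card_fixedPoints_modEq (f := f) hf
  have e : Function.fixedPoints f = ↑(Finset.univ.filter (fun ω : Ω => t • ω = ω)) := by
    ext ω
    rw [Finset.coe_filter]
    show f ω = ω ↔ ω ∈ {x | x ∈ Finset.univ ∧ t • x = x}
    rw [hfdef]
    simp
  simp only [Fintype.card_eq_nat_card] at h
  rw [Nat.card_coe_set_eq, e, Set.ncard_coe_finset] at h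
  rw [Fintype.card_eq_nat_card]
  exact h

theorem conj_conj_of_sq {G : Type*} [Group G] (y g : G) (hy : y * y = 1) :
    y * (y * g * y⁻¹) * y⁻¹ = g := by
  have hy' : y⁻¹ = y := inv_eq_of_mul_eq_one_left hy
  rw [hy']
  calc y * (y * g * y) * y = (y * y) * g * (y * y) := by group
    _ = g := by rw [hy, one_mul, mul_one]

theorem sharp4_degree {G Ω : Type*} [Group G] [MulAction G Ω] [Finite G] [Fintype Ω]
    [DecidableEq Ω]
    (h4 : ∀ a b c d a' b' c' d' : Ω, [a, b, c, d].Nodup → [a', b', c', d'].Nodup →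
      ∃ g : G, g • a = a' ∧ g • b = b' ∧ g • c = c' ∧ g • d = d')
    (hsh : ∀ (g : G) (a b c d : Ω), [a, b, c, d].Nodup → g • a = a → g • b = b → g • c = c →
      g • d = d → g = 1)
    (hn : 7 ≤ Fintype.card Ω) : Fintype.card Ω = 11 := by
  classical
  haveI : Fintype G := Fintype.ofFinite G
  obtain ⟨a₁, -, a₂, -, a₃, -, a₄, -, hnd⟩ := exists_four (s := (Finset.univ : Finset Ω))
    (by rw [Finset.card_univ]; omega)
  have hne : a₁ ≠ a₂ ∧ a₁ ≠ a₃ ∧ a₁ ≠ a₄ ∧ a₂ ≠ a₃ ∧ a₂ ≠ a₄ ∧ a₃ ≠ a₄ := by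
    simp only [List.nodup_cons, List.mem_cons, List.not_mem_nil, or_false, not_or,
      List.nodup_nil, and_true, not_false_eq_true] at hnd
    tauto
  obtain ⟨h12, h13, h14, h23, h24, h34⟩ := hne
  -- fixed points bound
  have hfix3 : ∀ t : G, t ≠ 1 → (Finset.univ.filter (fun ω : Ω => t • ω = ω)).card ≤ 3 := by
    intro t ht
    by_contra hcon
    push Not at hcon
    obtain ⟨a, ha, b, hb, c, hc, d, hd, hnd'⟩ := exists_four (show 4 ≤ _ from hcon)
    rw [Finset.mem_filter] at ha hb hc hd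
    exact ht (hsh t a b c d hnd' ha.2 hb.2 hc.2 hd.2)
  -- the sharply 2-transitive group
  have hcard' : Fintype.card ↥(pairCompl (G := G) a₃ a₄) = Fintype.card Ω - 2 := by
    rw [Fintype.card_of_subtype (Finset.univ \ {a₃, a₄}) (fun ω => by
      rw [mem_pairCompl]; simp)]
    rw [Finset.card_univ_sdiff, Finset.card_pair h34]
  have key := Cfsg.Agent.Lib.Helper6.sharp2_main
    (G := ↥(MulAction.stabilizer G a₃ ⊓ MulAction.stabilizer G a₄))
    (Ω := ↥(pairCompl (G := G) a₃ a₄))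
    (by
      intro a b c d hab hcd
      obtain ⟨g, hga, hgb, hg3, hg4⟩ := h4 a.1 b.1 a₃ a₄ c.1 d.1 a₃ a₄
        (nodup4 (fun h => hab (Subtype.ext h)) a.2.1 a.2.2 b.2.1 b.2.2 h34)
        (nodup4 (fun h => hcd (Subtype.ext h)) c.2.1 c.2.2 d.2.1 d.2.2 h34)
      exact ⟨⟨g, Subgroup.mem_inf.2 ⟨hg3, hg4⟩⟩, Subtype.ext hga, Subtype.ext hgb⟩)
    (by
      intro g a b hab hga hgb
      apply Subtype.ext
      have h3 : g.1 • a₃ = a₃ := (Subgroup.mem_inf.1 g.2).1
      have h4' : g.1 • a₄ = a₄ := (Subgroup.mem_inf.1 g.2).2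
      exact hsh g.1 a.1 b.1 a₃ a₄
        (nodup4 (fun h => hab (Subtype.ext h)) a.2.1 a.2.2 b.2.1 b.2.2 h34)
        (congrArg Subtype.val hga) (congrArg Subtype.val hgb) h3 h4')
    (by rw [hcard']; omega)
  obtain ⟨K, p, j, hp, hj, hcardΩ', hcardK, -, hKcomm, hKexp, hKmem, -⟩ := key
  rw [hcard'] at hcardΩ'
  -- the normal subgroup as a finset of elements of G
  obtain ⟨Kf, hKfdef⟩ : ∃ Kf : Finset G, Kf = (Finset.univ : Finset ↥K).image
      (fun k => (k.1.1 : G)) := ⟨_, rfl⟩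
  have hlift : ∀ g ∈ Kf, ∃ k : ↥K, (k.1.1 : G) = g := by
    intro g hg
    rw [hKfdef, Finset.mem_image] at hg
    obtain ⟨k, -, hk⟩ := hg
    exact ⟨k, hk⟩
  have hdown : ∀ k : ↥K, (k.1.1 : G) ∈ Kf := by
    intro k
    rw [hKfdef, Finset.mem_image]
    exact ⟨k, Finset.mem_univ _, rfl⟩
  have hKfcard : Kf.card = p ^ j := by
    rw [hKfdef, Finset.card_image_of_injective, Finset.card_univ, ← Nat.card_eq_fintype_card,
      hcardK]
    intro k k' h
    exact Subtype.ext (Subtype.ext h)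
  have hKf : ∀ g, g ∈ Kf ↔ (g • a₃ = a₃ ∧ g • a₄ = a₄ ∧
      (g = 1 ∨ ∀ ω, ω ≠ a₃ → ω ≠ a₄ → g • ω ≠ ω)) := by
    intro g
    constructor
    · intro hg
      obtain ⟨k, rfl⟩ := hlift g hg
      have h3 : k.1.1 • a₃ = a₃ := (Subgroup.mem_inf.1 k.1.2).1
      have h4' : k.1.1 • a₄ = a₄ := (Subgroup.mem_inf.1 k.1.2).2
      refine ⟨h3, h4', ?_⟩
      rcases (hKmem k.1).1 k.2 with h1 | hfp
      · left
        rw [h1]
        rfl
      · right
        intro ω hω3 hω4 hfix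
        exact hfp ⟨ω, hω3, hω4⟩ (Subtype.ext hfix)
    · rintro ⟨h3, h4', hfp⟩
      have hg : g ∈ MulAction.stabilizer G a₃ ⊓ MulAction.stabilizer G a₄ :=
        Subgroup.mem_inf.2 ⟨h3, h4'⟩
      have hk : (⟨g, hg⟩ : ↥(MulAction.stabilizer G a₃ ⊓ MulAction.stabilizer G a₄)) ∈ K := by
        rw [hKmem]
        rcases hfp with rfl | hfp
        · left
          rfl
        · right
          intro a hfix
          exact hfp a.1 a.2.1 a.2.2 (congrArg Subtype.val hfix)
      exact hdown ⟨⟨g, hg⟩, hk⟩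
  have hK1 : (1 : G) ∈ Kf := by
    rw [hKf]
    exact ⟨one_smul _ _, one_smul _ _, Or.inl rfl⟩
  have hKmul : ∀ g ∈ Kf, ∀ g' ∈ Kf, g * g' ∈ Kf := by
    intro g hg g' hg'
    obtain ⟨k, rfl⟩ := hlift g hg
    obtain ⟨k', rfl⟩ := hlift g' hg'
    exact hdown (k * k')
  have hKinv : ∀ g ∈ Kf, g⁻¹ ∈ Kf := by
    intro g hg
    obtain ⟨k, rfl⟩ := hlift g hg
    exact hdown k⁻¹
  have hKc : ∀ g ∈ Kf, ∀ g' ∈ Kf, g * g' = g' * g := by
    intro g hg g' hg'
    obtain ⟨k, rfl⟩ := hlift g hg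
    obtain ⟨k', rfl⟩ := hlift g' hg'
    exact congrArg Subtype.val (hKcomm k.1 k.2 k'.1 k'.2)
  have hKe : ∀ g ∈ Kf, g ^ p = 1 := by
    intro g hg
    obtain ⟨k, rfl⟩ := hlift g hg
    have := congrArg Subtype.val (hKexp k.1 k.2)
    exact this
  have hsemi : ∀ g ∈ Kf, ∀ ω, ω ≠ a₃ → ω ≠ a₄ → g • ω = ω → g = 1 := by
    intro g hg ω h3 h4' hfix
    rcases ((hKf g).1 hg).2.2 with h | h
    · exact h
    · exact absurd hfix (h ω h3 h4')
  have hconj : ∀ t : G, ((t • a₃ = a₃ ∧ t • a₄ = a₄) ∨ (t • a₃ = a₄ ∧ t • a₄ = a₃)) →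
      ∀ g ∈ Kf, t * g * t⁻¹ ∈ Kf := by
    intro t ht g hg
    rw [hKf] at hg ⊢
    obtain ⟨g3, g4, gfp⟩ := hg
    have hti : (t⁻¹ • a₃ = a₃ ∧ t⁻¹ • a₄ = a₄) ∨ (t⁻¹ • a₃ = a₄ ∧ t⁻¹ • a₄ = a₃) := by
      rcases ht with ⟨t3, t4⟩ | ⟨t3, t4⟩
      · left
        exact ⟨inv_smul_eq_iff.2 t3.symm, inv_smul_eq_iff.2 t4.symm⟩
      · right
        exact ⟨inv_smul_eq_iff.2 t4.symm, inv_smul_eq_iff.2 t3.symm⟩
    refine ⟨?_, ?_, ?_⟩
    · rcases ht with ⟨t3, t4⟩ | ⟨t3, t4⟩
      · rw [mul_smul, mul_smul, inv_smul_eq_iff.2 t3.symm, g3, t3]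
      · rw [mul_smul, mul_smul, inv_smul_eq_iff.2 t4.symm, g4, t4]
    · rcases ht with ⟨t3, t4⟩ | ⟨t3, t4⟩
      · rw [mul_smul, mul_smul, inv_smul_eq_iff.2 t4.symm, g4, t4]
      · rw [mul_smul, mul_smul, inv_smul_eq_iff.2 t3.symm, g3, t3]
    · rcases gfp with rfl | gfp
      · left
        group
      · right
        intro ω h3 h4' hfix
        rw [mul_smul, mul_smul] at hfix
        have hfix' : g • t⁻¹ • ω = t⁻¹ • ω := by
          rw [eq_inv_smul_iff]
          exact hfix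
        refine gfp (t⁻¹ • ω) ?_ ?_ hfix'
        · intro h
          rw [inv_smul_eq_iff] at h
          rcases ht with ⟨t3, t4⟩ | ⟨t3, t4⟩
          · exact h3 (h.trans t3)
          · exact h4' (h.trans t3)
        · intro h
          rw [inv_smul_eq_iff] at h
          rcases ht with ⟨t3, t4⟩ | ⟨t3, t4⟩
          · exact h4' (h.trans t4)
          · exact h3 (h.trans t4)
  -- the involutions
  obtain ⟨x, hx1, hx2, hx3, hx4⟩ := h4 a₁ a₂ a₃ a₄ a₂ a₁ a₃ a₄ hnd
    (nodup4 (Ne.symm h12) h23 h24 h13 h14 h34)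
  obtain ⟨y, hy1, hy2, hy3, hy4⟩ := h4 a₁ a₂ a₃ a₄ a₁ a₂ a₄ a₃ hnd
    (nodup4 h12 h14 h13 h24 h23 (Ne.symm h34))
  have hxx : x * x = 1 := hsh _ a₁ a₂ a₃ a₄ hnd
    (by simp only [mul_smul, hx1, hx2]) (by simp only [mul_smul, hx1, hx2])
    (by simp only [mul_smul, hx3]) (by simp only [mul_smul, hx4])
  have hyy : y * y = 1 := hsh _ a₁ a₂ a₃ a₄ hnd
    (by simp only [mul_smul, hy1]) (by simp only [mul_smul, hy2])
    (by simp only [mul_smul, hy3, hy4]) (by simp only [mul_smul, hy3, hy4])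
  have hzz : (x * y) * (x * y) = 1 := hsh _ a₁ a₂ a₃ a₄ hnd
    (by simp only [mul_smul, hx1, hx2, hy1, hy2]) (by simp only [mul_smul, hx1, hx2, hy1, hy2])
    (by simp only [mul_smul, hx3, hx4, hy3, hy4]) (by simp only [mul_smul, hx3, hx4, hy3, hy4])
  have hx_ne : x ≠ 1 := by
    rintro rfl
    rw [one_smul] at hx1
    exact h12 hx1
  have hy_ne : y ≠ 1 := by
    rintro rfl
    rw [one_smul] at hy3
    exact h34 hy3
  have hz_ne : x * y ≠ 1 := by
    intro h
    have : (x * y) • a₁ = a₂ := by rw [mul_smul, hy1, hx1]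
    rw [h, one_smul] at this
    exact h12 this
  have hz3 : (x * y) • a₃ = a₄ := by rw [mul_smul, hy3, hx4]
  have hz4 : (x * y) • a₄ = a₃ := by rw [mul_smul, hy4, hx3]
  -- injectivity of orbit maps
  have hinj : ∀ ω₀, ω₀ ≠ a₃ → ω₀ ≠ a₄ → ∀ g ∈ Kf, ∀ g' ∈ Kf, g • ω₀ = g' • ω₀ → g = g' := by
    intro ω₀ h3 h4' g hg g' hg' h
    have h1 := hsemi (g⁻¹ * g') (hKmul _ (hKinv g hg) _ hg') ω₀ h3 h4'
      (by rw [mul_smul, ← h, inv_smul_smul])
    exact (inv_mul_eq_one.1 h1)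
  have hcard2 : (Finset.univ \ {a₃, a₄} : Finset Ω).card = p ^ j := by
    rw [Finset.card_univ_sdiff, Finset.card_pair h34, hcardΩ']
  -- an element of the kernel moving a₁ to a₂
  obtain ⟨g₀, hg₀, hg₀a⟩ : ∃ g₀ ∈ Kf, g₀ • a₁ = a₂ := by
    have hsub : Kf.image (fun g => g • a₁) ⊆ Finset.univ \ {a₃, a₄} := by
      intro ω hω
      rw [Finset.mem_image] at hω
      obtain ⟨g, hg, rfl⟩ := hω
      obtain ⟨g3, g4, -⟩ := (hKf g).1 hg
      simp only [Finset.mem_sdiff, Finset.mem_univ, Finset.mem_insert, Finset.mem_singleton,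
        true_and, not_or]
      constructor
      · intro h
        rw [← g3] at h
        exact h13 (MulAction.injective g h)
      · intro h
        rw [← g4] at h
        exact h14 (MulAction.injective g h)
    have hcardimg : (Kf.image (fun g => g • a₁)).card = Kf.card :=
      Finset.card_image_of_injOn (fun g hg g' hg' h => hinj a₁ h13 h14 g hg g' hg' h)
    have heq := Finset.eq_of_subset_of_card_le hsub (by rw [hcardimg, hKfcard, hcard2])
    have h2mem : a₂ ∈ Kf.image (fun g => g • a₁) := by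
      rw [heq]
      simp [h23, h24]
    rw [Finset.mem_image] at h2mem
    exact h2mem
  have hg₀ne : g₀ ≠ 1 := by
    rintro rfl
    rw [one_smul] at hg₀a
    exact h12 hg₀a
  have hg₀y : y * g₀ * y⁻¹ = g₀ := by
    apply hinj a₁ h13 h14 _ (hconj y (Or.inr ⟨hy3, hy4⟩) g₀ hg₀) _ hg₀
    rw [mul_smul, mul_smul, inv_smul_eq_iff.2 hy1.symm, hg₀a, hy2]
  -- the centraliser of y in the kernel
  obtain ⟨Cf, hCf⟩ : ∃ Cf : Finset G, Cf = Kf.filter (fun g => y * g * y⁻¹ = g) := ⟨_, rfl⟩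
  have hCmem : ∀ g, g ∈ Cf ↔ g ∈ Kf ∧ y * g * y⁻¹ = g := by
    intro g
    rw [hCf, Finset.mem_filter]
  have hC2 : 2 ≤ Cf.card := by
    have : 1 < Cf.card := Finset.one_lt_card.2
      ⟨1, (hCmem 1).2 ⟨hK1, by group⟩, g₀, (hCmem g₀).2 ⟨hg₀, hg₀y⟩, Ne.symm hg₀ne⟩
    omega
  have hC3 : Cf.card ≤ 3 := by
    refine le_trans ?_ (hfix3 y hy_ne)
    apply Finset.card_le_card_of_injOn (fun g => g • a₁)
    · intro g hg
      rw [Finset.mem_coe, hCmem] at hg
      rw [Finset.mem_coe, Finset.mem_filter]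
      refine ⟨Finset.mem_univ _, ?_⟩
      have h1 : y * g = g * y := by
        have := hg.2
        rw [mul_inv_eq_iff_eq_mul] at this
        exact this
      rw [← mul_smul, h1, mul_smul, hy1]
    · intro g hg g' hg' h
      rw [Finset.mem_coe, hCmem] at hg hg'
      exact hinj a₁ h13 h14 g hg.1 g' hg'.1 h
  have hCdvd : Cf.card ∣ p ^ j := by
    let KS : Subgroup G :=
      { carrier := {g | g ∈ Kf}
        mul_mem' := fun {a b} ha hb => hKmul a ha b hb
        one_mem' := hK1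
        inv_mem' := fun {a} ha => hKinv a ha }
    let C : Subgroup G :=
      { carrier := {g | g ∈ Cf}
        mul_mem' := by
          intro a b ha hb
          rw [Set.mem_ofPred_eq, hCmem] at ha hb ⊢
          refine ⟨hKmul a ha.1 b hb.1, ?_⟩
          calc y * (a * b) * y⁻¹ = (y * a * y⁻¹) * (y * b * y⁻¹) := by group
            _ = a * b := by rw [ha.2, hb.2]
        one_mem' := by
          rw [Set.mem_ofPred_eq, hCmem]
          exact ⟨hK1, by group⟩
        inv_mem' := by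
          intro a ha
          rw [Set.mem_ofPred_eq, hCmem] at ha ⊢
          refine ⟨hKinv a ha.1, ?_⟩
          calc y * a⁻¹ * y⁻¹ = (y * a * y⁻¹)⁻¹ := by group
            _ = a⁻¹ := by rw [ha.2] }
    have hle : C ≤ KS := by
      intro g hg
      exact ((hCmem g).1 hg).1
    have h1 : Nat.card ↥KS = Kf.card := by
      have : (KS : Set G) = ↑Kf := by
        ext g
        rfl
      rw [← Set.ncard_coe_finset Kf, ← this]
      exact Nat.card_coe_set_eq (KS : Set G)
    have h2 : Nat.card ↥C = Cf.card := by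
      have : (C : Set G) = ↑Cf := by
        ext g
        rfl
      rw [← Set.ncard_coe_finset Cf, ← this]
      exact Nat.card_coe_set_eq (C : Set G)
    have := Subgroup.card_dvd_of_le hle
    rw [h1, h2, hKfcard] at this
    exact this
  -- the elements inverted by y
  obtain ⟨If, hIf⟩ : ∃ If : Finset G, If = Kf.filter (fun d => y * d * y⁻¹ = d⁻¹) := ⟨_, rfl⟩
  have hImem : ∀ g, g ∈ If ↔ g ∈ Kf ∧ y * g * y⁻¹ = g⁻¹ := by
    intro g
    rw [hIf, Finset.mem_filter]
  have hyK : ∀ g ∈ Kf, y * g * y⁻¹ ∈ Kf := hconj y (Or.inr ⟨hy3, hy4⟩)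
  have hbound : Kf.card ≤ If.card * Cf.card := by
    have himg : Kf.image (fun g => g * (y * g * y⁻¹)) ⊆ Cf := by
      intro e he
      rw [Finset.mem_image] at he
      obtain ⟨g, hg, rfl⟩ := he
      rw [hCmem]
      refine ⟨hKmul g hg _ (hyK g hg), ?_⟩
      calc y * (g * (y * g * y⁻¹)) * y⁻¹ = (y * g * y⁻¹) * (y * (y * g * y⁻¹) * y⁻¹) := by group
        _ = (y * g * y⁻¹) * g := by rw [conj_conj_of_sq y g hyy]
        _ = g * (y * g * y⁻¹) := hKc _ (hyK g hg) g hg
    have hfib : ∀ e ∈ Kf.image (fun g => g * (y * g * y⁻¹)),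
        (Kf.filter (fun g' => g' * (y * g' * y⁻¹) = e)).card ≤ If.card := by
      intro e he
      rw [Finset.mem_image] at he
      obtain ⟨g, hg, rfl⟩ := he
      apply Finset.card_le_card_of_injOn (fun g' => g⁻¹ * g')
      · intro g' hg'
        rw [Finset.mem_coe, Finset.mem_filter] at hg'
        obtain ⟨hg'K, hφ⟩ := hg'
        rw [Finset.mem_coe, hImem]
        refine ⟨hKmul _ (hKinv g hg) _ hg'K, ?_⟩
        have hc := hKc (y * g * y⁻¹) (hyK g hg) (g'⁻¹ * g) (hKmul _ (hKinv g' hg'K) _ hg)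
        calc y * (g⁻¹ * g') * y⁻¹ = (y * g * y⁻¹)⁻¹ * (g'⁻¹ * (g' * (y * g' * y⁻¹))) := by group
          _ = (y * g * y⁻¹)⁻¹ * (g'⁻¹ * (g * (y * g * y⁻¹))) := by rw [hφ]
          _ = (y * g * y⁻¹)⁻¹ * ((g'⁻¹ * g) * (y * g * y⁻¹)) := by group
          _ = (y * g * y⁻¹)⁻¹ * ((y * g * y⁻¹) * (g'⁻¹ * g)) := by rw [hc]
          _ = (g⁻¹ * g')⁻¹ := by group
      · intro u _ v _ h
        exact mul_left_cancel h
    have h1 := Finset.card_le_mul_card_image (f := fun g => g * (y * g * y⁻¹)) Kf If.card hfib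
    exact le_trans h1 (Nat.mul_le_mul_left _ (Finset.card_le_card himg))
  -- the prime is 2 or 3
  obtain ⟨i, hij, hci⟩ := (Nat.dvd_prime_pow hp).1 hCdvd
  have hi1 : 1 ≤ i := by
    by_contra h
    have : i = 0 := by omega
    rw [this, pow_zero] at hci
    omega
  have hple : p ≤ Cf.card := by
    rw [hci]
    calc p = p ^ 1 := (pow_one p).symm
      _ ≤ p ^ i := Nat.pow_le_pow_right hp.pos hi1
  have hp2 := hp.two_le
  have hp23 : p = 2 ∨ p = 3 := by omega
  rcases hp23 with rfl | rfl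
  · -- p = 2
    exfalso
    have hc2 : Cf.card = 2 := by
      have : i = 1 := by
        by_contra h
        have h2 : 2 ≤ i := by omega
        have : 2 ^ 2 ≤ 2 ^ i := Nat.pow_le_pow_right (by norm_num) h2
        omega
      rw [hci, this]
      norm_num
    have hIC : If ⊆ Cf := by
      intro d hd
      rw [hImem] at hd
      rw [hCmem]
      refine ⟨hd.1, ?_⟩
      have h2 := hKe d hd.1
      have : d⁻¹ = d := by
        rw [inv_eq_iff_eq_inv]
        exact (eq_inv_of_mul_eq_one_left (by rw [← pow_two]; exact h2))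
      rw [hd.2, this]
    have h1 : Kf.card ≤ 4 := by
      calc Kf.card ≤ If.card * Cf.card := hbound
        _ ≤ Cf.card * Cf.card := Nat.mul_le_mul_right _ (Finset.card_le_card hIC)
        _ = 4 := by rw [hc2]
    rw [hKfcard] at h1
    omega
  · -- p = 3
    have hodd : Fintype.card Ω % 2 = 1 := by
      have h3 : (3 ^ j) % 2 = 1 := by
        rw [Nat.pow_mod]
        norm_num
      omega
    -- x fixes a point other than a₃, a₄
    obtain ⟨ω₁, hω₁3, hω₁4, hxω₁⟩ : ∃ ω₁, ω₁ ≠ a₃ ∧ ω₁ ≠ a₄ ∧ x • ω₁ = ω₁ := by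
      have hpar := invol_fixed (Ω := Ω) x hxx
      obtain ⟨Fx, hFx⟩ : ∃ Fx : Finset Ω, Fx = Finset.univ.filter (fun ω : Ω => x • ω = ω) :=
        ⟨_, rfl⟩
      rw [← hFx] at hpar
      have h3 : a₃ ∈ Fx := by rw [hFx, Finset.mem_filter]; exact ⟨Finset.mem_univ _, hx3⟩
      have h4' : a₄ ∈ Fx := by rw [hFx, Finset.mem_filter]; exact ⟨Finset.mem_univ _, hx4⟩
      have hc : ((Fx.erase a₃).erase a₄).card = Fx.card - 2 := by
        rw [Finset.card_erase_of_mem (Finset.mem_erase.2 ⟨Ne.symm h34, h4'⟩),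
          Finset.card_erase_of_mem h3]
        omega
      have h2 : 2 ≤ Fx.card := by
        have : ({a₃, a₄} : Finset Ω) ⊆ Fx := by
          intro ω hω
          rw [Finset.mem_insert, Finset.mem_singleton] at hω
          rcases hω with rfl | rfl
          · exact h3
          · exact h4'
        have := Finset.card_le_card this
        rw [Finset.card_pair h34] at this
        exact this
      have hodd' : Fx.card % 2 = 1 := by
        unfold Nat.ModEq at hpar
        omega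
      obtain ⟨ω₁, hω₁⟩ : ((Fx.erase a₃).erase a₄).Nonempty := Finset.card_pos.1 (by omega)
      rw [Finset.mem_erase, Finset.mem_erase, hFx, Finset.mem_filter] at hω₁
      exact ⟨ω₁, hω₁.2.1, hω₁.1, hω₁.2.2.2⟩
    -- x inverts the kernel
    have hxK : ∀ g ∈ Kf, x * g * x⁻¹ ∈ Kf := hconj x (Or.inl ⟨hx3, hx4⟩)
    have hxinv : ∀ g ∈ Kf, x * g * x⁻¹ = g⁻¹ := by
      intro g hg
      have heK : g * (x * g * x⁻¹) ∈ Kf := hKmul g hg _ (hxK g hg)
      have hex : x * (g * (x * g * x⁻¹)) * x⁻¹ = g * (x * g * x⁻¹) := by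
        calc x * (g * (x * g * x⁻¹)) * x⁻¹ = (x * g * x⁻¹) * (x * (x * g * x⁻¹) * x⁻¹) := by
              group
          _ = (x * g * x⁻¹) * g := by rw [conj_conj_of_sq x g hxx]
          _ = g * (x * g * x⁻¹) := hKc _ (hxK g hg) g hg
      have hcomm : x * (g * (x * g * x⁻¹)) = (g * (x * g * x⁻¹)) * x := by
        rw [mul_inv_eq_iff_eq_mul] at hex
        exact hex
      have hfixe : x • ((g * (x * g * x⁻¹)) • ω₁) = (g * (x * g * x⁻¹)) • ω₁ := by
        rw [← mul_smul, hcomm, mul_smul, hxω₁]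
      obtain ⟨e3, e4, -⟩ := (hKf _).1 heK
      have he1 : g * (x * g * x⁻¹) = 1 := by
        apply hsemi _ heK ω₁ hω₁3 hω₁4
        by_contra hne
        apply hx_ne
        refine hsh x a₃ a₄ ω₁ ((g * (x * g * x⁻¹)) • ω₁) (nodup4 h34 (Ne.symm hω₁3) ?_
          (Ne.symm hω₁4) ?_ (Ne.symm hne)) hx3 hx4 hxω₁ hfixe
        · intro h
          rw [← e3] at h
          exact hω₁3 (MulAction.injective _ h).symm
        · intro h
          rw [← e4] at h
          exact hω₁4 (MulAction.injective _ h).symm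
      exact eq_inv_of_mul_eq_one_right he1
    -- the product xy fixes a point
    obtain ⟨ω₂, hzω₂⟩ : ∃ ω₂, (x * y) • ω₂ = ω₂ := by
      have hpar := invol_fixed (Ω := Ω) (x * y) hzz
      obtain ⟨ω₂, hω₂⟩ : (Finset.univ.filter (fun ω : Ω => (x * y) • ω = ω)).Nonempty := by
        apply Finset.card_pos.1
        unfold Nat.ModEq at hpar
        omega
      rw [Finset.mem_filter] at hω₂
      exact ⟨ω₂, hω₂.2⟩
    have hω₂3 : ω₂ ≠ a₃ := by
      rintro rfl
      rw [hz3] at hzω₂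
      exact h34 hzω₂.symm
    have hω₂4 : ω₂ ≠ a₄ := by
      rintro rfl
      rw [hz4] at hzω₂
      exact h34 hzω₂
    have hI3 : If.card ≤ 3 := by
      refine le_trans ?_ (hfix3 (x * y) hz_ne)
      apply Finset.card_le_card_of_injOn (fun g => g • ω₂)
      · intro d hd
        rw [Finset.mem_coe, hImem] at hd
        rw [Finset.mem_coe, Finset.mem_filter]
        refine ⟨Finset.mem_univ _, ?_⟩
        have h1 : (x * y) * d * (x * y)⁻¹ = d := by
          calc (x * y) * d * (x * y)⁻¹ = x * (y * d * y⁻¹) * x⁻¹ := by group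
            _ = x * d⁻¹ * x⁻¹ := by rw [hd.2]
            _ = d := by rw [hxinv _ (hKinv d hd.1), inv_inv]
        have h2 : (x * y) * d = d * (x * y) := by
          rw [mul_inv_eq_iff_eq_mul] at h1
          exact h1
        rw [← mul_smul, h2, mul_smul, hzω₂]
      · intro g hg g' hg' h
        rw [Finset.mem_coe, hImem] at hg hg'
        exact hinj ω₂ hω₂3 hω₂4 g hg.1 g' hg'.1 h
    have h9 : Kf.card ≤ 9 := by
      calc Kf.card ≤ If.card * Cf.card := hbound
        _ ≤ 3 * 3 := Nat.mul_le_mul hI3 hC3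
    rw [hKfcard] at h9
    have hj2 : j ≤ 2 := by
      by_contra h
      have h3 : 3 ≤ j := by omega
      have : 3 ^ 3 ≤ 3 ^ j := Nat.pow_le_pow_right (by norm_num) h3
      omega
    interval_cases j <;> omega

end

section
variable {G Ω : Type*} [Group G] [MulAction G Ω]

/-- The complement of a point, as a sub-action of its stabiliser. -/
def ptCompl (a : Ω) : SubMulAction ↥(MulAction.stabilizer G a) Ω where
  carrier := {ω | ω ≠ a}
  smul_mem' := by
    rintro ⟨h, hh⟩ ω h1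
    have ha : h • a = a := hh
    intro e
    apply h1
    have e' : h • ω = h • a := by rw [ha]; exact e
    exact MulAction.injective h e'

theorem mem_ptCompl (a ω : Ω) : ω ∈ ptCompl (G := G) a ↔ ω ≠ a := Iff.rfl

theorem nodup5_of {a : Ω} {x y z w : ↥(ptCompl (G := G) a)} (h : [x, y, z, w].Nodup) :
    [a, x.1, y.1, z.1, w.1].Nodup := by
  have h1 : ([x, y, z, w].map Subtype.val).Nodup := h.map Subtype.val_injective
  rw [List.nodup_cons]
  refine ⟨?_, h1⟩
  simp only [List.mem_cons, List.not_mem_nil, or_false, not_or]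
  exact ⟨Ne.symm x.2, Ne.symm y.2, Ne.symm z.2, Ne.symm w.2⟩

theorem sharp5_degree [Finite G] [Fintype Ω] [DecidableEq Ω]
    (h5 : ∀ a b c d e a' b' c' d' e' : Ω, [a, b, c, d, e].Nodup → [a', b', c', d', e'].Nodup →
      ∃ g : G, g • a = a' ∧ g • b = b' ∧ g • c = c' ∧ g • d = d' ∧ g • e = e')
    (hsh : ∀ (g : G) (a b c d e : Ω), [a, b, c, d, e].Nodup → g • a = a → g • b = b →
      g • c = c → g • d = d → g • e = e → g = 1)
    (hn : 8 ≤ Fintype.card Ω) : Fintype.card Ω = 12 := by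
  classical
  obtain ⟨a₀⟩ : Nonempty Ω := Fintype.card_pos_iff.1 (by omega)
  have hcard' : Fintype.card ↥(ptCompl (G := G) a₀) = Fintype.card Ω - 1 := by
    rw [Fintype.card_of_subtype (Finset.univ \ {a₀}) (fun ω => by
      rw [mem_ptCompl]; simp)]
    rw [Finset.card_univ_sdiff, Finset.card_singleton]
  have key := sharp4_degree (G := ↥(MulAction.stabilizer G a₀)) (Ω := ↥(ptCompl (G := G) a₀))
    (by
      intro a b c d a' b' c' d' hnd hnd'
      obtain ⟨g, hg0, hga, hgb, hgc, hgd⟩ := h5 a₀ a.1 b.1 c.1 d.1 a₀ a'.1 b'.1 c'.1 d'.1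
        (nodup5_of hnd) (nodup5_of hnd')
      exact ⟨⟨g, hg0⟩, Subtype.ext hga, Subtype.ext hgb, Subtype.ext hgc, Subtype.ext hgd⟩)
    (by
      intro g a b c d hnd hga hgb hgc hgd
      apply Subtype.ext
      have h0 : g.1 • a₀ = a₀ := g.2
      exact hsh g.1 a₀ a.1 b.1 c.1 d.1 (nodup5_of hnd) h0
        (congrArg Subtype.val hga) (congrArg Subtype.val hgb) (congrArg Subtype.val hgc)
        (congrArg Subtype.val hgd))
    (by rw [hcard']; omega)
  rw [hcard'] at key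
  omega

end

end Cfsg.Agent.Lib.Helper1
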