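import Mathlib
import Cfsg.Agent.Lib.Helper1.Sharp4
import Cfsg.Agent.Lib.Helper1.Sharp

/-!
Degrees of sharply `k`-transitive finite group actions for `k ≥ 6` (helper1).
-/

namespace Cfsg.Agent.Lib.Helper1

open Cfsg

section
variable {G Ω : Type*} [Group G] [MulAction G Ω]

/-- Extending a tuple of points different from `a` by `a`. -/
def extEmb (a : Ω) {k : ℕ} (x : Fin k ↪ ↥(ptCompl (G := G) a)) : Fin (k + 1) ↪ Ω :=
  ⟨Fin.cons a (fun i => (x i).1), by
    rw [Fin.cons_injective_iff]
    refine ⟨?_, Subtype.val_injective.comp x.injective⟩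
    rintro ⟨i, hi⟩
    exact (x i).2 hi⟩

theorem extEmb_zero (a : Ω) {k : ℕ} (x : Fin k ↪ ↥(ptCompl (G := G) a)) :
    extEmb a x 0 = a := rfl

theorem extEmb_succ (a : Ω) {k : ℕ} (x : Fin k ↪ ↥(ptCompl (G := G) a)) (i : Fin k) :
    extEmb a x i.succ = (x i).1 := rfl

theorem card_ptCompl [Fintype Ω] [DecidableEq Ω] (a : Ω)
    [Fintype ↥(ptCompl (G := G) a)] :
    Fintype.card ↥(ptCompl (G := G) a) = Fintype.card Ω - 1 := by
  rw [Fintype.card_of_subtype (Finset.univ \ {a}) (fun ω => by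
    rw [mem_ptCompl]; simp)]
  rw [Finset.card_univ_sdiff, Finset.card_singleton]

/-- transitivity of the point stabiliser on tuples -/
theorem stab_trans (a : Ω) {k : ℕ}
    (ht : ∀ x y : Fin (k + 1) ↪ Ω, ∃ g : G, ∀ i, g • x i = y i)
    (x y : Fin k ↪ ↥(ptCompl (G := G) a)) :
    ∃ g : ↥(MulAction.stabilizer G a), ∀ i, g • x i = y i := by
  obtain ⟨g, hg⟩ := ht (extEmb a x) (extEmb a y)
  have h0 : g • a = a := hg 0
  refine ⟨⟨g, h0⟩, fun i => Subtype.ext ?_⟩
  exact hg i.succ

theorem stab_sharp (a : Ω) {k : ℕ}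
    (hs : ∀ (g : G) (x : Fin (k + 1) ↪ Ω), (∀ i, g • x i = x i) → g = 1)
    (g : ↥(MulAction.stabilizer G a)) (x : Fin k ↪ ↥(ptCompl (G := G) a))
    (hg : ∀ i, g • x i = x i) : g = 1 := by
  apply Subtype.ext
  apply hs g.1 (extEmb a x)
  intro i
  refine Fin.cases ?_ (fun j => ?_) i
  · exact g.2
  · exact congrArg Subtype.val (hg j)

theorem inj5' {α : Type*} (a b c d e : α) (h : [a, b, c, d, e].Nodup) :
    Function.Injective ![a, b, c, d, e] := by
  rw [← List.nodup_ofFn]
  exact h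

/-- No sharply 6-transitive action on 13 points. -/
theorem no_sharp6_13 [Finite G] [Fintype Ω] [DecidableEq Ω]
    (ht : ∀ x y : Fin 6 ↪ Ω, ∃ g : G, ∀ i, g • x i = y i)
    (hs : ∀ (g : G) (x : Fin 6 ↪ Ω), (∀ i, g • x i = x i) → g = 1)
    (hn : Fintype.card Ω = 13) : False := by
  classical
  haveI : Fact (Nat.Prime 13) := ⟨by norm_num⟩
  haveI : MulAction.IsMultiplyPretransitive G Ω 6 :=
    ⟨fun x y => by
      obtain ⟨g, hg⟩ := ht x y
      exact ⟨g, Function.Embedding.ext hg⟩⟩
  have hsharp : ∀ x : Fin 6 ↪ Ω, MulAction.stabilizer G x = ⊥ := by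
    intro x
    rw [eq_bot_iff]
    intro g hg
    rw [Subgroup.mem_bot]
    apply hs g x
    intro i
    rw [MulAction.mem_stabilizer_iff] at hg
    exact congrArg (fun f : Fin 6 ↪ Ω => f i) hg
  have hcard : Nat.card G = 13 * 95040 := by
    rw [card_of_sharp hsharp (by rw [hn]; norm_num), hn]
    rfl
  obtain ⟨x₀⟩ : Nonempty (Fin 6 ↪ Ω) :=
    Function.Embedding.nonempty_of_card_le (by rw [Fintype.card_fin, hn]; norm_num)
  have hfaith : ∀ g : G, (∀ ω : Ω, g • ω = ω) → g = 1 := fun g hg => hs g x₀ (fun i => hg _)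
  have hXn : (Set.univ : Set Ω).ncard = 13 := by
    rw [Set.ncard_univ, Nat.card_eq_fintype_card, hn]
  have hcent : ∀ σ : G, orderOf σ = 13 → ∀ c : G, Commute c σ → c ∈ Subgroup.zpowers σ := by
    intro σ hσ c hc
    have hσ1 : σ ≠ 1 := by
      rintro rfl
      rw [orderOf_one] at hσ
      norm_num at hσ
    obtain ⟨b, hσb⟩ : ∃ b : Ω, σ • b ≠ b := by
      by_contra hcon
      push Not at hcon
      exact hσ1 (hfaith σ hcon)
    have horb := orbit_zpowers_eq σ (by norm_num : Nat.Prime 13) hσ b hσb (Set.univ : Set Ω)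
      Set.finite_univ hXn (fun k => Set.mem_univ _)
    apply mem_zpowers_of_commute σ c hc b
    · intro g hg
      apply hfaith
      intro ω
      obtain ⟨k, rfl⟩ := horb ω (Set.mem_univ _)
      exact hg k
    · exact horb (c • b) (Set.mem_univ _)
  obtain ⟨P⟩ : Nonempty (Sylow 13 G) := inferInstance
  have hP : Nat.card (P : Subgroup G) = 13 := by
    rw [Sylow.card_eq_multiplicity, hcard]
    have h1 : (13 * 95040).factorization 13 = 1 := by
      rw [Nat.factorization_mul (by norm_num) (by norm_num), Finsupp.add_apply,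
        Nat.Prime.factorization_self (by norm_num),
        Nat.factorization_eq_zero_of_not_dvd (by norm_num)]
    rw [h1, pow_one]
  have harith : ∀ e, e ∣ 1 * (13 - 1) → e ∣ 95040 → (95040 / e) % 13 = 1 → e = 0 := by
    intro e he1 _ h
    have hle : e ≤ 12 := Nat.le_of_dvd (by norm_num) he1
    have key : ∀ e ≤ 12, e ∣ 12 → 95040 / e % 13 = 1 → e = 0 := by decide
    exact key e hle (by simpa using he1) h
  have hN := card_normalizer_of_arith (p := 13) (m := 95040) (q := 0) (c := 1) hcard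
    (by norm_num) P hP (card_centralizer_sylow P hP hcent) harith
  have hpos := Nat.card_pos (α := ↥(Subgroup.normalizer ((P : Subgroup G) : Set G)))
  omega

end

/-- Degrees of sharply `k`-transitive actions, `k ≥ 6`. -/
theorem sharpk_degree (k : ℕ) (hk : 6 ≤ k) :
    ∀ (G : Type*) (Ω : Type*) [Group G] [MulAction G Ω] [Finite G] [Fintype Ω] [DecidableEq Ω],
      (∀ x y : Fin k ↪ Ω, ∃ g : G, ∀ i, g • x i = y i) →
      (∀ (g : G) (x : Fin k ↪ Ω), (∀ i, g • x i = x i) → g = 1) →
      k ≤ Fintype.card Ω →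
      Fintype.card Ω = k ∨ Fintype.card Ω = k + 1 ∨ Fintype.card Ω = k + 2 := by
  induction k, hk using Nat.le_induction with
  | base =>
    intro G Ω _ _ _ _ _ ht hs hn
    classical
    by_cases hn8 : Fintype.card Ω ≤ 8
    · omega
    · exfalso
      obtain ⟨a₀⟩ : Nonempty Ω := Fintype.card_pos_iff.1 (by omega)
      have hc := card_ptCompl (G := G) a₀
      have h12 := sharp5_degree (G := ↥(MulAction.stabilizer G a₀))
        (Ω := ↥(ptCompl (G := G) a₀))
        (by
          intro a b c d e a' b' c' d' e' hnd hnd'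
          obtain ⟨g, hg⟩ := stab_trans a₀ ht
            (⟨![a, b, c, d, e], inj5' a b c d e hnd⟩ : Fin 5 ↪ ↥(ptCompl (G := G) a₀))
            (⟨![a', b', c', d', e'], inj5' a' b' c' d' e' hnd'⟩ : Fin 5 ↪ ↥(ptCompl (G := G) a₀))
          exact ⟨g, hg 0, hg 1, hg 2, hg 3, hg 4⟩)
        (by
          intro g a b c d e hnd ha hb hc' hd he
          apply stab_sharp a₀ hs g
            (⟨![a, b, c, d, e], inj5' a b c d e hnd⟩ : Fin 5 ↪ ↥(ptCompl (G := G) a₀))
          intro i
          fin_cases i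
          · exact ha
          · exact hb
          · exact hc'
          · exact hd
          · exact he)
        (by rw [hc]; omega)
      rw [hc] at h12
      exact no_sharp6_13 ht hs (by omega)
  | succ k hk ih =>
    intro G Ω _ _ _ _ _ ht hs hn
    classical
    obtain ⟨a₀⟩ : Nonempty Ω := Fintype.card_pos_iff.1 (by omega)
    have hc := card_ptCompl (G := G) a₀
    have h := ih ↥(MulAction.stabilizer G a₀) ↥(ptCompl (G := G) a₀)
      (fun x y => stab_trans a₀ ht x y) (fun g x hg => stab_sharp a₀ hs g x hg)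
      (by rw [hc]; omega)
    rw [hc] at h
    omega

end Cfsg.Agent.Lib.Helper1
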