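import Mathlib
import Cfsg.Agent.Lib.Helper1.Simple

/-!
Centraliser bound for an element of prime order with two regular orbits (helper1).
-/

namespace Cfsg.Agent.Lib.Helper1

open Subgroup

/-- The orbit of a moved point under an element of prime order `p` has `p` elements. -/
theorem orbit_ncard {G α : Type*} [Group G] [MulAction G α] (σ : G) {p : ℕ}
    (hp : p.Prime) (hσ : orderOf σ = p) (b : α) (hb : σ • b ≠ b) :
    (MulAction.orbit (Subgroup.zpowers σ) b).ncard = p := by
  have hdvd : (MulAction.orbit (Subgroup.zpowers σ) b).ncard ∣ p := by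
    rw [← MulAction.index_stabilizer, ← hσ, ← Nat.card_zpowers]
    exact Subgroup.index_dvd_card _
  have hne1 : (MulAction.orbit (Subgroup.zpowers σ) b).ncard ≠ 1 := by
    intro h1
    obtain ⟨y, hy⟩ := Set.ncard_eq_one.1 h1
    have hb1 : b ∈ MulAction.orbit (Subgroup.zpowers σ) b := MulAction.mem_orbit_self b
    have hb2 : σ • b ∈ MulAction.orbit (Subgroup.zpowers σ) b :=
      ⟨⟨σ, Subgroup.mem_zpowers σ⟩, rfl⟩
    rw [hy, Set.mem_singleton_iff] at hb1 hb2
    exact hb (hb2.trans hb1.symm)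
  rcases (Nat.dvd_prime hp).1 hdvd with h | h
  · exact absurd h hne1
  · exact h

/-- Centraliser bound: if `G` acts on a set `X` of size `2p` and only the identity fixes `p`
points of `X`, then the centraliser of a Sylow subgroup of order `p` has order dividing `2p`. -/
theorem card_centralizer_sylow_two {G α : Type*} [Group G] [Finite G] [MulAction G α] {p : ℕ}
    [hp : Fact p.Prime] (X : Set α) (hXfin : X.Finite) (hXn : X.ncard = 2 * p)
    (hinv : ∀ g : G, ∀ x ∈ X, g • x ∈ X)
    (hfaith : ∀ g : G, ∀ S : Set α, S ⊆ X → S.ncard = p → (∀ x ∈ S, g • x = x) → g = 1)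
    (P : Sylow p G) (hP : Nat.card (P : Subgroup G) = p) :
    Nat.card (centralizer ((P : Subgroup G) : Set G)) ∣ p * 2 := by
  classical
  have h1 : 1 < Nat.card (P : Subgroup G) := by rw [hP]; exact hp.out.one_lt
  rw [Subgroup.one_lt_card_iff_ne_bot] at h1
  obtain ⟨σ', hσ'⟩ := (Subgroup.ne_bot_iff_exists_ne_one (H := (P : Subgroup G))).1 h1
  obtain ⟨σ, hσdef⟩ : ∃ σ : G, σ = σ'.1 := ⟨_, rfl⟩
  have hσP : σ ∈ (P : Subgroup G) := by rw [hσdef]; exact σ'.2
  have ho : orderOf σ = p := by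
    have hd : orderOf σ' ∣ p := by
      have := orderOf_dvd_natCard σ'
      rwa [hP] at this
    rw [hσdef, Subgroup.orderOf_coe]
    rcases (Nat.dvd_prime hp.out).1 hd with h0 | h0
    · exact absurd (orderOf_eq_one_iff.1 h0) hσ'
    · exact h0
  have hzP : Subgroup.zpowers σ = (P : Subgroup G) :=
    Subgroup.eq_of_le_of_card_ge (Subgroup.zpowers_le.2 hσP) (by rw [hP, Nat.card_zpowers, ho])
  have hσ1 : σ ≠ 1 := by
    rintro rfl
    rw [orderOf_one] at ho
    exact hp.out.ne_one ho.symm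
  obtain ⟨b, hb, hσb⟩ : ∃ b ∈ X, σ • b ≠ b := by
    by_contra hcon
    push Not at hcon
    obtain ⟨S, hS, hSn⟩ := Set.exists_subset_card_eq (s := X) (n := p) (by rw [hXn]; omega)
    exact hσ1 (hfaith σ S hS hSn (fun x hx => hcon x (hS hx)))
  obtain ⟨Ob, hObdef⟩ : ∃ Ob : Set α, Ob = MulAction.orbit (Subgroup.zpowers σ) b := ⟨_, rfl⟩
  have hObn : Ob.ncard = p := by rw [hObdef]; exact orbit_ncard σ hp.out ho b hσb
  have hObX : Ob ⊆ X := by
    rw [hObdef]
    rintro _ ⟨⟨g, hg⟩, rfl⟩
    exact hinv g b hb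
  have hC : ∀ c ∈ centralizer ((P : Subgroup G) : Set G), Commute c σ :=
    fun c hc => ((mem_centralizer_iff.1 hc) σ hσP).symm
  have key1 : ∀ c ∈ centralizer ((P : Subgroup G) : Set G), c • b ∈ Ob →
      c ∈ (P : Subgroup G) := by
    intro c hc hcb
    rw [← hzP]
    apply mem_zpowers_of_commute σ c (hC c hc) b
    · intro g hg
      apply hfaith g Ob hObX hObn
      rw [hObdef]
      rintro _ ⟨⟨s, hs⟩, rfl⟩
      obtain ⟨k, rfl⟩ := Subgroup.mem_zpowers_iff.1 hs
      exact hg k
    · rw [hObdef] at hcb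
      obtain ⟨⟨s, hs⟩, hsb⟩ := hcb
      obtain ⟨k, rfl⟩ := Subgroup.mem_zpowers_iff.1 hs
      exact ⟨k, hsb.symm⟩
  have key2 : ∀ c1 ∈ centralizer ((P : Subgroup G) : Set G),
      ∀ c2 ∈ centralizer ((P : Subgroup G) : Set G), c1 • b ∉ Ob → c2 • b ∉ Ob →
      (c1⁻¹ * c2) • b ∈ Ob := by
    intro c1 hc1 c2 hc2 h1 h2
    have hcomm1 := hC c1 hc1
    have hmove : σ • (c1 • b) ≠ c1 • b := by
      intro h
      apply hσb
      rw [← mul_smul, ← hcomm1.eq, mul_smul] at h
      exact MulAction.injective c1 h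
    obtain ⟨Y, hYdef⟩ : ∃ Y : Set α, Y = MulAction.orbit (Subgroup.zpowers σ) (c1 • b) :=
      ⟨_, rfl⟩
    have hYn : Y.ncard = p := by rw [hYdef]; exact orbit_ncard σ hp.out ho (c1 • b) hmove
    have hYX : Y ⊆ X := by
      rw [hYdef]
      rintro _ ⟨⟨g, hg⟩, rfl⟩
      exact hinv g _ (hinv c1 b hb)
    have hdisj : Disjoint Ob Y := by
      rw [Set.disjoint_left]
      intro x hx hy
      apply h1
      rw [hObdef] at hx ⊢
      rw [hYdef] at hy
      have e1 := MulAction.orbit_eq_iff.2 hx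
      have e2 := MulAction.orbit_eq_iff.2 hy
      have h3 : c1 • b ∈ MulAction.orbit (Subgroup.zpowers σ) (c1 • b) :=
        MulAction.mem_orbit_self _
      rw [← e2, e1] at h3
      exact h3
    have hun : Ob ∪ Y = X := by
      apply Set.eq_of_subset_of_ncard_le (Set.union_subset hObX hYX) _ hXfin
      rw [Set.ncard_union_eq hdisj (hXfin.subset hObX) (hXfin.subset hYX), hObn, hYn, hXn]
      omega
    have hc2Y : c2 • b ∈ Y := by
      have h3 : c2 • b ∈ Ob ∪ Y := by rw [hun]; exact hinv c2 b hb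
      exact h3.resolve_left h2
    rw [hYdef] at hc2Y
    obtain ⟨⟨s, hs⟩, hsb⟩ := hc2Y
    obtain ⟨k, rfl⟩ := Subgroup.mem_zpowers_iff.1 hs
    have hsb' : σ ^ k • c1 • b = c2 • b := hsb
    rw [hObdef]
    refine ⟨⟨σ ^ k, Subgroup.zpow_mem_zpowers σ k⟩, ?_⟩
    show σ ^ k • b = (c1⁻¹ * c2) • b
    rw [mul_smul, ← hsb', ← mul_smul (σ ^ k), ← (hcomm1.zpow_right k).eq, mul_smul,
      inv_smul_smul]
  have hPC : (P : Subgroup G) ≤ centralizer ((P : Subgroup G) : Set G) := by
    intro x hx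
    rw [mem_centralizer_iff]
    intro y hy
    rw [← hzP] at hx
    have hy' : y ∈ Subgroup.zpowers σ := by rw [hzP]; exact hy
    obtain ⟨i, rfl⟩ := Subgroup.mem_zpowers_iff.1 hx
    obtain ⟨j, rfl⟩ := Subgroup.mem_zpowers_iff.1 hy'
    exact zpow_mul_comm σ j i
  have hp_dvd : p ∣ Nat.card (centralizer ((P : Subgroup G) : Set G)) := by
    have h3 := Subgroup.card_dvd_of_le hPC
    rwa [hP] at h3
  have hle : Nat.card (centralizer ((P : Subgroup G) : Set G)) ≤ 2 * p := by
    by_cases hall : ∀ c ∈ centralizer ((P : Subgroup G) : Set G), c • b ∈ Ob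
    · have h3 : centralizer ((P : Subgroup G) : Set G) ≤ (P : Subgroup G) :=
        fun c hc => key1 c hc (hall c hc)
      have h4 := Subgroup.card_le_of_le h3
      rw [hP] at h4
      omega
    · push Not at hall
      obtain ⟨c1, hc1, hc1b⟩ := hall
      have hsub : ((centralizer ((P : Subgroup G) : Set G) : Subgroup G) : Set G)
          ⊆ ((P : Subgroup G) : Set G) ∪ (fun x => c1 * x) '' ((P : Subgroup G) : Set G) := by
        intro c2 hc2
        by_cases hc2b : c2 • b ∈ Ob
        · exact Or.inl (key1 c2 hc2 hc2b)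
        · right
          exact ⟨c1⁻¹ * c2, key1 _ (Subgroup.mul_mem _ (Subgroup.inv_mem _ hc1) hc2)
            (key2 c1 hc1 c2 hc2 hc1b hc2b), by group⟩
      have h3 := Set.ncard_le_ncard hsub (Set.toFinite _)
      have h4 := Set.ncard_union_le ((P : Subgroup G) : Set G)
        ((fun x => c1 * x) '' ((P : Subgroup G) : Set G))
      have h5 := Set.ncard_image_le (f := fun x => c1 * x) (s := ((P : Subgroup G) : Set G))
        (Set.toFinite _)
      have h6 : ((P : Subgroup G) : Set G).ncard = p :=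
        (Nat.card_coe_set_eq _).symm.trans hP
      have h7 : ((centralizer ((P : Subgroup G) : Set G) : Subgroup G) : Set G).ncard
          = Nat.card (centralizer ((P : Subgroup G) : Set G)) :=
        (Nat.card_coe_set_eq _).symm
      omega
  obtain ⟨d, hd⟩ := hp_dvd
  rw [hd] at hle ⊢
  have hd2 : d ≤ 2 := by
    have := hp.out.pos
    nlinarith
  have hd0 : d ≠ 0 := by
    rintro rfl
    have := Nat.card_pos (α := centralizer ((P : Subgroup G) : Set G))
    omega
  rcases (show d = 1 ∨ d = 2 by omega) with rfl | rfl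
  · exact Nat.mul_dvd_mul_left p (by norm_num)
  · exact dvd_rfl

end Cfsg.Agent.Lib.Helper1
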