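import Mathlib
import Cfsg.Prelude.Def_SporadicCombinatorics

/-!
The ternary code of length 12: explicit parametrisation by six coordinates (helper1).
-/

namespace Cfsg.Agent.Lib.Helper1

open Cfsg

/-- index of an array point -/
def tgIdx (p : ArrayPt) : ℕ := 3 * p.1.val + p.2.val

/-- packed generator rows (base 3) -/
def tgTab : List ℕ := [439831, 411402, 278001, 109863, 429219, 521235]

/-- the six generators -/
def tgG (k : Fin 6) (p : ArrayPt) : ZMod 3 := ((tgTab.getD k.val 0 / 3 ^ tgIdx p % 3 : ℕ) : ZMod 3)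

/-- the word with given six information coordinates -/
def tgW (a b c d e f : ZMod 3) : ArrayPt → ZMod 3 := fun p =>
  a * tgG 0 p + b * tgG 1 p + c * tgG 2 p + d * tgG 3 p + e * tgG 4 p + f * tgG 5 p

/-- decidable form of the membership condition -/
def tgCond (x : ArrayPt → ZMod 3) : Prop :=
  ∃ s : ZMod 3, (∀ i : Fin 4, ∑ r : ZMod 3, x (i, r) = -s) ∧
    ∀ a b : ZMod 3, ∑ i : Fin 4, x (i, ((a • (![0, 1, 1, 1] : Fin 4 → ZMod 3) + b • (![1, 0, 1, 2] : Fin 4 → ZMod 3) : Fin 4 → ZMod 3) i)) = s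

instance : DecidablePred tgCond := fun x => by unfold tgCond; infer_instance

theorem tg_mem_iff (x : ArrayPt → ZMod 3) : x ∈ ternaryGolayCode ↔ tgCond x := by
  constructor
  · rintro ⟨s, h1, h2⟩
    exact ⟨s, h1, fun a b => h2 _ (Submodule.mem_span_pair.2 ⟨a, b, rfl⟩)⟩
  · rintro ⟨s, h1, h2⟩
    refine ⟨s, h1, fun t ht => ?_⟩
    obtain ⟨a, b, rfl⟩ := Submodule.mem_span_pair.1 ht
    exact h2 a b

set_option maxRecDepth 100000 in
theorem tgG_cond : ∀ k : Fin 6, tgCond (tgG k) := by decide +kernel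

theorem tgG_mem (k : Fin 6) : tgG k ∈ ternaryGolayCode := (tg_mem_iff _).2 (tgG_cond k)

theorem tgW_eq (a b c d e f : ZMod 3) : tgW a b c d e f
    = a • tgG 0 + b • tgG 1 + c • tgG 2 + d • tgG 3 + e • tgG 4 + f • tgG 5 := rfl

theorem tgW_mem (a b c d e f : ZMod 3) : tgW a b c d e f ∈ ternaryGolayCode := by
  rw [tgW_eq]
  exact add_mem (add_mem (add_mem (add_mem (add_mem
    (Submodule.smul_mem _ _ (tgG_mem 0)) (Submodule.smul_mem _ _ (tgG_mem 1)))
    (Submodule.smul_mem _ _ (tgG_mem 2))) (Submodule.smul_mem _ _ (tgG_mem 3)))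
    (Submodule.smul_mem _ _ (tgG_mem 4))) (Submodule.smul_mem _ _ (tgG_mem 5))

/-- a word supported off the information set -/
def tgExt (y0 y1 y2 y3 y4 y5 : ZMod 3) : ArrayPt → ZMod 3 := fun p =>
  if p = (1, 2) then y0 else if p = (2, 1) then y1 else if p = (2, 2) then y2
  else if p = (3, 0) then y3 else if p = (3, 1) then y4 else if p = (3, 2) then y5 else 0

set_option maxRecDepth 100000 in
theorem tg_key : ∀ y0 y1 y2 y3 y4 y5 : ZMod 3, tgCond (tgExt y0 y1 y2 y3 y4 y5) →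
    y0 = 0 ∧ y1 = 0 ∧ y2 = 0 ∧ y3 = 0 ∧ y4 = 0 ∧ y5 = 0 := by decide +kernel

theorem tg_pts : ∀ p : ArrayPt, p = (0, 0) ∨ p = (0, 1) ∨ p = (0, 2) ∨ p = (1, 0) ∨ p = (1, 1)
    ∨ p = (2, 0) ∨ p = (1, 2) ∨ p = (2, 1) ∨ p = (2, 2) ∨ p = (3, 0) ∨ p = (3, 1) ∨ p = (3, 2) := by
  decide

theorem tg_zero_of_info (x : ArrayPt → ZMod 3) (hx : x ∈ ternaryGolayCode)
    (h0 : x (0, 0) = 0) (h1 : x (0, 1) = 0) (h2 : x (0, 2) = 0) (h3 : x (1, 0) = 0)
    (h4 : x (1, 1) = 0) (h5 : x (2, 0) = 0) : x = 0 := by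
  have hx' : x = tgExt (x (1, 2)) (x (2, 1)) (x (2, 2)) (x (3, 0)) (x (3, 1)) (x (3, 2)) := by
    funext p
    rcases tg_pts p with h | h | h | h | h | h | h | h | h | h | h | h <;> subst h
    · exact h0
    · exact h1
    · exact h2
    · exact h3
    · exact h4
    · exact h5
    all_goals rfl
  have hk := tg_key _ _ _ _ _ _ ((tg_mem_iff _).1 (hx' ▸ hx))
  obtain ⟨k0, k1, k2, k3, k4, k5⟩ := hk
  rw [hx', k0, k1, k2, k3, k4, k5]
  funext p
  simp [tgExt]

set_option maxRecDepth 100000 in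
theorem tgW_info : ∀ a b c d e f : ZMod 3, tgW a b c d e f (0, 0) = a ∧ tgW a b c d e f (0, 1) = b
    ∧ tgW a b c d e f (0, 2) = c ∧ tgW a b c d e f (1, 0) = d ∧ tgW a b c d e f (1, 1) = e
    ∧ tgW a b c d e f (2, 0) = f := by decide +kernel

theorem tg_eq_W (x : ArrayPt → ZMod 3) (hx : x ∈ ternaryGolayCode) :
    x = tgW (x (0, 0)) (x (0, 1)) (x (0, 2)) (x (1, 0)) (x (1, 1)) (x (2, 0)) := by
  obtain ⟨i0, i1, i2, i3, i4, i5⟩ :=
    tgW_info (x (0, 0)) (x (0, 1)) (x (0, 2)) (x (1, 0)) (x (1, 1)) (x (2, 0))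
  have hy := sub_mem hx (tgW_mem (x (0, 0)) (x (0, 1)) (x (0, 2)) (x (1, 0)) (x (1, 1)) (x (2, 0)))
  have h := tg_zero_of_info _ hy (by rw [Pi.sub_apply, i0, sub_self])
    (by rw [Pi.sub_apply, i1, sub_self]) (by rw [Pi.sub_apply, i2, sub_self])
    (by rw [Pi.sub_apply, i3, sub_self]) (by rw [Pi.sub_apply, i4, sub_self])
    (by rw [Pi.sub_apply, i5, sub_self])
  exact sub_eq_zero.1 h

/-- parameter type -/
abbrev TgT : Type := ZMod 3 × ZMod 3 × ZMod 3 × ZMod 3 × ZMod 3 × ZMod 3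

/-- parametrisation -/
def tgW' (t : TgT) : ArrayPt → ZMod 3 := tgW t.1 t.2.1 t.2.2.1 t.2.2.2.1 t.2.2.2.2.1 t.2.2.2.2.2

theorem tgW'_inj : Function.Injective tgW' := by
  rintro ⟨a, b, c, d, e, f⟩ ⟨a', b', c', d', e', f'⟩ h
  obtain ⟨i0, i1, i2, i3, i4, i5⟩ := tgW_info a b c d e f
  obtain ⟨j0, j1, j2, j3, j4, j5⟩ := tgW_info a' b' c' d' e' f'
  have h' : tgW a b c d e f = tgW a' b' c' d' e' f' := h
  rw [h'] at i0 i1 i2 i3 i4 i5
  rw [← i0, ← i1, ← i2, ← i3, ← i4, ← i5, j0, j1, j2, j3, j4, j5]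

theorem tg_range : (ternaryGolayCode : Set (ArrayPt → ZMod 3)) = Set.range tgW' := by
  ext x
  constructor
  · intro hx
    exact ⟨(x (0, 0), x (0, 1), x (0, 2), x (1, 0), x (1, 1), x (2, 0)), (tg_eq_W x hx).symm⟩
  · rintro ⟨t, rfl⟩
    exact tgW_mem _ _ _ _ _ _

theorem tg_card : Nat.card ↥ternaryGolayCode = 729 := by
  have h : Nat.card ↥ternaryGolayCode = (ternaryGolayCode : Set (ArrayPt → ZMod 3)).ncard :=
    Nat.card_coe_set_eq _
  rw [h, tg_range, ← Set.image_univ, Set.ncard_image_of_injective _ tgW'_inj, Set.ncard_univ,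
    Nat.card_eq_fintype_card]
  simp [Fintype.card_prod, ZMod.card]

set_option maxRecDepth 100000 in
theorem tg_wts : ∀ t : TgT, (ternarySupport (tgW' t)).card = 0 ∨ (ternarySupport (tgW' t)).card = 6
    ∨ (ternarySupport (tgW' t)).card = 9 ∨ (ternarySupport (tgW' t)).card = 12 := by decide +kernel

set_option maxRecDepth 100000 in
theorem tg_cnt6 : (Finset.univ.filter (fun t : TgT => (ternarySupport (tgW' t)).card = 6)).card
    = 264 := by decide +kernel

set_option maxRecDepth 100000 in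
theorem tg_cnt9 : (Finset.univ.filter (fun t : TgT => (ternarySupport (tgW' t)).card = 9)).card
    = 440 := by decide +kernel

set_option maxRecDepth 100000 in
theorem tg_cnt12 : (Finset.univ.filter (fun t : TgT => (ternarySupport (tgW' t)).card = 12)).card
    = 24 := by decide +kernel

theorem tg_count (n k : ℕ)
    (h : (Finset.univ.filter (fun t : TgT => (ternarySupport (tgW' t)).card = n)).card = k) :
    {x : ArrayPt → ZMod 3 | x ∈ ternaryGolayCode ∧ (ternarySupport x).card = n}.ncard = k := by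
  have hset : {x : ArrayPt → ZMod 3 | x ∈ ternaryGolayCode ∧ (ternarySupport x).card = n}
      = tgW' '' ↑(Finset.univ.filter (fun t : TgT => (ternarySupport (tgW' t)).card = n)) := by
    ext x
    simp only [Set.mem_setOf_eq, Set.mem_image, Finset.coe_filter, Finset.mem_univ, true_and]
    constructor
    · rintro ⟨hx, hn⟩
      have hx' : x ∈ (ternaryGolayCode : Set (ArrayPt → ZMod 3)) := hx
      rw [tg_range] at hx'
      obtain ⟨t, rfl⟩ := hx'
      exact ⟨t, hn, rfl⟩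
    · rintro ⟨t, hn, rfl⟩
      exact ⟨tgW_mem _ _ _ _ _ _, hn⟩
  rw [hset, Set.ncard_image_of_injective _ tgW'_inj, Set.ncard_coe_finset, h]

theorem tg_support_zero (x : ArrayPt → ZMod 3) (h : (ternarySupport x).card = 0) : x = 0 := by
  funext p
  by_contra hp
  have : p ∈ ternarySupport x := Finset.mem_filter.2 ⟨Finset.mem_univ _, hp⟩
  rw [Finset.card_eq_zero] at h
  rw [h] at this
  exact absurd this (Finset.notMem_empty _)

set_option maxRecDepth 100000 in
theorem tgG_dot : ∀ k l : Fin 6, tgG k ⬝ᵥ tgG l = 0 := by decide +kernel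

theorem tg_dot (x y : ArrayPt → ZMod 3) (hx : x ∈ ternaryGolayCode) (hy : y ∈ ternaryGolayCode) :
    ∑ p, x p * y p = 0 := by
  change x ⬝ᵥ y = 0
  rw [tg_eq_W x hx, tg_eq_W y hy, tgW_eq, tgW_eq]
  simp only [add_dotProduct, dotProduct_add, smul_dotProduct, dotProduct_smul, tgG_dot, smul_zero,
    add_zero]

end Cfsg.Agent.Lib.Helper1
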