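import Mathlib
import Cfsg.Prelude.Def_SporadicCombinatorics
import Cfsg.Agent.Lib.Helper1.TernGolay

/-!
The ternary code of length 12: diagonal automorphisms and the Steiner system of hexads (helper1).
-/

namespace Cfsg.Agent.Lib.Helper1

open Cfsg

/-- the information positions -/
def tgInfo : Fin 6 → ArrayPt := ![(0, 0), (0, 1), (0, 2), (1, 0), (1, 1), (2, 0)]

set_option maxRecDepth 100000 in
theorem tgG_info : ∀ k l : Fin 6, tgG k (tgInfo l) = if k = l then 1 else 0 := by decide +kernel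

theorem tg_zero_of_info' (x : ArrayPt → ZMod 3) (hx : x ∈ ternaryGolayCode)
    (h : ∀ l, x (tgInfo l) = 0) : x = 0 :=
  tg_zero_of_info x hx (h 0) (h 1) (h 2) (h 3) (h 4) (h 5)

set_option maxRecDepth 100000 in
theorem tg_conn : ∀ p : ArrayPt, ∃ k : Fin 6, ∃ q : ArrayPt,
    tgG k p ≠ 0 ∧ tgG k q ≠ 0 ∧ tgG 0 q ≠ 0 := by decide +kernel

theorem tg_units3 : ∀ u : (ZMod 3)ˣ, u = 1 ∨ u = -1 := by decide

theorem tg_diag (c : ArrayPt → (ZMod 3)ˣ)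
    (h : ∀ x ∈ ternaryGolayCode, monomialMap 1 c x ∈ ternaryGolayCode) :
    (∀ p, c p = 1) ∨ (∀ p, c p = -1) := by
  have key : ∀ (k : Fin 6) (p : ArrayPt), tgG k p ≠ 0 → c p = c (tgInfo k) := by
    intro k p hp
    have hy : monomialMap 1 c (tgG k) - ((c (tgInfo k) : (ZMod 3)ˣ) : ZMod 3) • tgG k
        ∈ ternaryGolayCode :=
      sub_mem (h _ (tgG_mem k)) (Submodule.smul_mem _ _ (tgG_mem k))
    have h0 := tg_zero_of_info' _ hy (by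
      intro l
      show ((c (tgInfo l) : (ZMod 3)ˣ) : ZMod 3) * tgG k (tgInfo l)
        - ((c (tgInfo k) : (ZMod 3)ˣ) : ZMod 3) * tgG k (tgInfo l) = 0
      rw [tgG_info]
      by_cases hkl : k = l
      · subst hkl; simp
      · simp [hkl])
    have h1 : ((c p : (ZMod 3)ˣ) : ZMod 3) * tgG k p
        - ((c (tgInfo k) : (ZMod 3)ˣ) : ZMod 3) * tgG k p = 0 := congrFun h0 p
    have h2 : (((c p : (ZMod 3)ˣ) : ZMod 3) - ((c (tgInfo k) : (ZMod 3)ˣ) : ZMod 3)) * tgG k p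
        = 0 := by
      rw [sub_mul]; exact h1
    rcases mul_eq_zero.1 h2 with h3 | h3
    · exact Units.ext (sub_eq_zero.1 h3)
    · exact absurd h3 hp
  have hall : ∀ p, c p = c (tgInfo 0) := by
    intro p
    obtain ⟨k, q, h1, h2, h3⟩ := tg_conn p
    rw [key k p h1, ← key k q h2, key 0 q h3]
  rcases tg_units3 (c (tgInfo 0)) with h1 | h1
  · left; intro p; rw [hall p, h1]
  · right; intro p; rw [hall p, h1]

/-- masks of the 132 hexads with a word of that support -/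
def tgHexP : List (ℕ × TgT) := [(63, (1, 1, 1, 2, 2, 0)), (591, (1, 2, 2, 2, 0, 2)), (2191, (1, 2, 1, 1, 0, 0)), (1295, (1, 1, 2, 1, 0, 0)), (2135, (1, 1, 2, 0, 1, 1)), (1175, (1, 2, 2, 0, 2, 0)), (791, (1, 2, 1, 0, 1, 0)), (1127, (1, 2, 1, 0, 0, 1)), (679, (1, 1, 2, 0, 0, 0)), (2343, (1, 2, 2, 0, 0, 0)), (455, (1, 1, 1, 0, 0, 2)), (3591, (1, 1, 1, 0, 0, 0)), (347, (1, 2, 0, 1, 2, 1)), (667, (1, 1, 0, 1, 1, 0)), (3099, (1, 2, 0, 2, 1, 0)), (2155, (1, 1, 0, 1, 0, 2)), (427, (1, 2, 0, 2, 0, 0)), (1579, (1, 2, 0, 1, 0, 0)), (1227, (1, 1, 0, 2, 0, 1)), (2827, (1, 1, 0, 2, 0, 0)), (243, (1, 2, 0, 0, 1, 2)), (1331, (1, 1, 0, 0, 1, 0)), (2611, (1, 2, 0, 0, 2, 0)), (1619, (1, 1, 0, 0, 2, 2)), (2451, (1, 1, 0, 0, 2, 0)), (867, (1, 1, 0, 0, 0, 1)), (3235, (1, 1, 0, 0, 0, 0)), (2755, (1, 2, 0, 0, 0, 1)), (3395, (1, 2, 0, 0, 0, 2)), (1923, (1, 2, 0, 0, 0, 0)), (1117,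 (1, 0, 1, 1, 1, 2)), (413, (1, 0, 2, 2, 1, 0)), (2589, (1, 0, 2, 1, 2, 0)), (237, (1, 0, 2, 1, 0, 1)), (813, (1, 0, 1, 1, 0, 0)), (3117, (1, 0, 2, 2, 0, 0)), (2381, (1, 0, 1, 2, 0, 1)), (1677, (1, 0, 1, 2, 0, 0)), (373, (1, 0, 2, 0, 2, 2)), (2229, (1, 0, 1, 0, 1, 0)), (1589, (1, 0, 2, 0, 1, 0)), (725, (1, 0, 1, 0, 2, 1)), (3349, (1, 0, 1, 0, 2, 0)), (2661, (1, 0, 1, 0, 0, 2)), (1445, (1, 0, 1, 0, 0, 0)), (3269, (1, 0, 2, 0, 0, 2)), (1861, (1, 0, 2, 0, 0, 1)), (2949, (1, 0, 2, 0, 0, 0)), (633, (1, 0, 0, 2, 1, 1)), (1209, (1, 0, 0, 1, 2, 0)), (2361, (1, 0, 0, 1, 1, 0)), (2265, (1, 0, 0, 2, 2, 2)), (1817, (1, 0, 0, 2, 2, 0)), (1385, (1, 0, 0, 2, 0, 2)), (2729, (1, 0, 0, 2, 0, 0)), (969, (1, 0, 0, 1, 0, 2)), (3657, (1, 0, 0, 1, 0, 1)), (3465, (1, 0, 0, 1, 0, 0)), (3185, (1, 0, 0, 0, 2, 1)), (945, (1, 0, 0, 0, 2, 0)), (1489, (1, 0, 0, 0, 1, 1)), (2897, (1, 0,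 0, 0, 1, 2)), (3729, (1, 0, 0, 0, 1, 0)), (2529, (1, 0, 0, 0, 0, 1)), (1761, (1, 0, 0, 0, 0, 2)), (3873, (1, 0, 0, 0, 0, 0)), (222, (0, 1, 2, 1, 2, 2)), (2334, (0, 1, 1, 1, 1, 0)), (1566, (0, 1, 2, 2, 1, 0)), (366, (0, 1, 2, 2, 0, 1)), (1198, (0, 1, 1, 1, 0, 0)), (2606, (0, 1, 2, 1, 0, 0)), (3150, (0, 1, 1, 2, 0, 2)), (910, (0, 1, 1, 2, 0, 0)), (630, (0, 1, 1, 0, 1, 2)), (438, (0, 1, 2, 0, 1, 0)), (3126, (0, 1, 2, 0, 2, 0)), (1366, (0, 1, 1, 0, 2, 1)), (2710, (0, 1, 1, 0, 2, 0)), (2278, (0, 1, 1, 0, 0, 1)), (1830, (0, 1, 1, 0, 0, 0)), (1734, (0, 1, 2, 0, 0, 1)), (2886, (0, 1, 2, 0, 0, 2)), (3462, (0, 1, 2, 0, 0, 0)), (1146, (0, 1, 0, 1, 1, 1)), (2234, (0, 1, 0, 2, 1, 0)), (826, (0, 1, 0, 1, 2, 0)), (2650, (0, 1, 0, 2, 2, 1)), (1434, (0, 1, 0, 2, 2, 0)), (746, (0, 1, 0, 2, 0, 2)), (3370, (0, 1, 0, 2, 0, 0)), (2506, (0, 1, 0, 1, 0, 1)), (1866, (0, 1, 0, 1,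 0, 2)), (3722, (0, 1, 0, 1, 0, 0)), (2418, (0, 1, 0, 0, 2, 2)), (1714, (0, 1, 0, 0, 2, 0)), (978, (0, 1, 0, 0, 1, 1)), (3282, (0, 1, 0, 0, 1, 2)), (3858, (0, 1, 0, 0, 1, 0)), (1506, (0, 1, 0, 0, 0, 2)), (3682, (0, 1, 0, 0, 0, 1)), (2978, (0, 1, 0, 0, 0, 0)), (2172, (0, 0, 1, 1, 2, 1)), (700, (0, 0, 1, 1, 1, 0)), (1340, (0, 0, 1, 2, 1, 0)), (860, (0, 0, 1, 2, 2, 2)), (3228, (0, 0, 1, 2, 2, 0)), (1644, (0, 0, 1, 2, 0, 1)), (2476, (0, 0, 1, 2, 0, 0)), (1484, (0, 0, 1, 1, 0, 1)), (2764, (0, 0, 1, 1, 0, 2)), (3852, (0, 0, 1, 1, 0, 0)), (1268, (0, 0, 1, 0, 2, 2)), (2868, (0, 0, 1, 0, 2, 0)), (2516, (0, 0, 1, 0, 1, 2)), (3668, (0, 0, 1, 0, 1, 1)), (1940, (0, 0, 1, 0, 1, 0)), (996, (0, 0, 1, 0, 0, 1)), (3428, (0, 0, 1, 0, 0, 2)), (3748, (0, 0, 1, 0, 0, 0)), (504, (0, 0, 0, 1, 1, 2)), (3640, (0, 0, 0, 1, 1, 0)), (1752, (0, 0, 0, 1, 2, 1)), (3416, (0, 0, 0, 1, 2,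 2)), (2968, (0, 0, 0, 1, 2, 0)), (3304, (0, 0, 0, 1, 0, 2)), (2920, (0, 0, 0, 1, 0, 1)), (1960, (0, 0, 0, 1, 0, 0)), (2800, (0, 0, 0, 0, 1, 1)), (1904, (0, 0, 0, 0, 1, 2)), (3504, (0, 0, 0, 0, 1, 0)), (4032, (0, 0, 0, 0, 0, 1))]

/-- masks of the 132 hexads -/
def tgHexL : List ℕ := tgHexP.map Prod.fst

/-- the set with given mask -/
def tgSet (m : ℕ) : Finset ArrayPt := Finset.univ.filter (fun p => m.testBit (tgIdx p) = true)

set_option maxRecDepth 100000 in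
theorem tg_hex1 : ∀ t : TgT, (ternarySupport (tgW' t)).card = 6 →
    ∃ m ∈ tgHexL, ∀ p, tgW' t p ≠ 0 ↔ m.testBit (tgIdx p) = true := by decide +kernel

set_option maxRecDepth 100000 in
theorem tg_hex2 : ∀ e ∈ tgHexP, ∀ p, tgW' e.2 p ≠ 0 ↔ e.1.testBit (tgIdx p) = true := by
  decide +kernel

set_option maxRecDepth 100000 in
theorem tg_hex_card6 : ∀ m ∈ tgHexL, (tgSet m).card = 6 := by decide +kernel

set_option maxRecDepth 100000 in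
theorem tg_hex_count : ((tgHexL.map tgSet).toFinset).card = 132 := by decide +kernel

set_option maxRecDepth 100000 in
theorem tg_inter : ∀ m ∈ tgHexL, ∀ m' ∈ tgHexL, m ≠ m' → (tgSet m ∩ tgSet m').card ≤ 4 := by
  decide +kernel

theorem tg_exists (s : Finset ArrayPt) (hs : s.card = 5) : ∃ m ∈ tgHexL, s ⊆ tgSet m := by
  classical
  obtain ⟨H, hH⟩ : ∃ H : Finset (Finset ArrayPt), H = (tgHexL.map tgSet).toFinset := ⟨_, rfl⟩
  have hmem : ∀ b, b ∈ H ↔ ∃ m ∈ tgHexL, tgSet m = b := by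
    intro b
    rw [hH, List.mem_toFinset, List.mem_map]
  have hH6 : ∀ b ∈ H, b.card = 6 := by
    intro b hb
    obtain ⟨m, hm, rfl⟩ := (hmem b).1 hb
    exact tg_hex_card6 m hm
  have hdisj : (H : Set (Finset ArrayPt)).PairwiseDisjoint (fun b => Finset.powersetCard 5 b) := by
    intro b hb b' hb' hne
    rw [Function.onFun, Finset.disjoint_left]
    intro u hu hu'
    rw [Finset.mem_powersetCard] at hu hu'
    have h5 : 5 ≤ (b ∩ b').card := by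
      rw [← hu.2]; exact Finset.card_le_card (Finset.subset_inter hu.1 hu'.1)
    obtain ⟨m, hm, rfl⟩ := (hmem b).1 hb
    obtain ⟨m', hm', rfl⟩ := (hmem b').1 hb'
    have hmm : m ≠ m' := fun h => hne (by rw [h])
    have := tg_inter m hm m' hm' hmm
    omega
  have hcard : (H.biUnion (fun b => Finset.powersetCard 5 b)).card = 792 := by
    rw [Finset.card_biUnion hdisj, Finset.sum_congr rfl (fun b hb => by
      rw [Finset.card_powersetCard, hH6 b hb]), Finset.sum_const, hH, tg_hex_count]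
    decide
  have hsub : H.biUnion (fun b => Finset.powersetCard 5 b)
      ⊆ Finset.powersetCard 5 (Finset.univ : Finset ArrayPt) := by
    intro u hu
    rw [Finset.mem_biUnion] at hu
    obtain ⟨b, hb, hub⟩ := hu
    rw [Finset.mem_powersetCard] at hub ⊢
    exact ⟨Finset.subset_univ _, hub.2⟩
  have hc12 : (Finset.univ : Finset ArrayPt).card = 12 := by decide
  have heq := Finset.eq_of_subset_of_card_le hsub (by
    rw [Finset.card_powersetCard, hcard, hc12]; decide)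
  have hsmem : s ∈ H.biUnion (fun b => Finset.powersetCard 5 b) := by
    rw [heq, Finset.mem_powersetCard]; exact ⟨Finset.subset_univ _, hs⟩
  rw [Finset.mem_biUnion] at hsmem
  obtain ⟨b, hb, hsb⟩ := hsmem
  obtain ⟨m, hm, rfl⟩ := (hmem b).1 hb
  exact ⟨m, hm, (Finset.mem_powersetCard.1 hsb).1⟩

theorem tg_blocks : {h : Finset ArrayPt | ∃ x ∈ ternaryGolayCode, ternarySupport x = h ∧ h.card = 6}
    = {h | ∃ m ∈ tgHexL, h = tgSet m} := by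
  ext h
  constructor
  · rintro ⟨x, hx, rfl, h6⟩
    have hx' : x ∈ (ternaryGolayCode : Set (ArrayPt → ZMod 3)) := hx
    rw [tg_range] at hx'
    obtain ⟨t, rfl⟩ := hx'
    obtain ⟨m, hm, hmp⟩ := tg_hex1 t h6
    refine ⟨m, hm, ?_⟩
    ext p
    simp only [ternarySupport, tgSet, Finset.mem_filter, Finset.mem_univ, true_and]
    exact hmp p
  · rintro ⟨m, hm, rfl⟩
    obtain ⟨e, he, rfl⟩ := List.mem_map.1 hm
    have ht := tg_hex2 e he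
    have h1 : ternarySupport (tgW' e.2) = tgSet e.1 := by
      ext p
      simp only [ternarySupport, tgSet, Finset.mem_filter, Finset.mem_univ, true_and]
      exact ht p
    exact ⟨tgW' e.2, tgW_mem _ _ _ _ _ _, h1, tg_hex_card6 _ hm⟩

theorem tg_steiner_sys : IsSteinerSystem 5 6 {h : Finset ArrayPt | ∃ m ∈ tgHexL, h = tgSet m} := by
  refine ⟨?_, ?_⟩
  · rintro b ⟨m, hm, rfl⟩
    exact tg_hex_card6 m hm
  · intro s hs
    obtain ⟨m, hm, hsm⟩ := tg_exists s hs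
    refine ⟨tgSet m, ⟨⟨m, hm, rfl⟩, hsm⟩, ?_⟩
    rintro b ⟨⟨m', hm', rfl⟩, hsb⟩
    by_contra hne
    have hmm : m' ≠ m := fun h => hne (by rw [h])
    have h1 := tg_inter m' hm' m hm hmm
    have h2 : 5 ≤ (tgSet m' ∩ tgSet m).card := by
      rw [← hs]; exact Finset.card_le_card (Finset.subset_inter hsb hsm)
    omega

theorem tg_blocks_ncard : {h : Finset ArrayPt | ∃ m ∈ tgHexL, h = tgSet m}.ncard = 132 := by
  have hset : {h : Finset ArrayPt | ∃ m ∈ tgHexL, h = tgSet m} = ↑((tgHexL.map tgSet).toFinset) := by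
    ext h
    simp only [Set.mem_setOf_eq, Finset.mem_coe, List.mem_toFinset, List.mem_map]
    constructor
    · rintro ⟨m, hm, rfl⟩; exact ⟨m, hm, rfl⟩
    · rintro ⟨m, hm, rfl⟩; exact ⟨m, hm, rfl⟩
  rw [hset, Set.ncard_coe_finset, tg_hex_count]

end Cfsg.Agent.Lib.Helper1
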