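import Mathlib
import Cfsg.Agent.Lib.Helper1.Trio64

/-!
Table checks for the structure of the trio stabiliser (helper1), part one.
-/

set_option autoImplicit false

namespace Cfsg.Agent.Lib.Helper1.Trio64

open Cfsg Cfsg.Agent.Lib.Helper9

set_option maxHeartbeats 4000000 in
theorem L64_ok : listOK L64 = true := by decide +kernel

set_option maxHeartbeats 4000000 in
theorem L64_sub : L64.all memT = true := by decide +kernel

set_option maxHeartbeats 4000000 in
theorem L64_sq : L64.all (fun l => compL l l == idL) = true := by decide +kernel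

set_option maxHeartbeats 4000000 in
theorem L64_nodup : L64.Nodup := by decide +kernel

theorem repB_ok : ∀ s0 s1 : Fin 3, memT (repB s0 s1) = true := by decide +kernel

theorem B_mul : ∀ s0 s1 s2 : Fin 3, s0 ≠ s1 → s0 ≠ s2 → s1 ≠ s2 → ∀ t0 t1 : Fin 3, t0 ≠ t1 →
    compL (repB s0 s1) (repB t0 t1) = repB (apF s0 s1 s2 t0) (apF s0 s1 s2 t1) := by
  decide +kernel

set_option maxHeartbeats 40000000 in
theorem normB : ∀ s0 s1 : Fin 3, s0 ≠ s1 →
    L64.all (fun k => L64.any (fun k' => compL (repB s0 s1) k == compL k' (repB s0 s1))) = true := by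
  decide +kernel

set_option maxHeartbeats 4000000 in
theorem swaps_ok : T0l.all (fun a => T0l.all (fun b => a == b || swapL.any (fun l =>
    memT l && actM l 0 a == b && actM l 0 b == a &&
      T0l.all (fun c => c == a || c == b || actM l 0 c == c)))) = true := by decide +kernel

set_option maxHeartbeats 40000000 in
theorem gen_norm : ∀ s ∈ gensT,
    L64.all (fun k => L64.any (fun k' => compL (repL s) k == compL k' (repL s))) = true := by
  decide +kernel

end Cfsg.Agent.Lib.Helper1.Trio64
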