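import Mathlib
import Cfsg.Agent.Lib.Helper1.Trio64

/-!
Table checks for the structure of the trio stabiliser (helper1), part two.
-/

set_option autoImplicit false

namespace Cfsg.Agent.Lib.Helper1.Trio64

open Cfsg Cfsg.Agent.Lib.Helper9

set_option maxHeartbeats 40000000 in
theorem AB_comm : ∀ a b c d e f g h i : Bool, det9 a b c d e f g h i = true → ∀ s0 s1 : Fin 3, s0 ≠ s1 →
    compL (repA a b c d e f g h i) (repB s0 s1) = compL (repB s0 s1) (repA a b c d e f g h i) := by
  decide +kernel

set_option maxHeartbeats 40000000 in
theorem ker_check : ∀ a b c d e f g h i : Bool, det9 a b c d e f g h i = true → ∀ s0 s1 : Fin 3, s0 ≠ s1 →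
    L64.contains (compL (repA a b c d e f g h i) (repB s0 s1)) = true →
    (a && !b && !c && !d && e && !f && !g && !h && i && s0 == 0 && s1 == 1) = true := by
  decide +kernel

set_option maxHeartbeats 40000000 in
theorem repA_ok : ∀ a b c d e f g h i : Bool, det9 a b c d e f g h i = true →
    memT (repA a b c d e f g h i) = true := by decide +kernel

set_option maxHeartbeats 40000000 in
theorem gen_mul : ∀ s ∈ gensT, ∀ a b c d e f g h i : Bool, det9 a b c d e f g h i = true →
    compL (repL s) (repA a b c d e f g h i) = repL (tmul s [a, b, c, d, e, f, g, h, i]) := by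
  decide +kernel

set_option maxHeartbeats 40000000 in
theorem chainW_ok : chainOK chainW = true := by decide +kernel

set_option maxHeartbeats 40000000 in
theorem valid_mem : ∀ a b c d e f g h i : Bool, det9 a b c d e f g h i = true →
    chainW.contains [a, b, c, d, e, f, g, h, i] = true := by decide +kernel

theorem repL_idT : repL idT = idL := by decide +kernel

end Cfsg.Agent.Lib.Helper1.Trio64
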