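import Mathlib
import Cfsg.Prelude.Def_SporadicCombinatorics
import Cfsg.Agent.Lib.Helper1.Leech
import Cfsg.Agent.Lib.Helper1.Steiner
import Cfsg.Agent.S0354
import Cfsg.Agent.S0360
import Cfsg.Agent.S0363

/-!
Trios of octads (helper1).
-/

namespace Cfsg.Agent.Lib.Helper1

open Cfsg

theorem card_image_pair {α : Type*} [DecidableEq α] (D : Finset α) (ι : α → α)
    (hι : ∀ e ∈ D, ι e ∈ D) (hinv : ∀ e ∈ D, ι (ι e) = e) (hne : ∀ e ∈ D, ι e ≠ e) :
    (D.image (fun e => ({e, ι e} : Finset α))).card * 2 = D.card := by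
  have h := Finset.card_eq_sum_card_image (fun e => ({e, ι e} : Finset α)) D
  rw [h]
  symm
  apply Finset.sum_const_nat
  intro Y hY
  obtain ⟨e₀, he₀, rfl⟩ := Finset.mem_image.1 hY
  have h1 : D.filter (fun e => ({e, ι e} : Finset α) = {e₀, ι e₀}) = {e₀, ι e₀} := by
    ext e
    simp only [Finset.mem_filter, Finset.mem_insert, Finset.mem_singleton]
    constructor
    · rintro ⟨heD, heq⟩
      have h2 : e ∈ ({e₀, ι e₀} : Finset α) := by
        rw [← heq]
        simp
      simpa using h2
    · rintro (rfl | rfl)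
      · exact ⟨he₀, rfl⟩
      · exact ⟨hι _ he₀, by rw [hinv _ he₀, Finset.pair_comm]⟩
  rw [h1, Finset.card_pair (hne e₀ he₀).symm]

theorem card_golayPt_fin' : Fintype.card GolayPt = 24 := by decide

/-- The complement of the union of two disjoint octads is an octad. -/
theorem compl_octad {o o' : Finset GolayPt} (ho : o ∈ octads) (ho' : o' ∈ octads)
    (hd : Disjoint o o') : (o ∪ o')ᶜ ∈ octads := by
  classical
  have h1 : symmDiff o o' = o ∪ o' := hd.symmDiff_eq_sup
  have h2 : symmDiff (o ∪ o') Finset.univ = (o ∪ o')ᶜ := by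
    ext x
    simp only [Finset.mem_symmDiff, Finset.mem_univ, Finset.mem_compl]
    tauto
  have hS : (o ∪ o')ᶜ ∈ gSupp := by
    rw [← h2, ← h1]
    exact gSupp_symmDiff (gSupp_symmDiff ho.1 ho'.1) gSupp_univ
  refine ⟨hS, ?_⟩
  rw [Finset.card_compl, Finset.card_union_of_disjoint hd, ho.2, ho'.2, card_golayPt_fin']

theorem octad_ne_of_disjoint {o e : Finset GolayPt} (ho : o ∈ octads) (hd : Disjoint o e) :
    o ≠ e := by
  intro h
  obtain ⟨x, hx⟩ : o.Nonempty := Finset.card_pos.1 (by rw [ho.2]; norm_num)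
  exact Finset.disjoint_left.1 hd hx (h ▸ hx)

/-- Each octad lies in exactly 15 trios. -/
theorem trios_through (o : Finset GolayPt) (ho : o ∈ octads)
    (Tf : Finset (Finset (Finset GolayPt))) (hTf : ∀ T, T ∈ Tf ↔ T ∈ trios) :
    (Tf.filter (fun T => o ∈ T)).card = 15 := by
  classical
  obtain ⟨Df, hDf, hDcard⟩ :=
    exists_blockFinset {c : Finset GolayPt | c ∈ octads ∧ Disjoint o c}
  have h30 : Df.card = 30 := by
    rw [← hDcard]
    exact Cfsg.Agent.S0354.result card_golayPt_fin' Cfsg.Agent.S0363.result ho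
  have hιmem : ∀ e ∈ Df, (o ∪ e)ᶜ ∈ Df := by
    intro e he
    rw [hDf] at he ⊢
    refine ⟨compl_octad ho he.1 he.2, ?_⟩
    rw [Finset.disjoint_left]
    intro x hx hx'
    rw [Finset.mem_compl] at hx'
    exact hx' (Finset.mem_union_left _ hx)
  have hιι : ∀ e ∈ Df, (o ∪ (o ∪ e)ᶜ)ᶜ = e := by
    intro e he
    rw [hDf] at he
    ext x
    simp only [Finset.mem_compl, Finset.mem_union, not_or]
    constructor
    · rintro ⟨hxo, hx⟩
      by_contra hxe
      exact hx ⟨hxo, hxe⟩
    · intro hxe
      exact ⟨fun hxo => Finset.disjoint_left.1 he.2 hxo hxe, fun h => h.2 hxe⟩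
  have hdisjι : ∀ e : Finset GolayPt, Disjoint e (o ∪ e)ᶜ := by
    intro e
    rw [Finset.disjoint_left]
    intro x hx hx'
    rw [Finset.mem_compl] at hx'
    exact hx' (Finset.mem_union_right _ hx)
  have hιne : ∀ e ∈ Df, (o ∪ e)ᶜ ≠ e := by
    intro e he h
    rw [hDf] at he
    exact octad_ne_of_disjoint he.1 (hdisjι e) h.symm
  have hP := card_image_pair Df (fun e => (o ∪ e)ᶜ) hιmem hιι hιne
  have hset : Tf.filter (fun T => o ∈ T)
      = (Df.image (fun e => ({e, (o ∪ e)ᶜ} : Finset (Finset GolayPt)))).image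
        (fun Y => insert o Y) := by
    ext T
    simp only [Finset.mem_filter, Finset.mem_image, hTf]
    constructor
    · rintro ⟨⟨hT3, hToct, hTdisj⟩, hoT⟩
      have h2 : (T.erase o).card = 2 := by rw [Finset.card_erase_of_mem hoT, hT3]
      obtain ⟨e, f, hef, hTe⟩ := Finset.card_eq_two.1 h2
      have heT' : e ∈ T.erase o := by rw [hTe]; exact Finset.mem_insert_self e {f}
      have hfT' : f ∈ T.erase o := by
        rw [hTe]; exact Finset.mem_insert_of_mem (Finset.mem_singleton_self f)
      have heT : e ∈ T := Finset.mem_of_mem_erase heT'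
      have hfT : f ∈ T := Finset.mem_of_mem_erase hfT'
      have heo : e ≠ o := Finset.ne_of_mem_erase heT'
      have hfo : f ≠ o := Finset.ne_of_mem_erase hfT'
      have hoe : Disjoint o e := hTdisj o hoT e heT (Ne.symm heo)
      have hof : Disjoint o f := hTdisj o hoT f hfT (Ne.symm hfo)
      have hef' : Disjoint e f := hTdisj e heT f hfT hef
      have hfι : f = (o ∪ e)ᶜ := by
        apply Finset.eq_of_subset_of_card_le
        · intro x hx
          rw [Finset.mem_compl, Finset.mem_union]
          rintro (h | h)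
          · exact Finset.disjoint_left.1 hof h hx
          · exact Finset.disjoint_left.1 hef' h hx
        · rw [(compl_octad ho (hToct e heT) hoe).2, (hToct f hfT).2]
      refine ⟨{e, (o ∪ e)ᶜ}, ⟨e, (hDf e).2 ⟨hToct e heT, hoe⟩, rfl⟩, ?_⟩
      rw [← hfι, ← hTe, Finset.insert_erase hoT]
    · rintro ⟨Y, ⟨e, he, rfl⟩, rfl⟩
      have he' := (hDf e).1 he
      have hιe := (hDf _).1 (hιmem e he)
      have hoe : o ≠ e := octad_ne_of_disjoint ho he'.2
      have hoι : o ≠ (o ∪ e)ᶜ := octad_ne_of_disjoint ho hιe.2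
      have hd1 : Disjoint o e := he'.2
      have hd2 : Disjoint o (o ∪ e)ᶜ := hιe.2
      have hd3 : Disjoint e (o ∪ e)ᶜ := hdisjι e
      refine ⟨⟨?_, ?_, ?_⟩, Finset.mem_insert_self _ _⟩
      · rw [Finset.card_insert_of_notMem, Finset.card_pair (Ne.symm (hιne e he))]
        simp only [Finset.mem_insert, Finset.mem_singleton, not_or]
        exact ⟨hoe, hoι⟩
      · intro x hx
        simp only [Finset.mem_insert, Finset.mem_singleton] at hx
        rcases hx with rfl | rfl | rfl
        exacts [ho, he'.1, hιe.1]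
      · intro x hx y hy hxy
        simp only [Finset.mem_insert, Finset.mem_singleton] at hx hy
        rcases hx with rfl | rfl | rfl <;> rcases hy with rfl | rfl | rfl <;>
          first
            | exact absurd rfl hxy
            | exact hd1
            | exact hd2
            | exact hd3
            | exact hd1.symm
            | exact hd2.symm
            | exact hd3.symm
  rw [hset, Finset.card_image_of_injOn]
  · omega
  · intro Y1 hY1 Y2 hY2 h
    have hnot : ∀ Y ∈ (Df.image (fun e => ({e, (o ∪ e)ᶜ} : Finset (Finset GolayPt)))),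
        o ∉ Y := by
      intro Y hY
      obtain ⟨e, he, rfl⟩ := Finset.mem_image.1 hY
      have he' := (hDf e).1 he
      have hιe := (hDf _).1 (hιmem e he)
      simp only [Finset.mem_insert, Finset.mem_singleton, not_or]
      exact ⟨octad_ne_of_disjoint ho he'.2, octad_ne_of_disjoint ho hιe.2⟩
    have h1 := congrArg (fun Z => Finset.erase Z o) h
    simp only at h1
    rwa [Finset.erase_insert (hnot Y1 hY1), Finset.erase_insert (hnot Y2 hY2)] at h1

/-- There are 3795 trios. -/
theorem trios_ncard : trios.ncard = 3795 := by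
  classical
  obtain ⟨Bf, hBf, hBcard⟩ := exists_blockFinset octads
  obtain ⟨Tf, hTf, hTcard⟩ := exists_blockFinset trios
  have h759 : Bf.card = 759 := by rw [← hBcard]; exact Cfsg.Agent.S0360.result
  have hdc := Finset.sum_card_bipartiteAbove_eq_sum_card_bipartiteBelow (s := Bf) (t := Tf)
    (r := fun (o : Finset GolayPt) (T : Finset (Finset GolayPt)) => o ∈ T)
  have hL : ∀ o ∈ Bf, (Tf.bipartiteAbove
      (fun (o : Finset GolayPt) (T : Finset (Finset GolayPt)) => o ∈ T) o).card = 15 :=
    fun o ho => trios_through o ((hBf o).1 ho) Tf hTf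
  have hR : ∀ T ∈ Tf, (Bf.bipartiteBelow
      (fun (o : Finset GolayPt) (T : Finset (Finset GolayPt)) => o ∈ T) T).card = 3 := by
    intro T hT
    have hT' := (hTf T).1 hT
    have e : Bf.bipartiteBelow
        (fun (o : Finset GolayPt) (T : Finset (Finset GolayPt)) => o ∈ T) T = T := by
      ext o
      simp only [Finset.bipartiteBelow, Finset.mem_filter, hBf]
      exact ⟨fun h => h.2, fun h => ⟨hT'.2.1 o h, h⟩⟩
    rw [e]
    exact hT'.1
  rw [Finset.sum_congr rfl hL, Finset.sum_congr rfl hR, Finset.sum_const, Finset.sum_const,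
    smul_eq_mul, smul_eq_mul, h759] at hdc
  rw [hTcard]
  omega

end Cfsg.Agent.Lib.Helper1
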